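import Cfsg.Agent.H3.TenLin

/-!
Maximality of the tensor stabiliser `GL(U) ∘ GL(W)` in `SL(U ⊗ W)`.
-/

set_option autoImplicit false
set_option linter.unusedSectionVars false

namespace Cfsg.Agent.H3.TenSL

open Module Cfsg.Agent.H7 Cfsg.Agent.H3.TenLin

variable {F : Type*} [Field F] {V : Type*} [AddCommGroup V] [Module F V]
  {U : Type*} [AddCommGroup U] [Module F U] {W : Type*} [AddCommGroup W] [Module F W]
  {τ : U →ₗ[F] W →ₗ[F] V}

/-- Extraction of sandwich elements. -/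
theorem sandwich {R : Type*} [Ring R] [Algebra F R] [FiniteDimensional F U]
    (N : Dual F U →ₗ[F] U →ₗ[F] R) (hN : ∀ ψ u χ v, N ψ u * N χ v = ψ v • N χ u)
    (𝒳 : Submodule F R)
    (hδ : ∀ ψ u, ψ u = 0 → ∀ X ∈ 𝒳, (1 + N ψ u) * X * (1 - N ψ u) ∈ 𝒳)
    (hdim : 3 ≤ finrank F U ∨ ∃ c : F, c ≠ 0 ∧ c ≠ 1) {ψ : Dual F U} {u : U} (hψ : ψ u = 0)
    {X : R} (hX : X ∈ 𝒳) : N ψ u * X * N ψ u ∈ 𝒳 := by
  have hδ' : ∀ ψ u, ψ u = 0 → ∀ X ∈ 𝒳, N ψ u * X - X * N ψ u - N ψ u * X * N ψ u ∈ 𝒳 := by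
    intro ψ u h X hX
    have := 𝒳.sub_mem (hδ ψ u h X hX) hX
    convert this using 1
    noncomm_ring
  rcases hdim with h3 | ⟨c, hc0, hc1⟩
  · obtain ⟨v, hv, hvu⟩ := exists_mem_notMem_of_finrank_lt (U := ⊤ ⊓ LinearMap.ker ψ)
      (W := F ∙ u) (by
        have := finrank_le_finrank_inf_ker ⊤ ψ
        have := finrank_span_singleton_le (F := F) u
        rw [finrank_top] at *; omega)
    have hv : ψ v = 0 := hv.2
    obtain ⟨χ, h1, h2⟩ := exists_dual_one hvu
    have h2 : χ u = 0 := h2 u (Submodule.mem_span_singleton_self u)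
    have e1 : N χ u * N ψ u = 0 := by rw [hN, h2, zero_smul]
    have e2 : N ψ u * N χ u = 0 := by rw [hN, hψ, zero_smul]
    have e3 : N ψ v * N ψ u = 0 := by rw [hN, hψ, zero_smul]
    have e4 : N ψ v * N χ u = 0 := by rw [hN, hψ, zero_smul]
    have e5 : N ψ u * N ψ v = 0 := by rw [hN, hv, zero_smul]
    have e6 : N χ u * N ψ v = N ψ u := by rw [hN, h1, one_smul]
    have k1 := hδ' χ u h2 _ (hδ' ψ u hψ X hX)
    have k2 : N χ u * X * N ψ u + N ψ u * X * N χ u ∈ 𝒳 := by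
      convert 𝒳.neg_mem k1 using 1
      simp only [mul_sub, sub_mul, ← mul_assoc, e1, zero_mul]
      simp only [mul_assoc, e2, mul_zero]
      abel
    have k3 := hδ' ψ v hv _ k2
    convert 𝒳.neg_mem k3 using 1
    simp only [mul_add, add_mul, ← mul_assoc, e3, e4, zero_mul]
    simp only [mul_assoc, e5, e6, mul_zero]
    abel
  · have k1 := 𝒳.smul_mem c (hδ' ψ u hψ X hX)
    have k2 := hδ' (c • ψ) u (by simp [hψ]) X hX
    have k3 := 𝒳.smul_mem (c * (c - 1))⁻¹ (𝒳.sub_mem k1 k2)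
    convert k3 using 1
    have : c * (c - 1) ≠ 0 := mul_ne_zero hc0 (sub_ne_zero.2 hc1)
    rw [eq_inv_smul_iff₀ this]
    simp only [map_smul, LinearMap.smul_apply, smul_mul_assoc, mul_smul_comm]
    module

/-- rank one endomorphisms, bilinearly -/
noncomputable def rk1 (F U : Type*) [Field F] [AddCommGroup U] [Module F U] :
    Dual F U →ₗ[F] U →ₗ[F] End F U := LinearMap.smulRightₗ

@[simp] theorem rk1_apply (ψ : Dual F U) (u x : U) : rk1 F U ψ u x = ψ x • u := rfl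

theorem rk1_mul (ψ : Dual F U) (u : U) (χ : Dual F U) (v : U) :
    rk1 F U ψ u * rk1 F U χ v = ψ v • rk1 F U χ u := by
  ext x; simp [smul_smul, mul_comm]

/-- A subalgebra containing one family of rank one nilpotents contains all rank one maps. -/
theorem rank_one_mem [FiniteDimensional F U] (h2 : 2 ≤ finrank F U)
    (𝒳 : Subalgebra F (End F U))
    (hδ : ∀ ψ u, ψ u = 0 → ∀ X ∈ 𝒳, (1 + rk1 F U ψ u) * X * (1 - rk1 F U ψ u) ∈ 𝒳)
    (hdim : 3 ≤ finrank F U ∨ ∃ c : F, c ≠ 0 ∧ c ≠ 1) {X : End F U} (hX : X ∈ 𝒳)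
    (hns : ∀ c : F, X ≠ c • LinearMap.id) (ψ : Dual F U) (u : U) : rk1 F U ψ u ∈ 𝒳 := by
  have S : ∀ {ψ : Dual F U} {u : U}, ψ u = 0 → ∀ {X}, X ∈ 𝒳 → ψ (X u) ≠ 0 → rk1 F U ψ u ∈ 𝒳 := by
    intro ψ u hψ X hX hne
    have := 𝒳.smul_mem (sandwich (rk1 F U) rk1_mul 𝒳.toSubmodule hδ hdim hψ hX) (ψ (X u))⁻¹
    convert this using 1
    ext x
    simp [smul_smul]
    congr 1
    field_simp
  obtain ⟨u₀, hu₀⟩ : ∃ u₀, X u₀ ∉ F ∙ u₀ := by
    by_contra hc
    push Not at hc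
    obtain ⟨c, hc⟩ := scalar_of_forall_mem_span X hc
    exact hns c (LinearMap.ext hc)
  obtain ⟨ψ₀, h01, h02⟩ := exists_dual_one hu₀
  have h02 : ψ₀ u₀ = 0 := h02 u₀ (Submodule.mem_span_singleton_self _)
  have hu0 : u₀ ≠ 0 := by rintro rfl; simp at hu₀
  have hψ0 : ψ₀ ≠ 0 := by rintro rfl; simp at h01
  have m0 := S h02 hX (by rw [h01]; exact one_ne_zero)
  -- opposite elements
  have T : ∀ {ψ₀ : Dual F U} {u₀ : U}, rk1 F U ψ₀ u₀ ∈ 𝒳 → ∀ {ψ : Dual F U} {u : U}, ψ u = 0 →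
      ψ u₀ ≠ 0 → ψ₀ u ≠ 0 → rk1 F U ψ u ∈ 𝒳 := fun m ψ u h1 h2 h3 =>
    S h1 m (by simp [h2, h3])
  obtain ⟨u₁, hu₁⟩ := exists_apply_eq_one hψ0
  have hn : u₀ ∉ F ∙ u₁ := by
    intro hm
    obtain ⟨c, rfl⟩ := Submodule.mem_span_singleton.1 hm
    simp [hu₁] at h02
    simp [h02] at hu0
  obtain ⟨ψ₁, h11, h12⟩ := exists_dual_one hn
  have h12 : ψ₁ u₁ = 0 := h12 u₁ (Submodule.mem_span_singleton_self _)
  have m1 := T m0 h12 (by simp [h11]) (by simp [hu₁])
  -- all vectors with the functional `ψ₁`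
  have A : ∀ u, rk1 F U ψ₀ u ∈ 𝒳 := by
    have A1 : ∀ u, ψ₀ u ≠ 0 → rk1 F U ψ₀ u ∈ 𝒳 := by
      intro u hu
      have hn : u₀ ∉ F ∙ u := by
        intro hm
        obtain ⟨c, rfl⟩ := Submodule.mem_span_singleton.1 hm
        simp [hu] at h02
        simp [h02] at hu0
      obtain ⟨χ, k1, k2⟩ := exists_dual_one hn
      have k2 : χ u = 0 := k2 u (Submodule.mem_span_singleton_self _)
      have := 𝒳.mul_mem (T m0 k2 (by simp [k1]) hu) m0
      rwa [rk1_mul, k1, one_smul] at this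
    intro u
    by_cases hu : ψ₀ u = 0
    · have := 𝒳.sub_mem (A1 (u + u₁) (by simp [hu, hu₁])) (A1 u₁ (by simp [hu₁]))
      simpa using this
    · exact A1 u hu
  have B : ∀ ψ, rk1 F U ψ u₁ ∈ 𝒳 := by
    have B1 : ∀ ψ : Dual F U, ψ u₁ = 0 → ψ u₀ ≠ 0 → rk1 F U ψ u₁ ∈ 𝒳 := fun ψ k1 k2 =>
      T m0 k1 k2 (by simp [hu₁])
    have B2 : ∀ ψ : Dual F U, ψ u₁ = 0 → rk1 F U ψ u₁ ∈ 𝒳 := by
      intro ψ k1
      by_cases k2 : ψ u₀ = 0
      · have := 𝒳.sub_mem (B1 (ψ + ψ₁) (by simp [k1, h12]) (by simp [k2, h11])) m1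
        simpa using this
      · exact B1 ψ k1 k2
    intro ψ
    have := 𝒳.add_mem (B2 (ψ - ψ u₁ • ψ₀) (by simp [hu₁])) (𝒳.smul_mem (A u₁) (ψ u₁))
    simpa using this
  have := 𝒳.mul_mem (A u) (B ψ)
  rwa [rk1_mul, hu₁, one_smul] at this

/-- An element of the tensor stabiliser with a large fixed space is trivial on the first factor. -/
theorem exists_of_fix [FiniteDimensional F U] [FiniteDimensional F W] (h : IsTens τ)
    {t : V ≃ₗ[F] V} (ht : t ∈ TStab τ) {E : Type*} [AddCommGroup E] [Module F E]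
    [FiniteDimensional F E] (hE : finrank F E < finrank F W) (θ : V →ₗ[F] E)
    (hθ : ∀ v, θ v = 0 → t v = v) : ∃ b : W →ₗ[F] W, ∀ u w, t (τ u w) = τ u (b w) := by
  obtain ⟨a, b, hab⟩ := ht
  have h1 : ∀ u, a u ∈ F ∙ u := by
    intro u
    obtain ⟨w, hw, hw0⟩ := exists_ne_zero_of_finrank_pos (A := LinearMap.ker (θ ∘ₗ τ u)) (by
      have := LinearMap.finrank_range_add_finrank_ker (θ ∘ₗ τ u)
      have := Submodule.finrank_le (LinearMap.range (θ ∘ₗ τ u))
      omega)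
    have h3 := hab u w
    rw [hθ _ hw] at h3
    exact h.mem_span_of_eq (by simpa using hw0) h3.symm
  obtain ⟨c, hc⟩ := scalar_of_forall_mem_span (a : U →ₗ[F] U) h1
  exact ⟨c • (b : W →ₗ[F] W), fun u w => by
    rw [hab, show a u = c • u from hc u]; simp⟩

theorem exists_sl_map [FiniteDimensional F W] (h2 : 2 ≤ finrank F W) {w w' : W} (hw : w ≠ 0)
    (hw' : w' ≠ 0) {M : Subgroup (W ≃ₗ[F] W)}
    (hM : ∀ (φ : Dual F W) (v : W), φ v = 0 → Has M φ v) : ∃ t ∈ M, t w = w' := by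
  obtain ⟨t, ht, -, -, e⟩ := sl_step hM (W := ⊥) (x := w) (y := w') (by simpa using hw)
    (by simpa using hw') (by
      intro e
      have := finrank_span_singleton_le (F := F) w
      rw [bot_sup_eq] at e
      rw [e, finrank_top] at this
      omega)
  exact ⟨t, ht, e⟩

variable {M : Subgroup (V ≃ₗ[F] V)}

/-- The second factors of the elements `1 ⊗ b` of `M`. -/
noncomputable def snd (h : IsTens τ) (M : Subgroup (V ≃ₗ[F] V)) : Subgroup (W ≃ₗ[F] W) where
  carrier := {b | ∃ g ∈ M, ∀ u w, g (τ u w) = τ u (b w)}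
  one_mem' := ⟨1, M.one_mem, fun _ _ => rfl⟩
  mul_mem' := by
    rintro a b ⟨g, hg, e⟩ ⟨g', hg', e'⟩
    exact ⟨g * g', M.mul_mem hg hg', fun u w => by simp [e, e']⟩
  inv_mem' := by
    rintro a ⟨g, hg, e⟩
    refine ⟨g⁻¹, M.inv_mem hg, fun u w => g.injective ?_⟩
    rw [e]; simp

theorem exists_move [FiniteDimensional F W] (h : IsTens τ) (h2 : 2 ≤ finrank F W) (hM : AllRt h M)
    {w w' : W} (hw : w ≠ 0) (hw' : w' ≠ 0) :
    ∃ g ∈ M, ∃ b : W ≃ₗ[F] W, (∀ u y, g (τ u y) = τ u (b y)) ∧ b w = w' := by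
  obtain ⟨t, ⟨g, hg, e⟩, ht⟩ := exists_sl_map h2 hw hw' (M := snd h M) (fun φ v hφ => by
    obtain ⟨g, hg, e⟩ := hM φ v hφ
    exact ⟨LinearEquiv.transvection hφ, ⟨g, hg, fun u w => by
      rw [e]; change _ = τ u (w + φ w • v); simp⟩, fun _ => rfl⟩)
  exact ⟨g, hg, t, e, ht⟩

/-- If the stabiliser of `U ⊗ w` in `M` preserves the tensor structure then so does `M`. -/
theorem le_TStab [FiniteDimensional F U] [FiniteDimensional F W] [Nontrivial U] (h : IsTens τ)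
    (hlt : finrank F U < finrank F W) (hM : AllRt h M) {w₀ : W} (hw₀ : w₀ ≠ 0)
    (H0 : ∀ x ∈ M, (∀ u, x (τ u w₀) ∈ Bw τ w₀) → x ∈ TStab τ) : M ≤ TStab τ := by
  have hU : 0 < finrank F U := finrank_pos
  have H1 : ∀ x ∈ M, ∀ w w' : W, w ≠ 0 → w' ≠ 0 → (∀ u, x (τ u w) ∈ Bw τ w') → x ∈ TStab τ := by
    intro x hx w w' hw hw' hxw
    obtain ⟨g, hg, b, eg, hb⟩ := exists_move h (by omega) hM hw₀ hw
    obtain ⟨g', hg', b', eg', hb'⟩ := exists_move h (by omega) hM hw' hw₀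
    have h1 := H0 (g' * x * g) (M.mul_mem (M.mul_mem hg' hx) hg) (fun u => by
      obtain ⟨u', hu'⟩ := hxw u
      refine ⟨u', ?_⟩
      simp only [LinearEquiv.mul_apply, eg, hb, ← hu', LinearMap.flip_apply, eg', hb'])
    have h2 : g ∈ TStab τ := ⟨1, b, eg⟩
    have h3 : g' ∈ TStab τ := ⟨1, b', eg'⟩
    have := (TStab τ).mul_mem ((TStab τ).mul_mem ((TStab τ).inv_mem h3) h1) ((TStab τ).inv_mem h2)
    simpa [mul_assoc] using this
  have H2 : ∀ g ∈ M, g ∉ TStab τ → ∀ (φ : Dual F W) (y : W), φ ≠ 0 → y ≠ 0 → φ y = 0 →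
      ∃ g' ∈ M, g' ∉ TStab τ ∧ ∀ v, g (g' v) = g v + τ (h.ctr φ (g v)) y := by
    intro g hg hgT φ y hφ hy hφy
    obtain ⟨n, hn, en⟩ := hM φ y hφy
    refine ⟨g⁻¹ * n * g, M.mul_mem (M.mul_mem (M.inv_mem hg) hn) hg, fun ht => hgT ?_,
      fun v => by simp [en]⟩
    obtain ⟨b, hb⟩ := exists_of_fix h ht hlt (h.ctr φ ∘ₗ (g : V →ₗ[F] V)) (fun v hv => by
      have hv : h.ctr φ (g v) = 0 := hv
      simp [en, hv])
    obtain ⟨w, hw⟩ : ∃ w, b w - w ≠ 0 := by
      by_contra hc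
      push Not at hc
      obtain ⟨u₀, hu₀⟩ := exists_ne (0 : U)
      obtain ⟨z, hz⟩ := exists_apply_eq_one hφ
      have : ((g⁻¹ * n * g : V ≃ₗ[F] V) : V →ₗ[F] V) = LinearMap.id := h.ext fun u w => by
        rw [LinearEquiv.coe_coe, hb, sub_eq_zero.1 (hc w)]; rfl
      have := LinearMap.congr_fun this (g.symm (τ u₀ z))
      simp [en, hz] at this
      exact h.ne_zero hu₀ hy this
    refine H1 g hg _ y hw hy (fun u => ⟨h.ctr φ (g (τ u w)), ?_⟩)
    have := congrArg g (hb u w)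
    simp [en] at this
    simp [← this]
  by_contra hle
  obtain ⟨g₀, hg₀, hg₀T⟩ := SetLike.not_le_iff_exists.1 hle
  have key : ∀ k, k ≤ finrank F U → ∃ g ∈ M, g ∉ TStab τ ∧ ∃ w' : W, w' ≠ 0 ∧
      ∃ U' : Submodule F U, k ≤ finrank F U' ∧ ∀ u ∈ U', g (τ u w₀) ∈ Bw τ w' := by
    intro k
    induction k with
    | zero => exact fun _ => ⟨g₀, hg₀, hg₀T, w₀, hw₀, ⊥, by simp, by simp⟩
    | succ k ih =>
      intro hk
      obtain ⟨g, hg, hgT, w', hw', U', hU', hgU⟩ := ih (by omega)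
      by_cases hk' : k + 1 ≤ finrank F U'
      · exact ⟨g, hg, hgT, w', hw', U', hk', hgU⟩
      obtain ⟨u, -, hu⟩ := exists_mem_notMem_of_finrank_lt (U := ⊤) (W := U')
        (by rw [finrank_top]; omega)
      have hfin : k + 1 ≤ finrank F (U' ⊔ F ∙ u : Submodule F U) := by
        rw [Submodule.finrank_sup_span_singleton hu]; omega
      by_cases hk0 : k = 0
      · obtain ⟨φ, hφ, hφ0⟩ := exists_ne_zero_of_finrank_pos
          (A := LinearMap.ker (ctrL h (g (τ u w₀)))) (by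
            have := LinearMap.finrank_range_add_finrank_ker (ctrL h (g (τ u w₀)))
            have := Submodule.finrank_le (LinearMap.range (ctrL h (g (τ u w₀))))
            rw [Subspace.dual_finrank_eq] at *
            omega)
        have hφ : h.ctr φ (g (τ u w₀)) = 0 := hφ
        obtain ⟨y, hy, hy0⟩ := exists_ne_zero_of_finrank_pos (A := ⊤ ⊓ LinearMap.ker φ) (by
          have := finrank_le_finrank_inf_ker ⊤ φ; rw [finrank_top] at this; omega)
        obtain ⟨g', hg', hg'T, e⟩ := H2 g hg hgT φ y hφ0 hy0 hy.2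
        refine ⟨g', hg', hg'T, w₀, hw₀, F ∙ u, ?_, fun x hx => ?_⟩
        · rw [finrank_span_singleton (by rintro rfl; simp at hu)]; omega
        · obtain ⟨c, rfl⟩ := Submodule.mem_span_singleton.1 hx
          have : g' (τ u w₀) = τ u w₀ := g.injective (by simp [e, hφ])
          refine ⟨c • u, by simp [this]⟩
      · obtain ⟨ψ, hψ, -⟩ := exists_dual_one (W := (⊥ : Submodule F W)) (x := w')
          (by simpa using hw')
        let a : U →ₗ[F] U := h.ctr ψ ∘ₗ (g : V →ₗ[F] V) ∘ₗ τ.flip w₀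
        have ha : ∀ x ∈ U', g (τ x w₀) = τ (a x) w' := fun x hx => by
          obtain ⟨u', hu'⟩ := hgU x hx
          have : a x = u' := by
            change h.ctr ψ (g (τ x w₀)) = u'
            rw [← hu']; simp [hψ]
          rw [this]; exact hu'.symm
        let U₁ : Submodule F U := U'.map a
        have hU₁ : finrank F U₁ = finrank F U' := by
          have hinj : Function.Injective (a ∘ₗ U'.subtype) := by
            rw [injective_iff_map_eq_zero]
            intro x hx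
            have := ha x x.2
            rw [show a x = 0 from hx, map_zero, LinearMap.zero_apply,
              map_eq_zero_iff _ g.injective] at this
            exact Subtype.ext ((h.eq_zero this).resolve_right hw₀)
          rw [← LinearMap.finrank_range_of_inj hinj, LinearMap.range_comp, Submodule.range_subtype]
        let L : Dual F W →ₗ[F] (U ⧸ U₁) × F :=
          (U₁.mkQ ∘ₗ ctrL h (g (τ u w₀))).prod (Dual.eval F W w')
        obtain ⟨φ, hφ, hφ0⟩ := exists_ne_zero_of_finrank_pos (A := LinearMap.ker L) (by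
          have := LinearMap.finrank_range_add_finrank_ker L
          have := Submodule.finrank_le (LinearMap.range L)
          have := U₁.finrank_quotient_add_finrank
          rw [Subspace.dual_finrank_eq, finrank_prod, finrank_self] at *
          omega)
        have hφ1 : h.ctr φ (g (τ u w₀)) ∈ U₁ := by
          have := congrArg Prod.fst (LinearMap.mem_ker.1 hφ)
          simpa [L] using this
        have hφ2 : φ w' = 0 := congrArg Prod.snd (LinearMap.mem_ker.1 hφ)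
        obtain ⟨g', hg', hg'T, e⟩ := H2 g hg hgT φ w' hφ0 hw' hφ2
        refine ⟨g', hg', hg'T, w₀, hw₀, U' ⊔ F ∙ u, hfin, fun x hx => ?_⟩
        obtain ⟨y, hy, c, rfl⟩ := mem_sup_span_iff.1 hx
        obtain ⟨z, hz, ez⟩ := hφ1
        refine ⟨y + c • (u + z), g.injective ?_⟩
        simp [e, ha y hy, ha z hz, hφ2, ← ez]
  obtain ⟨g, hg, hgT, w', hw', U', hU', hgU⟩ := key _ le_rfl
  have : U' = ⊤ := Submodule.eq_top_of_finrank_eq (le_antisymm (Submodule.finrank_le _) hU')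
  exact hgT (H1 g hg w₀ w' hw₀ hw' (fun u => hgU u (this ▸ Submodule.mem_top)))

theorem tensor_max [FiniteDimensional F U] [FiniteDimensional F W] (h : IsTens τ)
    (h2 : 2 ≤ finrank F U) (hlt : finrank F U < finrank F W)
    (hex : 3 ≤ finrank F U ∨ ∃ c : F, c ≠ 0 ∧ c ≠ 1)
    (hT : ∀ g ∈ TStab τ, LinearEquiv.det g = 1 → g ∈ M) :
    M ≤ TStab τ ∨ ∀ g, LinearEquiv.det g = 1 → g ∈ M := by
  have : Nontrivial U := Module.nontrivial_of_finrank_pos (R := F) (by omega)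
  have : Nontrivial W := Module.nontrivial_of_finrank_pos (R := F) (by omega)
  have hM : AllRt h M := fun φ w hφ =>
    ⟨rt h hφ, hT _ (rt_mem h hφ) (det_rt h hφ), rt_apply h hφ⟩
  obtain ⟨w₀, hw₀⟩ := exists_ne (0 : W)
  have h3 : 3 ≤ finrank F W := by omega
  by_cases hQ : ∀ θ : V →ₗ[F] U, (∀ u, θ (τ u w₀) = 0) → HasQ τ M θ w₀ → ∃ ψ, θ = h.ctr ψ
  · exact Or.inl (le_TStab h hlt hM hw₀ (fun x hx hxw => parabolic h h3 hM hw₀ hQ hx hxw))
  right
  push Not at hQ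
  obtain ⟨θ, h0, hθ, hne⟩ := hQ
  obtain ⟨X, hX, hns⟩ := exists_mem_Lev h3 hM hw₀ h0 hθ hne
  refine mem_of_Lev (h3 := h3) (hM := hM) (fun ψ u => ?_)
  refine rank_one_mem h2 (Lev h h3 hM) (fun ψ u hψ X hX => ?_) hex hX hns ψ u
  have := conj_mem_Lev hX (hT (h.tcongr (LinearEquiv.transvection hψ) 1) (tcongr_mem h _ _) (by
    rw [h.det_tcongr, LinearEquiv.transvection.det_eq_one hψ]; simp)) (h.tcongr_apply _ _)
  convert this using 1
  ext x
  simp [symm_apply_of_tr (t := LinearEquiv.transvection hψ) (fun _ => rfl) hψ,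
    LinearMap.transvection.apply]

/-- `GL_{n₁} ∘ GL_{n₂}` is maximal in `SL` (sharp range). -/
theorem isMaximalIn_SL {ι : Type} [Fintype ι] [DecidableEq ι] [Fintype F] {n₁ n₂ : ℕ} (h1 : 2 ≤ n₁)
    (h12 : n₁ < n₂) (hex : ¬ (n₁ = 2 ∧ Fintype.card F = 2)) (e : ι ≃ Fin n₁ × Fin n₂)
    (P : Matrix.GeneralLinearGroup ι F) :
    Geo.IsMaximalIn (Geo.specialLinear ι F)
      (Geo.tensorProductSubgroup n₁ n₂ e P ⊓ Geo.specialLinear ι F) := by
  have hcard : 3 ≤ Fintype.card ι := by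
    rw [Fintype.card_congr e]; simp; nlinarith
  have hne := SL_not_le_tensorProductSubgroup hcard h1 (by omega : 2 ≤ n₂) e P
  obtain ⟨g, hg1, hg2⟩ := SetLike.not_le_iff_exists.1 hne
  refine isMaximalIn_of _ _ (fun g => LinearEquiv.det g = 1)
    (fun g => g ∈ TStab (tensOf e P) ∧ LinearEquiv.det g = 1) mem_SL_iff (fun g => by
      rw [Subgroup.mem_inf, mem_tensorProductSubgroup_iff', mem_SL_iff]) (fun g hg => hg.2)
    ⟨toLE g, (mem_SL_iff g).1 hg1, fun h => hg2 ((mem_tensorProductSubgroup_iff' e P g).2 h.1)⟩ ?_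
  intro M hM1 hM2
  rcases tensor_max (M := M) (isTens_tensOf e P) (by simpa using h1) (by simpa using h12) (by
      by_cases hn : 3 ≤ n₁
      · left; simpa using hn
      · right
        have h3 : 2 < Fintype.card F := by
          have := Fintype.one_lt_card (α := F)
          have : Fintype.card F ≠ 2 := fun h => hex ⟨by omega, h⟩
          omega
        obtain ⟨a, b, c, hab, hac, hbc⟩ := Fintype.two_lt_card_iff.1 h3
        by_contra hc
        push Not at hc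
        have key : ∀ x : F, x = 0 ∨ x = 1 := fun x => (eq_or_ne x 0).imp id (hc x)
        rcases key a with rfl | rfl <;> rcases key b with rfl | rfl <;>
          rcases key c with rfl | rfl <;> simp_all)
    (fun g h1 h2 => hM1 g ⟨h1, h2⟩) with h | h
  · exact Or.inl fun g hg => ⟨h hg, hM2 g hg⟩
  · exact Or.inr h

end Cfsg.Agent.H3.TenSL
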