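import Cfsg.Agent.H3.TenGen
import Cfsg.Agent.H3.TenSL

/-!
Gluing the geometric step and the parabolic analysis.
-/

set_option autoImplicit false
set_option linter.unusedSectionVars false

namespace Cfsg.Agent.H3.TenGlue

open Module Cfsg.Agent.H7 Cfsg.Agent.Form Cfsg.Agent.H3.TenLin Cfsg.Agent.H3.RootGeo
  Cfsg.Agent.H3.TenForm Cfsg.Agent.H3.TenGeo Cfsg.Agent.H3.TenPar

variable {F : Type*} [Field F] {V : Type*} [AddCommGroup V] [Module F V]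
  {U : Type*} [AddCommGroup U] [Module F U] {W : Type*} [AddCommGroup W] [Module F W]
  {P P₁ P₂ : FP F} {S₁ : PQ P₁ U} {S₂ : PQ P₂ W} {S : PQ P V} {τ : U →ₗ[F] W →ₗ[F] V}

theorem le_snd_TStab (h : IsTens τ) (G : Subgroup (W ≃ₗ[F] W)) : G ≤ snd τ (TStab τ) :=
  fun b _ => ⟨h.tcongr 1 b, tcongr_mem h _ _, fun _ _ => h.tcongr_apply _ _ _ _⟩

variable [FiniteDimensional F U] [FiniteDimensional F W] [FiniteDimensional F V] [Nontrivial U]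
  {h : TF S₁ S₂ S τ} {M T : Subgroup (V ≃ₗ[F] V)}

omit [Nontrivial U] in
theorem tcongr_mem_sisom (h : TF S₁ S₂ S τ) (hP : TrP P) {a : U ≃ₗ[F] U} {b : W ≃ₗ[F] W}
    (ha : a ∈ sisom S₁) (hb : b ∈ sisom S₂) : h.tens.tcongr a b ∈ sisom S :=
  mem_sisom.2 ⟨hP.mem_isom S (h.tens_mem_bis (h.tens.tcongr_apply a b) (isom_le_bis ha.1)
    (isom_le_bis hb.1)), by rw [h.tens.det_tcongr, (mem_sisom.1 ha).2, (mem_sisom.1 hb).2]; simp⟩

omit [Nontrivial U] in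
theorem le_snd (h : TF S₁ S₂ S τ) (hP : TrP P) (hT : ∀ g ∈ sisom S, g ∈ TStab τ → g ∈ M) :
    sisom S₂ ≤ snd τ M := fun b hb =>
  ⟨_, hT _ (tcongr_mem_sisom h hP (one_mem _) hb) (tcongr_mem _ _ _), h.tens.tcongr_apply 1 b⟩

theorem B_self_of_map {g : V ≃ₗ[F] V} (hg : g ∈ sim S) (h : TF S₁ S₂ S τ) {w w' : W}
    (hw : S₂.B w w = 0) (h0 : w ≠ 0) (h0' : w' ≠ 0) (e : ∀ u, g (τ u w) ∈ Bw τ w') :
    S₂.B w' w' = 0 := by
  obtain ⟨a, ha⟩ := exists_of_map_Bw h.tens h0 h0' e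
  obtain ⟨u₀, hu₀⟩ := exists_ne (0 : U)
  obtain ⟨u₁, hu₁⟩ := h.nd₁.exists_ne (x := a u₀) (by simpa using hu₀)
  obtain ⟨u₁, rfl⟩ := a.surjective u₁
  have := (sim_perp hg (x := τ u₁ w) (y := τ u₀ w)).2 (by simp [h.form, hw])
  rw [ha, ha, h.form] at this
  exact (mul_eq_zero.1 this).resolve_left hu₁

/-- If a conjugate of a root element is `1 ⊗ b` then the conjugating element maps `U ⊗ w` to a
standard subspace. -/
theorem map_Bw_of_snd {w : W} {hw : S₂.Sing w} (h0 : w ≠ 0) {g ρ : V ≃ₗ[F] V}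
    (hρ : ρ ∈ h.R hw) (h1 : ρ ≠ 1) {b : W →ₗ[F] W}
    (e : ∀ u y, (g * ρ * g⁻¹) (τ u y) = τ u (b y)) : ∃ w', w' ≠ 0 ∧ ∀ u, g (τ u w) ∈ Bw τ w' := by
  obtain ⟨c, -, ec⟩ := conj_mem_RG (g := g) hρ
  obtain ⟨y, hy⟩ : ∃ y, b y - y ≠ 0 := by
    by_contra hc
    push Not at hc
    have : g * ρ * g⁻¹ = 1 := h.eq_of_tens fun u y => by rw [e, sub_eq_zero.1 (hc y)]; rfl
    exact h1 (by calc ρ = g⁻¹ * (g * ρ * g⁻¹) * g := by group
      _ = 1 := by rw [this]; group)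
  refine ⟨_, hy, fun u => ?_⟩
  have h2 : Bw τ (b y - y) ≤ (Bw τ w).map (g : V →ₗ[F] V) := by
    rintro _ ⟨u, rfl⟩
    rw [← h.range_nu h0, ← range_cj]
    refine ⟨c • τ u y, ?_⟩
    rw [map_smul, LinearMap.flip_apply, map_sub, ← e, ec, add_sub_cancel_left]
  rw [Submodule.eq_of_le_of_finrank_le h2 (by
    rw [LinearEquiv.finrank_map_eq, finrank_Bw h.tens h0, finrank_Bw h.tens hy])]
  exact ⟨_, ⟨u, rfl⟩, rfl⟩

theorem hyp_of (hP : TrP P₂) (h2 : 2 ≤ finrank F W) (hsim : M ≤ sim S) (hM : sisom S₂ ≤ snd τ M)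
    (stab : ∀ w, S₂.Sing w → w ≠ 0 → ∀ x ∈ M, (∀ u, x (τ u w) ∈ Bw τ w) → x ∈ TStab τ)
    (fus : ∀ w (hw : S₂.Sing w), w ≠ 0 → ∀ g ∈ M, ∀ ρ ∈ h.R hw, ρ ≠ 1 → g * ρ * g⁻¹ ∈ TStab τ →
      ∃ b : W →ₗ[F] W, ∀ u y, (g * ρ * g⁻¹) (τ u y) = τ u (b y)) : Hyp h M (TStab τ) := by
  refine ⟨hP, hsim, hM, le_snd_TStab h.tens _, fun w hw h0 x hx e =>
    ⟨stab w hw h0 x hx e, stab w hw h0 x hx e⟩, fun w hw h0 g hg ρ hρ h1 hT => ?_⟩
  obtain ⟨b, hb⟩ := fus w hw h0 g hg ρ hρ h1 hT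
  obtain ⟨w', h0', e⟩ := map_Bw_of_snd h0 hρ h1 hb
  have hw' := (hP.sing_iff S₂ w').2 (B_self_of_map (hsim hg) h hw.B_self h0 h0' e)
  obtain ⟨n, hn, -, b, -, en, c, hc, e'⟩ := exists_move h hP hM hM h2 hw' hw h0' h0
  refine ((TStab τ).mul_mem_cancel_left ⟨1, b, en⟩).1 (stab w hw h0 _ (M.mul_mem hn hg) fun u => ?_)
  obtain ⟨u', hu'⟩ := e u
  exact ⟨c • u', by simp [← hu', en, e']⟩

/-- Fusion when the first factor is smaller. -/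
theorem fus_of_lt (hlt : finrank F U < finrank F W) {w : W} {hw : S₂.Sing w} {g ρ : V ≃ₗ[F] V}
    (hρ : ρ ∈ h.R hw) (hT : g * ρ * g⁻¹ ∈ TStab τ) :
    ∃ b : W →ₗ[F] W, ∀ u y, (g * ρ * g⁻¹) (τ u y) = τ u (b y) :=
  TenSL.exists_of_fix h.tens hT hlt (h.cw w ∘ₗ (g.symm : V →ₗ[F] V)) fun v hv => by
    have hv : h.cw w (g.symm v) = 0 := hv
    simp [R_fix hρ hv]

/-- exact transitivity on singular vectors -/
theorem exists_sisom_eq (hP : TrP P₂) (hS : S₂.Nondeg) (h4 : 4 ≤ finrank F W) {w w' : W}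
    (hw : S₂.Sing w) (hw' : S₂.Sing w') (h0 : w ≠ 0) (h0' : w' ≠ 0) : ∃ b ∈ sisom S₂, b w = w' := by
  have key : ∀ {x y : W}, S₂.Sing x → S₂.Sing y → y ≠ 0 → x ∉ F ∙ y → ∃ b ∈ sisom S₂, b x = y := by
    intro x y hx hy hy0 hn
    obtain ⟨d, h1, h2, h3⟩ := hP.exists_sing_perp_ne' hS (X := F ∙ (x - y)) (v := x) (fun hm => by
      obtain ⟨c, hc⟩ := Submodule.mem_span_singleton.1 hm
      by_cases h1 : c = 1
      · simp [h1, hy0] at hc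
      · refine hn (Submodule.mem_span_singleton.2 ⟨c / (c - 1), ?_⟩)
        have : c - 1 ≠ 0 := sub_ne_zero.2 h1
        apply smul_right_injective W this
        simp only [smul_smul, mul_div_cancel₀ _ this]
        linear_combination (norm := module) -hc) (by
      have := finrank_span_singleton_le (F := F) (x - y); omega)
    rw [S₂.mem_perp_span_singleton] at h1
    have h1 := S₂.B_comm_zero h1
    obtain ⟨z, q, hE, -, e⟩ := exists_eich_map S₂ (x := x) (y := y) h2 (by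
      simpa [sub_eq_zero] using h1) (fun e => h3 (S₂.B_comm_zero e)) (sub_mem hy hx)
    exact ⟨_, eich_mem_sisom S₂ _ _ _ hE, e⟩
  obtain ⟨d, hd, h1, h2⟩ := hP.exists_sing_notMem hS (by omega)
    (span_singleton_ne_top (by omega) w) (span_singleton_ne_top (by omega) w')
  obtain ⟨b, hb, e⟩ := key hd hw h0 h1
  obtain ⟨b', hb', e'⟩ := key hd hw' h0' h2
  exact ⟨b' * b⁻¹, mul_mem hb' (inv_mem hb), by simp [← e, e']⟩

/-- If `M` is not in the tensor stabiliser, the unipotent radical contains a new element. -/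
theorem exists_inQ [Finite F] (hP : TrP P₂) (hlt : finrank F U < finrank F W)
    (hW : 5 ≤ finrank F W ∨ 4 ≤ finrank F W ∧ ∃ a : F, a ≠ 0 ∧ a ≠ 1 ∧ ∀ c ∈ P₂.Λ, a * c ∈ P₂.Λ)
    (hsim : M ≤ sim S) (hM : sisom S₂ ≤ snd τ M) (hT : ¬ M ≤ TStab τ) :
    ∃ w, S₂.Sing w ∧ w ≠ 0 ∧ ∃ q ∈ M, InQ h w q ∧ q ∉ TStab τ := by
  by_contra hc
  push Not at hc
  have h4 : 4 ≤ finrank F W := by omega
  have H := hyp_of (h := h) hP (by omega) hsim hM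
    (fun w hw h0 x hx e => parabolic hP h4 hsim hM hc hw h0 hx e)
    (fun w hw h0 g _ ρ hρ _ hT => fus_of_lt hlt hρ hT)
  rcases hW with h5 | ⟨-, a, h1, h2, h3⟩
  · exact hT (H.le_of_five h5)
  · exact hT (H.le_of_four h4 h1 h2 h3)

/-- The maps `X` with `1 + X ⊗ (B(·,w) w) ∈ M`. -/
def Zs (h : TF S₁ S₂ S τ) (M : Subgroup (V ≃ₗ[F] V)) {w : W} (hw : S₂.B w w = 0) :
    AddSubgroup (End F U) where
  carrier := {X | HasQ τ M (X ∘ₗ h.cw w) w}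
  add_mem' := fun h1 h2 => (h1.add h2 (by simp [hw])).congr fun v => by simp
  zero_mem' := (hasQ_zero w).congr fun v => by simp
  neg_mem' := fun h1 => (h1.neg (by simp [hw])).congr fun v => by simp

theorem mem_Zs {w : W} {hw : S₂.B w w = 0} {X : End F U} :
    X ∈ Zs h M hw ↔ HasQ τ M (X ∘ₗ h.cw w) w := Iff.rfl

theorem Zs_map {w w' : W} {hw : S₂.B w w = 0} (hw' : S₂.B w' w' = 0) {X : End F U}
    (hX : X ∈ Zs h M hw) (hM : sisom S₂ ≤ snd τ M) {b : W ≃ₗ[F] W} (hb : b ∈ sisom S₂) {c : F}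
    (e : b w = c • w') : (c * P.σ c) • X ∈ Zs h M hw' := by
  obtain ⟨g, hg, eg⟩ := hM hb
  refine (hasQ_conj hX hg (a := LinearEquiv.refl F U) eg (isom_le_bis hb.1)).congr fun v => ?_
  simp [e, h.cw_smul, mul_smul]

theorem Zs_conj {w : W} {hw : S₂.B w w = 0} {X : End F U} (hX : X ∈ Zs h M hw) {g : V ≃ₗ[F] V}
    (hg : g ∈ M) {a : U ≃ₗ[F] U} (e : ∀ u y, g (τ u y) = τ (a u) y) : cj a X ∈ Zs h M hw :=
  hasQ_conj hX hg (b := 1) e (one_mem _)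

theorem smul_id_mem_Zs (hM : sisom S₂ ≤ snd τ M) {w : W} (hw : S₂.Sing w) {c : F} (hc : c ∈ P₂.Λ) :
    c • (1 : End F U) ∈ Zs h M hw.B_self :=
  ⟨_, h.R_le hM hw (rootE_mem hc), fun v => by simp [TF.nu_apply]⟩

end Cfsg.Agent.H3.TenGlue
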