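import Cfsg.Agent.H3.TenGlue
import Cfsg.Agent.H6.SUC1

/-!
Tensor product subgroups of unitary groups.
-/

set_option autoImplicit false
set_option linter.unusedSectionVars false

namespace Cfsg.Agent.H3.TenSU

open Module Cfsg.Agent.H7 Cfsg.Agent.Form Cfsg.Agent.H3.TenLin Cfsg.Agent.H3.RootGeo
  Cfsg.Agent.H3.TenForm Cfsg.Agent.H3.TenGeo Cfsg.Agent.H3.TenPar Cfsg.Agent.H3.TenGlue
  Cfsg.Agent.H3.TenGen

variable {F : Type*} [Field F] {V : Type*} [AddCommGroup V] [Module F V]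
  {U : Type*} [AddCommGroup U] [Module F U] {W : Type*} [AddCommGroup W] [Module F W]

/-- the rank one map `x ↦ B(x, a) b` -/
def rk {P : FP F} (S : PQ P U) (a b : U) : End F U := (S.lin a).smulRight b

@[simp] theorem rk_apply {P : FP F} (S : PQ P U) (a b x : U) : rk S a b x = S.B x a • b := rfl

theorem cj_rk {P : FP F} {S : PQ P U} {g : U ≃ₗ[F] U} (hg : g ∈ S.isom) (a b : U) :
    cj g (rk S a b) = rk S (g a) (g b) := by
  ext x; simp [← PQ.B_isom_symm hg, ← PQ.B_isom hg (g.symm x)]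

theorem cj_add (g : U ≃ₗ[F] U) (X Y : End F U) : cj g (X + Y) = cj g X + cj g Y := by ext; simp

theorem cj_smul (g : U ≃ₗ[F] U) (c : F) (X : End F U) : cj g (c • X) = c • cj g X := by ext; simp

variable {σ : F →+* F} {hσ : ∀ a, σ (σ a) = a} [Finite F] [FiniteDimensional F U]

theorem exists_sing_B_ne (hne : ∃ a, σ a ≠ a) {S : PQ (FP.unit σ hσ) U} (hS : S.Nondeg)
    (h2 : 2 ≤ finrank F U) {X : End F U} (skew : ∀ a b, S.B (X a) b + S.B a (X b) = 0)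
    (hX : ∀ c : F, X ≠ c • LinearMap.id) : ∃ u, S.Sing u ∧ S.B (X u) u ≠ 0 := by
  by_contra hc
  push Not at hc
  have hP := trP_unit σ hσ hne
  obtain ⟨l, hl, hl0⟩ := hP.ex
  rw [FP.unit_mem] at hl
  have k1 : ∀ u v, S.Sing u → S.Sing v → S.B u v = 1 → S.B (X u) v + σ (S.B (X u) v) = 0 := by
    intro u v hu hv e
    have e' : S.B v u = 1 := by rw [S.unit_B_swap, e, map_one]
    have h1 := hc (u + l • v) ((S.unit_sing _).2 (by
      simp [hu.B_self, hv.B_self, e, e', add_comm, hl]))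
    have h2 := skew v u
    rw [S.unit_B_swap (X u) v] at h2
    simp [hc u hu, hc v hv] at h1
    apply mul_left_cancel₀ hl0
    linear_combination -h1 + l * h2 + S.B (X u) v * hl
  have k2 : ∀ u, S.Sing u → X u ∈ F ∙ u := by
    intro u hu
    by_cases h0 : u = 0
    · simp [h0]
    rw [← hS.perp_perp (F ∙ u)]
    intro y hy
    rw [S.mem_perp_span_singleton] at hy
    obtain ⟨v, hv, e⟩ := hS.exists_hyperbolic hu h0
    have k3 : ∀ y, S.B y u = 0 → S.B (X u) y + σ (S.B (X u) y) = 0 := fun y hy => by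
      obtain ⟨a, ha⟩ := S.exists_sing_add hu (z := v + y) (by
        simp [hy, H6.SU.ne_swap (S := S) (x := u) (y := v) (by simp [e])]) 0
      have := k1 u _ hu (sing_of_zero_sub ha) (by simp [e, S.B_comm_zero hy, hu.B_self])
      simp [hc u hu] at this
      linear_combination this - k1 u v hu hv e
    obtain ⟨a, ha⟩ := hne
    have h1 := k3 (a • y) (by simp [hy])
    simp [hσ] at h1
    apply mul_left_cancel₀ (sub_ne_zero.2 ha)
    linear_combination h1 - a * k3 y hy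
  obtain ⟨u, -, h0, hu⟩ := hP.exists_sing_of_two_le S ⊤ (by rwa [finrank_top])
  obtain ⟨c, e⟩ := Submodule.mem_span_singleton.1 (k2 u hu)
  refine hX c (LinearMap.ext fun x => sub_eq_zero.1 ?_)
  refine le_of_sing_ne (H := ⊤) (A := LinearMap.ker (X - c • LinearMap.id)) hu trivial
    (by simp [e]) ((hS.exists_ne h0).imp fun _ h => ⟨trivial, h⟩) (fun x _ hx hxu => ?_)
    (Submodule.mem_top (x := x))
  obtain ⟨d, e'⟩ := Submodule.mem_span_singleton.1 (k2 x hx)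
  obtain ⟨t, ht, hs⟩ := hP.exists_sing_line S hu hx
  obtain ⟨r, er⟩ := Submodule.mem_span_singleton.1 (k2 _ hs)
  rw [map_add, map_smul, ← e, ← e'] at er
  have h1 := congrArg (S.B · u) er
  have h2 := congrArg (S.B · x) er
  simp [hu.B_self, hx.B_self, ht, hxu, H6.SU.ne_swap hxu] at h1 h2
  simp [← e', ← h2, show r = d from mul_right_cancel₀ (mul_ne_zero ht hxu) (by linear_combination h1)]

theorem su_extract (hne : ∃ a, σ a ≠ a) {S : PQ (FP.unit σ hσ) U} (hS : S.Nondeg)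
    (Z : AddSubgroup (End F U)) (conj : ∀ g ∈ sisom S, ∀ X ∈ Z, cj g X ∈ Z)
    (real : ∀ a, σ a = a → ∀ X ∈ Z, a • X ∈ Z) (h2 : 2 ≤ finrank F U)
    (hdim : 3 ≤ finrank F U ∨ ∃ a, σ a = a ∧ a ≠ 0 ∧ a ≠ 1) {X : End F U} (hXZ : X ∈ Z)
    (skew : ∀ a b, S.B (X a) b + S.B a (X b) = 0) (hX : ∀ c : F, X ≠ c • LinearMap.id)
    {u : U} (hu : S.Sing u) {c : F} (hc : c + σ c = 0) : c • rk S u u ∈ Z := by
  have hP := trP_unit σ hσ hne
  suffices H : ∃ u, u ≠ 0 ∧ S.Sing u ∧ ∃ c, c ≠ 0 ∧ c + σ c = 0 ∧ c • rk S u u ∈ Z by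
    obtain ⟨u₀, h0, hu₀, c₀, hc0, hc₀, H⟩ := H
    by_cases h1 : u = 0
    · convert Z.zero_mem using 1; ext; simp [h1]
    obtain ⟨b, hb, t, ht, e⟩ := exists_sisom_map hP hS h2 hu₀ hu h0 h1
    have h3 := conj b hb _ H
    rw [cj_smul, cj_rk hb.1, e] at h3
    have h4 := H6.SU.σ_ne (σ := σ) ht
    have h5 := H6.SU.σ_ne (σ := σ) hc0
    convert real (c / (c₀ * t * σ t)) (by
      rw [map_div₀, map_mul, map_mul, hσ, eq_neg_of_add_eq_zero_right hc,
        eq_neg_of_add_eq_zero_right hc₀]; field_simp) _ h3 using 1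
    ext x; simp [smul_smul]; congr 1; field_simp
  obtain ⟨u, hu, hβ⟩ := exists_sing_B_ne hne hS h2 skew hX
  have h0 : u ≠ 0 := by rintro rfl; simp at hβ
  have hβ' : S.B (X u) u + σ (S.B (X u) u) = 0 := by rw [H6.SU.Bs]; exact skew u u
  have k1 : ∀ c, c + σ c = 0 →
      (-c) • (rk S (X u) u + rk S u (X u)) - (c ^ 2 * S.B (X u) u) • rk S u u ∈ Z := fun c hc => by
    have hc' := tauOK_of_sing hu ((FP.unit_mem σ hσ c).2 hc)
    convert Z.sub_mem (conj _ (tau_mem_sisom S hu c hc') X hXZ) hXZ using 1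
    ext x
    have := skew x u
    simp [PQ.tau_symm_apply, eq_neg_of_add_eq_zero_right hc, eq_neg_of_add_eq_zero_left this]
    module
  obtain ⟨l, hl, hl0⟩ := hP.ex
  rw [FP.unit_mem] at hl
  refine ⟨u, h0, hu, ?_⟩
  rcases hdim with h3 | ⟨a, ha, ha0, ha1⟩
  · obtain ⟨y, hy, hy'⟩ := exists_mem_notMem_of_finrank_lt (U := S.perp (F ∙ u)) (W := F ∙ u) (by
      have := hS.finrank_perp (F ∙ u)
      have := finrank_span_singleton_le (F := F) u
      omega)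
    rw [S.mem_perp_span_singleton] at hy
    obtain ⟨θ, hθ⟩ := exists_trace_one σ hσ hne
    obtain ⟨y', h1, h2⟩ := hS.exists_perp_eq hy' (θ / S.B (X u) u)
    rw [S.mem_perp_span_singleton] at h1
    have hE := H6.SU.exists_eichOK S hu.B_self hy
    have hE' := H6.SU.exists_eichOK S hu.B_self h1
    have k2 : ∀ {x : U} {s : F}, (-l) • (rk S x u + rk S u x) - s • rk S u u ∈ Z →
        ∀ {y q} (hE : S.EichOK u y q), (-l) • (rk S (S.eich u y q hE x - x) u +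
          rk S u (S.eich u y q hE x - x)) - (0 : F) • rk S u u ∈ Z := fun {x s} H y q hE => by
      have e : S.eich u y q hE u = u := by simp [hu.B_self, S.B_comm_zero hE.perp]
      have := conj _ (eich_mem_sisom S _ _ _ hE) _ H
      rw [sub_eq_add_neg, ← neg_smul, cj_add, cj_smul, cj_smul, cj_add, cj_rk (S.eich_mem _ _ _ _),
        cj_rk (S.eich_mem _ _ _ _), cj_rk (S.eich_mem _ _ _ _), e] at this
      convert Z.sub_mem this H using 1
      ext z; simp [-PQ.eich_apply]; module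
    refine ⟨l, hl0, hl, ?_⟩
    convert k2 (k2 (k1 l hl) hE) hE' using 1
    ext z
    simp [hu.B_self, hy, S.B_comm_zero h1, h2, mul_div_cancel₀ _ hβ]
    linear_combination (norm := module) -(l * S.B z u) • congrArg (· • u) hθ
  · refine ⟨a * (a - 1) * l ^ 2 * S.B (X u) u, by simp [ha0, hl0, hβ, sub_ne_zero.2 ha1], by
      simp [ha, eq_neg_of_add_eq_zero_right hl, eq_neg_of_add_eq_zero_right hβ'], ?_⟩
    convert Z.sub_mem (real a ha _ (k1 l hl)) (k1 (a * l) (by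
      rw [map_mul, ha, ← mul_add, hl, mul_zero])) using 1
    module

variable [FiniteDimensional F W] [FiniteDimensional F V] {S₁ : PQ (FP.unit σ hσ) U}
  {S₂ : PQ (FP.unit σ hσ) W} {S : PQ (FP.unit σ hσ) V} {τ : U →ₗ[F] W →ₗ[F] V}
  {M : Subgroup (V ≃ₗ[F] V)}

theorem su_trans (hne : ∃ a, σ a ≠ a) (hS : S₂.Nondeg) (h3 : 3 ≤ finrank F W) {x y : W} (hx : x ≠ 0)
    (hy : y ≠ 0) (h : S₂.B x x = S₂.B y y) : ∃ g ∈ sisom S₂, g x = y := by
  obtain ⟨g, hg, -, e⟩ := H6.SU.EF.trans (M := sisom S₂) (U := ⊤) hne (S₂.nondegOn_top.2 hS)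
    (by rwa [finrank_top]) (fun d _ w _ q h => ⟨h, eich_mem_sisom _ _ _ _ h⟩) trivial trivial hx hy h
    (r := 0) (zero_mem _)
  exact ⟨g, hg, by simpa using e⟩

/-- A new element in the unipotent radical gives transvections on all singular pure tensors. -/
theorem ctr_of_inQ (hne : ∃ a, σ a ≠ a) (h : TF S₁ S₂ S τ) (h2 : 2 ≤ finrank F U)
    (h3 : 3 ≤ finrank F W) (hU : 3 ≤ finrank F U ∨ ∃ a, σ a = a ∧ a ≠ 0 ∧ a ≠ 1)
    (hM : M ≤ sisom S) (hT : ∀ g ∈ sisom S, g ∈ TStab τ → g ∈ M) {w₀ : W} (hw₀ : S₂.Sing w₀)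
    (h0 : w₀ ≠ 0) {q : V ≃ₗ[F] V} (hq : q ∈ M) (hQ : InQ h w₀ q) (hqT : q ∉ TStab τ)
    (u : U) (w : W) (hu : S₁.Sing u) (hw : S₂.Sing w) : Ctr S M (τ u w) := by
  have : Nontrivial U := Module.nontrivial_of_finrank_pos (R := F) (by omega)
  have hP := trP_unit σ hσ hne
  have hM₂ := le_snd h hP hT
  have hsim : M ≤ sim S := fun g hg => bis_le_sim (isom_le_bis (hM hg).1)
  obtain ⟨X, hX, hns⟩ : ∃ X ∈ Zs h M hw₀.B_self, ∀ c : F, X ≠ c • LinearMap.id := by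
    refine (exists_Z_or_eta hM₂ hw₀ h0 hq hQ hqT).elim id fun ⟨y, hy, η, e, hη⟩ => ?_
    by_contra hc
    push Not at hc
    obtain ⟨a, ha⟩ := hne
    obtain ⟨c, h1⟩ := hc _ (hasQ_eta hM₂ hw₀ hy hq hQ e)
    obtain ⟨d, h2⟩ := hc _ (hasQ_eta hM₂ hw₀ (y := a • y) (η := a • η) (by simp [hy]) hq hQ
      fun u => by simp [e])
    rw [adj_smul] at h2
    refine hη ((d - σ a * c) / (σ a - a)) ?_
    apply smul_right_injective _ (sub_ne_zero.2 ha)
    simp only [smul_smul, mul_div_cancel₀ _ (sub_ne_zero.2 ha)]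
    simp only [FP.unit_σ, FP.unit_ε, one_smul] at h1 h2
    linear_combination (norm := module) h2 - σ a • h1
  by_cases hw0 : w = 0
  · simpa [hw0] using H7.ctr_zero
  obtain ⟨b, hb, e⟩ := su_trans hne h.nd₂ h3 h0 hw0 (by rw [hw.B_self, hw₀.B_self])
  have hX' := Zs_map hw.B_self hX hM₂ hb (c := 1) (by simp [e])
  rw [map_one, one_mul, one_smul] at hX'
  refine ⟨(S.unit_sing _).2 (by simp [h.form, hu.B_self]), fun c hc => ?_⟩
  have hc' : c + σ c = 0 := H6.SU.tr_of_tauOK (by simp [h.form, hu.B_self]) hc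
  obtain ⟨k, hk, ek⟩ := su_extract hne h.nd₁ (Zs h M hw.B_self) (fun g hg X hX =>
    Zs_conj hX (hT _ (tcongr_mem_sisom h hP hg (one_mem _)) (tcongr_mem _ _ _))
      fun _ _ => h.tens.tcongr_apply _ _ _ _) (fun a ha X hX => by
    by_cases ha0 : a = 0
    · simp [ha0]
    obtain ⟨t, rfl⟩ := exists_norm_eq σ hσ hne a ha
    obtain ⟨b, hb, e⟩ := su_trans hne h.nd₂ h3 hw0 (y := t • w) (by
      simp [hw0, left_ne_zero_of_mul ha0]) (by simp [hw.B_self])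
    exact Zs_map hw.B_self hX hM₂ hb e) h2 hU hX'
    (fun a b => by simpa using adj_of_hasQ hsim hw.B_self hw0 hX' a b) hns hu hc'
  convert hk using 1
  ext v; simp [ek, h.B_tmul, mul_smul]

theorem su_tensor (hne : ∃ a, σ a ≠ a) (h : TF S₁ S₂ S τ) (h2 : 2 ≤ finrank F U)
    (hlt : finrank F U < finrank F W)
    (hW : 5 ≤ finrank F W ∨ 4 ≤ finrank F W ∧ ∃ a, σ a = a ∧ a ≠ 0 ∧ a ≠ 1)
    (hU : 3 ≤ finrank F U ∨ ∃ a, σ a = a ∧ a ≠ 0 ∧ a ≠ 1)
    (hM : M ≤ sisom S) (hT : ∀ g ∈ sisom S, g ∈ TStab τ → g ∈ M) :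
    (∀ g ∈ M, g ∈ TStab τ) ∨ sisom S ≤ M := by
  have : Nontrivial U := Module.nontrivial_of_finrank_pos (R := F) (by omega)
  have hP := trP_unit σ hσ hne
  refine or_iff_not_imp_left.2 fun hn => ?_
  obtain ⟨w, hw, h0, q, hq, hQ, hqT⟩ := exists_inQ (h := h) hP hlt (hW.imp id fun ⟨h4, a, h1, h2, h3⟩ =>
    ⟨h4, a, h2, h3, fun c hc => by
      rw [FP.unit_mem] at hc ⊢; rw [map_mul, h1, ← mul_add, hc, mul_zero]⟩)
    (fun g hg => bis_le_sim (isom_le_bis (hM hg).1)) (le_snd h hP hT) hn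
  obtain ⟨u, -, hu0, hu⟩ := hP.exists_sing_of_two_le S₁ ⊤ (by rwa [finrank_top])
  exact hP.sisom_le_of_all_ctr h.nd (Or.inl (by rw [h.tens.finrank_eq]; nlinarith))
    (ctr_all h hP hP (Or.inl (by omega)) (by omega)
      (ctr_of_inQ hne h h2 (by omega) hU hM hT hw h0 hq hQ hqT) hu hu0)

section geo
omit [Finite F]
variable [Fintype F] {q : ℕ} (hF : Fintype.card F = q ^ 2)

theorem exists_TF {n n₁ n₂ : ℕ} {e : Fin n ≃ Fin n₁ × Fin n₂} {P : GL (Fin n) F}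
    {f₁ : (Fin n₁ → F) → (Fin n₁ → F) → F} {f₂ : (Fin n₂ → F) → (Fin n₂ → F) → F}
    (h1 : 1 ≤ n₁) (h2 : 1 ≤ n₂) (hf₁ : Geo.IsUnitaryFormPow q f₁) (hf₂ : Geo.IsUnitaryFormPow q f₂)
    (hT : Geo.IsTensorFormStructure (fun x : F => x ^ q) (hermForm n F q) f₁ f₂ e P) :
    ∃ S₁ S₂ : PQ (FP.unit (frobQ hF : F →+* F) (unit_invol (isUnitaryForm_hermForm hF n))) _,
      TF S₁ S₂ (H6.SU.std hF n) (tensOf e P) := by
  have u₁ := isUnitaryForm_of_pow hF hf₁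
  have u₂ := isUnitaryForm_of_pow hF hf₂
  obtain ⟨c, hc, H⟩ := tensorForm_apply (unitPQ u₁) (unitPQ u₂) (fun _ => rfl) (fun _ => rfl) hT
  have : Nonempty (Fin n₁) := ⟨⟨0, h1⟩⟩
  have : Nonempty (Fin n₂) := ⟨⟨0, h2⟩⟩
  obtain ⟨x, hx⟩ := exists_ne (0 : Fin n₁ → F)
  obtain ⟨x', hx'⟩ := (unitPQ_nondeg u₁).exists_eq hx 1
  obtain ⟨y, hy⟩ := exists_ne (0 : Fin n₂ → F)
  obtain ⟨y', hy'⟩ := (unitPQ_nondeg u₂).exists_eq hy 1
  have hσ : (frobQ hF : F →+* F) c = c := by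
    have := (H6.SU.std hF n).unit_B_swap (tensOf e P x' y') (tensOf e P x y)
    rw [unitPQ_B, H, H, (unitPQ u₁).unit_B_swap, (unitPQ u₂).unit_B_swap y', hx', hy'] at this
    simpa using this.symm
  exact ⟨scale (unitPQ u₁) c hσ fun l hl => by
      rw [FP.unit_mem] at hl ⊢; rw [map_mul, hσ, ← mul_add, hl, mul_zero], unitPQ u₂,
    isTens_tensOf e P, fun _ => rfl, fun _ => rfl, by simp, fun u w u' w' => by
      rw [unitPQ_B, H, ← mul_assoc]; rfl, scale_nondeg (unitPQ_nondeg u₁) hc _ _, unitPQ_nondeg u₂⟩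

include hF in
theorem exists_real (hq : q ≠ 2) : ∃ a : F, a ^ q = a ∧ a ≠ 0 ∧ a ≠ 1 := by
  have := two_le_of_card_sq hF
  obtain ⟨c, hc0, hc⟩ := exists_pow_ne_one_of_lt (F := F) (k := q + 1) (by omega) (by
    rw [hF]; have : 3 ≤ q := by omega
    nlinarith)
  exact ⟨c ^ (q + 1), by rw [pow_succ, mul_pow, pow_q_pow_q hF, mul_comm], pow_ne_zero _ hc0, hc⟩

include hF in
/-- `GU_{n₁} ∘ GU_{n₂}` is maximal in `SU`. -/
theorem isMaximalIn_SU {n n₁ n₂ : ℕ} (h1 : 2 ≤ n₁) (h12 : n₁ < n₂) (hex : ¬ (n₁ = 2 ∧ q = 2))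
    (h4 : 5 ≤ n₂ ∨ 4 ≤ n₂ ∧ q ≠ 2) (e : Fin n ≃ Fin n₁ × Fin n₂) (P : GL (Fin n) F)
    (f₁ : (Fin n₁ → F) → (Fin n₁ → F) → F) (f₂ : (Fin n₂ → F) → (Fin n₂ → F) → F)
    (hf₁ : Geo.IsUnitaryFormPow q f₁) (hf₂ : Geo.IsUnitaryFormPow q f₂)
    (hT : Geo.IsTensorFormStructure (fun x : F => x ^ q) (hermForm n F q) f₁ f₂ e P) :
    Geo.IsMaximalIn (GU n F q ⊓ Geo.specialLinear (Fin n) F)
      (Geo.tensorProductSubgroup n₁ n₂ e P ⊓ (GU n F q ⊓ Geo.specialLinear (Fin n) F)) := by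
  obtain ⟨S₁, S₂, h⟩ := exists_TF hF (by omega) (by omega) hf₁ hf₂ hT
  have hn : n = n₁ * n₂ := by simpa using Fintype.card_congr e
  refine H6.SU.max_of hF _ (mem_tensorProductSubgroup_iff' e P)
    (SU_not_le_tensorProductSubgroup hF (by nlinarith) h1 (by omega) e P) fun M h1 h2 =>
    su_tensor (H6.SU.std_ne hF) h (by simpa) (by simpa) ?_ ?_ h1 h2
  · simpa using h4.imp id (And.imp_right (exists_real hF))
  · by_cases h3 : 3 ≤ n₁
    · exact Or.inl (by simpa)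
    · exact Or.inr (exists_real hF fun e => hex ⟨by omega, e⟩)

end geo

end Cfsg.Agent.H3.TenSU
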