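import Cfsg.Agent.H3.TenGlue

/-!
The geometric step for `3 ⊗ 4`.
-/

set_option autoImplicit false
set_option linter.unusedSectionVars false

namespace Cfsg.Agent.H3.TenGeo2

open Module Cfsg.Agent.H7 Cfsg.Agent.Form Cfsg.Agent.H3.TenLin Cfsg.Agent.H3.RootGeo
  Cfsg.Agent.H3.TenForm Cfsg.Agent.H3.TenGeo

variable {F : Type*} [Field F] {V : Type*} [AddCommGroup V] [Module F V]
  {U : Type*} [AddCommGroup U] [Module F U] {W : Type*} [AddCommGroup W] [Module F W]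
  {P P₁ P₂ : FP F} {S₁ : PQ P₁ U} {S₂ : PQ P₂ W} {S : PQ P V} {τ : U →ₗ[F] W →ₗ[F] V}

theorem exists_eigen [FiniteDimensional F U] (h3 : finrank F U = 3) {θ : End F U} {α β : F}
    (h : ∀ u, θ (θ u) = α • θ u + β • u) : ∃ y ≠ 0, ∃ t : F, θ y = t • y := by
  have : Nontrivial U := Module.nontrivial_of_finrank_pos (R := F) (by omega)
  obtain ⟨u, hu⟩ := exists_ne (0 : U)
  by_cases h1 : θ u ∈ F ∙ u
  · obtain ⟨t, ht⟩ := Submodule.mem_span_singleton.1 h1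
    exact ⟨u, hu, t, ht.symm⟩
  obtain ⟨x, -, hx⟩ := exists_mem_notMem_of_finrank_lt (U := (⊤ : Submodule F U))
    (W := Submodule.span F {u, θ u}) (by
      have := finrank_span_pair_le (F := F) u (θ u); rw [finrank_top]; omega)
  obtain ⟨φ, e1, e2⟩ := exists_dual_one hx
  have e3 : LinearMap.ker φ = Submodule.span F {u, θ u} := by
    refine (Submodule.eq_of_le_of_finrank_le e2 ?_).symm
    have k1 := LinearMap.finrank_range_add_finrank_ker φ
    have k2 : finrank F (LinearMap.range φ) ≠ 0 := fun e => by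
      have : φ x ∈ LinearMap.range φ := ⟨x, rfl⟩
      rw [Submodule.finrank_eq_zero.1 e, e1] at this
      simp at this
    have k3 : LinearIndependent F ![u, θ u] := LinearIndependent.pair_iff' hu |>.2 fun a e =>
      h1 (Submodule.mem_span_singleton.2 ⟨a, e⟩)
    have k4 := finrank_span_eq_card k3
    rw [Matrix.range_cons_cons_empty] at k4
    simp at k4
    omega
  have e4 : ∀ p, φ p = 0 → φ (θ p) = 0 := fun p hp => by
    obtain ⟨a, b, rfl⟩ := Submodule.mem_span_pair.1 (e3 ▸ hp : p ∈ Submodule.span F {u, θ u})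
    have a1 := e2 u (Submodule.subset_span (by simp))
    have a2 := e2 (θ u) (Submodule.subset_span (by simp))
    simp [h, a1, a2]
  have e5 := e4 (θ x - φ (θ x) • x) (by simp [e1])
  simp [h, e1] at e5
  refine ⟨θ u - (α - φ (θ x)) • u, fun e => h1 (by
    rw [sub_eq_zero.1 e]; exact Submodule.smul_mem _ _ (Submodule.mem_span_singleton_self _)),
    φ (θ x), ?_⟩
  simp only [map_sub, map_smul, h]
  linear_combination (norm := module) e5 • u

variable [FiniteDimensional F U] [FiniteDimensional F W] [FiniteDimensional F V] [Nontrivial U]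
  {h : TF S₁ S₂ S τ} {M T : Subgroup (V ≃ₗ[F] V)} [Finite F]

/-- The geometric step for `3 ⊗ 4`. -/
theorem le_of_three (H : Hyp h M T) (h3 : finrank F U = 3) (h4 : 4 ≤ finrank F W) : M ≤ T := by
  by_contra hle
  obtain ⟨w₀, -, h0, hw₀⟩ := H.trP.exists_sing_of_two_le S₂ ⊤ (by rw [finrank_top]; omega)
  obtain ⟨g, E⟩ := exists_ext hle (Bw τ w₀)
  set A := (Bw τ w₀).map (g : V →ₗ[F] V) with hA
  have hrA : LinearMap.range (cj g (h.nu w₀)) = A := by rw [range_cj, h.range_nu h0]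
  obtain ⟨w, hw1, hw2, hw⟩ : ∃ w, S₂.B w₀ w = 0 ∧ w ∉ F ∙ w₀ ∧ S₂.Sing w := by
    obtain ⟨y, hy⟩ := h.nd₂.exists_eq h0 1
    obtain ⟨z, hz0, hz, h1, h2⟩ := exists_sing_perp_two H.trP h.nd₂ (by omega) w₀ y
    refine ⟨z, h1, fun hm => ?_, hz⟩
    obtain ⟨c, rfl⟩ := Submodule.mem_span_singleton.1 hm
    simp [hy] at h2
    simp [h2] at hz0
  have hD : A.comap (τ.flip w₀) ≠ ⊤ := fun e => by
    have h1 : Bw τ w₀ ≤ A := by
      rintro _ ⟨u, rfl⟩
      exact (e ▸ Submodule.mem_top : u ∈ A.comap (τ.flip w₀))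
    have h2 := Submodule.eq_of_le_of_finrank_le h1 (by rw [hA, LinearEquiv.finrank_map_eq])
    exact E.not_mem (H.stab w₀ hw₀ h0 g E.mem fun u => by
      rw [h2]; exact ⟨τ u w₀, ⟨u, rfl⟩, rfl⟩).1
  have key : ∀ {w : W} (hw : S₂.Sing w), w ≠ 0 → S₂.B w₀ w = 0 →
      ∃ s ∈ M, (∀ a ∈ A, s a ∈ Bw τ w) ∧ ∀ v, cj g (h.nu w₀) v = 0 → h.cw w v = 0 → s v = v := by
    intro w hw h0' hw1
    obtain ⟨s, hs, e⟩ := sylow_end (cj_sq g (h.nu_sq hw₀)) (h.nu_ne_zero h0') H.trP.ex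
      (H.lemmaL' (by omega) E.mem E.not_mem hw₀ h0 hw h0' (w₁ := w₀) hD fun a ha hc => by
        obtain ⟨u, rfl⟩ := H.ext_perp E hw h0' hw1 ha hc
        exact Submodule.mem_sup_right ⟨u, ha, rfl⟩)
    refine ⟨s, (H.Gam_le E.mem hw₀ hw hs).1, fun a ha => ?_,
      fun v h1 h2 => Gam_fix hs h1 ((h.nu_eq_zero_iff h0').2 h2)⟩
    rw [← hrA] at ha
    obtain ⟨v, rfl⟩ := ha
    rw [← h.range_nu h0']; exact e v
  have hμA : ∀ a ∈ A, cj g (h.nu w₀) a = 0 := by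
    rw [← hrA]; rintro _ ⟨v, rfl⟩; exact cj_sq g (h.nu_sq hw₀) v
  obtain ⟨s₀, hs₀, hs₀1, hs₀2⟩ := key hw₀ h0 hw₀.B_self
  have hd : ∀ a ∈ A, a ∈ Bw τ w₀ → a = 0 := fun a ha hb => by
    obtain ⟨s, hs, hs1, hs2⟩ := key hw (by rintro rfl; simp at hw2) hw1
    exact Bw_inf h.tens hw2 hb (by have := hs1 a ha; rwa [hs2 a (hμA a ha) (h.cw_Bw hw1 hb)] at this)
  obtain ⟨k, hkM, hkT, c, -, -, ek⟩ := H.conj_R_not_mem E.mem E.not_mem hw₀ h0
  have hinj : Function.Injective (cj g (h.nu w₀) ∘ₗ τ.flip w₀) := by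
    rw [injective_iff_map_eq_zero]
    intro u hu
    have hu : cj g (h.nu w₀) (τ u w₀) = 0 := hu
    have := E.key hkM hkT (fun x hx _ => by rw [ek, hμA x hx]; simp) (b := τ u w₀) ⟨u, rfl⟩
      (by rw [ek, hu]; exact ⟨u, by simp⟩)
    exact (h.tens.eq_zero (hd _ this ⟨u, rfl⟩)).resolve_right h0
  have hsurj : ∀ v, ∃ u, cj g (h.nu w₀) (v - τ u w₀) = 0 := fun v => by
    have h1 : LinearMap.range (cj g (h.nu w₀) ∘ₗ τ.flip w₀) = A := by
      refine Submodule.eq_of_le_of_finrank_le (hrA ▸ LinearMap.range_comp_le_range _ _) ?_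
      rw [LinearMap.finrank_range_of_inj hinj, hA, LinearEquiv.finrank_map_eq, finrank_Bw h.tens h0]
    obtain ⟨u, hu⟩ : cj g (h.nu w₀) v ∈ LinearMap.range (cj g (h.nu w₀) ∘ₗ τ.flip w₀) := by
      rw [h1, ← hrA]; exact ⟨v, rfl⟩
    exact ⟨u, by rw [map_sub, ← hu]; simp⟩
  have hs₀3 : A.map (s₀ : V →ₗ[F] V) = Bw τ w₀ := by
    refine Submodule.eq_of_le_of_finrank_le (by rintro _ ⟨a, ha, rfl⟩; exact hs₀1 a ha) ?_
    rw [LinearEquiv.finrank_map_eq, hA, LinearEquiv.finrank_map_eq]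
  have claim : ∀ w, S₂.B w₀ w = 0 → w ∉ F ∙ w₀ → S₂.Sing w → ∀ θ : U → U,
      (∀ u, cj g (h.nu w₀) (τ u w - τ (θ u) w₀) = 0) → ∃ a : U ≃ₗ[F] U, ∃ α β γ : F, β ≠ 0 ∧ γ ≠ 0 ∧
        (∀ u, θ u = β • a u) ∧ ∀ u, γ • a (θ u) = α • a u - u := by
    intro w hw1 hw2 hw θ hθ
    have h0' : w ≠ 0 := by rintro rfl; simp at hw2
    obtain ⟨s, hs, hs1, hs2⟩ := key hw h0' hw1
    have hδ1 : ∀ u, (s * s₀⁻¹) (τ u w₀) ∈ Bw τ w := fun u => by
      obtain ⟨a, ha, e⟩ : τ u w₀ ∈ A.map (s₀ : V →ₗ[F] V) := by rw [hs₀3]; exact ⟨u, rfl⟩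
      rw [← e]; simpa using hs1 a ha
    have hδ2 : ∀ u, (s * s₀⁻¹) (τ u w - τ (θ u) w₀) = τ u w - τ (θ u) w₀ := fun u => by
      have e0 := hs₀2 _ (hθ u) (by simp [S₂.B_comm_zero hw1, hw₀.B_self])
      have e1 := hs2 _ (hθ u) (by simp [hw.B_self, hw1])
      rw [LinearEquiv.mul_apply, LinearEquiv.coe_inv, (LinearEquiv.symm_apply_eq _).2 e0.symm, e1]
    obtain ⟨a, b, e⟩ := (H.move (by omega) hw₀ hw h0 h0' (M.mul_mem hs (M.inv_mem hs₀)) hδ1).2
    obtain ⟨u₀, hu₀⟩ := exists_ne (0 : U)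
    obtain ⟨u', hu'⟩ := hδ1 u₀
    rw [e] at hu'
    obtain ⟨γ, hγ⟩ := Submodule.mem_span_singleton.1
      (h.tens.flip.mem_span_of_eq (a := b w₀) (a' := w) (b := a u₀) (by simpa using hu₀) hu'.symm)
    have hγ0 : γ ≠ 0 := by rintro rfl; exact h0 (by simpa using hγ.symm)
    obtain ⟨φ, hφ1, hφ2⟩ := exists_dual_pair hw2
    obtain ⟨ψ, hψ1, hψ2⟩ := exists_dual_pair (F := F) (w := w) (y := w₀) fun hm => by
      obtain ⟨t, rfl⟩ := Submodule.mem_span_singleton.1 hm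
      have : t = 0 := by simpa [hφ1] using hφ2
      simp [this] at h0
    have k : ∀ u, τ (a u) (b w) - γ • τ (a (θ u)) w = τ u w - τ (θ u) w₀ := fun u => by
      rw [← hδ2, map_sub, e, e, ← hγ, map_smul]
    refine ⟨a, φ (b w), -ψ (b w), γ, fun e0 => ?_, hγ0, fun u => ?_, fun u => ?_⟩
    · have k1 := congrArg (h.tens.ctr ψ) (k u₀)
      simp [hψ1, hψ2, neg_eq_zero.1 e0] at k1
      have k2 := k u₀
      rw [k1] at k2
      obtain ⟨t, ht⟩ := Submodule.mem_span_singleton.1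
        (h.tens.flip.mem_span_of_eq (a := b w) (a' := w) (b := a u₀) (b' := u₀)
          (by simpa using hu₀) (by simpa using k2))
      refine hw2 (Submodule.mem_span_singleton.2 ⟨t / γ, b.injective ?_⟩)
      rw [map_smul, ← hγ, ← ht, smul_smul, div_mul_cancel₀ _ hγ0]
    · have k1 := congrArg (h.tens.ctr ψ) (k u)
      simp [hψ1, hψ2] at k1
      simp [k1]
    · have k1 := congrArg (h.tens.ctr φ) (k u)
      simp [hφ1, hφ2] at k1
      linear_combination (norm := module) -k1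
  choose θ hθ using fun u => hsurj (τ u w)
  obtain ⟨a, α, β, γ, hβ, hγ, e1, e2⟩ := claim w hw1 hw2 hw θ hθ
  obtain ⟨y, hy, t, ht⟩ := exists_eigen h3 (θ := (a : End F U)) (α := α / (γ * β))
    (β := -(γ * β)⁻¹) fun u => by
      have := e2 u
      rw [e1, map_smul, smul_smul] at this
      apply smul_right_injective U (mul_ne_zero hγ hβ)
      simp only [LinearEquiv.coe_coe, this, smul_add, smul_smul]
      field_simp
      module
  obtain ⟨a', -, β', -, hβ', -, e3, -⟩ := claim (w - (β * t) • w₀) (by simp [hw1, hw₀.B_self])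
    (fun hm => hw2 (by
      simpa using add_mem hm (Submodule.smul_mem _ (β * t) (Submodule.mem_span_singleton_self w₀))))
    (by rw [sub_eq_add_neg]; exact hw.add (hw₀.smul _).neg (by simp [S₂.B_comm_zero hw1]))
    (fun u => θ u - (β * t) • u) fun u => by rw [← hθ u]; congr 1; simp
  have := e3 y
  rw [e1, show a y = t • y from ht, smul_smul, sub_self, eq_comm] at this
  simp [hβ', hy] at this

end Cfsg.Agent.H3.TenGeo2
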