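import Cfsg.Agent.H3.TenSU
import Cfsg.Agent.H3.TenGeo2
import Cfsg.Agent.H6.SUThree

/-!
Tensor product subgroups of unitary groups: the small cases `2 ⊗ 3` and `3 ⊗ 4`.
-/

set_option autoImplicit false
set_option linter.unusedSectionVars false

namespace Cfsg.Agent.H3.TenSU2

open Module Cfsg.Agent.H7 Cfsg.Agent.Form Cfsg.Agent.H3.TenLin Cfsg.Agent.H3.RootGeo
  Cfsg.Agent.H3.TenForm Cfsg.Agent.H3.TenGeo Cfsg.Agent.H3.TenPar Cfsg.Agent.H3.TenGlue
  Cfsg.Agent.H3.TenGen Cfsg.Agent.H3.TenSU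

variable {F : Type*} [Field F] {V : Type*} [AddCommGroup V] [Module F V]
  {U : Type*} [AddCommGroup U] [Module F U] {W : Type*} [AddCommGroup W] [Module F W]
  [FiniteDimensional F U] [FiniteDimensional F W] [FiniteDimensional F V]
  {τ : U →ₗ[F] W →ₗ[F] V} {M T : Subgroup (V ≃ₗ[F] V)}

theorem det_inQ {P P₁ P₂ : FP F} {S₁ : PQ P₁ U} {S₂ : PQ P₂ W} {S : PQ P V} {h : TF S₁ S₂ S τ}
    [Nontrivial U] {w : W} {n : V ≃ₗ[F] V} (hn : InQ h w n) : LinearEquiv.det n = 1 := by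
  have h1 : IsNilpotent (1 - (n : End F V)) := ⟨3, LinearMap.ext fun v => by
    obtain ⟨u, hu⟩ := hn.sub (v - n v) (by simp [hn.cw_eq])
    have := hn.fix u
    rw [show τ u w = _ from hu] at this
    simp only [pow_succ, pow_zero, one_mul, End.mul_apply, LinearMap.sub_apply, End.one_apply,
      LinearEquiv.coe_coe, LinearMap.zero_apply, map_sub] at this ⊢
    linear_combination (norm := abel_nf) this⟩
  have h2 := LinearMap.eval_charpoly (1 - (n : End F V)) 1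
  rw [h1.charpoly_eq_X_pow_finrank] at h2
  simp at h2
  ext; simpa using h2.symm

variable {σ : F →+* F} {hσ : ∀ a, σ (σ a) = a} [Finite F] {S₁ : PQ (FP.unit σ hσ) U}
  {S₂ : PQ (FP.unit σ hσ) W} {S : PQ (FP.unit σ hσ) V}

theorem exists_perp_three (hS : S₂.Nondeg) (h3 : finrank F W = 3) {w : W} (h0 : w ≠ 0)
    (hw : S₂.B w w = 0) : ∃ w₁, S₂.B w₁ w = 0 ∧ S₂.B w₁ w₁ ≠ 0 ∧
      ∀ y, S₂.B y w = 0 → ∃ α β : F, y = α • w + β • w₁ := by
  have h1 := hS.finrank_perp (F ∙ w)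
  rw [finrank_span_singleton h0] at h1
  obtain ⟨w₁, hw₁, hw₁'⟩ := exists_mem_notMem_of_finrank_lt (U := S₂.perp (F ∙ w)) (W := F ∙ w) (by
    rw [finrank_span_singleton h0]; omega)
  have h2 : Submodule.span F {w, w₁} = S₂.perp (F ∙ w) := by
    refine Submodule.eq_of_le_of_finrank_le (Submodule.span_le.2 ?_) ?_
    · rintro _ (rfl | rfl)
      · exact S₂.mem_perp_span_singleton.2 hw
      · exact hw₁
    · have k := finrank_span_eq_card (LinearIndependent.pair_iff' h0 |>.2 fun a e =>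
        hw₁' (Submodule.mem_span_singleton.2 ⟨a, e⟩))
      rw [Matrix.range_cons_cons_empty] at k
      simp at k
      omega
  rw [S₂.mem_perp_span_singleton] at hw₁
  refine ⟨w₁, hw₁, fun e => hw₁' ?_, fun y hy => ?_⟩
  · rw [← hS.perp_perp (F ∙ w), ← h2, S₂.mem_perp_span]
    rintro _ (rfl | rfl) <;> assumption
  · obtain ⟨a, b, e⟩ := Submodule.mem_span_pair.1 (h2 ▸ S₂.mem_perp_span_singleton.2 hy)
    exact ⟨a, b, e.symm⟩

theorem par_three [Nontrivial U] (hne : ∃ a, σ a ≠ a) (h : TF S₁ S₂ S τ) (h3 : finrank F W = 3)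
    (hM : M ≤ sisom S) (hT : ∀ g ∈ sisom S, g ∈ TStab τ → g ∈ M) {w : W} (hw : S₂.Sing w)
    (h0 : w ≠ 0) (hQ : ∀ q ∈ M, InQ h w q → q ∈ TStab τ) {x : V ≃ₗ[F] V} (hx : x ∈ M)
    (hxw : ∀ u, x (τ u w) ∈ Bw τ w) : x ∈ TStab τ := by
  have hP := trP_unit σ hσ hne
  obtain ⟨a, ha⟩ := exists_of_map_Bw h.tens h0 h0 hxw
  obtain ⟨μ, hμ, hσμ, H⟩ := par_core hP (by omega)
    (fun g hg => bis_le_sim (isom_le_bis (hM hg).1)) (le_snd h hP hT) hw h0 hQ hx ha
  obtain ⟨w₁, h1, h2, h4⟩ := exists_perp_three h.nd₂ h3 h0 hw.B_self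
  obtain ⟨z, hz, hzz, ⟨θ, e⟩, -⟩ := H w₁ h1
  obtain ⟨s, rfl⟩ := exists_norm_eq σ hσ hne μ hσμ
  have hs : s ≠ 0 := left_ne_zero_of_mul hμ
  have hs' : σ s ≠ 0 := right_ne_zero_of_mul hμ
  have li : ∀ {w z : W}, w ≠ 0 → S₂.B w w = 0 → S₂.B z z ≠ 0 → LinearIndependent F ![w, z] :=
    fun h0 h1 h2 => (LinearIndependent.pair_iff' h0).2 fun a e => h2 (by simp [← e, h1])
  have k : S₂.B (s⁻¹ • z) (s⁻¹ • z) = S₂.B w₁ w₁ := by simp [hzz]; field_simp
  obtain ⟨b, hb, eb⟩ := h.nd₂.witt_family ![w, w₁] ![s⁻¹ • w, s⁻¹ • z] (li h0 hw.B_self h2)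
    (li (by simp [hs, h0]) (by simp [hw.B_self]) (by rwa [k])) (by
      simp [Fin.forall_fin_two, hw.B_self, h1, hz, S₂.B_comm_zero h1, S₂.B_comm_zero hz, -PQ.B_smul_right,
        -PQ.B_smul_left, k]
      simp [hw.B_self, hz, S₂.B_comm_zero hz]) (by
      simp only [Fin.forall_fin_two, PQ.unit_Q_sub_mem]
      exact ⟨by simp [hw.B_self], k⟩)
  have e1 : b w = s⁻¹ • w := eb 0
  have e2 : b w₁ = s⁻¹ • z := eb 1
  set t := h.tens.tcongr (a.trans (LinearEquiv.smulOfNeZero F U s hs)) b with ht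
  have et : ∀ u y, t (τ u y) = s • τ (a u) (b y) := fun u y => by simp [ht]
  have hti : t ∈ S.isom := hP.mem_isom S (h.tens_mem_bis (h.tens.tcongr_apply _ _) (fun u u' => by
    have := PQ.B_isom (hM hx).1 (τ u w₁) (τ u' w₁)
    simp [e, h.form, hz, S₂.B_comm_zero hz, hw.B_self, hzz] at this
    apply mul_right_cancel₀ h2
    simp [-mul_eq_mul_right_iff]
    linear_combination this) (isom_le_bis hb))
  have f1 : ∀ u, (t⁻¹ * x) (τ u w) = τ u w := fun u => by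
    rw [LinearEquiv.mul_apply, LinearEquiv.coe_inv, LinearEquiv.symm_apply_eq, ha, et, e1]
    simp [smul_smul, hs]
  have hn : InQ h w (t⁻¹ * x) := ⟨isom_le_bis (mul_mem (inv_mem hti) (hM hx).1), f1, fun v hv => by
    obtain ⟨y, hy⟩ := h.nd₂.exists_eq h0 1
    have := mem_of_cw h hy (A := (Bw τ w).comap (((t⁻¹ * x : V ≃ₗ[F] V) : End F V) - 1))
      (fun u y hy => by
        obtain ⟨α, β, rfl⟩ := h4 y hy
        refine ⟨β • a.symm (θ u), ?_⟩
        have : (t⁻¹ * x) (τ u w₁) = τ u w₁ + τ (a.symm (θ u)) w := by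
          rw [LinearEquiv.mul_apply, LinearEquiv.coe_inv, LinearEquiv.symm_apply_eq, e, map_add, et,
            et, e1, e2]
          simp [smul_smul, hs]
        simp only [LinearMap.sub_apply, LinearEquiv.coe_coe, map_add, map_smul, f1, this]
        simp) v
    simpa [hv] using this⟩
  have hd := det_inQ hn
  rw [map_mul, (mem_sisom.1 (hM hx)).2, mul_one, map_inv, inv_eq_one] at hd
  exact ((TStab τ).mul_mem_cancel_left (inv_mem (tcongr_mem _ _ _))).1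
    (hQ _ (mul_mem (inv_mem (hT t (mem_sisom.2 ⟨hti, hd⟩) (tcongr_mem _ _ _))) hx) hn)

theorem exists_eigen_skew (hne : ∃ a, σ a ≠ a) (hS : S₁.Nondeg) (h2 : finrank F U = 2)
    (hroot : ∀ p r : F, σ p = p → σ r = r → ∃ s, s ^ 2 + p * s + r = 0) {φ : End F U}
    (sk : ∀ a b, S₁.B (φ a) b + S₁.B a (φ b) = 0) : ∃ y ≠ 0, ∃ t : F, φ y = t • y := by
  obtain ⟨u, -, v, -, hu, hv, huv⟩ := H6.SU.exists_hyp_on hne (S₁.nondegOn_top.2 hS)
    (by rw [finrank_top]; omega)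
  have hvu : S₁.B v u = 1 := by rw [S₁.unit_B_swap, huv, map_one]
  have hd : ∀ x, x = S₁.B x v • u + S₁.B x u • v := fun x => by
    have h1 : Submodule.span F {u, v} = ⊤ := Submodule.eq_top_of_finrank_eq (by
      rw [S₁.finrank_span_pair_of_hyperbolic (H6.SU.sing hu) (by simp [huv]), h2])
    obtain ⟨a, b, rfl⟩ := Submodule.mem_span_pair.1 (h1 ▸ Submodule.mem_top (x := x))
    simp [hu, hv, huv, hvu]
  by_cases hc : S₁.B (φ u) u = 0
  · exact ⟨u, by rintro rfl; simp at huv, _, by simpa [hc] using hd (φ u)⟩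
  have k1 := sk u u
  have k2 := sk v v
  have k3 := sk v u
  rw [← H6.SU.Bs S₁ (φ _)] at k1 k2 k3
  obtain ⟨s, hs⟩ := hroot (S₁.B (φ u) v + σ (S₁.B (φ u) v)) (-(S₁.B (φ v) v * S₁.B (φ u) u))
    (by simp [hσ, add_comm]) (by
      rw [map_neg, map_mul, eq_neg_of_add_eq_zero_right k1, eq_neg_of_add_eq_zero_right k2]; ring)
  refine ⟨(s + S₁.B (φ u) v + σ (S₁.B (φ u) v)) • u + S₁.B (φ u) u • v, fun e => hc ?_,
    s + S₁.B (φ u) v, ?_⟩
  · simpa [hu, hvu] using congrArg (S₁.B · u) e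
  · rw [map_add, map_smul, map_smul]
    linear_combination (norm := module) (s + S₁.B (φ u) v + σ (S₁.B (φ u) v)) • hd (φ u) +
      S₁.B (φ u) u • hd (φ v) - hs • u + (S₁.B (φ u) u * k3) • v

theorem le_of_two_three [Nontrivial U] (hne : ∃ a, σ a ≠ a) {h : TF S₁ S₂ S τ} (H : Hyp h M T)
    (h2 : finrank F U = 2) (h3 : finrank F W = 3) (hM : M ≤ bis S)
    (hroot : ∀ p r : F, σ p = p → σ r = r → ∃ s, s ^ 2 + p * s + r = 0) {a : F} (ha : a ≠ 0)
    (ha1 : a ≠ 1) (hΛ : σ a = a) : M ≤ T := by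
  by_contra hle
  obtain ⟨w, -, h0, hw⟩ := H.trP.exists_sing_of_two_le S₂ ⊤ (by rw [finrank_top]; omega)
  obtain ⟨g, E⟩ := exists_ext hle (Bw τ w)
  obtain ⟨k, -, hk, c, -, hc, e⟩ := H.conj_R_not_mem E.mem E.not_mem hw h0
  refine hk (h.R_le H.sndT hw (frob_end (h.nu_ne_zero h0) H.trP.ex ha ha1 (fun c hc => by
    rw [FP.unit_mem] at hc ⊢; rw [map_mul, hΛ, ← mul_add, hc, mul_zero]) (fun δ hδ hst => ?_)
      (Subgroup.subset_closure ⟨c, hc, Or.inl e⟩)))
  obtain ⟨w₁, h1, h1', -⟩ := exists_perp_three h.nd₂ h3 h0 hw.B_self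
  obtain ⟨w', hw', hww⟩ := exists_sing_partner h.nd₂ hw h0
  refine (H.lemmaL E.mem hw h0 hw h0 (D := ⊥) (w₁ := 0) bot_ne_top
    (fun a ha hc => Submodule.mem_sup_left (H.ext_perp E hw h0 hw.B_self ha hc)) h1 (fun hm => by
      obtain ⟨s, t, rfl⟩ := Submodule.mem_span_pair.1 hm
      simp [hw.B_self] at h1') hδ fun u => by
      simpa [TF.nu_apply, hww, h.range_nu h0] using hst (τ u w')).elim id ?_
  rintro ⟨b, eb, y, hy, hle⟩
  have hrA : LinearMap.range (cj g (h.nu w)) = (Bw τ w).map (g : V →ₗ[F] V) := by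
    rw [range_cj, h.range_nu h0]
  have hne' := H.exists_cw_ne E.mem E.not_mem hw h0 hw h0
  have hperp : ∀ {y}, (Bw τ w).map (g : V →ₗ[F] V) ≤ Bw τ w ⊔ Bw τ y → S₂.B y w ≠ 0 := by
    intro y hle hy
    obtain ⟨u, hu⟩ := hne'
    obtain ⟨a, ha, b, hb, e⟩ := Submodule.mem_sup.1 (hle ⟨τ u w, ⟨u, rfl⟩, rfl⟩)
    apply hu
    rw [← LinearEquiv.coe_coe, ← e, map_add, h.cw_Bw hw.B_self ha, h.cw_Bw hy hb, add_zero]
  have hδb := (H.Gam_le E.mem hw hw hδ).2
  by_cases hd : ∃ u ≠ 0, τ u w ∈ (Bw τ w).map (g : V →ₗ[F] V)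
  · obtain ⟨u, hu0, hu⟩ := hd
    have hb : b w = w := by
      refine h.tens.flip.left_inj (b := u) hu0 ?_
      change τ u (b w) = τ u w
      rw [← eb]
      refine Gam_fix hδ ?_ (by simp [TF.nu_apply, hw.B_self])
      obtain ⟨v, hv⟩ : τ u w ∈ LinearMap.range (cj g (h.nu w)) := hrA ▸ hu
      rw [← hv]; exact cj_sq g (h.nu_sq hw) v
    refine h.mem_R_of H.trP hw h0 hδb eb fun y => by_contra fun hy => hperp (le_of_Bw_le h.tens ?_ h0 hy ?_) ?_
    · rw [LinearEquiv.finrank_map_eq, finrank_Bw h.tens h0]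
    · rintro _ ⟨u, rfl⟩
      have := Gam_sub_mem hδ (τ u y)
      rw [hrA, h.range_nu h0] at this
      simpa [eb] using this
    · rw [PQ.B_sub_left, ← h.snd_bis hδb eb y w, hb, sub_self]
  exfalso
  push Not at hd
  have hyw := hperp hle
  obtain ⟨r, hr⟩ := S₂.exists_sing_add hw (z := (S₂.B y w)⁻¹ • y) (by simp [hyw]) 0
  have hz := sing_of_zero_sub hr
  have hzw : S₂.B ((S₂.B y w)⁻¹ • y + r • w) w = 1 := by simp [hyw, hw.B_self]
  have hle' : ∀ u, ∃ x x', g (τ u w) = τ x w + τ x' ((S₂.B y w)⁻¹ • y + r • w) := fun u => by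
    obtain ⟨_, ⟨x, rfl⟩, _, ⟨x', rfl⟩, e⟩ := Submodule.mem_sup.1 (hle ⟨τ u w, ⟨u, rfl⟩, rfl⟩)
    refine ⟨x - (r * S₂.B y w) • x', S₂.B y w • x', ?_⟩
    rw [← LinearEquiv.coe_coe, ← e]
    simp [smul_smul, hyw, mul_comm]
  generalize (S₂.B y w)⁻¹ • y + r • w = z at *
  have hwz : S₂.B w z = 1 := by rw [S₂.unit_B_swap, hzw, map_one]
  have hdec : ∀ u, g (τ u w) = τ (h.cw z (g (τ u w))) w + τ (h.cw w (g (τ u w))) z := fun u => by
    obtain ⟨x, x', e⟩ := hle' u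
    simp [e, hzw, hwz, hw.B_self, hz.B_self]
  let π := LinearEquiv.ofInjectiveEndo (h.cw w ∘ₗ (g : V →ₗ[F] V) ∘ₗ τ.flip w) (by
    rw [injective_iff_map_eq_zero]
    intro u hu
    have hu : h.cw w (g (τ u w)) = 0 := hu
    have h4 := hdec u
    rw [hu, map_zero, LinearMap.zero_apply, add_zero] at h4
    by_cases h5 : h.cw z (g (τ u w)) = 0
    · rw [h5] at h4
      exact (h.tens.eq_zero (by simpa using h4)).resolve_right h0
    · exact (hd _ h5 ⟨τ u w, ⟨u, rfl⟩, h4⟩).elim)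
  let φ : End F U := h.cw z ∘ₗ (g : V →ₗ[F] V) ∘ₗ τ.flip w ∘ₗ (π.symm : End F U)
  have hφ : ∀ u, g (τ (π.symm u) w) = τ (φ u) w + τ u z := fun u => by
    rw [hdec]; congr 3; exact π.apply_symm_apply u
  obtain ⟨u, hu, t, ht⟩ := exists_eigen_skew hne h.nd₁ h2 hroot (φ := φ) fun a b => by
    have := hM E.mem (τ (π.symm a) w) (τ (π.symm b) w)
    rw [add_comm]
    simpa [hφ, h.form, hw.B_self, hz.B_self, hzw, hwz] using this
  obtain ⟨d, hd1, hd0, hds⟩ := H.trP.exists_sing_of_two_le S₂ (S₂.perp (F ∙ (t • w + z))) (by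
    have := h.nd₂.finrank_perp (F ∙ (t • w + z))
    have := finrank_span_singleton_le (F := F) (t • w + z)
    omega)
  have hd2 := S₂.B_comm_zero (S₂.mem_perp_span_singleton.1 hd1)
  obtain ⟨ρ, hρ, hρ1⟩ := exists_R_ne_one (h := h) H.trP hds hd0
  have hA : τ u (t • w + z) ∈ (Bw τ w).map (g : V →ₗ[F] V) :=
    ⟨_, ⟨π.symm u, rfl⟩, by simp [hφ, ht]⟩
  obtain ⟨x, hx⟩ := E.key' (h.R_le H.sndM hds hρ) (H.conj_not_mem E.mem E.not_mem hd0 hρ hρ1)
    (fun x hx ⟨u, e⟩ => by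
      by_cases h5 : u = 0
      · simp [← e, h5]
      · exact (hd u h5 (by rwa [← e] at hx)).elim) hA (by rwa [R_fix hρ (by rw [h.cw_apply, hd2, zero_smul])])
  have := congrArg (h.cw w) hx
  simp [hw.B_self, hzw] at this
  exact hu this.symm

theorem exists_triple (hσ : ∀ a, σ (σ a) = a) (hne : ∃ a, σ a ≠ a) :
    ∃ p : F, σ p ≠ p ∧ p + σ p ≠ 0 := by
  obtain ⟨θ, hθ⟩ := exists_trace_one σ hσ hne
  obtain ⟨l, hl0, hl⟩ := H6.SU.exists_tr_zero hne hσ
  by_cases h1 : σ θ = θ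
  · refine ⟨θ + l, fun e => ?_, by rw [map_add]; intro e; exact one_ne_zero (by
      linear_combination e - hθ - hl)⟩
    rw [map_add, h1, add_right_inj] at e
    exact hl0 (by rw [h1] at hθ; rw [e] at hl; linear_combination θ * hl - l * hθ)
  · exact ⟨θ, h1, by simp [hθ]⟩

theorem full_of_ctr (hne : ∃ a, σ a ≠ a) (hq : ∃ a, σ a = a ∧ a ≠ 0 ∧ a ≠ 1) (h : TF S₁ S₂ S τ)
    (h2 : 2 ≤ finrank F U) (h3 : 3 ≤ finrank F W)
    (hC : ∀ u w, S₁.Sing u → S₂.Sing w → Ctr S M (τ u w)) : H6.SU.Full S M ⊤ := by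
  have n₁ := S₁.nondegOn_top.2 h.nd₁
  have n₂ := S₂.nondegOn_top.2 h.nd₂
  obtain ⟨u, -, v, -, hu, hv, huv⟩ := H6.SU.exists_hyp_on hne n₁ (by rwa [finrank_top])
  obtain ⟨w, -, z, -, hw, hz, hwz⟩ := H6.SU.exists_hyp_on hne n₂ (by rw [finrank_top]; omega)
  have hvu : S₁.B v u = 1 := by rw [S₁.unit_B_swap, huv, map_one]
  have hzw : S₂.B z w = 1 := by rw [S₂.unit_B_swap, hwz, map_one]
  obtain ⟨y, -, hy, hyw, hyz⟩ := H6.SU.exists_nonsing_perp hne n₂ (by rwa [finrank_top]) trivial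
    trivial hw hz (by simp [hwz])
  obtain ⟨p, hp, hp'⟩ := exists_triple hσ hne
  obtain ⟨l, hl0, hl⟩ := H6.SU.exists_tr_zero hne hσ
  obtain ⟨γ, hγ⟩ := H6.SU.exists_norm_mul hne hσ (H6.SU.Bs S₂ y y) hy (c := -(p + σ p))
    (by simp [hσ, add_comm])
  have c1 := hC u w (H6.SU.sing hu) (H6.SU.sing hw)
  have c2 := hC v z (H6.SU.sing hv) (H6.SU.sing hz)
  have c3 := hC (l • u + v) (p • w + z + γ • y) (H6.SU.sing (by simp [hu, hv, huv, hvu, add_comm, hl]))
    (H6.SU.sing (by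
      simp [hw, hz, hwz, hzw, hyw, hyz, S₂.B_comm_zero hyw, S₂.B_comm_zero hyz]
      linear_combination hγ))
  have b12 : S.B (τ u w) (τ v z) = 1 := by simp [h.form, huv, hwz]
  have b31 : S.B (τ (l • u + v) (p • w + z + γ • y)) (τ u w) = 1 := by
    rw [h.form]; simp [hu, hvu, hw, hzw, hyw]
  have b32 : S.B (τ (l • u + v) (p • w + z + γ • y)) (τ v z) = l * p := by
    rw [h.form]; simp [hv, huv, hz, hwz, hyz]
  generalize τ (l • u + v) (p • w + z + γ • y) = x at *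
  have b11 := c1.1.B_self
  have b22 := c2.1.B_self
  have b21 : S.B (τ v z) (τ u w) = 1 := by rw [S.unit_B_swap, b12, map_one]
  set x' := x - (l * p) • τ u w - τ v z with hx'
  have k1 : S.B x' (τ u w) = 0 := by simp [hx', b31, b11, b21]
  have k2 : S.B x' (τ v z) = 0 := by simp [hx', b32, b22, b12]
  have k3 : S.B x' x' ≠ 0 := by
    have e1 := S.unit_B_swap x (τ u w)
    have e2 := S.unit_B_swap x (τ v z)
    rw [b31, map_one] at e1
    rw [b32, map_mul, eq_neg_of_add_eq_zero_right hl] at e2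
    intro e
    rw [hx', PQ.B_sub_right, PQ.B_sub_right, PQ.B_smul_right, ← hx', k1, k2] at e
    simp [hx', c3.1.B_self, e1, e2] at e
    exact mul_ne_zero hl0 (sub_ne_zero.2 hp) (by linear_combination e)
  have hx : x ∉ Submodule.span F {τ u w, τ v z} := fun hm => k3 (by
    obtain ⟨a, b, e⟩ := Submodule.mem_span_pair.1 (show x' ∈ _ from sub_mem (sub_mem hm
      (Submodule.smul_mem _ _ (Submodule.subset_span (by simp)))) (Submodule.subset_span (by simp)))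
    conv_lhs => rhs; rw [← e]
    simp [k1, k2])
  have hN : S.NondegOn (Submodule.span F {τ u w, τ v z} ⊔ F ∙ x') :=
    (S.nondegOn_span_pair c1.1 c2.1 (by simp [b12])).sup (S.nondegOn_span_singleton k3) (by
      rw [Submodule.span_singleton_le_iff_mem, S.mem_perp_span]
      rintro _ (rfl | rfl) <;> assumption)
  have m1 : τ u w ∈ Submodule.span F {τ u w, τ v z} ⊔ F ∙ x' :=
    Submodule.mem_sup_left (Submodule.subset_span (by simp))
  have m2 : τ v z ∈ Submodule.span F {τ u w, τ v z} ⊔ F ∙ x' :=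
    Submodule.mem_sup_left (Submodule.subset_span (by simp))
  have m3 : x ∈ Submodule.span F {τ u w, τ v z} ⊔ F ∙ x' := by
    simpa [hx'] using add_mem (add_mem (Submodule.mem_sup_right (Submodule.mem_span_singleton_self x'))
      m2) (Submodule.smul_mem _ (l * p) m1)
  have hd : finrank F (Submodule.span F {τ u w, τ v z} ⊔ F ∙ x' : Submodule F V) = 3 := by
    have e1 := S.finrank_span_pair_of_hyperbolic c1.1 (w := τ v z) (by simp [b12])
    have e2 := finrank_sup_span_le (Submodule.span F {τ u w, τ v z}) x'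
    have e3 := Submodule.finrank_lt_finrank_of_lt
      (lt_of_le_of_ne (le_sup_left (a := Submodule.span F {τ u w, τ v z}) (b := F ∙ x'))
        fun e => hx (by rw [e]; exact m3))
    omega
  obtain ⟨Y, hY1, hY2, hY3⟩ := H6.SU.core hne hN hd.ge
    ((H6.SU.full_three hne hN hd m1 m2 m3 c1 c2 c3 (by simp [b12]) hx).ef hne hq hN)
  have key : ∀ a b, S₁.B a a = 0 → S₂.B b b = 0 → τ a b ∈ Y := fun a b ha hb => by
    by_cases h0 : a = 0 ∨ b = 0
    · rcases h0 with rfl | rfl <;> simp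
    push Not at h0
    obtain ⟨a', -, h1, h4, h5⟩ := H6.SU.exists_sing_on hne n₁ (by rwa [finrank_top])
      (H6.SU.notMem_perp n₁ trivial h0.1) (H6.SU.notMem_perp n₁ trivial (x := u) (by
        rintro rfl; simp at huv))
    obtain ⟨b', -, h6, h7, h8⟩ := H6.SU.exists_sing_on hne n₂ (by rw [finrank_top]; omega)
      (H6.SU.notMem_perp n₂ trivial h0.2) (H6.SU.notMem_perp n₂ trivial (x := w) (by
        rintro rfl; simp at hwz))
    have := (hY3 _ (hC a' b' (H6.SU.sing h1) (H6.SU.sing h6))).resolve_right fun e =>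
      mul_ne_zero h5 h8 (by rw [← h.form]; exact S.B_comm_zero (e _ (hY1 m1)))
    exact (hY3 _ (hC a b (H6.SU.sing ha) (H6.SU.sing hb))).resolve_right fun e =>
      mul_ne_zero h4 h7 (by rw [← h.form]; exact e _ this)
  refine hY2.mono fun x _ => h.tens.induction x (zero_mem _) (fun a b => ?_) fun _ _ => add_mem
  exact H6.SU.le_of_sing hne n₁ (by rwa [finrank_top]) (A := Y.comap (τ.flip b)) (fun a _ ha =>
    H6.SU.le_of_sing hne n₂ (by rw [finrank_top]; omega) (A := Y.comap (τ a))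
      (fun b _ hb => key a b ha hb) (Submodule.mem_top (x := b))) (Submodule.mem_top (x := a))

theorem su_tensor' (hne : ∃ a, σ a ≠ a) (h : TF S₁ S₂ S τ) (h2 : 2 ≤ finrank F U)
    (hlt : finrank F U < finrank F W) (hU : 3 ≤ finrank F U ∨ ∃ a, σ a = a ∧ a ≠ 0 ∧ a ≠ 1)
    (hroot : ∀ p r : F, σ p = p → σ r = r → ∃ s, s ^ 2 + p * s + r = 0)
    (hM : M ≤ sisom S) (hT : ∀ g ∈ sisom S, g ∈ TStab τ → g ∈ M) :
    (∀ g ∈ M, g ∈ TStab τ) ∨ sisom S ≤ M := by
  have : Nontrivial U := Module.nontrivial_of_finrank_pos (R := F) (by omega)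
  have hP := trP_unit σ hσ hne
  by_cases hW : 5 ≤ finrank F W ∨ 4 ≤ finrank F W ∧ ∃ a, σ a = a ∧ a ≠ 0 ∧ a ≠ 1
  · exact su_tensor hne h h2 hlt hW hU hM hT
  refine or_iff_not_imp_left.2 fun hn => ?_
  have hsim : M ≤ sim S := fun g hg => bis_le_sim (isom_le_bis (hM hg).1)
  have hM₂ := le_snd h hP hT
  obtain ⟨w, hw, h0, q, hq, hQ, hqT⟩ : ∃ w, S₂.Sing w ∧ w ≠ 0 ∧ ∃ q ∈ M, InQ h w q ∧ q ∉ TStab τ := by
    by_contra hc
    push Not at hc
    have H := hyp_of (h := h) hP (by omega) hsim hM₂ (fun w hw h0 x hx e => by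
      by_cases h4 : 4 ≤ finrank F W
      · exact parabolic hP h4 hsim hM₂ hc hw h0 hx e
      · exact par_three hne h (by omega) hM hT hw h0 (hc w hw h0) hx e)
      (fun w hw h0 g _ ρ hρ _ hT => fus_of_lt hlt hρ hT)
    rcases hU with h3 | ⟨a, ha⟩
    · exact hn (TenGeo2.le_of_three H (by omega) (by omega))
    · exact hn (le_of_two_three hne H (by by_contra; exact hW (Or.inr ⟨by omega, a, ha⟩))
        (by by_contra; exact hW (Or.inr ⟨by omega, a, ha⟩)) (fun g hg => isom_le_bis (hM hg).1) hroot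
        ha.2.1 ha.2.2 ha.1)
  have hC := ctr_of_inQ hne h h2 (by omega) hU hM hT hw h0 hq hQ hqT
  have h4 : 4 ≤ finrank F V := by rw [h.tens.finrank_eq]; nlinarith
  rcases hU with h3 | hq
  · obtain ⟨u, -, hu0, hu⟩ := hP.exists_sing_of_two_le S₁ ⊤ (by rwa [finrank_top])
    exact hP.sisom_le_of_all_ctr h.nd (Or.inl h4)
      (ctr_all h hP hP (Or.inl (by omega)) (by omega) hC hu hu0)
  · exact (full_of_ctr hne hq h h2 (by omega) hC).sisom_le hne h.nd h4

section geo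
omit [Finite F]
variable [Fintype F] {q : ℕ} (hF : Fintype.card F = q ^ 2)

open Polynomial in
include hF in
theorem exists_root (a r : F) (ha : a ^ q = a) (hr : r ^ q = r) : ∃ s, s ^ 2 + a * s + r = 0 := by
  obtain ⟨p, k, hp, hc, -, rfl⟩ := exists_prime_pow_of_card_sq hF
  have := Fact.mk hp
  let K := AlgebraicClosure F
  let i := algebraMap F K
  obtain ⟨s, hs⟩ := IsAlgClosed.exists_root (C 1 * X ^ 2 + C (i a) * X + C (i r))
    (by rw [degree_quadratic one_ne_zero]; simp)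
  simp only [IsRoot.def, eval_add, eval_mul, eval_C, eval_pow, eval_X, one_mul] at hs
  have h1 : (s ^ p ^ k) ^ 2 + i a * s ^ p ^ k + i r = 0 := by
    have := congrArg (· ^ p ^ k) hs
    simp only [add_pow_char_pow, mul_pow, ← map_pow, ha, hr] at this
    rw [← pow_mul, mul_comm, pow_mul, this, zero_pow (pow_ne_zero _ hp.ne_zero)]
  have h2 : (s ^ p ^ k) ^ p ^ k = s := by
    rcases mul_eq_zero.1 (show (s ^ p ^ k - s) * (s ^ p ^ k + (s + i a)) = 0 by
      linear_combination h1 - hs) with e | e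
    · rw [sub_eq_zero.1 e, sub_eq_zero.1 e]
    · have := congrArg (· ^ p ^ k) e
      simp only [add_pow_char_pow, ← map_pow, ha, zero_pow (pow_ne_zero _ hp.ne_zero)] at this
      linear_combination this - e
  obtain ⟨t, rfl⟩ := Splits.mem_range_of_isRoot (f := (X ^ Fintype.card F - X : F[X]))
    (splits_iff_card_roots.2 (by
      rw [FiniteField.roots_X_pow_card_sub_X,
        FiniteField.X_pow_card_sub_X_natDegree_eq F Fintype.one_lt_card]; rfl))
    (FiniteField.X_pow_card_sub_X_ne_zero F Fintype.one_lt_card) (i := i) (x := s) (by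
      simp [hF, sq, pow_mul, h2])
  exact ⟨t, i.injective (by simpa using hs)⟩

include hF in
/-- `GU_{n₁} ∘ GU_{n₂}` is maximal in `SU`, sharp range. -/
theorem isMaximalIn_SU' {n n₁ n₂ : ℕ} (h1 : 2 ≤ n₁) (h12 : n₁ < n₂) (hex : ¬ (n₁ = 2 ∧ q = 2))
    (e : Fin n ≃ Fin n₁ × Fin n₂) (P : GL (Fin n) F)
    (f₁ : (Fin n₁ → F) → (Fin n₁ → F) → F) (f₂ : (Fin n₂ → F) → (Fin n₂ → F) → F)
    (hf₁ : Geo.IsUnitaryFormPow q f₁) (hf₂ : Geo.IsUnitaryFormPow q f₂)
    (hT : Geo.IsTensorFormStructure (fun x : F => x ^ q) (hermForm n F q) f₁ f₂ e P) :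
    Geo.IsMaximalIn (GU n F q ⊓ Geo.specialLinear (Fin n) F)
      (Geo.tensorProductSubgroup n₁ n₂ e P ⊓ (GU n F q ⊓ Geo.specialLinear (Fin n) F)) := by
  obtain ⟨S₁, S₂, h⟩ := exists_TF hF (by omega) (by omega) hf₁ hf₂ hT
  have hn : n = n₁ * n₂ := by simpa using Fintype.card_congr e
  refine H6.SU.max_of hF _ (mem_tensorProductSubgroup_iff' e P)
    (SU_not_le_tensorProductSubgroup hF (by nlinarith) h1 (by omega) e P) fun M h1 h2 =>
    su_tensor' (H6.SU.std_ne hF) h (by simpa) (by simpa) ?_ (exists_root hF) h1 h2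
  by_cases h3 : 3 ≤ n₁
  · exact Or.inl (by simpa)
  · exact Or.inr (exists_real hF fun e => hex ⟨by omega, e⟩)

end geo

end Cfsg.Agent.H3.TenSU2
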