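import Cfsg.Agent.H3.TenSpO1

/-!
`O ⊗ Sp` in `Sp`: the case of a two-dimensional symplectic factor.
-/

set_option autoImplicit false
set_option linter.unusedSectionVars false

namespace Cfsg.Agent.H3.TenSpO2

open Module Cfsg.Agent.H7 Cfsg.Agent.Form Cfsg.Agent.H3.TenLin Cfsg.Agent.H3.RootGeo
  Cfsg.Agent.H3.TenForm Cfsg.Agent.H3.TenGeo Cfsg.Agent.H3.TenPar Cfsg.Agent.H3.TenGlue
  Cfsg.Agent.H3.TenSU Cfsg.Agent.H3.OrthLem Cfsg.Agent.H3.TenSpO1

variable {F : Type*} [Field F] {V : Type*} [AddCommGroup V] [Module F V]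
  {U : Type*} [AddCommGroup U] [Module F U] {W : Type*} [AddCommGroup W] [Module F W]
  {τ : U →ₗ[F] W →ₗ[F] V} {M : Subgroup (V ≃ₗ[F] V)}
  [FiniteDimensional F U] [FiniteDimensional F W] [FiniteDimensional F V]

section gen
variable {P P₁ P₂ : FP F} {S₁ : PQ P₁ U} {S₂ : PQ P₂ W} {S : PQ P V}

theorem exists_smul_of_perp (hS : S₂.Nondeg) (hW : finrank F W = 2) {w y : W} (h0 : w ≠ 0)
    (hw : S₂.B w w = 0) (hy : S₂.B y w = 0) : ∃ t : F, t • w = y := by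
  have e1 : S₂.perp (F ∙ w) = F ∙ w := (Submodule.eq_of_le_of_finrank_le (by
    rwa [Submodule.span_singleton_le_iff_mem, S₂.mem_perp_span_singleton]) (by
    have := hS.finrank_perp (F ∙ w)
    rw [finrank_span_singleton h0] at *
    omega)).symm
  exact Submodule.mem_span_singleton.1 (e1 ▸ S₂.mem_perp_span_singleton.2 hy)

theorem mem_Bw_two (h : TF S₁ S₂ S τ) (hW : finrank F W = 2) {w : W} (h0 : w ≠ 0)
    (hw : S₂.B w w = 0) {v : V} (hv : h.cw w v = 0) : v ∈ Bw τ w :=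
  h.mem_Bw_of_cw h0 fun y hy => by
    obtain ⟨t, rfl⟩ := exists_smul_of_perp h.nd₂ hW h0 hw (S₂.B_comm_zero hy)
    rw [h.cw_smul, hv, smul_zero]

theorem snd_of_fix (h : IsTens τ) {w : W} (h0 : w ≠ 0) {q : V ≃ₗ[F] V} (hq : q ∈ TStab τ)
    (e : ∀ u, q (τ u w) = τ u w) : ∃ b : W ≃ₗ[F] W, ∀ u y, q (τ u y) = τ u (b y) := by
  obtain ⟨ψ, hψ, -⟩ := exists_dual_one (W := (⊥ : Submodule F W)) (x := w) (by simpa using h0)
  exact exists_snd_of h hq hψ fun u => by simp [e]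

/-- An element fixing `U ⊗ ⟨z, z'⟩` pointwise. -/
theorem mem_TStab_of_fix [Nontrivial U] (h : TF S₁ S₂ S τ) (h3 : 3 ≤ finrank F W) (hM : M ≤ bis S)
    (hM₂ : sisom S₂ ≤ snd τ M) {z z' : W} (hz : S₂.Sing z) (hzz : S₂.B z' z = 1)
    (hQ : ∀ q ∈ M, InQ h z q → q ∈ TStab τ) {γ : V ≃ₗ[F] V} (hγ : γ ∈ M)
    (h1 : ∀ u, γ (τ u z) = τ u z) (h2 : ∀ u, γ (τ u z') = τ u z') : γ ∈ TStab τ := by
  have h0 : z ≠ 0 := by rintro rfl; simp at hzz
  have hs := bis_le_sim (hM hγ)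
  have hzz' : S₂.B z z' = P₂.ε := by rw [S₂.B_swap, hzz]; simp
  have key : ∀ y, S₂.B y z = 0 → S₂.B y z' = 0 → ∃ y', ∀ u, γ (τ u y) = τ u y' := by
    intro y hy hy'
    obtain ⟨e, he, -, heQ, ee⟩ := exists_eich (h := h) hM₂ hz hy
    have hQ1 := heQ.conj h0 hs (fun u => ⟨u, (h1 u).symm⟩)
    obtain ⟨y', -, ey⟩ := hQ1.exists_of_scalar h0 fun y hy => hQ1.scalar_of_TStab h3 h0
      (hQ _ (M.mul_mem (M.mul_mem hγ he) (M.inv_mem hγ)) hQ1) hy
    refine ⟨y' - (P₂.ε * S₂.B y' z') • z, fun u => ?_⟩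
    obtain ⟨u', hu'⟩ := h.mem_Bw_of_cw h0 (v := γ (τ u y) - τ u y') fun x hx =>
      h.cw_eq_zero_iff.2 fun u' => S.B_comm_zero (by
        have hv : h.cw z (τ u' x) = 0 := by simp [S₂.B_comm_zero hx]
        have h3 := ey _ hv
        have h4 : h.cw z (γ.symm (τ u' x)) = 0 :=
          (h.cw_stab h0 h0 hs fun u => ⟨u, (h1 u).symm⟩).1 (by simpa using hv)
        simp only [LinearEquiv.mul_apply, LinearEquiv.coe_inv, ee, h4, smul_zero, sub_zero, map_zero,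
          LinearMap.zero_apply, map_add, LinearEquiv.apply_symm_apply, h1, add_right_inj] at h3
        rw [PQ.B_sub_right, ← γ.apply_symm_apply (τ u' x), hM hγ, h.B_tmul,
          eq_of_tmul_eq h.tens h0 h3, ← h.B_tmul, γ.apply_symm_apply, sub_self])
    have h3 : h.cw z' (γ (τ u y)) = 0 := h.cw_eq_zero_iff.2 fun u' => by
      rw [← h2, hM hγ, h.form, hy', mul_zero]
    have h4 := congrArg (h.cw z') hu'
    simp only [LinearMap.flip_apply, TF.cw_apply, map_sub, h3, hzz'] at hu' h4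
    have h5 : u' = -(P₂.ε * S₂.B y' z') • u := by
      rw [← one_smul F u', ← P₂.εε, mul_smul, h4]; module
    rw [eq_add_of_sub_eq hu'.symm, h5]; simp; abel
  refine mem_TStab_of h.tens 1 fun y => ?_
  obtain ⟨y', e⟩ := key (y - S₂.B y z • z' - (P₂.ε * (S₂.B y z' - S₂.B y z * S₂.B z' z')) • z)
    (by simp [hzz, hz.B_self]) (by
      simp [hzz']; linear_combination -(S₂.B y z' - S₂.B y z * S₂.B z' z') * P₂.εε)
  refine ⟨y' + S₂.B y z • z' + (P₂.ε * (S₂.B y z' - S₂.B y z * S₂.B z' z')) • z, fun u => ?_⟩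
  have := e u
  simp only [map_sub, map_smul, h1, h2] at this
  simp [← this]; abel

end gen

variable {S₁ : PQ (FP.orth F) U} {S₂ : PQ (FP.symp F) W} {S : PQ (FP.symp F) V}

/-- The parabolic analysis for a two-dimensional symplectic factor. -/
theorem par_two [Nontrivial U] (h : TF S₁ S₂ S τ) (hW : finrank F W = 2) (hM : M ≤ S.isom)
    (hT : ∀ g ∈ S.isom, g ∈ TStab τ → g ∈ M) {w : W} (h0 : w ≠ 0)
    (hQ : ∀ q ∈ M, InQ h w q → q ∈ TStab τ) {x : V ≃ₗ[F] V} (hx : x ∈ M)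
    (hxw : ∀ u, x (τ u w) ∈ Bw τ w) : x ∈ TStab τ := by
  have hw := S₂.symp_sing w
  obtain ⟨a, ha⟩ := exists_of_map_Bw h.tens h0 h0 hxw
  have hρ := rootE_mem (hν := h.nu_sq hw) (Λ := (FP.symp F).Λ) (c := 1) trivial
  have hq := (InQ.mk (h := h) (w := w) (h.R_le_bis hw hρ) (fun u => R_fix (hw := hw) hρ (by simp))
    fun v hv => by rw [R_fix (hw := hw) hρ hv]; simp).conj h0 (isom_le_sim hM hx) hxw
  obtain ⟨b, eb⟩ := snd_of_fix h.tens h0 (hQ _ (M.mul_mem (M.mul_mem hx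
    (h.R_le (le_snd₂ h hT) hw hρ)) (M.inv_mem hx)) hq) hq.fix
  obtain ⟨u₀, hu₀⟩ := exists_ne (0 : U)
  obtain ⟨c, -, ec⟩ := h.mem_R_of trP_symp hw h0 hq.bis eb fun y =>
    h.tens.flip.mem_span_of_eq (a' := w) (b' := a (h.cw w (x.symm (τ u₀ y)))) hu₀ (by
      simp [← eb, TF.nu_apply, ha])
  have e1 : ∀ v, a (h.cw w v) = c • h.cw w (x v) := fun v => eq_of_tmul_eq h.tens h0 (by
    simpa [TF.nu_apply, ha] using ec (x v))
  obtain ⟨z, hz⟩ := h.nd₂.exists_eq h0 1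
  have hc : c ≠ 0 := by
    rintro rfl
    simpa [hz, hu₀] using e1 (τ u₀ z)
  have e2 : ∀ u u', S₁.B (a u) (a u') = c * S₁.B u u' := fun u u' => by
    have := PQ.B_isom (hM hx) (τ u z) (τ u' w)
    have h1 := e1 (τ u z)
    rw [ha, h.B_tmul, h.form, hz] at this
    rw [h.cw_apply, hz, one_smul] at h1
    rw [h1, PQ.B_smul_left, this, mul_one]
  obtain ⟨b, -, eb⟩ := exists_dilat (φ := (c⁻¹ - 1) • S₂.lin w) (v := z) (by simpa [hz] using hc)
  have e3 : ∀ y y', S₂.B (b y) (b y') = c⁻¹ * S₂.B y y' := fun y y' => by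
    obtain ⟨s, hs⟩ := exists_smul_of_perp h.nd₂ hW h0 (sB_self w) (y := y - S₂.B y w • z) (by simp [hz])
    obtain ⟨t, ht⟩ := exists_smul_of_perp h.nd₂ hW h0 (sB_self w) (y := y' - S₂.B y' w • z) (by simp [hz])
    rw [eq_add_of_sub_eq hs.symm, eq_add_of_sub_eq ht.symm]
    simp [eb, hz, sB_swap z w]; ring
  have ht : h.tens.tcongr a b ∈ S.isom := (S.symp_mem_isom _).2 fun x y => by
    rw [h.mem_bis_of (m := 1) fun _ _ _ _ => by
      simp only [IsTens.tcongr_apply, h.form, e2, e3]; field_simp, one_mul]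
  have e4 : ∀ u, ((h.tens.tcongr a b)⁻¹ * x) (τ u w) = τ u w := fun u => by
    rw [LinearEquiv.mul_apply, LinearEquiv.coe_inv, LinearEquiv.symm_apply_eq, ha]; simp [eb]
  refine ((TStab τ).mul_mem_cancel_left ((TStab τ).inv_mem (tcongr_mem h.tens a b))).1 (hQ _
    (M.mul_mem (M.inv_mem (hT _ ht (tcongr_mem _ _ _))) hx)
    ⟨isom_le_bis (mul_mem (inv_mem ht) (hM hx)), e4, fun v hv => ?_⟩)
  obtain ⟨u, rfl⟩ := mem_Bw_two h hW h0 (sB_self w) hv
  simp only [LinearMap.flip_apply, e4, sub_self, zero_mem]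

theorem rf_tens (h : TF S₁ S₂ S τ) {u : U} (hu : S₁.Q u ≠ 0) (v : V) :
    h.tens.tcongr (rf S₁ hu) 1 v = v - (S₁.Q u)⁻¹ • τ u (h.flip.cw u v) :=
  h.tens.flip.induction v (by simp) (fun y x => by
    rw [h.flip.cw_apply]; simp [div_eq_inv_mul, mul_smul]) (fun _ _ h1 h2 => by
    simp only [map_add, h1, h2, smul_add]; abel)

theorem comm_rf (h : TF S₁ S₂ S τ) (hlt : finrank F W < finrank F U) {u : U} (hu : S₁.Q u ≠ 0)
    {g : V ≃ₗ[F] V} (hT : g⁻¹ * h.tens.tcongr (rf S₁ hu) 1 * g ∈ TStab τ) (w : W) (v : V) :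
    h.tens.tcongr (rf S₁ hu) 1 (cj g (h.nu w) v) = cj g (h.nu w) (h.tens.tcongr (rf S₁ hu) 1 v) := by
  obtain ⟨a, e⟩ := TenSL.exists_of_fix h.tens.flip (TStab_flip τ ▸ hT) hlt
    (h.flip.cw u ∘ₗ (g : V →ₗ[F] V)) fun v hv => by
      have hv : h.flip.cw u (g v) = 0 := hv
      simp [rf_tens h, hv]
  simp only [LinearMap.flip_apply] at e
  set r := g⁻¹ * h.tens.tcongr (rf S₁ hu) 1 * g with hr
  have : ∀ v, r (h.nu w v) = h.nu w (r v) := fun v => h.tens.induction v (by simp)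
    (fun _ _ => by simp [TF.nu_apply, e]) (fun _ _ h1 h2 => by simp only [map_add, h1, h2])
  simpa [hr] using congrArg g (this (g.symm v))

theorem exists_beta (h : TF S₁ S₂ S τ) (h2 : (2 : F) ≠ 0) {H : Submodule F U} (hH : S₁.NondegOn H)
    (hdim : 3 ≤ finrank F H) {μ : End F V} (sk : ∀ x y, S.B (μ x) y = -1 * S.B x (μ y))
    (hc : ∀ u ∈ H, ∀ hu : S₁.Q u ≠ 0, ∀ v,
      h.tens.tcongr (rf S₁ hu) 1 (μ v) = μ (h.tens.tcongr (rf S₁ hu) 1 v)) :
    ∃ β : End F W, ∀ u ∈ H, ∀ y, μ (τ u y) = τ u (β y) := by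
  have k1 : ∀ u ∈ H, S₁.Q u ≠ 0 → ∃ β : End F W, ∀ y, μ (τ u y) = τ u (β y) := fun u hu hQ => by
    refine ⟨(2 * S₁.Q u)⁻¹ • h.flip.cw u ∘ₗ μ ∘ₗ τ u, fun y => ?_⟩
    have := hc u hu hQ (τ u y)
    rw [rf_tens h, h.tens.tcongr_apply, rf_self] at this
    apply smul_right_injective V h2
    simp [smul_smul, mul_left_comm (2 : F), h2] at this ⊢
    linear_combination (norm := module) this
  have k2 : ∀ {u v : U} {β β' : End F W}, S₁.B u v ≠ 0 → (∀ y, μ (τ u y) = τ u (β y)) →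
      (∀ y, μ (τ v y) = τ v (β' y)) → ∀ y y', S₂.B (β y) y' = -S₂.B y (β' y') := by
    intro u v β β' huv e e' y y'
    have := sk (τ u y) (τ v y')
    rw [e, e', h.form, h.form] at this
    exact mul_left_cancel₀ huv (by linear_combination this)
  obtain ⟨u₀, hu₀, hQ⟩ := H9.FClass.exists_Q_ne_zero hH (by rintro rfl; simp at hdim)
  obtain ⟨β, e⟩ := k1 u₀ hu₀ hQ
  let Y : Submodule F U :=
    { carrier := {u | u ∈ H ∧ ∀ y, μ (τ u y) = τ u (β y)}
      add_mem' := fun h h' => ⟨add_mem h.1 h'.1, fun y => by simp [h.2 y, h'.2 y]⟩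
      zero_mem' := ⟨zero_mem _, by simp⟩
      smul_mem' := fun c _ h => ⟨H.smul_mem c h.1, fun y => by simp [h.2 y]⟩ }
  refine ⟨β, fun u hu => (irred h2 hH (Y := Y) (fun _ h => h.1) (fun e0 => ?_) (fun v hv hQv => ?_)
    (Or.inl hdim) hu).2⟩
  · have : u₀ ∈ Y := ⟨hu₀, e⟩
    rw [e0, Submodule.mem_bot] at this
    exact hQ (this ▸ S₁.orth_Q_zero)
  · refine or_iff_not_imp_right.2 fun hn => ⟨hv, fun y => ?_⟩
    obtain ⟨x, hx, hxv⟩ : ∃ x ∈ Y, S₁.B x v ≠ 0 := by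
      by_contra hc; push Not at hc; exact hn (S₁.mem_perp'.2 hc)
    obtain ⟨β', e'⟩ := k1 v hv hQv
    rw [e']; congr 1
    refine h.nd₂.ext_right fun y' => neg_injective ?_
    rw [← k2 hxv hx.2 e', k2 (B_self_ne h2 hQ) e e]

/-- No new elements in the unipotent radical attached to a singular vector of `U`. -/
theorem inQ_flip [Nontrivial U] (h : TF S₁ S₂ S τ) (h2 : (2 : F) ≠ 0) (hU : 2 ≤ finrank F U)
    (hW : finrank F W = 2) (hM : M ≤ S.isom) (hT : ∀ g ∈ S.isom, g ∈ TStab τ → g ∈ M)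
    (stab : ∀ w, w ≠ 0 → ∀ x ∈ M, (∀ u, x (τ u w) ∈ Bw τ w) → x ∈ TStab τ) {z : U} (hz : S₁.Sing z)
    (h0 : z ≠ 0) {q : V ≃ₗ[F] V} (hq : q ∈ M) (hQ : InQ h.flip z q) : q ∈ TStab τ.flip := by
  have : Nontrivial W := Module.nontrivial_of_finrank_pos (R := F) (by omega)
  by_contra hqT
  obtain ⟨X, hX, hX0⟩ : ∃ X ∈ Zs h.flip M hz.B_self, X ≠ 0 := by
    rcases exists_Z_or_eta (le_snd₁ h hT) hz h0 hq hQ hqT with ⟨X, hX, hn⟩ | ⟨y, hy, η, e, hη⟩
    · exact ⟨X, hX, by simpa using hn 0⟩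
    refine ⟨_, hasQ_eta (le_snd₁ h hT) hz hy hq hQ e, fun e0 => ?_⟩
    obtain ⟨c, hc⟩ := scalar_of_forall_mem_span η fun w => by
      by_cases hw : w = 0
      · simp [hw]
      refine Submodule.mem_span_singleton.2 (exists_smul_of_perp h.nd₂ hW hw (sB_self w)
        (mul_left_cancel₀ h2 ?_))
      have := B_adj h.nd₂ η w w
      rw [show adj h.nd₂ η = η by simpa [sub_eq_zero] using e0, sB_swap] at this
      linear_combination -this
    exact hη c (LinearMap.ext hc)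
  have sk := adj_of_hasQ (isom_le_sim hM) hz.B_self h0 hX
  simp only [FP.orth_ε, one_mul] at sk
  obtain ⟨w, hw⟩ : ∃ w, S₂.B (X w) w ≠ 0 := by
    by_contra hc
    push Not at hc
    refine hX0 (LinearMap.ext fun a => h.nd₂ _ fun b => mul_left_cancel₀ h2 ?_)
    have := hc (a + b)
    simp only [map_add, PQ.B_add_left, PQ.B_add_right, hc] at this
    linear_combination this + sk a b - sB_swap (S := S₂) (X b) a
  have hw0 : w ≠ 0 := by rintro rfl; simp at hw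
  have k : ∀ c, cj (tv S₂ w c) X ∈ Zs h.flip M hz.B_self := fun c =>
    Zs_conj hX (tc_mem h hT (one_mem _) (tv_mem w c)) fun y u => h.tens.tcongr_apply _ _ u y
  obtain ⟨t, ht, e⟩ : (-(2 * S₂.B (X w) w)) • rk S₂ w w ∈ Zs h.flip M hz.B_self := by
    convert sub_mem (sub_mem (add_mem (k 1) (k (-1))) hX) hX using 1
    ext y
    simp [← LinearEquiv.coe_inv, tv_inv]
    module
  refine h.tens.not_mem_TStab hU hW.ge (φ := (-(2 * S₂.B (X w) w)) • S.lin (τ z w))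
    (smul_ne_zero (by simp [h2, hw]) (lin_ne_zero h.nd (h.tens.ne_zero h0 hw0)))
    (h.tens.ne_zero h0 hw0) (g := t) (fun v => ?_) (stab w hw0 t ht fun u => ?_)
  · simp [e, ← h.flip.B_tmul, mul_smul]
  · refine ⟨u, ?_⟩
    simp [e, ← h.flip.B_tmul, h.form]

/-- The geometric step for a two-dimensional symplectic factor. -/
theorem le_of_two [Finite F] [Nontrivial U] {h : TF S₁ S₂ S τ} (H : Hyp h M (TStab τ))
    (h2 : (2 : F) ≠ 0) (h3 : 3 ≤ finrank F U) (hW : finrank F W = 2) (hM : M ≤ S.isom)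
    (hT : ∀ g ∈ S.isom, g ∈ TStab τ → g ∈ M)
    (hdim : 5 ≤ finrank F U ∨ ∃ t : F, t ≠ 0 ∧ t ^ 2 ≠ 1) : M ≤ TStab τ := by
  by_contra hle
  have : Nontrivial W := Module.nontrivial_of_finrank_pos (R := F) (by omega)
  obtain ⟨w, h0⟩ := exists_ne (0 : W)
  have hw := S₂.symp_sing w
  obtain ⟨g, E⟩ := exists_ext hle (Bw τ w)
  obtain ⟨k, hkM, hkT, c, hc, -, ek⟩ := H.conj_R_not_mem E.mem E.not_mem hw h0
  obtain ⟨ρ, hρ, hρ1⟩ := exists_R_ne_one (h := h) H.trP hw h0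
  have key' := fun a ha => E.key' (h.R_le H.sndM hw hρ) (H.conj_not_mem E.mem E.not_mem h0 hρ hρ1)
    (fun x _ hx => R_fix hρ (h.cw_Bw (sB_self w) hx)) (a := a) ha
  have hrA : LinearMap.range (cj g (h.nu w)) = (Bw τ w).map (g : V →ₗ[F] V) := by
    rw [range_cj, h.range_nu h0]
  have hle' := fun {k} (hk : k ∈ M) => E.le hk
  have key := fun h1 b hb => E.key hkM hkT h1 (b := b) hb
  have hst : ∀ x ∈ M, (∀ a ∈ (Bw τ w).map (g : V →ₗ[F] V), x a ∈ (Bw τ w).map (g : V →ₗ[F] V)) →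
      g⁻¹ * x * g ∈ TStab τ := fun x hx e => (H.stab w hw h0 _
    (M.mul_mem (M.mul_mem (M.inv_mem E.mem) hx) E.mem) fun u => by
      obtain ⟨b, hb, e⟩ := e (g (τ u w)) ⟨_, ⟨u, rfl⟩, rfl⟩
      simpa [← e] using hb).1
  have hGam := H.Gam_le E.mem hw hw
  have hdA : finrank F ((Bw τ w).map (g : V →ₗ[F] V)) = finrank F U := by
    rw [LinearEquiv.finrank_map_eq, finrank_Bw h.tens h0]
  have hcomm := fun u hu hT v => comm_rf h (by omega) (u := u) hu (g := g) hT w v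
  have hμ2 := cj_sq g (h.nu_sq hw)
  have sk : ∀ x y, S.B (cj g (h.nu w) x) y = -1 * S.B x (cj g (h.nu w) y) :=
    B_cj (hM E.mem) (B_nu h w)
  have hne : ¬ Bw τ w ≤ (Bw τ w).map (g : V →ₗ[F] V) := fun h1 =>
    E.not_mem (H.stab w hw h0 g E.mem fun u => by
      rw [Submodule.eq_of_le_of_finrank_le h1 (by rw [LinearEquiv.finrank_map_eq])]
      exact ⟨τ u w, ⟨u, rfl⟩, rfl⟩).1
  generalize (Bw τ w).map (g : V →ₗ[F] V) = A at *
  generalize cj g (h.nu w) = μ at *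
  have hμA : ∀ a ∈ A, μ a = 0 := by rw [← hrA]; rintro _ ⟨v, rfl⟩; exact hμ2 v
  have hAμ : ∀ v, μ v ∈ A := fun v => hrA ▸ ⟨v, rfl⟩
  have hAA : ∀ a ∈ A, ∀ a' ∈ A, S.B a a' = 0 := by
    rw [← hrA]; rintro _ ⟨v, rfl⟩ _ ⟨v', rfl⟩; simp [sk, hμ2]
  replace key := key fun x hx _ => by rw [ek, hμA x hx]; simp
  replace key' : ∀ a ∈ A, h.nu w a ∈ A → a ∈ Bw τ w := fun a ha h1 => key' a ha (by
    obtain ⟨d, -, e⟩ := hρ
    rw [e]; exact add_mem ha (A.smul_mem d h1))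
  set D := A.comap (τ.flip w) with hD
  have hDm : ∀ {u}, u ∈ D ↔ τ u w ∈ A := Iff.rfl
  obtain ⟨z, hz⟩ := h.nd₂.exists_eq h0 1
  have hdec : ∀ y, ∃ s : F, y = s • w + S₂.B y w • z := fun y => by
    obtain ⟨s, hs⟩ := exists_smul_of_perp h.nd₂ hW h0 (sB_self w) (y := y - S₂.B y w • z) (by simp [hz])
    exact ⟨s, eq_add_of_sub_eq hs.symm⟩
  -- the intersection is large
  have hd : finrank F U ≤ finrank F D + 2 := by
    obtain ⟨u, hu, hn⟩ : ∃ u, ∃ hu : S₁.Q u ≠ 0, g⁻¹ * h.tens.tcongr (rf S₁ hu) 1 * g ∉ TStab τ := by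
      by_contra hcon
      push Not at hcon
      obtain ⟨β, e⟩ := exists_beta h h2 (S₁.nondegOn_top.2 h.nd₁) (by rwa [finrank_top]) sk
        fun u _ hu => hcomm u hu (hcon u hu)
      exact hkT (mem_TStab_of h.tens 1 fun y => ⟨y + c • β y, fun u => by simp [ek, e]⟩)
    have h1 := hle' (tc_mem h hT (rf_mem hu) (one_mem _)) hn
    have h4 : finrank F (A ⊓ Bw τ w : Submodule F V) = finrank F D := by
      rw [LinearEquiv.finrank_eq (Submodule.equivMapOfInjective _ (h.tens.left_inj h0) D), hD,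
        Submodule.map_comap_eq, inf_comm]; rfl
    have h5 := Submodule.finrank_mono (show A ⊓ LinearMap.ker (h.flip.cw u) ≤
      A.map (h.tens.tcongr (rf S₁ hu) 1 : V →ₗ[F] V) ⊓ A from fun a ha =>
        ⟨⟨a, ha.1, by simp [rf_tens h, LinearMap.mem_ker.1 ha.2]⟩, ha.1⟩)
    have h6 := Submodule.finrank_sup_add_finrank_inf_eq A (LinearMap.ker (h.flip.cw u))
    have h7 := Submodule.finrank_le (A ⊔ LinearMap.ker (h.flip.cw u))
    have h8 := LinearMap.finrank_range_add_finrank_ker (h.flip.cw u)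
    have h9 := Submodule.finrank_le (LinearMap.range (h.flip.cw u))
    omega
  -- the intersection is non-degenerate
  let s : End F U := h.cw w ∘ₗ μ ∘ₗ τ.flip w
  have hs : ∀ u, s u = h.cw w (μ (τ u w)) := fun _ => rfl
  have hks : LinearMap.ker s = D := by
    ext u
    refine ⟨fun hu => key _ ⟨u, rfl⟩ ?_, fun hu => by simp [hs, hμA _ (hDm.1 hu)]⟩
    rw [ek]
    exact add_mem ⟨u, rfl⟩ (Submodule.smul_mem _ _ (mem_Bw_two h hW h0 (sB_self w) hu))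
  have hrs : LinearMap.range s = S₁.perp D := by
    refine Submodule.eq_of_le_of_finrank_le ?_ ?_
    · rintro _ ⟨u, rfl⟩ x hx
      rw [hs, ← h.B_tmul, hAA _ (hAμ _) _ (hDm.1 hx)]
    · have := LinearMap.finrank_range_add_finrank_ker s
      have := h.nd₁.finrank_perp D
      rw [hks] at *
      omega
  have hDn : S₁.NondegOn D := fun x hx hx' => by
    obtain ⟨u, rfl⟩ : x ∈ LinearMap.range s := hrs ▸ hx'
    exact h.cw_Bw (sB_self w) (key' _ (hAμ _) hx)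
  rcases hdim with h5 | ⟨t, ht, ht1⟩
  · obtain ⟨β, e⟩ := exists_beta h h2 hDn (by omega) sk fun u hu hQ => hcomm u hQ
      (hst _ (tc_mem h hT (rf_mem hQ) (one_mem _)) fun a ha => by
        obtain ⟨t, ht⟩ := exists_smul_of_perp h.nd₂ hW h0 (sB_self w) (y := h.flip.cw u a) (by
          rw [← h.flip.B_tmul]; exact hAA a ha _ hu)
        rw [rf_tens h, ← ht, map_smul]
        exact sub_mem ha (A.smul_mem _ (A.smul_mem _ hu)))
    obtain ⟨u₀, hu₀, hQ⟩ := H9.FClass.exists_Q_ne_zero hDn (by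
      intro e; rw [e, finrank_bot] at hd; omega)
    obtain ⟨l, hl⟩ := exists_smul_of_perp h.nd₂ hW h0 (sB_self w) (y := β z) (by
      have := hAA _ (hAμ (τ u₀ z)) _ hu₀
      rw [e u₀ hu₀, LinearMap.flip_apply, h.form] at this
      exact (mul_eq_zero.1 this).resolve_left (B_self_ne h2 hQ))
    have hρ' := rootE_mem (hν := h.nu_sq hw) (Λ := (FP.symp F).Λ) (c := -(c * l)) trivial
    have e1 : ∀ u ∈ D, ∀ y, (k * rootE _ (h.nu_sq hw) (-(c * l))) (τ u y) = τ u y := fun u hu y => by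
      obtain ⟨s, hs⟩ := hdec y
      have : μ (τ u y) = (S₂.B y w * l) • τ u w := by
        conv_lhs => rw [hs]
        simp [hμA _ (hDm.1 hu), e u hu z, ← hl, smul_smul]
      simp [ek, TF.nu_apply, hμA _ (hDm.1 hu), this]
      module
    obtain ⟨x, hx, hx0, hxs⟩ := exists_sing S₁ (H := D) (by omega)
    obtain ⟨x', hx', hxx⟩ : ∃ x' ∈ D, S₁.B x' x = 1 := by
      by_contra hcon
      push Not at hcon
      refine hx0 (hDn x hx fun y hy => by_contra fun hn => hcon ((S₁.B x y)⁻¹ • y) (D.smul_mem _ hy) ?_)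
      simp [S₁.orth_B_swap x y, hn]
    refine hkT (((TStab τ).mul_mem_cancel_right (h.R_le_TStab hw hρ')).1 ?_)
    rw [← TStab_flip]
    exact mem_TStab_of_fix h.flip h3 (fun g hg => isom_le_bis (hM hg)) (le_snd₁ h hT)
      ((S₁.orth_sing x).2 hxs) hxx (fun q hq hQ => inQ_flip h h2 (by omega) hW hM hT
        (fun w h0 x hx e => (H.stab w trivial h0 x hx e).1) ((S₁.orth_sing x).2 hxs) hx0 hq hQ)
      (M.mul_mem hkM (h.R_le H.sndM hw hρ')) (fun y => e1 x hx y) fun y => e1 x' hx' y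
  have hcom := frob_adj (hν := h.nu_sq hw) (Λ := (FP.symp F).Λ) hμ2 h2 ⟨1, trivial, one_ne_zero⟩ ht ht1
    (fun _ _ => trivial) fun δ hδ hst => ?_
  · refine hne ?_
    rintro _ ⟨u, rfl⟩
    rw [LinearMap.flip_apply, ← hDm, ← hks, LinearMap.mem_ker, hs, ← h.nu_eq_zero_iff h0, ← hcom]
    simp [TF.nu_apply]
  have hfix : ∀ δ ∈ Gam μ (h.nu w) (FP.symp F).Λ, ∀ u ∈ D, δ (τ u w) = τ u w := fun δ hδ u hu =>
    Gam_fix hδ (hμA _ hu) (by simp [TF.nu_apply])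
  obtain ⟨u₀, hu₀, hQ⟩ := H9.FClass.exists_Q_ne_zero hDn (by
    intro e; rw [e, finrank_bot] at hd; omega)
  have hu0 : u₀ ≠ 0 := by rintro rfl; exact hQ S₁.orth_Q_zero
  obtain ⟨a, b, e, hb⟩ : ∃ (a : U ≃ₗ[F] U) (b : W ≃ₗ[F] W), (∀ u y, δ (τ u y) = τ (a u) (b y)) ∧
      b w = w := by
    obtain ⟨a, b, e⟩ := (H.stab w hw h0 δ (hGam hδ).1 fun u => by
      simpa [TF.nu_apply, hz, h.range_nu h0] using hst (τ u z)).1
    obtain ⟨β, hβ⟩ := Submodule.mem_span_singleton.1 (h.tens.flip.mem_span_of_eq (a := w) (a' := b w)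
      (b' := a u₀) hu0 ((hfix δ hδ u₀ hu₀).symm.trans (e _ _)))
    have hβ0 : β ≠ 0 := by rintro rfl; exact h0 (by simpa using hβ.symm)
    exact ⟨a.trans (LinearEquiv.smulOfNeZero F U _ (inv_ne_zero hβ0)),
      b.trans (LinearEquiv.smulOfNeZero F W _ hβ0), fun u y => by simp [e, smul_smul, hβ0], hβ⟩
  have ha : ∀ u ∈ D, a u = u := fun u hu => eq_of_tmul_eq h.tens h0 (by
    rw [← hfix δ hδ u hu, e, hb])
  have hbb : b ∈ bis S₂ := fun y y' => mul_left_cancel₀ (B_self_ne h2 hQ) (by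
    rw [← h.form, ← h.form, ← (hGam hδ).2 (τ u₀ y), e, e, ha u₀ hu₀])
  have hρ' : h.tens.tcongr 1 b ∈ h.R hw := h.mem_R_of trP_symp hw h0
    (h.tens_mem_bis (h.tens.tcongr_apply 1 b) (one_mem _) hbb) (h.tens.tcongr_apply 1 b) fun y =>
      Submodule.mem_span_singleton.2 (exists_smul_of_perp h.nd₂ hW h0 (sB_self w) (by
        rw [PQ.B_sub_left, ← hbb y w, hb, sub_self]))
  have hδ' : δ = h.tens.tcongr a 1 * h.tens.tcongr 1 b := h.eq_of_tens fun u y => by simp [e]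
  have hκ : h.tens.tcongr a 1 ∈ Gam μ (h.nu w) (FP.symp F).Λ :=
    (Subgroup.mul_mem_cancel_right _ (RG_le_Gam hρ')).1 (hδ' ▸ hδ)
  have eκ := h.tens.tcongr_apply a 1
  generalize h.tens.tcongr a 1 = κ at *
  have cκ : ∀ v, h.cw w (κ v) = a (h.cw w v) := cw_tens eκ (one_mem _) w
  have nκ : ∀ v, κ (h.nu w v) = h.nu w (κ v) := fun v => by simp [TF.nu_apply, eκ, cκ]
  have haa : ∀ u, a (a u) = u := fun u => by
    obtain ⟨x, hx, y, hy, rfl⟩ := Submodule.mem_sup.1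
      (hDn.isCompl.sup_eq_top ▸ Submodule.mem_top (x := u))
    obtain ⟨u, rfl⟩ : y ∈ LinearMap.range s := hrs ▸ hy
    have := congrArg κ ((Gam_cen hμ2 (h.nu_sq hw) hκ).1 (τ u w))
    simp [TF.nu_apply, eκ, cκ, ← hs, eq_comm, sub_eq_zero] at this
    rw [map_add, map_add, ha x hx, ha x hx, add_right_inj]
    exact eq_of_tmul_eq h.tens h0 (sub_eq_zero.1 this.symm)
  have hκκ : κ * κ = 1 := h.eq_of_tens fun u y => by simp [eκ, haa]
  have hκs : ∀ v, κ.symm v = κ v := fun v => by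
    rw [LinearEquiv.symm_apply_eq]; exact (LinearEquiv.congr_fun hκκ v).symm
  have hκ2 : ∀ v, κ (κ v) = v := fun v => LinearEquiv.congr_fun hκκ v
  have hκb : ∀ x y, S.B (κ x) y = S.B x (κ y) := fun x y => by rw [← (hGam hκ).2, hκ2]
  refine ⟨_, hρ', κ, hδ', hκκ, fun v => ?_, nκ⟩
  obtain ⟨c1, c2⟩ := Gam_cen (Λ := (FP.symp F).Λ) (δ := κ) (h.nu_sq hw) hμ2 (by rwa [Gam_comm])
  simp only [hκs] at c1 c2
  have k1 : ∀ v, μ (κ (μ v)) = 0 := fun v => by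
    have := c2 v
    simp only [map_sub, hμ2, map_zero] at this
    refine smul_right_injective V h2 ?_
    linear_combination (norm := module) -this
  have k2 : ∀ v, μ (κ v) - κ (μ v) ∈ A := fun v => sub_mem (hAμ _) (by
    have h1 : A = LinearMap.ker μ := Submodule.eq_of_le_of_finrank_le hμA (by
      have := LinearMap.finrank_range_add_finrank_ker μ
      rw [hrA, h.tens.finrank_eq, hW] at this
      omega)
    rw [h1]; exact k1 v)
  have k3 : ∀ v, ∃ u ∈ D, μ (κ v) - κ (μ v) = τ u w := fun v => by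
    obtain ⟨u, hu⟩ := key' _ (k2 v) (c1 v ▸ k2 _)
    exact ⟨u, by rw [hDm, ← LinearMap.flip_apply, hu]; exact k2 v, hu.symm⟩
  have k4 : μ (κ (κ v - v)) - κ (μ (κ v - v)) = 0 := h.nd _ fun y => by
    obtain ⟨u, hu, e⟩ := k3 y
    have := hκb v (τ u w)
    rw [hfix κ hκ u hu, ← e] at this
    rw [PQ.B_sub_left, sk, hκb, hκb, sk]
    simp only [PQ.B_sub_left, PQ.B_sub_right] at this ⊢
    linear_combination this
  obtain ⟨u, hu, e⟩ := k3 v
  have k5 := hfix κ hκ u hu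
  rw [← e] at k5
  simp only [map_sub, hκ2] at k4 k5
  refine smul_right_injective V h2 ?_
  linear_combination (norm := module) k4 + k5

theorem spo_tensor [Finite F] (h : TF S₁ S₂ S τ) (h2 : (2 : F) ≠ 0) (h3 : 3 ≤ finrank F U)
    (hdim : 4 ≤ finrank F U ∨ ∃ t : F, t ≠ 0 ∧ t ^ 2 ≠ 1)
    (hW : 4 ≤ finrank F W ∨ finrank F W = 2 ∧ (5 ≤ finrank F U ∨ ∃ t : F, t ≠ 0 ∧ t ^ 2 ≠ 1) ∧
      (finrank F U = 4 → ∀ Y, S₁.TS Y → finrank F Y < 2))
    (hM : M ≤ S.isom) (hT : ∀ g ∈ S.isom, g ∈ TStab τ → g ∈ M) (hn : ∃ g ∈ M, g ∉ TStab τ) (v : V) :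
    Ctr S M v := by
  have : Nontrivial U := Module.nontrivial_of_finrank_pos (R := F) (by omega)
  have hM₂ := le_snd₂ h hT
  obtain ⟨w, h0, q, hq, hQ, hqT⟩ : ∃ w, w ≠ 0 ∧ ∃ q ∈ M, InQ h w q ∧ q ∉ TStab τ := by
    by_contra hc
    push Not at hc
    have stab : ∀ w, S₂.Sing w → w ≠ 0 → ∀ x ∈ M, (∀ u, x (τ u w) ∈ Bw τ w) → x ∈ TStab τ :=
      fun w hw h0 x hx e => hW.elim (fun h4 => parabolic trP_symp h4 (isom_le_sim hM) hM₂
        (fun w _ => hc w) hw h0 hx e) fun hW => par_two h hW.1 hM hT h0 (hc w h0) hx e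
    have H := hyp_of (h := h) trP_symp (by omega) (isom_le_sim hM) hM₂ stab
      fun w hw h0 g hg ρ hρ h1 e => fus h h2 h3 hM (le_snd₁ h hT)
        (hW.imp (fun _ => by omega) fun h => ⟨h.1, h.2.2⟩) h0 (stab w hw h0) hg hρ h1 e
    obtain ⟨g, hg, hgT⟩ := hn
    rcases hW with h4 | ⟨hW, h5, -⟩
    · exact hgT (H.le_of_four h4 (a := -1) (by simp) (fun e => h2 (by linear_combination -e))
        (fun _ _ => trivial) hg)
    · exact hgT (le_of_two H h2 h3 hW hM hT h5 hg)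
  obtain ⟨z, -, hz0, hz⟩ := exists_sing S₁ (H := ⊤) (by rwa [finrank_top])
  exact TenGen.ctr_all h trP_symp trP_symp (Or.inr fun _ => trivial) (by omega)
    (fun u w hu _ => ctr_of_inQ h h2 h3 hdim hM hT h0 hq hQ hqT u w hu) ((S₁.orth_sing z).2 hz) hz0
    v trivial

theorem even_finrank (hS : S₂.Nondeg) (h3 : finrank F W = 3) : False := by
  have : Nontrivial W := Module.nontrivial_of_finrank_pos (R := F) (by omega)
  obtain ⟨w, h0⟩ := exists_ne (0 : W)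
  obtain ⟨z, -, hz⟩ := hS.exists_hyperbolic (S₂.symp_sing w) h0
  have h1 := S₂.nondegOn_span_pair (S₂.symp_sing w) (S₂.symp_sing z) (by simp [hz])
  have h2 := hS.finrank_perp (Submodule.span F {w, z})
  rw [S₂.finrank_span_pair_of_hyperbolic (S₂.symp_sing w) (by simp [hz])] at h2
  obtain ⟨y, hy0, hy⟩ := finrank_eq_one_iff'.1 (show finrank F (S₂.perp (Submodule.span F {w, z})) = 1 by omega)
  refine hy0 (Subtype.ext (h1.perp hS y y.2 fun x hx => ?_))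
  obtain ⟨c, e⟩ := hy ⟨x, hx⟩
  rw [show x = c • (y : W) from (congrArg Subtype.val e).symm]; simp

theorem exists_sq_ne_one [Fintype F] (h2 : (2 : F) ≠ 0) (h3 : Fintype.card F ≠ 3) :
    ∃ t : F, t ≠ 0 ∧ t ^ 2 ≠ 1 := by
  refine exists_pow_ne_one_of_lt two_ne_zero ?_
  have := Fintype.one_lt_card (α := F)
  have : Fintype.card F ≠ 2 := fun e => h2 (two_eq_zero_of_card_two e)
  omega

/-- `Sp_{n₁} ∘ GO_{n₂}` is maximal in `Sp`. -/
theorem isMaximalIn_Sp [Fintype F] {m n₁ n₂ : ℕ} (hodd : Odd (Fintype.card F)) (h1 : 2 ≤ n₁)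
    (hn₂ : 3 ≤ n₂) (hex : ¬ (Fintype.card F = 3 ∧ n₂ = 3)) (e : (Fin m ⊕ Fin m) ≃ Fin n₁ × Fin n₂)
    (P : GL (Fin m ⊕ Fin m) F) (f₁ : (Fin n₁ → F) → (Fin n₁ → F) → F)
    (f₂ : (Fin n₂ → F) → (Fin n₂ → F) → F) (hf₁ : Geo.IsSymplecticForm f₁)
    (hf₂ : Geo.IsSymmetricForm f₂) (h4 : n₁ = 2 → n₂ = 4 → Fintype.card F ≠ 3 ∧
      ∀ Y : Submodule F (Fin n₂ → F), (∀ y ∈ Y, f₂ y y = 0) → finrank F Y < 2)
    (hT : Geo.IsTensorFormStructure id (sympForm m F) f₁ f₂ e P) :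
    Geo.IsMaximalIn (spGL m F) (Geo.tensorProductSubgroup n₁ n₂ e P ⊓ spGL m F) := by
  have h2 := two_ne_zero_of_odd_card hodd
  obtain ⟨c, hc, H⟩ := tensorForm_apply (sympPQ hf₁) (symmPQ h2 hf₂) (fun _ => rfl) (fun _ => rfl) hT
  have h : TF (symmPQ h2 hf₂) (scale (sympPQ hf₁) c rfl fun _ _ => trivial) (spS m F)
      (tensOf e P).flip := TF.flip ⟨isTens_tensOf e P, fun _ => rfl, fun _ => rfl, by simp,
    fun u w u' w' => by rw [sympPQ_B, H, ← mul_assoc]; rfl,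
    scale_nondeg (sympPQ_nondeg hf₁) hc _ _, symmPQ_nondeg h2 hf₂⟩
  have hn : m + m = n₁ * n₂ := by simpa using Fintype.card_congr e
  refine sp_max _ _ (fun g _ => mem_tensorProductSubgroup_iff' e P g)
    (Sp_not_le_tensorProductSubgroup (by nlinarith) h1 (by omega) e P) fun M h5 h6 h7 =>
    spo_tensor h h2 (by simpa) ?_ ?_ h5 (by rwa [TStab_flip]) (by rwa [TStab_flip])
  · by_cases h3 : n₂ = 3
    · exact Or.inr (exists_sq_ne_one h2 fun e => hex ⟨e, h3⟩)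
    · exact Or.inl (by simp; omega)
  · by_cases h3 : n₁ = 2
    · refine Or.inr ⟨by simpa, ?_, fun e Y hY => (h4 h3 (by simpa using e)).2 Y
        fun y hy => hY.2 y hy y hy⟩
      by_cases h8 : 5 ≤ n₂
      · exact Or.inl (by simpa)
      · refine Or.inr (exists_sq_ne_one h2 fun e => hex ⟨e, ?_⟩)
        by_contra h9
        exact (h4 h3 (by omega)).1 e
    · refine Or.inl ?_
      by_contra h8
      exact even_finrank (sympPQ_nondeg hf₁) (by simp at h8 ⊢; omega)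

end Cfsg.Agent.H3.TenSpO2
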