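import Cfsg.Agent.H3.TenSpO1
import Cfsg.Agent.H9.FSpin
import Cfsg.Agent.H8.MS
import Cfsg.Agent.H8.Proper

/-!
`Sp ⊗ Sp` in `Ω⁺`.
-/

set_option autoImplicit false
set_option linter.unusedSectionVars false

namespace Cfsg.Agent.H3.TenSpSp

open Module Cfsg.Agent.H7 Cfsg.Agent.Form Cfsg.Agent.H3.TenLin Cfsg.Agent.H3.RootGeo
  Cfsg.Agent.H3.TenForm Cfsg.Agent.H3.TenGeo Cfsg.Agent.H3.TenPar Cfsg.Agent.H3.TenGlue
  Cfsg.Agent.H3.TenSU Cfsg.Agent.H3.TenSpO1 Cfsg.Agent.H9.FClass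

variable {F : Type*} [Field F] {V : Type*} [AddCommGroup V] [Module F V]
  {U : Type*} [AddCommGroup U] [Module F U] {W : Type*} [AddCommGroup W] [Module F W]
  {τ : U →ₗ[F] W →ₗ[F] V} {M : Subgroup (V ≃ₗ[F] V)}

/-- The group `Ω`. -/
noncomputable abbrev Om (S : PQ (FP.orth F) V) : Subgroup (V ≃ₗ[F] V) := H8.Om (toQF S)

theorem Om_le [FiniteDimensional F V] (S : PQ (FP.orth F) V) : Om S ≤ S.isom := OG_toQF S ▸ H8.Om_le_OG

theorem om_max {ι : Type} [Fintype ι] [DecidableEq ι] {Q : (ι → F) → F}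
    (hQ : Geo.IsNondegenerateQuadraticForm Q) {H : Subgroup (GL ι F)}
    {T : Subgroup ((ι → F) ≃ₗ[F] (ι → F))} (hH : ∀ g, g ∈ H ↔ toLE g ∈ T)
    (hne : ¬ Geo.omegaGL Q ≤ H) (hmax : ∀ M ≤ Om (quadPQ hQ),
      (∀ g ∈ Om (quadPQ hQ), g ∈ T → g ∈ M) → ¬ M ≤ T → Om (quadPQ hQ) ≤ M) :
    Geo.IsMaximalIn (Geo.omegaGL Q) (H ⊓ Geo.omegaGL Q) := by
  have h1 : ∀ g, g ∈ Geo.omegaGL Q ↔ toLE g ∈ Om (quadPQ hQ) := fun g => by
    rw [mem_omegaGL_iff hQ, ← Om_toQF]; rfl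
  refine isMaximalIn_of_equiv toLE _ _ (· ∈ Om (quadPQ hQ)) (fun g => g ∈ T ∧ g ∈ Om (quadPQ hQ)) h1
    (fun g => by rw [Subgroup.mem_inf, hH, h1]) (fun _ h => h.2) (fun h => hne (h.trans inf_le_left))
    fun M h2 h3 => ?_
  by_cases h4 : M ≤ T
  · exact Or.inl fun g hg => ⟨h4 hg, h3 g hg⟩
  · exact Or.inr (hmax M h3 (fun g a b => h2 g ⟨b, a⟩) h4)

variable [FiniteDimensional F U] [FiniteDimensional F W] [FiniteDimensional F V]

section gen
variable {P P₁ P₂ : FP F} {S₁ : PQ P₁ U} {S₂ : PQ P₂ W} {S : PQ P V} {h : TF S₁ S₂ S τ}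

theorem adj_mul (hS : S₁.Nondeg) (X Y : End F U) : adj hS (X * Y) = adj hS Y * adj hS X :=
  adj_eq hS fun u a => by simp [B_adj]

theorem adj_add (hS : S₁.Nondeg) (X Y : End F U) : adj hS (X + Y) = adj hS X + adj hS Y :=
  adj_eq hS fun u a => by simp [B_adj]

theorem adj_adj (hS : S₁.Nondeg) (X : End F U) : adj hS (adj hS X) = X :=
  adj_eq hS fun u a => by simp [B_adj']

theorem adj_cj (hS : S₁.Nondeg) {a : U ≃ₗ[F] U} (ha : a ∈ S₁.isom) (X : End F U) :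
    adj hS (cj a X) = cj a (adj hS X) :=
  adj_eq hS fun u v => by simp [PQ.B_isom_symm ha, ← PQ.B_isom_symm (inv_mem ha), B_adj, ← B_adj hS X,
    ← PQ.B_isom ha (a.symm u)]

theorem hasE_mul {X X' Y Y' : End F U} {y z w : W} (h1 : HasE h M X X' Y y w)
    (h2 : HasE h M X X' Y' z w) (hw : S₂.B w w = 0) (hy : S₂.B y w = 0) (hz : S₂.B z w = 0)
    (hzy : S₂.B z y = 0) : HasE h M X X' (Y + Y') (y + z) w := by
  obtain ⟨k, hk, e⟩ := h1
  obtain ⟨k', hk', e'⟩ := h2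
  refine ⟨k * k', M.mul_mem hk hk', fun v => ?_⟩
  rw [LinearEquiv.mul_apply, e]
  simp [e', hw, hz, hzy, S₂.B_comm_zero hy, h.cw_add]
  abel

theorem hasE_neg {X X' Y : End F U} {y w : W} (h1 : HasE h M X X' Y y w) (hw : S₂.B w w = 0)
    (hyw : S₂.B y w = 0) (hy : S₂.B y y = 0) [Nontrivial U] : HasE h M X X' (-Y) (-y) w :=
  (h1.neg hw hyw hy).imp fun _ e => ⟨e.1, fun v => by simp [e.2, h.cw_neg]⟩

end gen

variable {S₁ : PQ (FP.symp F) U} {S₂ : PQ (FP.symp F) W} {S : PQ (FP.orth F) V}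

theorem snd_Om [Finite F] (h : TF S₁ S₂ S τ) (hQ : ∀ u w, S.Q (τ u w) = 0) (h5 : 5 ≤ finrank F V) :
    S₂.isom ≤ snd τ (Om S) := by
  refine isom_le_of_ctr h.nd₂ fun w => ctr_iff.2 fun c =>
    ⟨rootE _ (h.nu_sq (S₂.symp_sing w)) c, ?_, fun u y => by simp [TF.nu_apply, mul_smul]⟩
  have iso : ∀ c, rootE _ (h.nu_sq (S₂.symp_sing w)) c ∈ S.isom := fun c =>
    (S.orth_mem_isom _).2 fun v => by
      simp [S.orth_Q_add, S.orth_Q_smul, TF.nu_apply, hQ, h.B_tmul]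
  by_cases h2 : (2 : F) = 0
  · obtain ⟨g, hg, e⟩ := (H9.FSpin.inOm_iff_of_char_two h2 h.nd h5 (iso c)).2 (by
      by_cases h0 : c = 0 ∨ w = 0
      · rw [Submodule.finrank_eq_zero.2 (LinearMap.range_eq_bot.2 _)]
        · exact Even.zero
        ext v; rcases h0 with rfl | rfl <;> simp [TF.nu_apply]
      push Not at h0
      rw [H9.FSpin.Rx, show (1 : End F V) - _ = (-c) • h.nu w by ext v; simp,
        LinearMap.range_smul _ _ (neg_ne_zero.2 h0.1), h.range_nu h0.2, finrank_Bw h.tens h0.2,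
        ← finrank_top, ← even_finrank_symp (S₁.nondegOn_top.2 h.nd₁)]
      exact even_two_mul _)
    rw [Om, Om_toQF, ← LinearEquiv.toLinearMap_injective e]; exact hg
  · convert H8.sq_mem_Om (nd_toQF h.nd) h5 (OG_toQF S ▸ iso (c / 2)) using 1
    ext v
    simp [TF.nu_apply]
    match_scalars <;> field_simp
    ring

theorem exists_pair (hS : S₂.Nondeg) (h6 : 6 ≤ finrank F W) (w z : W) :
    ∃ y y', S₂.B y w = 0 ∧ S₂.B y z = 0 ∧ S₂.B y' w = 0 ∧ S₂.B y' z = 0 ∧ S₂.B y' y = 1 := by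
  have h1 := hS.finrank_perp (Submodule.span F {w, z})
  have h2 := finrank_span_pair_le (F := F) w z
  obtain ⟨y', hy', hn⟩ := exists_mem_notMem_of_finrank_lt (U := S₂.perp (Submodule.span F {w, z}))
    (W := Submodule.span F {w, z}) (by omega)
  obtain ⟨y, hy, e⟩ := hS.exists_perp_eq hn 1
  rw [S₂.mem_perp_span] at hy hy'
  exact ⟨y, y', hy _ (by simp), hy _ (by simp), hy' _ (by simp), hy' _ (by simp), e⟩

variable [Nontrivial U]

/-- The algebra of levels. -/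
def Lev (h : TF S₁ S₂ S τ) (h6 : 6 ≤ finrank F W) (hM : S₂.isom ≤ snd τ M) :
    Subalgebra F (End F U) where
  carrier := {X | ∀ w y, S₂.B y w = 0 → HasE h M X (adj h.nd₁ X) 0 y w}
  add_mem' := fun {X Y} hX hY w y e => by
    simpa [adj_add] using (hX w y e).add (hY w y e) (sB_self _) e (sB_self _)
  algebraMap_mem' := fun c w y e => by
    obtain ⟨k, hk, ek⟩ := hM (ev_mem w (c • y) 0 (by simp [e]))
    refine ⟨k, hk, fun v => h.tens.induction v (by simp) (fun u x => ?_) fun a b ha hb => ?_⟩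
    · rw [show adj h.nd₁ (algebraMap F _ c) = algebraMap F _ c from adj_eq _ fun _ _ => by simp]
      simp [ek, mul_smul]; module
    · simp only [map_add, ha, hb, LinearMap.add_apply]; abel
  mul_mem' := fun {X Y} hX hY w z e => by
    obtain ⟨y, y', h1, h2, h3, h4, h5⟩ := exists_pair h.nd₂ h6 w z
    have a1 := hX w y h1
    have a2 := hY y' z (S₂.B_comm_zero h4)
    obtain ⟨k₁, m₁, e₁⟩ := a1.neg (sB_self _) h1 (sB_self _)
    obtain ⟨k₂, m₂, e₂⟩ := a2.neg (sB_self _) (S₂.B_comm_zero h4) (sB_self _)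
    obtain ⟨k₃, m₃, e₃⟩ := a1
    obtain ⟨k₄, m₄, e₄⟩ := a2
    refine ⟨k₃ * k₄ * k₁ * k₂, mul_mem (mul_mem (mul_mem m₃ m₄) m₁) m₂, fun v => ?_⟩
    simp only [LinearEquiv.mul_apply]
    rw [e₃, e₄, e₁, e₂]
    simp [h1, h2, h3, h4, h5, e, S₂.B_comm_zero h1, S₂.B_comm_zero h2, S₂.B_comm_zero h3,
      S₂.B_comm_zero h4, S₂.B_comm_zero e, sB_swap y' y, adj_mul]
    abel

variable {h : TF S₁ S₂ S τ} {h6 : 6 ≤ finrank F W} {hM : S₂.isom ≤ snd τ M}

theorem mem_Lev {X : End F U} :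
    X ∈ Lev h h6 hM ↔ ∀ w y, S₂.B y w = 0 → HasE h M X (adj h.nd₁ X) 0 y w := Iff.rfl

theorem mem_Lev_of {X : End F U} {w₀ y₀ : W} (h0 : w₀ ≠ 0) (h1 : y₀ ∉ F ∙ w₀) (h2 : S₂.B y₀ w₀ = 0)
    (hX : HasE h M X (adj h.nd₁ X) 0 y₀ w₀) : X ∈ Lev h h6 hM := by
  have li : ∀ {w y : W}, w ≠ 0 → y ∉ F ∙ w → LinearIndependent F ![w, y] := fun h0 h1 =>
    (LinearIndependent.pair_iff' h0).2 fun a e => h1 (Submodule.mem_span_singleton.2 ⟨a, e⟩)
  have key : ∀ w y, w ≠ 0 → y ∉ F ∙ w → S₂.B y w = 0 → HasE h M X (adj h.nd₁ X) 0 y w := by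
    intro w y k0 k1 k2
    obtain ⟨b, hb, e⟩ := h.nd₂.witt_family _ _ (li h0 h1) (li k0 k1) (by
      simp [Fin.forall_fin_two, h2, k2, S₂.B_comm_zero h2, S₂.B_comm_zero k2]) fun _ => trivial
    obtain ⟨g, hg, eg⟩ := hM hb
    have := hX.conj hg (a := LinearEquiv.refl F U) eg (isom_le_bis hb)
    rwa [show b w₀ = w from e 0, show b y₀ = y from e 1] at this
  intro w y e
  by_cases k0 : w = 0
  · exact ⟨1, one_mem _, fun v => by simp [k0, h.cw_zero]⟩
  by_cases k1 : y ∈ F ∙ w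
  · obtain ⟨z, z', a1, a2, a3, -, a4⟩ := exists_pair h.nd₂ h6 w y
    have hz : z ∉ F ∙ w := fun hm => by
      obtain ⟨c, rfl⟩ := Submodule.mem_span_singleton.1 hm
      simp [a3] at a4
    simpa using hasE_mul (key w (y - z) k0 (fun hm => hz (by simpa using sub_mem k1 hm)) (by simp [e, a1]))
      (key w z k0 hz a1) (sB_self _) (by simp [e, a1]) a1 (by simp [a2])
  · exact key w y k0 k1 e

theorem adj_mem_Lev {X : End F U} (hX : X ∈ Lev h h6 hM) : adj h.nd₁ X ∈ Lev h h6 hM :=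
  fun w y e => (hX y w (S₂.B_comm_zero e)).imp fun _ k => ⟨k.1, fun v => by
    simp [k.2, adj_adj]; abel⟩

theorem cj_mem_Lev (hM₁ : S₁.isom ≤ snd τ.flip M) {X : End F U} (hX : X ∈ Lev h h6 hM)
    {a : U ≃ₗ[F] U} (ha : a ∈ S₁.isom) : cj a X ∈ Lev h h6 hM := fun w y e => by
  obtain ⟨g, hg, eg⟩ := hM₁ ha
  have := (hX w y e).conj hg (b := LinearEquiv.refl F W) (fun u w => eg w u) (one_mem _)
  rwa [← adj_cj _ ha, show cj a 0 = 0 by ext; simp] at this

theorem exists_nonscalar (hsim : M ≤ sim S) {w : W} (h0 : w ≠ 0) {q : V ≃ₗ[F] V} (hq : q ∈ M)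
    (hQ : InQ h w q) (hqT : q ∉ TStab τ) :
    ∃ X ∈ Lev h h6 hM, ∀ c : F, X ≠ c • LinearMap.id := by
  have hM' : sisom S₂ ≤ snd τ M := inf_le_left.trans hM
  rcases exists_Z_or_eta hM' (S₂.symp_sing w) h0 hq hQ hqT with ⟨X, hX, hn⟩ | ⟨y, hy, η, e, hη⟩
  · refine ⟨X, fun w' y e => ?_, hn⟩
    have key : ∀ y, X ∈ Zs h M (sB_self y) := fun y => by
      by_cases hy : y = 0
      · exact ⟨1, one_mem _, by simp [hy]⟩
      obtain ⟨b, hb, e⟩ := sp_trans' h.nd₂ h0 hy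
      simpa using Zs_map (hw := sB_self w) (sB_self y) hX hM' hb (c := 1) (by simp [e])
    rw [adj_eq (Y := X) _ fun a b => by
      have := adj_of_hasQ hsim (sB_self w) h0 hX a b
      simp only [FP.symp_ε] at this
      linear_combination -this]
    obtain ⟨k₁, m₁, e₁⟩ := key (w' + y)
    obtain ⟨k₂, m₂, e₂⟩ := neg_mem (key w')
    obtain ⟨k₃, m₃, e₃⟩ := neg_mem (key y)
    refine ⟨k₁ * k₂ * k₃, mul_mem (mul_mem m₁ m₂) m₃, fun v => ?_⟩
    simp only [LinearEquiv.mul_apply]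
    rw [e₁, e₂, e₃]
    simp [e, S₂.B_comm_zero e, h.cw_add]
    abel
  have hyw : y ∉ F ∙ w := fun hm => by
    obtain ⟨t, rfl⟩ := Submodule.mem_span_singleton.1 hm
    refine hη 0 (LinearMap.ext fun u => ?_)
    simpa using (h.tens.eq_zero (a := η u) (b := w) (by simpa [hQ.fix] using e u)).resolve_right h0
  obtain ⟨y', h1, h2⟩ := h.nd₂.exists_perp_eq hyw 1
  rw [S₂.mem_perp_span_singleton] at h1
  obtain ⟨z, hz, hz'⟩ := exists_mem_notMem_of_finrank_lt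
    (U := S₂.perp (Submodule.span F {w, y} ⊔ F ∙ y')) (W := F ∙ w) (by
      have := h.nd₂.finrank_perp (Submodule.span F {w, y} ⊔ F ∙ y')
      have := finrank_span_pair_le (F := F) w y
      have := finrank_sup_span_le (Submodule.span F {w, y}) y'
      have := finrank_span_singleton_le (F := F) w
      omega)
  rw [S₂.perp_sup, Submodule.mem_inf, S₂.mem_perp_span, S₂.mem_perp_span_singleton] at hz
  have z1 := hz.1 w (by simp)
  have z2 := hz.1 y (by simp)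
  have k1 := hasE_of_eta hM' (S₂.symp_sing y) hy hq hQ e (c := 1) trivial
  simp only [one_smul] at k1
  obtain ⟨g, hg, eg⟩ := hM (ev_mem z y' 0 (S₂.B_comm_zero hz.2))
  have k2 := k1.conj hg (a := LinearEquiv.refl F U) eg (isom_le_bis (ev_mem _ _ _ _))
  rw [show ev S₂ z y' 0 _ w = w by simp [S₂.B_comm_zero h1, S₂.B_comm_zero z1],
    show ev S₂ z y' 0 _ y = y + z by simp [h2, S₂.B_comm_zero z2]] at k2
  refine ⟨η, mem_Lev_of h0 hz' z1 ?_, hη⟩
  simpa [show ∀ X : End F U, cj (LinearEquiv.refl F U) X = X from fun _ => rfl] using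
    hasE_mul (hasE_neg k1 (sB_self _) hy (sB_self _)) k2 (sB_self _) (by simp [hy])
    (by simp [hy, z1]) (by simp [z2])

omit [Nontrivial U] in
/-- A non-scalar algebra normalised by `Sp` and closed under adjoints contains the rank one maps. -/
theorem rk_mem (hS : S₁.Nondeg) (hdim : 4 ≤ finrank F U ∨ finrank F U = 2 ∧ ∃ c : F, c ≠ 0 ∧ c ≠ 1)
    (R : Subalgebra F (End F U)) (conj : ∀ a ∈ S₁.isom, ∀ X ∈ R, cj a X ∈ R)
    (had : ∀ X ∈ R, adj hS X ∈ R) {X : End F U} (hX : X ∈ R) (hn : ∀ c : F, X ≠ c • LinearMap.id)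
    (a b : U) : rk S₁ a b ∈ R := by
  suffices H : ∃ u ≠ 0, rk S₁ u u ∈ R by
    obtain ⟨u, h0, H⟩ := H
    have k1 : ∀ v, rk S₁ v v ∈ R := fun v => by
      by_cases hv : v = 0
      · convert R.zero_mem using 1; ext; simp [hv]
      obtain ⟨g, hg, rfl⟩ := sp_trans' hS h0 hv
      rw [← cj_rk hg.1]; exact conj g hg.1 _ H
    have k2 : ∀ a b, S₁.B a b ≠ 0 → rk S₁ a b ∈ R := fun a b h => by
      convert R.smul_mem (R.mul_mem (k1 b) (k1 a)) (S₁.B a b)⁻¹ using 1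
      ext x; simp [smul_smul]; congr 1; field_simp
    by_cases h : S₁.B a b = 0
    · by_cases ha : a = 0
      · convert R.zero_mem using 1; ext; simp [ha]
      obtain ⟨c, hc⟩ := hS.exists_ne ha
      convert R.sub_mem (k2 a (b + c) (by simpa [h] using sB_ne_comm hc)) (k2 a c (sB_ne_comm hc)) using 1
      ext; simp
    · exact k2 a b h
  obtain ⟨u, hu⟩ : ∃ u, X u ∉ F ∙ u := by
    by_contra hc
    push Not at hc
    obtain ⟨c, hc⟩ := scalar_of_forall_mem_span X hc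
    exact hn c (LinearMap.ext hc)
  have h0 : u ≠ 0 := by rintro rfl; simp at hu
  have k1 : ∀ c : F, c • (rk S₁ (adj hS X u) u - rk S₁ u (X u)) - (c ^ 2 * S₁.B (X u) u) • rk S₁ u u ∈ R :=
    fun c => by
      convert R.sub_mem (conj _ (tv_mem u c) X hX) hX using 1
      ext x
      simp [← LinearEquiv.coe_inv, tv_inv, B_adj]
      module
  refine ⟨u, h0, ?_⟩
  rcases hdim with h4 | ⟨h2, c, hc, hc1⟩
  · obtain ⟨v, hv, h1, h2⟩ := H8.exists_not_mem_two (T := S₁.perp (F ∙ u)) (A := F ∙ u)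
      (B := S₁.perp (F ∙ (X u + S₁.B (X u) u • u))) (fun h => by
        have := Submodule.finrank_mono h
        have := hS.finrank_perp (F ∙ u)
        have := finrank_span_singleton_le (F := F) u
        omega) (fun h => hu (by
        rw [hS.perp_le_perp, Submodule.span_singleton_le_iff_mem] at h
        exact (Submodule.add_mem_iff_left _
          (Submodule.smul_mem _ _ (Submodule.mem_span_singleton_self u))).1 h))
    rw [S₁.mem_perp_span_singleton] at hv h2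
    have h2 : S₁.B (X u) v ≠ 0 := fun e => h2 (by simp [hv, S₁.B_comm_zero e])
    have k2 : S₁.B (adj hS X u) v • rk S₁ v u - S₁.B (X u) v • rk S₁ u v ∈ R := by
      have := conj _ (tv_mem v 1) _ (k1 1)
      rw [sub_eq_add_neg, ← neg_smul, one_smul, sub_eq_add_neg, ← neg_one_smul F (rk S₁ u _), cj_add,
        cj_add, cj_smul, cj_smul, cj_rk (tv_mem _ _), cj_rk (tv_mem _ _), cj_rk (tv_mem _ _)] at this
      convert R.sub_mem this (k1 1) using 1
      ext x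
      simp [S₁.B_comm_zero hv]
      module
    obtain ⟨v', h3, h4⟩ := hS.exists_perp_eq h1 1
    rw [S₁.mem_perp_span_singleton] at h3
    obtain ⟨g, hg, e⟩ := hS.witt_step (F ∙ u) h1 (v := v') (fun hm => by
      obtain ⟨t, rfl⟩ := Submodule.mem_span_singleton.1 hm
      simp [hv] at h4) (fun x hx => by
      obtain ⟨t, rfl⟩ := Submodule.mem_span_singleton.1 hx
      simp [S₁.B_comm_zero hv, S₁.B_comm_zero h3]) trivial
    have e' := S₁.gen_fix hg u (Submodule.mem_span_singleton_self u)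
    have hg := S₁.gen_le_isom _ hg
    have k3 := had _ (conj g hg _ k2)
    rw [sub_eq_add_neg, ← neg_smul, cj_add, cj_smul, cj_smul, cj_rk hg, cj_rk hg, e, e',
      adj_eq (Y := -S₁.B (adj hS X u) v • rk S₁ u v' + S₁.B (X u) v • rk S₁ v' u) _ fun x y => by
        simp [sB_swap u y, sB_swap v' y]; ring] at k3
    convert R.smul_mem (R.mul_mem k3 k2) (-(S₁.B (X u) v ^ 2)⁻¹) using 1
    ext x
    simp [hv, h4, S₁.B_comm_zero h3, smul_smul]
    congr 1; field_simp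
  · have hβ : S₁.B (X u) u ≠ 0 := fun e => hu (Submodule.mem_span_singleton.2 (by
      have e1 : S₁.perp (F ∙ u) = F ∙ u := (Submodule.eq_of_le_of_finrank_le (by
        rw [Submodule.span_singleton_le_iff_mem, S₁.mem_perp_span_singleton]; simp) (by
        have := hS.finrank_perp (F ∙ u)
        rw [finrank_span_singleton h0] at *
        omega)).symm
      exact Submodule.mem_span_singleton.1 (e1 ▸ S₁.mem_perp_span_singleton.2 e)))
    have := sub_ne_zero.2 hc1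
    convert R.smul_mem (R.sub_mem (R.smul_mem (k1 1) c) (k1 c)) (c * (c - 1) * S₁.B (X u) u)⁻¹ using 1
    match_scalars <;> field_simp <;> ring

theorem spsp_tensor [Finite F] (h : TF S₁ S₂ S τ) (hQ : ∀ u w, S.Q (τ u w) = 0)
    (hlt : finrank F U < finrank F W) (h6 : 6 ≤ finrank F W)
    (hdim : 4 ≤ finrank F U ∨ finrank F U = 2 ∧ ∃ c : F, c ≠ 0 ∧ c ≠ 1) (hM : M ≤ Om S)
    (hT : ∀ g ∈ Om S, g ∈ TStab τ → g ∈ M) (hn : ¬ M ≤ TStab τ) : Om S ≤ M := by
  have : Nontrivial W := Module.nontrivial_of_finrank_pos (R := F) (by omega)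
  have h5 : 5 ≤ finrank F V := by
    have := finrank_pos (R := F) (M := U)
    rw [h.tens.finrank_eq]; nlinarith
  have hM₂ : S₂.isom ≤ snd τ M := fun b hb => by
    obtain ⟨g, hg, e⟩ := snd_Om h hQ h5 hb
    exact ⟨g, hT g hg ⟨1, b, e⟩, e⟩
  have hM₁ : S₁.isom ≤ snd τ.flip M := fun a ha => by
    obtain ⟨g, hg, e⟩ := snd_Om h.flip (fun w u => hQ u w) h5 ha
    exact ⟨g, hT g hg ⟨a, 1, fun u w => e w u⟩, e⟩
  have hsim := isom_le_sim (hM.trans (Om_le S))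
  obtain ⟨w₀, -, h0, q, hq, hqQ, hqT⟩ := exists_inQ (h := h) trP_symp hlt (Or.inl (by omega)) hsim
    (inf_le_left.trans hM₂) hn
  obtain ⟨X, hX, hns⟩ := exists_nonscalar (h6 := h6) (hM := hM₂) hsim h0 hq hqQ hqT
  have k1 : ∀ u w a y, S₂.B y w = 0 → τ a y ∈ H8.MS (toQF S) M (τ u w) := fun u w a y e => by
    refine ⟨by simp [polar_toQF, h.form, S₂.B_comm_zero e], fun c => ?_⟩
    obtain ⟨k, hk, ek⟩ := rk_mem h.nd₁ hdim _ (fun a ha X hX => cj_mem_Lev hM₁ hX ha)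
      (fun X hX => adj_mem_Lev hX) hX hns (-c • a) u w y e
    convert hk using 1
    ext v
    rw [H8.siegel_apply (hQ u w) (by simp [polar_toQF, h.form, S₂.B_comm_zero e]), ek,
      adj_eq (Y := c • rk S₁ u a) _ fun x y => by simp [sB_swap u y]; ring]
    simp [polar_toQF, toQF_apply, hQ, h.B_tmul, S.orth_Q_smul]
    module
  have k2 : ∀ u w, w ≠ 0 → ∀ v, H8.siegel (toQF S) (τ u w) v ∈ M := fun u w hw => by
    refine H8.siegel_all_of_MS fun v hv => ?_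
    obtain ⟨w', hw'⟩ := h.nd₂.exists_eq hw 1
    rw [polar_toQF, S.orth_B_swap, h.B_tmul] at hv
    have h1 := TenGen.mem_of_cw h hw' (k1 u w) v
    obtain ⟨y, y', a1, -, a3, a4, a5⟩ := exists_pair h.nd₂ h6 w w'
    obtain ⟨b, hb⟩ := exists_ne (0 : U)
    obtain ⟨c, hc⟩ := h.nd₁.exists_eq hb 1
    have h2 := H8.MS_fix (H8.siegel_mem_OG _ _) (H8.MS_siegel (k1 (h.cw w v) w' b y' a4))
      (H8.siegel_fix (by simp [polar_toQF, h.form, S₁.B_comm_zero hv])
        (by simp [polar_toQF, h.form, S₂.B_comm_zero a3])) (k1 u w c y a1)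
    rw [H8.siegel_apply (hQ _ _) (by simp [polar_toQF, h.form, S₂.B_comm_zero a4])] at h2
    have h3 := sub_mem (sub_mem h2 (k1 u w c y a1))
      (Submodule.smul_mem _ (QuadraticMap.polar (toQF S) (τ c y) (τ (h.cw w v) w')) (k1 u w b y' a3))
    convert add_mem h1 h3 using 1
    simp [polar_toQF, toQF_apply, hQ, h.form, hc, sB_swap y' y, a5]
    abel
  obtain ⟨u, hu⟩ := exists_ne (0 : U)
  obtain ⟨u', hu'⟩ := h.nd₁.exists_eq hu 1
  obtain ⟨w', hw'⟩ := h.nd₂.exists_eq h0 1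
  exact H8.Om_le_of_two (nd_toQF h.nd) h5 (hQ u' w') (hQ u w₀) (by simp [polar_toQF, h.form, hu', hw'])
    (k2 _ _ (by rintro rfl; simp at hw')) (k2 _ _ h0)

/-- `Sp_{n₁} ∘ Sp_{n₂}` is maximal in `Ω⁺`. -/
theorem isMaximalIn_Om [Fintype F] {ι : Type} [Fintype ι] [DecidableEq ι] {Q : (ι → F) → F}
    (hQ : Geo.IsNondegenerateQuadraticForm Q) (hn : 9 ≤ Fintype.card ι) {n₁ n₂ : ℕ} (h12 : n₁ < n₂)
    (hex : ¬ (Fintype.card F = 2 ∧ n₁ = 2)) (e : ι ≃ Fin n₁ × Fin n₂) (P : GL ι F)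
    (f₁ : (Fin n₁ → F) → (Fin n₁ → F) → F) (f₂ : (Fin n₂ → F) → (Fin n₂ → F) → F)
    (hf₁ : Geo.IsSymplecticForm f₁) (hf₂ : Geo.IsSymplecticForm f₂)
    (hT : Geo.IsTensorFormStructure id (QuadraticMap.polar Q) f₁ f₂ e P)
    (hpure : ∀ (x₁ : Fin n₁ → F) (x₂ : Fin n₂ → F), Q (Matrix.mulVec (P : Matrix ι ι F)
      ((fun a : Fin n₁ × Fin n₂ => x₁ a.1 * x₂ a.2) ∘ e)) = 0) :
    Geo.IsMaximalIn (Geo.omegaGL Q) (Geo.tensorProductSubgroup n₁ n₂ e P ⊓ Geo.omegaGL Q) := by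
  obtain ⟨c, hc, H⟩ := tensorForm_apply (sympPQ hf₁) (sympPQ hf₂) (fun _ => rfl) (fun _ => rfl) hT
  have h : TF (scale (sympPQ hf₁) c rfl fun _ _ => trivial) (sympPQ hf₂) (quadPQ hQ) (tensOf e P) :=
    ⟨isTens_tensOf e P, fun _ => rfl, fun _ => rfl, by simp,
      fun u w u' w' => by rw [quadPQ_B, H, ← mul_assoc]; rfl,
      scale_nondeg (sympPQ_nondeg hf₁) hc _ _, sympPQ_nondeg hf₂⟩
  have hn' : Fintype.card ι = n₁ * n₂ := by simpa using Fintype.card_congr e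
  have e1 := even_finrank_symp ((sympPQ hf₁).nondegOn_top.2 (sympPQ_nondeg hf₁))
  have e2 := even_finrank_symp ((sympPQ hf₂).nondegOn_top.2 (sympPQ_nondeg hf₂))
  simp only [finrank_top, finrank_fintype_fun_eq_card, Fintype.card_fin] at e1 e2
  have h1 : 2 ≤ n₁ := by
    rcases Nat.eq_zero_or_pos n₁ with rfl | h1
    · omega
    · omega
  have h6 : 6 ≤ n₂ := by
    by_contra h6
    obtain rfl : n₂ = 4 := by omega
    omega
  have : Nonempty (Fin n₁) := ⟨⟨0, by omega⟩⟩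
  refine om_max hQ (mem_tensorProductSubgroup_iff' e P)
    (H8.omega_not_le_tensorProductSubgroup hQ (by omega) h1 (by omega) e P) fun M h2 h3 h4 =>
      spsp_tensor h (fun u w => hpure u w) (by simpa) (by simpa) ?_ h2 h3 h4
  by_cases h5 : n₁ = 2
  · refine Or.inr ⟨by simpa, ?_⟩
    obtain ⟨c, h1, h2⟩ := exists_pow_ne_one_of_lt (F := F) one_ne_zero (by
      have := Fintype.one_lt_card (α := F)
      have : Fintype.card F ≠ 2 := fun e => hex ⟨e, h5⟩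
      omega)
    exact ⟨c, h1, by simpa using h2⟩
  · exact Or.inl (by simp; omega)

end Cfsg.Agent.H3.TenSpSp
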