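import Cfsg.Agent.H3.TenO6

/-!
`O₃ ⊗ O₄⁻` in `Ω₁₂⁻`: involutions.
-/

set_option autoImplicit false
set_option linter.unusedSectionVars false

namespace Cfsg.Agent.H3.TenO7

open Module Cfsg.Agent.H7 Cfsg.Agent.Form Cfsg.Agent.H3.TenLin Cfsg.Agent.H3.RootGeo
  Cfsg.Agent.H3.TenForm Cfsg.Agent.H3.TenPar Cfsg.Agent.H3.OrthLem
  Cfsg.Agent.H3.TenSpSp Cfsg.Agent.H3.TenO1 Cfsg.Agent.H3.TenO2 Cfsg.Agent.H3.TenO5 Cfsg.Agent.H3.TenO6
  Cfsg.Agent.H9.FClass

variable {F : Type*} [Field F] {V : Type*} [AddCommGroup V] [Module F V]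
  {U : Type*} [AddCommGroup U] [Module F U] {W : Type*} [AddCommGroup W] [Module F W]
  [FiniteDimensional F U] [FiniteDimensional F W] [FiniteDimensional F V]
  {S₁ : PQ (FP.orth F) U} {S₂ : PQ (FP.orth F) W} {S : PQ (FP.orth F) V}
  {τ : U →ₗ[F] W →ₗ[F] V} {h : TF S₁ S₂ S τ} {M : Subgroup (V ≃ₗ[F] V)}

theorem exists3 (h2 : (2 : F) ≠ 0) (hS : S₁.Nondeg) (h3 : finrank F U = 3) {u v : U} (hu : S₁.Q u ≠ 0)
    (hv : S₁.Q v ≠ 0) (huv : S₁.B v u = 0) : ∃ x, S₁.Q x ≠ 0 ∧ S₁.B x u = 0 ∧ S₁.B x v = 0 := by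
  have h1 := hS.finrank_perp (F ∙ u)
  rw [H9.FSpin.finrank_line hu] at h1
  obtain ⟨x, hx, h4, h5⟩ := exists_ns_perp h2 ((H9.FSpin.nondegOn_line h2 hu).perp hS) (by omega)
    (S₁.mem_perp_span_singleton.2 huv) hv
  exact ⟨x, h5, S₁.mem_perp_span_singleton.1 hx, h4⟩

theorem orth3 (h2 : (2 : F) ≠ 0) (h3 : finrank F U = 3) {u v x : U} (hu : S₁.Q u ≠ 0)
    (hv : S₁.Q v ≠ 0) (hx : S₁.Q x ≠ 0) (huv : S₁.B v u = 0) (hxu : S₁.B x u = 0) (hxv : S₁.B x v = 0)
    (y : U) : rf S₁ hu (rf S₁ hv y) = -rf S₁ hx y := by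
  have : Nontrivial U := Module.nontrivial_of_finrank_pos (R := F) (by omega)
  have a1 := S₁.B_comm_zero huv
  have a2 := S₁.B_comm_zero hxu
  have a3 := S₁.B_comm_zero hxv
  have li : LinearIndependent F ![u, v, x] := Fintype.linearIndependent_iff.2 fun g hg => by
    simp only [Fin.sum_univ_three, Matrix.cons_val] at hg
    have g0 : g 0 = 0 := by simpa [huv, hxu, B_self_ne h2 hu] using congrArg (S₁.B · u) hg
    have g1 : g 1 = 0 := by simpa [a1, hxv, B_self_ne h2 hv] using congrArg (S₁.B · v) hg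
    have g2 : g 2 = 0 := by simpa [a2, a3, B_self_ne h2 hx] using congrArg (S₁.B · x) hg
    intro i; fin_cases i <;> assumption
  obtain ⟨c, rfl⟩ := (Submodule.mem_span_range_iff_exists_fun F).1
    (li.span_eq_top_of_card_eq_finrank' (by simp [h3]) ▸ Submodule.mem_top (x := y))
  simp [Fin.sum_univ_three, rf_self, -rf_apply]
  simp [huv, hxu, hxv, a1, a2, a3, S₁.orth_B_self, hu]
  module

/-- The involution `-r_u ⊗ 1`. -/
noncomputable def tt (h : TF S₁ S₂ S τ) {u : U} (hu : S₁.Q u ≠ 0) : V ≃ₗ[F] V :=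
  h.tens.tcongr (rf S₁ hu) (LinearEquiv.neg F)

variable {u v : U} (hu : S₁.Q u ≠ 0) (hv : S₁.Q v ≠ 0)

theorem tt_tmul (x : U) (y : W) : tt h hu (τ x y) = -τ (rf S₁ hu x) y := by simp [tt, -rf_apply]

theorem rf_tens (v : V) : h.tens.tcongr (rf S₁ hu) 1 v = v - (S₁.Q u)⁻¹ • τ u (h.flip.cw u v) :=
  h.tens.flip.induction v (by simp) (fun y x => by
    rw [h.flip.cw_apply]; simp [div_eq_inv_mul, mul_smul]) (fun _ _ h1 h2 => by
    simp only [map_add, h1, h2, smul_add]; abel)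

theorem tt_apply (v : V) : tt h hu v = (S₁.Q u)⁻¹ • τ u (h.flip.cw u v) - v := by
  rw [← neg_sub, ← rf_tens (h := h) hu]
  exact h.tens.induction v (by simp) (fun x y => by simp [tt_tmul, -rf_apply]) fun _ _ h1 h2 => by
    simp only [map_add, h1, h2, neg_add]

theorem tt_T : tt h hu ∈ TStab τ := tcongr_mem _ _ _

theorem tt_sq : tt h hu * tt h hu = 1 := h.eq_of_tens fun x y => by simp [tt_tmul, rf_rf, -rf_apply]

theorem tt_self (y : W) : tt h hu (τ u y) = τ u y := by simp [tt_tmul, rf_self, -rf_apply]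

theorem mem_of_fix {x : V} (e : tt h hu x = x) (h2 : (2 : F) ≠ 0) : x ∈ Bw τ.flip u :=
  (Submodule.smul_mem_iff _ h2).1 ⟨(S₁.Q u)⁻¹ • h.flip.cw u x, by
    rw [tt_apply, sub_eq_iff_eq_add] at e; simp [e, two_smul]⟩

variable [Finite F] [Nontrivial U] (H : OJ h M) (h3 : finrank F U = 3) (h4 : finrank F W = 4)
include H h3 h4

theorem tt_mem : tt h hu ∈ M := by
  refine H.ge _ ?_ (tt_T hu)
  obtain ⟨a, -, hau, ha⟩ := exists_ns_perp H.two (S₁.nondegOn_top.2 h.nd₁) (by rw [finrank_top]; omega)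
    Submodule.mem_top hu
  obtain ⟨b, hb, hbu, hba⟩ := exists3 H.two h.nd₁ h3 hu ha hau
  have hc : S₁.Q b / S₁.Q a ≠ 0 := div_ne_zero hb ha
  obtain ⟨φ, hφ⟩ := iso_orth_even h.nd₂ (H9.FClass.scale_nondeg hc h.nd₂) (by rw [h4]; decide) rfl
    (widx_scale hc _ _).symm
  have k : ∀ x y, S₁.Q b * S₂.B (φ x) (φ y) = S₁.Q a * S₂.B x y := fun x y => by
    rw [← hφ.1 x y]; simp [H9.FClass.scale]; field_simp
  have n0 : ∀ {x}, S₁.Q x ≠ 0 → x ≠ 0 := by rintro _ hx rfl; exact hx S₁.orth_Q_zero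
  have kB : ∀ x y, S.B (τ b (φ x)) (τ b (φ y)) = S.B (τ a x) (τ a y) := fun x y => by
    simp [h.form, S₁.orth_B_self, mul_assoc, k]
  obtain ⟨g, hg, e⟩ := h.nd.witt (τ a) (τ b ∘ₗ (φ : W →ₗ[F] W)) (h.tens.flip.left_inj (n0 ha))
    ((h.tens.flip.left_inj (n0 hb)).comp φ.injective) kB fun x => by
      simpa [S.orth_B_self, H.two, sub_eq_zero] using kB x x
  simp only [LinearMap.comp_apply, LinearEquiv.coe_coe] at e
  have hr : h.tens.tcongr (rf S₁ ha) 1 ∈ S.isom := isom_of_bis H.two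
    (h.tens_mem_bis (h.tens.tcongr_apply _ _) (isom_le_bis (rf_mem ha)) (one_mem _))
  have k2 : g * h.tens.tcongr (rf S₁ ha) 1 * g⁻¹ = h.tens.tcongr (rf S₁ hb) 1 := by
    ext v
    obtain ⟨v, rfl⟩ := g.surjective v
    have : (S₁.Q a)⁻¹ • φ (h.flip.cw a v) = (S₁.Q b)⁻¹ • h.flip.cw b (g v) := h.nd₂.ext_left fun y => by
      obtain ⟨y, rfl⟩ := φ.surjective y
      have := k (h.flip.cw a v) y
      rw [PQ.B_smul_left, PQ.B_smul_left, ← h.flip.B_tmul, LinearMap.flip_apply, ← e, PQ.B_isom hg,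
        ← LinearMap.flip_apply τ, h.flip.B_tmul]
      field_simp; linear_combination this
    rw [rf_tens (h := h) hb, ← map_smul, ← this]
    simp [rf_tens (h := h) ha, e]
  convert H8.comm_mem_Om (OG_toQF S ▸ hg) (OG_toQF S ▸ hr) using 1
  rw [k2, eq_mul_inv_iff_mul_eq]
  refine h.eq_of_tens fun x y => ?_
  simp [tt_tmul, -rf_apply, orth3 H.two h3 hu ha hb hau hbu hba]

theorem cen_tt {c : V ≃ₗ[F] V} (hc : c ∈ M) (e : c * tt h hu = tt h hu * c) : c ∈ TStab τ :=
  cen H h3 h4 hu hc fun y => mem_of_fix hu (by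
    simpa [tt_self] using (LinearEquiv.congr_fun e (τ u y)).symm) H.two

theorem fus_tt {g : V ≃ₗ[F] V} (hg : g ∈ M) (hT : g * tt h hu * g⁻¹ ∈ TStab τ) :
    ∃ v, ∃ hv : S₁.Q v ≠ 0, g * tt h hu * g⁻¹ = tt h hv := by
  have : Nontrivial W := Module.nontrivial_of_finrank_pos (R := F) (by omega)
  have hu0 : u ≠ 0 := by rintro rfl; exact hu S₁.orth_Q_zero
  have hX : finrank F ((Bw τ.flip u).map (g : V →ₗ[F] V)) = 4 := by
    rw [LinearEquiv.finrank_map_eq, finrank_Bw h.tens.flip hu0, h4]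
  have h1 : ∀ v, (g * tt h hu * g⁻¹) v = v → v ∈ (Bw τ.flip u).map (g : V →ₗ[F] V) := fun v hv =>
    ⟨g.symm v, mem_of_fix hu (g.injective (by simpa using hv)) H.two, by simp⟩
  have h2 : ∀ v ∈ (Bw τ.flip u).map (g : V →ₗ[F] V), (g * tt h hu * g⁻¹) v = v := by
    rintro _ ⟨_, ⟨y, rfl⟩, rfl⟩; simp [tt_self]
  have hs : (g * tt h hu * g⁻¹) ^ 2 = 1 := by rw [conj_pow, pow_two, tt_sq]; simp
  have hb := H.bis (mul_mem (mul_mem hg (tt_mem hu H h3 h4)) (inv_mem hg))
  generalize (Bw τ.flip u).map (g : V →ₗ[F] V) = X at *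
  generalize g * tt h hu * g⁻¹ = s at *
  have key : ∀ (a : U ≃ₗ[F] U) (b : W ≃ₗ[F] W), (∀ u y, s (τ u y) = τ (a u) (b y)) → (∀ x, a (a x) = x) →
      (∀ y, b (b y) = y) → 2 ≤ finrank F (LinearMap.ker ((a : End F U) - 1)) →
      ∃ v, ∃ hv : S₁.Q v ≠ 0, s = tt h hv := by
    intro a b e ha hb' hd
    by_cases ha1 : ∀ x, a x = x
    · obtain ⟨v, hv, hv0⟩ := (Submodule.ne_bot_iff X).1 (by rintro rfl; simp at hX)
      obtain ⟨y, hy⟩ : ∃ y, y + b y ≠ 0 := by
        by_contra hc; push Not at hc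
        have : ∀ v, s v = -v := fun v => h.tens.induction v (by simp)
          (fun x y => by simp [e, ha1, eq_neg_of_add_eq_zero_right (hc y)]) fun _ _ h1 h2 => by
            simp only [map_add, h1, h2, neg_add]
        exact hv0 (smul_right_injective V H.two (by
          simpa [two_smul, add_eq_zero_iff_eq_neg] using (h2 v hv).symm.trans (this v)))
      have k : ∀ y, Bw τ (y + b y) ≤ X := by
        rintro y _ ⟨x, rfl⟩; exact h1 _ (by simp [e, ha1, hb', add_comm])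
      by_cases hc : ∃ y', y' + b y' ∉ F ∙ (y + b y)
      · obtain ⟨y', hc⟩ := hc
        have := Submodule.finrank_mono (sup_le (k y) (k y'))
        rw [TenO4.finrank_B2 h.tens hy hc] at this
        omega
      push Not at hc
      have := Submodule.finrank_mono (show X ≤ Bw τ (y + b y) from fun v hv => by
        have : v + s v ∈ Bw τ (y + b y) := h.tens.induction v (by simp) (fun x y' => by
          obtain ⟨c, hc⟩ := Submodule.mem_span_singleton.1 (hc y')
          exact ⟨c • x, by rw [e, ha1, ← map_add, ← hc]; simp⟩) fun _ _ h1 h2 => by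
          rw [map_add, add_add_add_comm]; exact add_mem h1 h2
        rwa [h2 v hv, ← two_smul F, Submodule.smul_mem_iff _ H.two] at this)
      rw [finrank_Bw h.tens hy] at this
      omega
    push Not at ha1
    obtain ⟨x, hx⟩ := ha1
    obtain ⟨m, hm0, hm⟩ : ∃ m, m ≠ 0 ∧ a m = -m := ⟨a x - x, sub_ne_zero.2 hx, by simp [ha]⟩
    obtain ⟨p, hp, hp0⟩ := (Submodule.ne_bot_iff (LinearMap.ker ((a : End F U) - 1))).1 (by
      intro e; rw [e, finrank_bot] at hd; omega)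
    obtain ⟨p', hp', hpp⟩ := exists_mem_notMem_of_finrank_lt (U := LinearMap.ker ((a : End F U) - 1))
      (W := F ∙ p) (by rw [finrank_span_singleton hp0]; omega)
    simp only [LinearMap.mem_ker, LinearMap.sub_apply, LinearEquiv.coe_coe, End.one_apply, sub_eq_zero] at hp hp'
    let φ : W →ₗ[F] V := τ p ∘ₗ (1 + (b : End F W)) + τ m ∘ₗ (1 - (b : End F W))
    have eφ : ∀ y, φ y = τ p (y + b y) + τ m (y - b y) := fun _ => rfl
    have ct : ∀ (ψ : Dual F U) x y, h.tens.flip.ctr ψ (τ x y) = ψ x • y := fun ψ x y =>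
      h.tens.flip.ctr_apply ψ y x
    have hφ : LinearMap.range φ = X := Submodule.eq_of_le_of_finrank_le (by
      rintro _ ⟨y, rfl⟩; exact h1 _ (by simp [eφ, e, hp, hm, hb']; abel)) (by
      rw [LinearMap.finrank_range_of_inj ((injective_iff_map_eq_zero _).2 fun y hy => ?_), hX, h4]
      have k := congrArg (h.tens.tcongr a 1) hy
      rw [eφ] at hy k
      simp only [map_add (h.tens.tcongr a 1), IsTens.tcongr_apply, hp, hm, map_neg, LinearMap.neg_apply,
        LinearEquiv.coe_one, id, map_zero] at k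
      have k1 := (h.tens.eq_zero (a := (2 : F) • p) (b := y + b y) (by
        rw [map_smul, LinearMap.smul_apply]; linear_combination (norm := module) hy + k)).resolve_left
        (smul_ne_zero H.two hp0)
      have k2 := (h.tens.eq_zero (a := m) (b := y - b y) (by simpa [k1, -map_sub] using hy)).resolve_left hm0
      exact smul_right_injective W H.two (by linear_combination (norm := module) k1 + k2))
    have eb : ∀ y, b y = -y := fun y => by
      obtain ⟨ψ, k1, k2⟩ := exists_dual_pair hpp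
      obtain ⟨y', hy'⟩ : τ p' (y + b y) ∈ LinearMap.range φ := hφ ▸ h1 _ (by simp [e, hp', hb', add_comm])
      have := congrArg (h.tens.flip.ctr (ψ ∘ₗ (1 + (a : End F U)))) hy'
      simp [eφ, ct, hp, hp', hm, k1, k2, -map_add, -map_sub, map_add (h.tens.flip.ctr _), map_add ψ] at this
      exact smul_right_injective W H.two (by linear_combination (norm := module) -this)
    obtain ⟨y, hy⟩ := exists_ne (0 : W)
    obtain ⟨y', hy'⟩ := h.nd₂.exists_eq hy 1
    have k : ∀ x, ∃ c : F, a x = x - c • m ∧ c * S₁.Q m = S₁.B x m := fun x => by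
      obtain ⟨z, hz⟩ : τ (x - a x) y ∈ LinearMap.range φ := hφ ▸ h1 _ (by simp [e, eb, ha]; abel)
      obtain ⟨c, hc⟩ := Submodule.mem_span_singleton.1 (h.tens.mem_span_of_eq hy (a' := m) (b' := z + z)
        (hz.symm.trans (by simp [eφ, eb])))
      have hc' : a x = x - c • m := by simp [hc]
      have := hb (τ x y') (τ m y)
      simp [e, eb, hm, hc', h.form, hy', S₁.orth_B_self] at this
      exact ⟨c, hc', mul_left_cancel₀ H.two (by linear_combination this)⟩
    have hQ : S₁.Q m ≠ 0 := fun e => hm0 (h.nd₁.right m fun x => by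
      obtain ⟨c, -, hc⟩ := k x; simp [← hc, e])
    refine ⟨m, hQ, h.eq_of_tens fun x y => ?_⟩
    obtain ⟨c, h5, h6⟩ := k x
    rw [e, eb, tt_tmul, rf_apply, h5, ← h6, mul_div_cancel_right₀ _ hQ, map_neg]
  obtain ⟨a, b, e, ha, hb'⟩ := exists_norm h.tens hT hs fun a c hc e => ⟨LinearMap.det (a : End F U) / c, by
    have : (a : End F U) * a = c • 1 := LinearMap.ext fun x => by simpa [pow_two] using e x
    have := congrArg LinearMap.det this
    rw [map_mul, LinearMap.det_smul, map_one, h3] at this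
    field_simp; linear_combination this⟩
  have ha' : ∀ x, a (a x) = x := fun x => by simpa [pow_two] using LinearEquiv.congr_fun ha x
  have hb'' : ∀ x, b (b x) = x := fun x => by simpa [pow_two] using LinearEquiv.congr_fun hb' x
  by_cases hd : 2 ≤ finrank F (LinearMap.ker ((a : End F U) - 1))
  · exact key a b e ha' hb'' hd
  refine key (a.trans (LinearEquiv.neg F)) (b.trans (LinearEquiv.neg F)) (by simp [e]) (by simp [ha'])
    (by simp [hb'']) ?_
  have := LinearMap.finrank_range_add_finrank_ker ((a : End F U) - 1)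
  have := Submodule.finrank_mono (show LinearMap.range ((a : End F U) - 1) ≤
    LinearMap.ker ((a.trans (LinearEquiv.neg F) : End F U) - 1) by rintro _ ⟨x, rfl⟩; simp [ha'])
  omega

theorem fus_tt' {g : V ≃ₗ[F] V} (hg : g ∈ M) (hT : g * tt h hu * g⁻¹ ∈ TStab τ) : g ∈ TStab τ := by
  obtain ⟨v, hv, e⟩ := fus_tt hu H h3 h4 hg hT
  obtain ⟨w, -, h0, hw⟩ := exists_sing S₂ (H := ⊤) (by rw [finrank_top]; omega)
  obtain ⟨y, hy, hQ⟩ := exists_ns₁ h.nd₂ (by omega) w
  have : eT h w y * tt h hu = tt h hu * eT h w y := h.eq_of_tens fun x y => by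
    simp [eT_tmul, tt_tmul, -rf_apply]
  refine inv_mem_iff.1 (fus H h3 h4 hw h0 hy hQ (inv_mem hg) (cen_tt hv H h3 h4
    (mul_mem (mul_mem (inv_mem (inv_mem hg)) (H.eT_mem _ _)) (inv_mem hg)) ?_))
  rw [← e, inv_inv]
  simp only [mul_assoc, inv_mul_cancel_left]
  rw [← mul_assoc (eT h w y), this, mul_assoc]

theorem le_TStab : M ≤ TStab τ := fun g hg => by
  have := finite_GL (F := F) (V := V)
  obtain ⟨d, -, hd0, hd⟩ := exists_sing S₁ (H := ⊤) (by rw [finrank_top]; omega)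
  obtain ⟨e, he, hed⟩ := exists_partner h.nd₁ hd hd0
  obtain ⟨u, hue, hud, hu⟩ := exists_ns_hyp h.nd₁ h3.ge hd he (by simp [hed])
  obtain ⟨ν, hν⟩ := FiniteField.exists_nonsquare (F := F) fun e => H.two (by
    rw [← Nat.cast_ofNat, ← e]; exact ringChar.Nat.cast_ringChar)
  have hν0 : ν ≠ 0 := by rintro rfl; simp at hν
  have hv : S₁.Q (d + (ν * S₁.Q u) • e) ≠ 0 := by
    simp [S₁.orth_Q_add, S₁.orth_Q_smul, hd, he, hed, S₁.orth_B_swap e d, hν0, hu]
  have ht := tt_mem hu H h3 h4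
  rcases Cop.dihedral ht (mul_mem (mul_mem hg (tt_mem hv H h3 h4)) (inv_mem hg)) (tt_sq hu)
    (by simp [mul_assoc, ← mul_assoc (tt h hv), tt_sq]) with ⟨n, hn, en⟩ | ⟨z, hz, hz1, h1, h2, n, hn, en⟩
  · exfalso
    have h1 : (g⁻¹ * n) * tt h hu * (g⁻¹ * n)⁻¹ = tt h hv := by
      calc _ = g⁻¹ * (n * tt h hu * n⁻¹) * g := by group
        _ = _ := by rw [en]; group
    have h2 := mul_mem (inv_mem hg) hn
    obtain ⟨a, b, eab⟩ := fus_tt' hu H h3 h4 h2 (h1 ▸ tt_T hv)
    generalize g⁻¹ * n = k at *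
    have : Nontrivial W := Module.nontrivial_of_finrank_pos (R := F) (by omega)
    obtain ⟨m, hm, hs⟩ := h.flip.sim_of_tens (bis_le_sim (H.bis h2)) fun y u => eab u y
    obtain ⟨y, hy⟩ := exists_ne (0 : W)
    obtain ⟨y', hy'⟩ := mem_of_fix (h := h) hv (x := k (τ u y)) (by simp [← h1, tt_self]) H.two
    obtain ⟨c, hc⟩ := Submodule.mem_span_singleton.1 (h.tens.mem_span_of_eq (b := b y) (by simpa)
      ((eab u y).symm.trans hy'.symm))
    have hc0 : c ≠ 0 := by
      rintro rfl; exact hu (by simpa [S₁.orth_B_self, hm, H.two, ← hc, S₁.orth_Q_zero] using hs u u)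
    have h5 := hs u d
    have h6 : S₁.Q (a d) = 0 := Q_of_B H.two (by simp [hs, B_self_zero hd])
    obtain ⟨x, hx⟩ : ∃ x, x = d - (ν * S₁.Q u) • e := ⟨_, rfl⟩
    have hQ : S₁.Q x = -(ν * S₁.Q u) := by
      simp [hx, S₁.orth_Q_sub, S₁.orth_Q_smul, hd, he, hed, S₁.orth_B_swap e d]
    have h8 := orth3 H.two h3 hu (v := x) (by simp [hQ, hν0, hu]) hv
      (by simp [hx, S₁.B_comm_zero hue, S₁.B_comm_zero hud]) (by simp [S₁.B_comm_zero hue, S₁.B_comm_zero hud])
      (by simp [hx, B_self_zero hd, B_self_zero he, hed, S₁.orth_B_swap e d]) (a d)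
    rw [← hc, hud, mul_zero, PQ.B_smul_left, mul_eq_zero, or_iff_right hc0] at h5
    have hxu : S₁.B x u = 0 := by simp [hx, S₁.B_comm_zero hue, S₁.B_comm_zero hud]
    simp only [rf_apply, S₁.B_comm_zero h5, PQ.B_sub_left, PQ.B_smul_left, hxu] at h8
    set α := S₁.B (a d) u / S₁.Q u
    set β := S₁.B (a d) x / S₁.Q x
    have h9 : (2 : F) • a d = α • u + β • x := by
      simp [α] at h8 ⊢; linear_combination (norm := module) h8
    have h10 := congrArg S₁.Q h9
    simp [S₁.orth_Q_add, S₁.orth_Q_smul, h6, hQ, S₁.B_comm_zero hxu] at h10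
    by_cases hβ : β = 0
    · simp [hβ, hu] at h10
      simp [hβ, h10, H.two, hd0] at h9
    · exact hν ⟨α / β, by field_simp; exact mul_right_cancel₀ hu (by linear_combination h10)⟩
  have hzT := cen_tt hu H h3 h4 hz h1
  obtain ⟨v, hv', ev⟩ : ∃ v, ∃ hv : S₁.Q v ≠ 0, z * tt h hu = tt h hv := by
    rcases en with en | en
    · exact en ▸ fus_tt hu H h3 h4 hn (en ▸ mul_mem hzT (tt_T hu))
    · have en' : z * tt h hu = (n * g) * tt h hv * (n * g)⁻¹ := by rw [en]; group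
      exact en' ▸ fus_tt hv H h3 h4 (mul_mem hn hg) (en' ▸ mul_mem hzT (tt_T hu))
  have ez : z = tt h hv' * tt h hu := by rw [← ev, mul_assoc, tt_sq, mul_one]
  have : Nontrivial W := Module.nontrivial_of_finrank_pos (R := F) (by omega)
  obtain ⟨y, hy⟩ := exists_ne (0 : W)
  have huv : S₁.B u v = 0 := by
    by_contra hn
    obtain ⟨y', hy'⟩ := mem_of_fix (h := h) hu (x := z (τ u y)) (by
      simpa [tt_self] using (LinearEquiv.congr_fun h1 (τ u y)).symm) H.two
    rw [ez, LinearEquiv.mul_apply, tt_self, tt_tmul, ← map_neg] at hy'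
    obtain ⟨c, hc⟩ := Submodule.mem_span_singleton.1 (h.tens.mem_span_of_eq (by simpa) hy'.symm)
    obtain ⟨k, rfl⟩ : ∃ k : F, v = k • u := ⟨(S₁.Q v / S₁.B u v) * (1 - c), by
      rw [mul_smul, sub_smul, hc]; simp [smul_smul, hn, hv']⟩
    have hk : k ≠ 0 := by rintro rfl; simp at hn
    refine hz1 (ez.trans (h.eq_of_tens fun x y => ?_))
    have : ∀ x, rf S₁ hv' x = rf S₁ hu x := fun x => by
      simp [S₁.orth_Q_smul, smul_smul]; congr 1; field_simp
    simp [tt_tmul, this, rf_rf, -rf_apply]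
  obtain ⟨x, hx, h5, h6⟩ := exists3 H.two h.nd₁ h3 hv' hu huv
  have ez' : z = tt h hx := ez.trans (h.eq_of_tens fun a y => by
    simp [tt_tmul, orth3 H.two h3 hv' hu hx huv h5 h6, -rf_apply])
  refine inv_mem_iff.1 (fus_tt' hx H h3 h4 (inv_mem hg) (ez' ▸ cen_tt hv H h3 h4
    (mul_mem (mul_mem (inv_mem hg) hz) (inv_mem (inv_mem hg))) ?_))
  calc _ = g⁻¹ * (z * (g * tt h hv * g⁻¹)) * g := by group
    _ = _ := by rw [h2]; group

omit H h3 h4 [Nontrivial U] [Finite F] in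
/-- `O₃ ∘ O₄⁻` is maximal in `Ω₁₂⁻(q)`, `q ≥ 5` odd. -/
theorem isMaximalIn_O3O4 {F : Type*} [Field F] [Fintype F] (hodd : Odd (Fintype.card F))
    (h5 : 5 ≤ Fintype.card F) {ι : Type} [Fintype ι] [DecidableEq ι] {Q : (ι → F) → F}
    (hQ : Geo.IsNondegenerateQuadraticForm Q) (e : ι ≃ Fin 3 × Fin 4) (P : GL ι F)
    (f₁ : (Fin 3 → F) → (Fin 3 → F) → F) (f₂ : (Fin 4 → F) → (Fin 4 → F) → F)
    (hf₁ : Geo.IsSymmetricForm f₁) (hf₂ : Geo.IsSymmetricForm f₂)
    (hm : ¬ Geo.IsPlusTypeOn (fun v => f₂ v v) ⊤)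
    (hT : Geo.IsTensorFormStructure id (QuadraticMap.polar Q) f₁ f₂ e P) :
    Geo.IsMaximalIn (Geo.omegaGL Q) (Geo.tensorProductSubgroup 3 4 e P ⊓ Geo.omegaGL Q) := by
  have two := two_ne_zero_of_odd_card hodd
  obtain ⟨c, hc, H⟩ := tensorForm_apply (symmPQ two hf₁) (symmPQ two hf₂) (fun _ => rfl) (fun _ => rfl) hT
  have h : TF (TenForm.scale (symmPQ two hf₁) c rfl fun _ hl => by simp_all) (symmPQ two hf₂) (quadPQ hQ)
      (tensOf e P) := ⟨isTens_tensOf e P, fun _ => rfl, fun _ => rfl, by simp,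
      fun u w u' w' => by rw [quadPQ_B, H, ← mul_assoc]; rfl,
      TenForm.scale_nondeg (symmPQ_nondeg two hf₁) hc _ _, symmPQ_nondeg two hf₂⟩
  have hn' : Fintype.card ι = 3 * 4 := by simpa using Fintype.card_congr e
  obtain ⟨t, ht, ht1⟩ := TenSpO2.exists_sq_ne_one two (by omega)
  refine om_max hQ (mem_tensorProductSubgroup_iff' e P)
    (H8.omega_not_le_tensorProductSubgroup hQ (by omega) (by omega) (by omega) e P) fun M a1 a2 a3 => ?_
  have H : OI h M := ⟨two, by simp, by simp, fun w y hw h0 hy hyw => by_contra fun hn => hm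
    ⟨Submodule.span F {w, y}, le_top, fun v hv => by
      obtain ⟨a, b, rfl⟩ := Submodule.mem_span_pair.1 hv
      exact B_self_zero (S := symmPQ two hf₂) (by
        simp [PQ.orth_Q_add, PQ.orth_Q_smul, hw, hy, PQ.B_comm_zero _ hyw]), by
      have h6 := finrank_span_eq_card (LinearIndependent.pair_iff' h0 |>.2 fun a e =>
        hn (Submodule.mem_span_singleton.2 ⟨a, e⟩))
      rw [Matrix.range_cons_cons_empty] at h6
      simp [h6]⟩, a1, a2⟩
  by_contra hc
  exact a3 (le_TStab ⟨H, fun w hw h0 q hq hQ => H.eq_eT ht ht1 hw h0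
    (fun X hX => by_contra fun hX0 => hc (H.le_of_Z (by simp) hw h0 hX hX0)) hq hQ⟩ (by simp) (by simp))

end Cfsg.Agent.H3.TenO7
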