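import Cfsg.Agent.H3.C2j
import Cfsg.Agent.H2.A7a
import Cfsg.Agent.H6.X1
import Cfsg.Agent.H2.M4g
import Cfsg.Agent.H7.M4D

/-! Simple irreducible subgroups of `SL₄` in characteristic two without transvections. -/

set_option autoImplicit false
set_option linter.unusedSectionVars false

namespace Cfsg.Agent.H3.C2

open Matrix H2.M4 H3.Sz3 Asch

variable {K : Type*} [Field K] [CharP K 2] [Finite K] {G : Type*} [Group G] [Finite G] {ρ : G →* M4 K}

theorem Bas.main (h : Bas ρ) {ω : K} (hω : ω ^ 2 + ω + 1 = 0) (ev : 2 ∣ Nat.card G) :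
    Real ρ ∨ Nonempty (G ≃* alternatingGroup (Fin 7)) := by
  have se : SEA G → Real ρ := fun ⟨M, a, b, c, d⟩ => H6.X.se_real h h.toBas0.ev M a b c d
  obtain ⟨S⟩ : Nonempty (Sylow 2 G) := inferInstance
  have ho : Odd (S : Subgroup G).index := Nat.odd_iff.2 (Nat.two_dvd_ne_zero.1 S.not_dvd_index)
  have hS : Nontrivial (S : Subgroup G) := (Subgroup.nontrivial_iff_ne_bot _).2 (S.ne_bot_of_dvd_card ev)
  have hZ := S.isPGroup'.center_nontrivial
  obtain ⟨c, c1⟩ := exists_ne (1 : Subgroup.center (S : Subgroup G))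
  obtain ⟨m, m1, m2⟩ := H5.Odd.exists_involution_pow (x := c.1.1) fun e => by
    obtain ⟨k, hk⟩ := IsPGroup.iff_orderOf.1 S.isPGroup' c.1
    rw [Subgroup.orderOf_coe, hk] at e
    rcases k with _ | k
    · exact c1 (Subtype.ext (orderOf_eq_one_iff.1 hk))
    · exact absurd e (by simp [pow_succ, Nat.odd_mul])
  obtain ⟨P, h1, -⟩ := h.exists_nf ho S.isPGroup' m1 m2 fun s hs =>
    (Commute.pow_right (congrArg Subtype.val (Subgroup.mem_center_iff.1 c.2 ⟨s, hs⟩)) m).eq
  generalize c.1.1 ^ m = z at h1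
  by_cases hA : ∀ g ∈ T0 (cjr P ρ), g * g = 1 → g ∈ A0 (cjr P ρ)
  · exact Or.inl (se (h1.seL hA))
  push Not at hA
  obtain ⟨t, ht, t2, tA⟩ := hA
  obtain ⟨a, d, f, e⟩ := (h1.AQ ht t2).resolve_left tA
  have h2 : NC (cjr P ρ) z := ⟨h1, t, a, d, f, by simpa [notA e] using tA, e⟩
  by_cases hT : ∀ s ∈ T0 (cjr P ρ), s ∈ Q0 (cjr P ρ)
  · rcases h2.tq hT with e | ⟨P', t, g, h3⟩
    · exact Or.inl (se e)
    · obtain ⟨_, _, _, _, v⟩ := h3.vg
      exact v.false.elim
  push Not at hT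
  obtain ⟨x, u, y0, h3⟩ := h2.d8 hT
  obtain ⟨P', y, h4⟩ := h3.dg
  by_cases hC : ∀ g, g * z = z * g → g ∈ T0 (cjr P ρ)
  · exact Or.inl (h4.real hC).of_cj.of_cj
  push Not at hC
  obtain ⟨g, gz, gT⟩ := hC
  obtain ⟨_, k, h5⟩ := h4.a7 hω gz gT
  exact Or.inr (H2.A7.a7_of h5.toBas h5.hz h5.hx h5.hy h5.hu h5.hk h5.hT h5.hC)

theorem even_of_full (hF : Full (Set.range ρ)) : 2 ∣ Nat.card G := by
  have := Fintype.ofFinite G
  let Z : M4 K := ∑ g, ρ g * single 0 0 1 * ρ g⁻¹
  have h1 := hF.comm (Z := Z) (by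
    rintro _ ⟨k, rfl⟩
    simp only [Z, Finset.sum_mul, Finset.mul_sum]
    refine (Fintype.sum_equiv (Equiv.mulLeft k) _ _ fun g => ?_).symm
    simp only [Equiv.coe_mulLeft, _root_.mul_inv_rev, map_mul, mul_assoc, inv_mul4, mul_one])
  have h2 : ∀ i, Z i i = Z 0 0 := fun i => by simpa using congrFun (congrFun (h1 (single i 0 1)) i) 0
  have h3 : Z.trace = 0 := by
    simp only [trace, diag, Fin.sum_univ_four, h2 1, h2 2, h2 3]; gc
  have h4 : Z.trace = Nat.card G := by
    simp only [Z, trace_sum, fun g => trace_mul_cycle (ρ g) (single 0 0 (1 : K)) (ρ g⁻¹), inv_mul4, one_mul]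
    simp
  exact (CharP.cast_eq_zero_iff K 2 _).1 (h4 ▸ h3)

theorem main {P : Subgroup (G4 K)} (hp : ⁅P, P⁆ = P) (hs : IsSimpleGroup (PQ P)) (hF : Full (Geo.matrixSet P))
    (hω : ∃ ω : K, ω ^ 2 + ω + 1 = 0) (ntv : H7.M4.NoTv P) : C3 P ∨ C5 P := by
  obtain ⟨ω, hω⟩ := hω
  let ρ : P →* M4 K := (Units.coeHom _).comp P.subtype
  have hd : ∀ g ∈ P, g.val.det = 1 := fun g hg => by
    have : P ≤ (Matrix.GeneralLinearGroup.det (n := Fin 4) (R := K)).ker := by
      rw [← hp]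
      exact Subgroup.commutator_le.2 fun a _ b _ => by simp [commutatorElement_def]
    simpa using congrArg Units.val (this hg)
  have hsc : (Geo.scalars (Fin 4) K).subgroupOf P = ⊥ := (Subgroup.eq_bot_iff_forall _).2 fun g hg => by
    obtain ⟨c, hc⟩ := mem_Sc.1 (show g.1 ∈ Sc K from hg)
    have := hd g g.2
    rw [hc, det_smul, det_one, mul_one, Fintype.card_fin] at this
    have c1 : c = 1 := Sz1.sq_inj (Sz1.sq_inj (by gc this))
    exact Subtype.ext (Units.ext (by simp [hc, c1]))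
  let e : PQ P ≃* P := (QuotientGroup.quotientMulEquivOfEq hsc).trans QuotientGroup.quotientBot
  have hF' : Full (Set.range ρ) := hF.mono (by rintro _ ⟨g, hg, rfl⟩; exact ⟨⟨g, hg⟩, rfl⟩)
  have hB : Bas ρ :=
    { inj := fun a b e => Subtype.ext (Units.ext e)
      det := fun g => hd g g.2
      nt := fun g v w e => by
        have h1 := ntv g g.2
        rw [show (g : G4 K).val = 1 + vecMulVec v w from e, add_sub_cancel_left] at h1
        have h2 := rank_vecMulVec_le v w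
        have h3 : vecMulVec v w = 0 := by
          have : (vecMulVec v w).rank = 0 := by omega
          rw [Matrix.rank, Submodule.finrank_eq_zero, LinearMap.range_eq_bot, ← toLin'_apply'] at this
          exact toLin'.map_eq_zero_iff.1 this
        rw [h3, add_zero] at e
        exact Subtype.ext (Units.ext e)
      irr := fun W hW => hF'.irred W (by rintro _ ⟨g, rfl⟩; exact hW g)
      simple := e.symm.isSimpleGroup
      nab := fun hc => by
        have := e.symm.isSimpleGroup.toNontrivial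
        obtain ⟨g, g1⟩ := exists_ne (1 : P)
        have : P ≤ ⊥ := hp ▸ Subgroup.commutator_le.2 fun a ha b hb => Subgroup.mem_bot.2
          (commutatorElement_eq_one_iff_mul_comm.2 (congrArg Subtype.val (hc.1.1 ⟨a, ha⟩ ⟨b, hb⟩)))
        exact g1 (Subtype.ext (this g.2)) }
  rcases hB.main hω (even_of_full hF') with h | ⟨⟨f⟩⟩
  · exact Or.inl fun x hx => h ⟨x, hx⟩
  · exact Or.inr ⟨e.trans f⟩

end Cfsg.Agent.H3.C2
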