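import Cfsg.Agent.H1.N4i
import Cfsg.Agent.H1.N3b
import Cfsg.Agent.H4.HC2

/-! Dihedral centralisers and the homocyclic case: the class equations. -/

set_option autoImplicit false

namespace Cfsg.Agent.H3.NF

open Subgroup Cfsg.Agent.MH Cfsg.Agent.H1.Mit Cfsg.Agent.H1.N1

variable {T : Type*} [Group T] [Finite T] {Ro : T → Prop} {p : ℕ} {x y z g s t u v : T}

theorem tdA (d : DC T) (nf : NF T) (hu : Inv u) (hv : Inv v) (h1 : v ≠ u) (h2 : v ∈ Cn u) :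
    ∃ A ≤ Cn u, u ∈ A ∧ Nat.card (Cn u) = 2 * Nat.card A ∧ (∀ x ∈ A, ∀ y ∈ A, x * y = y * x) ∧
      (∀ s ∈ A, Inv s → s = u) ∧ (∀ x ∈ Cn u, x ∉ A → x * x = 1) ∧ ∀ x ∈ Cn u, x ∉ A → x * v ∈ A := by
  obtain ⟨A, O, a1, a2, a3, a4, a5, a6, a7, -⟩ := d.cent hu
  have vA : v ∉ A := fun k => h1 (a4 v k hv)
  have out : ∀ x ∈ Cn u, x ∉ A → x * x = 1 := fun x hx n => by
    obtain ⟨m, ⟨k, rfl⟩, e⟩ := Od.of_mem a6 (a7 x hx n)
    have n' : x ^ (2 * k + 1) ∉ A := fun a => n ((mul_mem_cancel_left (by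
      rw [pow_mul, pow_two]; exact pow_mem (a5 (a7 x hx n)) k)).1 (pow_succ x _ ▸ a))
    exact nf u (x ^ (2 * k + 1)) hu ⟨fun a => n' (a ▸ A.one_mem), by rw [← (Commute.refl x).mul_pow, e]⟩ (fun a => n' (a ▸ a2))
      (mem_Cn.1 (pow_mem hx _)) _ (Od.of_mem a6 (a7 x hx n)) (mul_mem hx hx) (pow_mem_Cn (mul_mem (self_mem_Cn x) (self_mem_Cn x)) _)
  have iv : ∀ a ∈ A, v * a * v = a⁻¹ := fun a ha => eq_inv_of_mul_eq_one_left (by
    rw [mul_assoc (v * a), out _ (mul_mem h2 (a1 ha)) fun k => vA ((mul_mem_cancel_right ha).1 k)])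
  refine ⟨A, a1, a2, card_two a1 h2 vA a3, fun x hx y hy => inv_injective ?_, a4, out, fun x a b => a3 x a v h2 b vA⟩
  rw [← iv _ (mul_mem hx hy), mul_inv_rev, ← iv x hx, ← iv y hy]
  simp [mul_assoc, ← mul_assoc v v, hv.2]

theorem nf_inv (d : DC T) (nf : NF T) (hu : Inv u) (hv : Inv v) (h1 : v ≠ u) (h2 : v ∈ Cn u) (ho : Od y)
    (hy : y ∈ Cn u) : v * y * v⁻¹ = y⁻¹ := by
  obtain ⟨A, a1, a2, -, a3, a4, a5, -⟩ := tdA d nf hu hv h1 h2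
  have m : y ∈ A := by_contra fun n => n (ho.eq_one (a5 y hy n) ▸ A.one_mem)
  refine eq_inv_of_mul_eq_one_left ?_
  rw [hv.inv_eq, mul_assoc (v * y), a5 _ (mul_mem h2 hy) fun k => h1 (a4 v ((mul_mem_cancel_right m).1 k) hv)]

theorem nf_oc (h : LG Ro p) (d : DC T) (nf : NF T) (hc : Cls t) (hs : Inv s) (h1 : s ≠ t) (h2 : s ∈ Cn t) (ho : Od y)
    (y1 : y ≠ 1) {a b : T} (ha : a ∈ Cn y) (hb : b ∈ Cn y) (oa : Od a) (ob : Od b) : a * b = b * a := by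
  have k : ∀ z ∈ Cn y, ∀ z' ∈ Cn y, Inv z → Inv z' → z * z' = z' * z → z = z' := fun z a z' a' b b' c =>
    by_contra fun n => y1 (nf z z' b b' n c y ho (mem_Cn_comm.1 a) (mem_Cn_comm.1 a'))
  obtain ⟨Q, a1, a2, a3⟩ := exists_compl (Cn y) k fun z hz iz a ha b hb c f => by
    obtain ⟨v, v1, v2, v3⟩ := Cls.other hc hs h1 h2 iz
    obtain ⟨A, -, b2, -, b3, -, b5, -⟩ := tdA d nf iz v1 v2 v3
    have : ∀ a ∈ Cn y, a ∈ Cn z → a ∈ A := fun a ha c => by_contra fun n =>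
      n (k z hz a ha iz ⟨fun e => n (e ▸ A.one_mem), b5 a c n⟩ (mem_Cn.1 c) ▸ b2)
    exact b3 a (this a ha c) b (this b hb f)
  exact h.oa _ _ y1 a1 a2 _ (a3 a ha oa) _ (a3 b hb ob)

theorem td (h : LG Ro p) (d : DC T) (nf : NF T) (ht : Inv t) (hs : Inv s) (h1 : s ≠ t) (h2 : s ∈ Cn t) : ∃ A k, TD t A k := by
  obtain ⟨A, a1, a2, a3, a4, a5, a6, -⟩ := tdA d nf ht hs h1 h2
  obtain ⟨S, x0, hD⟩ := d.syl ht hs h1 h2
  have hS := hD.hS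
  have hc := d.cls ht
  refine ⟨A, TD.of h.perf S hS ht (fun x u x2 hu ux tx => by_contra fun n => ?_) a1 a2 a3 a4 a5 a6⟩
  have ev : ∀ {w : T} {k}, Inv (w ^ k) → w ∈ Cn x → ∀ u : T, Inv u → u ∈ Cn x → Od x → u ∈ Cn (w ^ k) → w ^ k = u :=
    fun i a u b c o f => by_contra fun e => x2 (by
      rw [nf _ u i b e (mem_Cn.1 f) x o (mem_Cn_comm.1 (pow_mem a _)) (mem_Cn_comm.1 c), mul_one])
  have xt := mem_Cn_comm.1 tx
  rcases od_or x with ox | ⟨k, i⟩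
  swap
  · exact n (a5 _ (pow_mem (by_contra fun e => x2 (a6 x xt e)) k) i ▸ pow_mem_Cn ux k)
  have x1 : x ≠ 1 := by rintro rfl; simp at x2
  have wi : t * (u * t) * t⁻¹ = (u * t)⁻¹ := by rw [mul_inv_rev, hu.inv_eq, ht.inv_eq, ← mul_assoc, mul_assoc _ t, ht.2, mul_one]
  have wx := mul_mem ux tx
  have ow : Od (u * t) := (od_or _).resolve_right fun ⟨k, i⟩ => by
    have e : t * (u * t) ^ k * t⁻¹ = (u * t) ^ k := by rw [← conj_pow, wi, inv_pow, i.inv_eq]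
    have := ev i wx t ht tx ox (Cn_of_conj e)
    have m := pow_mem_Cn (self_mem_Cn (u * t)) k
    rw [this] at m
    exact n ((mul_mem_cancel_right (self_mem_Cn t)).1 m)
  have w1 : u * t ≠ 1 := fun e => n (by rw [eq_inv_of_mul_eq_one_left e]; exact inv_mem (self_mem_Cn t))
  generalize u * t = w at wi wx ow w1
  have oc := fun {y a b} => nf_oc (y := y) (a := a) (b := b) h d nf hc hs h1 h2
  have sx : s * w * s⁻¹ ∈ Cn x := by
    have := (conj_mem_Cn (g := s)).2 wx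
    rw [nf_inv d nf ht hs h1 h2 ox xt] at this
    simpa using mem_Cn_comm.1 (inv_mem (mem_Cn_comm.1 this))
  have c := mem_Cn.1 h2
  have cw := oc ox x1 wx sx ow (ow.conj s)
  obtain ⟨v, hv, v1, v2, y, oy, y1, yx, yv⟩ : ∃ v, Inv v ∧ v ≠ t ∧ v ∈ Cn t ∧ ∃ y, Od y ∧ y ≠ 1 ∧ y ∈ Cn x ∧ y ∈ Cn v := by
    have ss : s * (s * w * s⁻¹) * s⁻¹ = w := by rw [hs.inv_eq, ← mul_assoc, ← mul_assoc, hs.2, one_mul, mul_assoc, hs.2, mul_one]
    by_cases e : w * (s * w * s⁻¹) = 1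
    · refine ⟨t * s, ht.mul hs h1.symm c, by simpa using hs.1, mul_mem (self_mem_Cn t) h2, w, ow, w1, wx,
        mem_Cn_comm.1 (Cn_of_conj ?_)⟩
      rw [show t * s * w * (t * s)⁻¹ = t * (s * w * s⁻¹) * t⁻¹ by group, eq_inv_of_mul_eq_one_right e, ← conj_inv, wi, inv_inv]
    · exact ⟨s, hs, h1, h2, _, ow.mul (ow.conj s) cw, e, mul_mem wx sx, mem_Cn_comm.1 (Cn_of_conj (by rw [← conj_mul, ss, cw]))⟩
  have oc2 : ∀ {t a b : T}, Inv t → a ∈ Cn t → b ∈ Cn t → Od a → Od b → a * b = b * a := fun i a b c e => by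
    obtain ⟨A, O, a1, -, -, -, a5, a6, -, a8⟩ := d.cent i
    exact h.oa _ O i.1 (a5.trans a1) a6 _ (a8 _ a c) _ (a8 _ b e)
  have com : ∀ {a b}, a ∈ Cn t → b ∈ Cn v → Od a → Od b → a * b = b * a := fun ha hb oa ob =>
    oc oy y1 (mem_Cn.2 (oc ox x1 yx (mem_Cn.2 (oc2 ht xt ha ox oa)) oy oa)) (mem_Cn.2 (oc2 hv yv hb oy ob)) oa ob
  obtain ⟨r, k, hr, o, z1, zr⟩ := ox.exists_prime x1
  have zt := pow_mem xt k
  generalize x ^ k = z at z1 zr zt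
  have oz : Od z := ⟨r, o, zr⟩
  obtain ⟨g, g1, g2⟩ := d.cyc ht hv v1 v2
  have cv := mem_Cn.1 v2
  have m1 : g * z * g⁻¹ ∈ Cn v := g1 ▸ conj_mem_Cn.2 zt
  have m2 : g * (g * z * g⁻¹) * g⁻¹ ∈ Cn (t * v) := g2 ▸ conj_mem_Cn.2 m1
  have m3 := (conj_mem_Cn (g := g)).2 m2
  rw [← conj_mul (a := t), g1, g2, cv, ← mul_assoc, hv.2, one_mul] at m3
  have c1 := com zt m1 oz (oz.conj g)
  exact tri_cyc h.tri ht hv cv g1 g2 hr o zr z1 zt (nf_inv d nf ht hv v1 v2 oz zt) c1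
    (mem_Cn.1 (conj_mem_Cn.1 (mem_Cn.2 (com m3 m1 ((oz.conj g).conj g |>.conj g) (oz.conj g)).symm)))

theorem b1_eq {A : Subgroup T} {k : ℕ} (ht : MH.Inv t) (D : TD t A k) : B1 t = (A : Set T) \ {1} := by
  ext g
  refine ⟨fun ⟨g1, m, o⟩ => ⟨by_contra fun n => ?_, g1⟩, fun ⟨m, g1⟩ => ⟨g1, D.le m, (od_or g).imp_right fun ⟨j, i⟩ =>
    D.uq _ (pow_mem m j) i ▸ npow_mem_zpowers g j⟩⟩
  have e := D.out g m n
  rcases o with o | o
  · exact g1 (o.eq_one e)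
  · exact n (inv_zpowers ht ⟨g1, e⟩ o (mem_zpowers g) ▸ D.tm)

theorem sr_eq {A : Subgroup T} {k : ℕ} (ht : MH.Inv t) (D : TD t A k) (m : g ∈ A) (g1 : g ≠ 1) : sr g = 2 * k := by
  have io : ∀ x ∈ Cn t, x ∉ A → MH.Inv x := fun x a n => ⟨fun e => n (e ▸ A.one_mem), D.out x a n⟩
  have : {s | MH.Inv s ∧ MH.Inv (s * g)} = (Cn t : Set T) \ A := by
    ext s
    refine ⟨fun ⟨a, b⟩ => ⟨Cn_of_conj ?_, fun n => g1 ?_⟩, fun ⟨a, n⟩ => ⟨io s a n,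
      io _ (mul_mem a (D.le m)) fun k => n ((mul_mem_cancel_right m).1 k)⟩⟩
    · have e := inv_of_sr a b
      by_cases g2 : g * g = 1
      · rw [← D.uq g m ⟨g1, g2⟩, e]
        exact inv_eq_of_mul_eq_one_right g2
      obtain ⟨u, hu⟩ := Set.ncard_eq_one.1 (D.nv1 g (D.le m) g2)
      have m1 : t ∈ Cn g := mem_Cn_comm.1 (D.le m)
      have m2 := (conj_mem_Cn (g := s)).2 m1
      rw [e] at m2
      exact (hu.le ⟨ht.conj s, by simpa using mem_Cn_comm.1 (inv_mem (mem_Cn_comm.1 m2))⟩).trans (hu.le ⟨ht, m1⟩).symm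
    · simpa using (D.uq _ (mul_mem n m) b).trans (D.uq s n a).symm
  rw [sr, this, Set.ncard_diff D.le, ncard_coe, ncard_coe, D.card, D.cardA]
  omega

theorem u1_of {A : Subgroup T} {k : ℕ} (ht : MH.Inv t) (D : TD t A k) : U1 t (2 * k - 1) (2 * k - 1) (2 * k) := by
  have k0 : 0 < 2 * k := D.cardA ▸ Nat.card_pos
  have f : ∀ g ∈ B1 t, sr g = 2 * k := fun g a => by
    rw [b1_eq ht D] at a
    exact sr_eq ht D a.1 a.2
  have b : (B1 t).ncard = 2 * k - 1 := by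
    rw [b1_eq ht D, Set.ncard_diff_singleton_of_mem (show (1 : T) ∈ (A : Set T) from A.one_mem), ncard_coe, D.cardA]
  refine ⟨ht, D.cls, fun g a o g1 => D.nv1 g a (mt o.eq_one g1), b, ?_, fun g a _ => f g a⟩
  rw [← b]
  exact congrArg _ (Set.ext fun g => ⟨And.left, fun a => ⟨a, by rw [f g a]; omega⟩⟩)

universe u

theorem gnf (aD : ArD.{u}) : GNF.{u} := fun T _ _ Ro p h hD nf => by
  have d := hD.dc h.perf
  obtain ⟨t, s, ht, hs, h1, h2⟩ := d.ex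
  obtain ⟨A, k, D⟩ := td h d nf ht hs h1 h2
  have U := u1_of ht D
  have k0 : 0 < 2 * k := D.cardA ▸ Nat.card_pos
  obtain ⟨S, e, n, a2, a3, hN, a4, a5⟩ := U.eqs h
  rw [D.card] at a3 hN a4 a5
  refine (em (∃ i ∈ S, e i = 3)).imp (fun h3 => aD T S e n k _ a3 (by omega) h3 hN ?_ ?_) fun h3 g => ?_
  · have : (k : ℚ) ≠ 0 := by exact_mod_cast (by omega : k ≠ 0)
    rw [a4, Nat.cast_sub k0]
    push_cast
    field_simp
    ring
  · obtain ⟨j, rfl⟩ : ∃ j, k = j + 1 := ⟨k - 1, by omega⟩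
    rw [a5, show 2 * (j + 1) - 1 = 2 * j + 1 by omega]
    ring
  have ne : sr g ≠ 0 → ∃ s, MH.Inv s ∧ MH.Inv (s * g) := fun a => Set.nonempty_of_ncard_ne_zero a
  by_cases o : g ∈ OO T
  · obtain ⟨i, hi, E⟩ := a2 g o
    have := a3.gt i hi
    by_cases ev : 2 ∣ e i
    · exact Or.inr (ne (by rw [sr_ec E, if_pos ev]; omega))
    have := a3.two i hi
    have : e i ≠ 3 := fun a => h3 ⟨i, hi, a⟩
    rcases h.e4 g E.1 with a | a
    · rw [E.2.2, E.2.1] at a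
      have : 5 ≤ e i := by omega
      nlinarith
    · exact Or.inl ((a ⟨g, self_mem_Cn g⟩).imp fun j b => congrArg Subtype.val b)
  by_cases g1 : g = 1
  · exact Or.inl ⟨0, by simp [g1]⟩
  obtain ⟨u, ⟨a, b⟩, -⟩ := U.uniq g1 o
  obtain ⟨c, rfl⟩ := U.cls u a
  have m := (B1_conj c).2 b
  rw [b1_eq ht D] at m
  exact Or.inr (ne (by rw [← sr_conj c, sr_eq ht D m.1 m.2]; omega))

theorem ghc (aH : ArH.{u}) : GHC.{u} := fun T _ _ Ro p S x y h H => by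
  obtain ⟨m, m3, mo, c, U⟩ := H4.HC.hc_u1 h H
  obtain ⟨s, e, n, -, a3, hN, a4, a5⟩ := U.eqs h
  rw [c] at a3 hN a4 a5
  refine aH T s e n m _ a3 m3 mo hN ?_ ?_
  · have : (m : ℚ) ≠ 0 := by exact_mod_cast (by omega : m ≠ 0)
    rw [a4, Nat.cast_sub (by omega)]
    push_cast
    field_simp
    ring
  · obtain ⟨j, rfl⟩ : ∃ j, m = j + 1 := ⟨m - 1, by omega⟩
    rw [a5, show 2 * (j + 1) - 1 = 2 * j + 1 by omega]
    ring

end Cfsg.Agent.H3.NF
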