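import Cfsg.Agent.H8.L5h

/-! The extraspecial group of order `343` and elements of its normaliser as matrices. -/

set_option autoImplicit false
set_option linter.unusedSectionVars false
set_option linter.unusedSimpArgs false

namespace Cfsg.Agent.H3.S7

open Matrix Subgroup Equiv Finset

abbrev I := ZMod 7
abbrev M7 (F : Type*) := Matrix I I F
abbrev G7 (F : Type*) [Field F] := GL I F

instance factSeven : Fact (Nat.Prime 7) := ⟨by norm_num⟩

theorem z7 : (7 : I) = 0 := rfl

variable {F : Type*} [Field F]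

/-- monomial matrices -/
def mo (σ : Perm I) (d : I → F) (hd : ∀ x, d x ≠ 0) : G7 F :=
  H8.L5.mku (of fun i j => if i = σ j then d j else 0) (of fun i j => if j = σ i then (d i)⁻¹ else 0) (by
    ext i j
    rw [mul_apply, sum_eq_single (σ.symm i) (fun k _ hk => by simp [show i ≠ σ k from fun e => hk (by simp [e])]) (by simp)]
    simp [one_apply, hd, eq_comm])

section mo
variable {σ τ : Perm I} {d d' : I → F} {hd : ∀ x, d x ≠ 0} {hd' : ∀ x, d' x ≠ 0}

theorem mo_apply (i j : I) : (mo σ d hd).val i j = if i = σ j then d j else 0 := rfl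

theorem mul_mo (X : M7 F) (i j : I) : (X * (mo σ d hd).val) i j = X i (σ j) * d j := by
  simp [mul_apply, mo_apply]

theorem mo_mul (X : M7 F) (i j : I) : ((mo σ d hd).val * X) i j = d (σ.symm i) * X (σ.symm i) j := by
  simp [mul_apply, mo_apply, ← σ.symm_apply_eq]

theorem mul_mo_inv (X : M7 F) (i j : I) : (X * (mo σ d hd)⁻¹.val) i j = X i (σ.symm j) * (d (σ.symm j))⁻¹ := by
  rw [mul_apply, sum_eq_single (σ.symm j) (fun k _ hk => ?_) (by simp)]
  · exact congrArg _ (if_pos (by simp))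
  · exact mul_eq_zero_of_right _ (if_neg fun e => hk (by simp [e]))

theorem conj_mo (X : M7 F) (i j : I) :
    ((mo σ d hd).val * X * (mo σ d hd)⁻¹.val) (σ i) (σ j) = d i * X i j * (d j)⁻¹ := by
  simp [mul_mo_inv, mo_mul, -coe_units_inv]

theorem mo_mul_mo : mo σ d hd * mo τ d' hd' = mo (σ * τ) (fun j => d (τ j) * d' j) fun _ => mul_ne_zero (hd _) (hd' _) :=
  Units.ext (by ext i j; simp [mul_mo, mo_apply]; rfl)

theorem mo_congr (h1 : ∀ x, σ x = τ x) (h2 : ∀ x, d x = d' x) : mo σ d hd = mo τ d' hd' :=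
  Units.ext (by ext i j; simp [mo_apply, h1, h2])

theorem mo_one (h1 : ∀ x, σ x = x) (h2 : ∀ x, d x = 1) : mo σ d hd = 1 :=
  Units.ext (by ext i j; simp [mo_apply, h1, h2, one_apply])

theorem mo_diag : (mo 1 d hd).val = diagonal d := by
  ext i j; by_cases h : i = j <;> simp [mo_apply, h]

theorem det_mo : (mo σ d hd).val.det = (Perm.sign σ : ℤ) * ∏ x, d x := by
  rw [show (mo σ d hd).val = (diagonal d).submatrix σ.symm id by
    ext i j; by_cases h : i = σ j <;> simp [mo_apply, h, diagonal_apply, σ.symm_apply_eq], det_permute]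
  simp
end mo

/-- commuting up to a scalar -/
def Cm (x y : G7 F) (c : F) : Prop := x.val * y.val = c • (y.val * x.val)

theorem Cm.mul {x x' y : G7 F} {c c' : F} (h : Cm x y c) (h' : Cm x' y c') : Cm (x * x') y (c * c') := by
  rw [Cm, Units.val_mul, mul_assoc, h', mul_smul_comm, ← mul_assoc, h, smul_mul_assoc, smul_smul, mul_assoc, mul_comm c]

theorem Cm.pow {x y : G7 F} {c : F} (h : Cm x y c) (n : ℕ) : Cm (x ^ n) y (c ^ n) := by
  induction n with
  | zero => simp [Cm]
  | succ n ih => rw [pow_succ, pow_succ]; exact ih.mul h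

theorem Cm.refl (x : G7 F) : Cm x x 1 := (one_smul _ _).symm

theorem Cm.seven {x y : G7 F} {c : F} (h : Cm x y c) : c ^ 7 = 1 := by
  have := congrArg det h
  rw [det_smul, det_mul, det_mul, mul_comm, ZMod.card, eq_comm, mul_eq_right₀ (mul_ne_zero
    (GeneralLinearGroup.det_ne_zero y) (GeneralLinearGroup.det_ne_zero x))] at this
  exact this

theorem Cm.symm {x y : G7 F} {c : F} (h : Cm x y c) : Cm y x c⁻¹ := by
  rw [Cm, h, inv_smul_smul₀ (by rintro rfl; simpa using h.seven)]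

theorem Cm.conj {x y : G7 F} {c : F} (h : Cm x y c) (g : G7 F) : Cm (g * x * g⁻¹) (g * y * g⁻¹) c := by
  simpa [Cm, mul_assoc] using congrArg (g.val * · * g⁻¹.val) h

theorem cm_mo {σ τ : Perm I} {d d' : I → F} {hd : ∀ x, d x ≠ 0} {hd' : ∀ x, d' x ≠ 0} {c : F}
    (h1 : ∀ x, σ (τ x) = τ (σ x)) (h2 : ∀ x, d (τ x) * d' x = c * (d' (σ x) * d x)) : Cm (mo σ d hd) (mo τ d' hd') c := by
  ext i j
  simp [mul_mo, mo_apply, h1]
  split_ifs <;> simp [h2]

/-- a primitive seventh root of unity -/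
structure Om7 (F : Type*) [Field F] where
  ω : F
  prim : IsPrimitiveRoot ω 7

/-- the shift -/
def b (F : Type*) [Field F] : G7 F := mo (Equiv.addRight 1) (fun _ => 1) fun _ => one_ne_zero
/-- the involution -/
def z (F : Type*) [Field F] : G7 F := mo (Equiv.neg I) (fun _ => -1) fun _ => by simp
/-- affine maps -/
def aff (k t : I) (hk : k ≠ 0) : Perm I := (Equiv.mulLeft₀ k hk).trans (Equiv.addRight t)
/-- affine maps as matrices of determinant one -/
def af (F : Type*) [Field F] (k t : I) (hk : k ≠ 0) : G7 F :=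
  mo (aff k t hk) (fun _ => (Perm.sign (aff k t hk) : ℤ)) fun _ => by
    rcases Int.units_eq_one_or (Perm.sign (aff k t hk)) with h | h <;> simp [h]

theorem aff_apply (k t : I) (hk : k ≠ 0) (x : I) : aff k t hk x = k * x + t := rfl

theorem det_af (k t : I) (hk : k ≠ 0) : (af F k t hk).val.det = 1 := by
  rw [af, det_mo]
  rcases Int.units_eq_one_or (Perm.sign (aff k t hk)) with h | h <;> norm_num [h]

theorem conj_af (k t : I) (hk : k ≠ 0) (g : G7 F) (i j : I) :
    (af F k t hk * g * (af F k t hk)⁻¹).val (k * i + t) (k * j + t) = g.val i j := by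
  refine (conj_mo (σ := aff k t hk) g.val i j).trans ?_
  rcases Int.units_eq_one_or (Perm.sign (aff k t hk)) with h | h <;> simp [h]

theorem zz : z F * z F = 1 := mo_mul_mo.trans (mo_one (by simp) (by simp))
theorem zb : b F * z F * b F = z F := by
  rw [b, z, mo_mul_mo, mo_mul_mo]; exact mo_congr (by simp) (by simp)
theorem det_z : (z F).val.det = 1 := by
  rw [z, det_mo, show Perm.sign (Equiv.neg I) = -1 by decide]; norm_num
theorem det_b : (b F).val.det = 1 := by
  rw [b, det_mo, show Perm.sign (Equiv.addRight (1 : I)) = 1 by decide]; norm_num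
theorem b7 : b F ^ 7 = 1 := by
  simp only [pow_succ, pow_zero, one_mul, b, mo_mul_mo]
  exact mo_one (by decide) (by simp)
theorem comm_z {g : G7 F} : g * z F = z F * g ↔ ∀ i j, g.val (-i) (-j) = g.val i j := by
  simp only [Units.ext_iff, ← ext_iff, Units.val_mul, z, mul_mo, mo_mul]
  exact ⟨fun h i j => by simpa using (h i (-j)).symm, fun h i j => by simpa using h (-i) j⟩
theorem af_z (k : I) (hk : k ≠ 0) : af F k 0 hk * z F = z F * af F k 0 hk := by
  rw [af, z, mo_mul_mo, mo_mul_mo]; exact mo_congr (by simp [aff_apply]) (by simp)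

namespace Om7
variable (o : Om7 F)

/-- the additive character -/
def e (x : I) : F := o.ω ^ x.val

theorem w7 : o.ω ^ 7 = 1 := o.prim.pow_eq_one
include o in
theorem h7 : (7 : F) ≠ 0 := by exact_mod_cast (IsPrimitiveRoot.neZero' o.prim).ne
theorem e_nat (n : ℕ) : o.e n = o.ω ^ n := by rw [e, ZMod.val_natCast, ← pow_eq_pow_mod _ o.w7]
theorem e_add (x y : I) : o.e (x + y) = o.e x * o.e y := by rw [e, ZMod.val_add, ← pow_eq_pow_mod _ o.w7, pow_add]; rfl
theorem e_zero : o.e 0 = 1 := pow_zero _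
theorem e_one : o.e 1 = o.ω := pow_one _
theorem e_ne (x : I) : o.e x ≠ 0 := pow_ne_zero _ (o.prim.ne_zero (by norm_num))
theorem e_inj {x y : I} : o.e x = o.e y ↔ x = y :=
  ⟨fun h => ZMod.val_injective 7 (o.prim.pow_inj x.val_lt y.val_lt h), fun h => h ▸ rfl⟩
theorem e_neg (x : I) : o.e (-x) = (o.e x)⁻¹ := eq_inv_of_mul_eq_one_left (by rw [← e_add, neg_add_cancel, e_zero])
theorem e_pow (x : I) (n : ℕ) : o.e x ^ n = o.e (n * x) := by
  induction n with
  | zero => simp [e_zero]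
  | succ n ih => rw [pow_succ, ih, ← e_add]; push_cast; ring_nf
theorem e7 (x : I) : o.e x ^ 7 = 1 := by rw [e_pow, show ((7 : ℕ) : I) = 0 from rfl, zero_mul, e_zero]
theorem exists_e {c : F} (h : c ^ 7 = 1) : ∃ x, c = o.e x := by
  obtain ⟨k, -, rfl⟩ := o.prim.eq_pow_of_pow_eq_one h
  exact ⟨k, (o.e_nat k).symm⟩
theorem sum_e (t : I) : ∑ x, o.e (t * x) = if t = 0 then 7 else 0 := by
  split_ifs with h
  · simp [h, e_zero]
  refine eq_zero_of_mul_eq_self_left (o.e_zero ▸ o.e_inj.not.2 h) ?_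
  rw [mul_sum]
  exact Fintype.sum_equiv (Equiv.addRight 1) _ _ fun x => by simp [← e_add, mul_add, add_comm]
theorem phi : 1 + o.ω + o.ω ^ 2 + o.ω ^ 3 + o.ω ^ 4 + o.ω ^ 5 + o.ω ^ 6 = 0 := by
  simpa [sum_range_succ] using o.prim.geom_sum_eq_zero (by norm_num)

/-- the Gauss sum -/
def G : F := ∑ m, o.e (4 * m ^ 2)

theorem G_eq : o.G = 1 + 2 * (o.ω + o.ω ^ 2 + o.ω ^ 4) :=
  (Fin.sum_univ_seven (f := fun m : I => o.e (4 * m ^ 2))).trans (by
    change o.ω ^ 0 + o.ω ^ 4 + o.ω ^ 2 + o.ω ^ 1 + o.ω ^ 1 + o.ω ^ 2 + o.ω ^ 4 = _; ring)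
theorem GG : o.G * o.G = -7 := by
  rw [G_eq]; linear_combination (4 * o.ω ^ 2 - 4 * o.ω + 8) * o.phi
theorem G0 : o.G ≠ 0 := fun h => o.h7 (by simpa [h] using o.GG.symm)

/-- the clock -/
def a : G7 F := mo 1 o.e o.e_ne
/-- a unipotent element of the symplectic group -/
def u : G7 F := mo 1 (fun x => o.e (4 * x ^ 2)) fun _ => o.e_ne _

theorem ΦΦ : (of fun i j => o.G / 7 * o.e (i * j) : M7 F) * (of fun i j => o.G / 7 * o.e (i * j)) = (z F).val := by
  ext i j
  have := o.h7
  simp only [mul_apply, of_apply, z, mo_apply, mul_mul_mul_comm _ (o.e _), ← e_add, mul_comm _ j, ← add_mul, ← mul_sum,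
    sum_e, add_eq_zero_iff_eq_neg, Equiv.neg_apply]
  split_ifs
  · field_simp; linear_combination o.GG
  · simp

/-- the Fourier transform -/
def f : G7 F := H8.L5.mku (of fun i j => o.G / 7 * o.e (i * j)) (of (fun i j => o.G / 7 * o.e (i * j)) * (z F).val) (by
  rw [← mul_assoc, ΦΦ, ← Units.val_mul, zz, Units.val_one])

theorem f_apply (i j : I) : o.f.val i j = o.G / 7 * o.e (i * j) := rfl
theorem f_ne (i j : I) : o.f.val i j ≠ 0 := mul_ne_zero (div_ne_zero o.G0 o.h7) (o.e_ne _)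
theorem ff : o.f * o.f = z F := Units.ext o.ΦΦ
theorem fz : o.f * z F = z F * o.f := by rw [← o.ff, mul_assoc]
theorem f_inv : o.f⁻¹ = o.f * z F := inv_eq_of_mul_eq_one_right (by rw [← mul_assoc, ff, zz])
theorem a_val : o.a.val = diagonal o.e := mo_diag
theorem u_val : o.u.val = diagonal fun x => o.e (4 * x ^ 2) := mo_diag
theorem fb : o.f * b F = o.a * o.f := Units.ext (by
  ext i j; simp [a, b, mul_mo, mo_mul, f_apply, mul_add, e_add, ← Perm.inv_def]; ring)
theorem fa : b F * (o.f * o.a) = o.f := Units.ext (by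
  ext i j
  simp only [a, b, mul_mo, mo_mul, f_apply, Units.val_mul, mul_assoc, ← e_add, one_mul, Perm.coe_one, id]
  congr 2; simp; ring)
theorem ab : Cm o.a (b F) o.ω := cm_mo (by simp) (by simp [e_add, e_one, mul_comm])
theorem ua : o.u * o.a = o.a * o.u := by rw [u, a, mo_mul_mo, mo_mul_mo]; exact mo_congr (by simp) (by simp [mul_comm])
theorem zu : z F * o.u = o.u * z F := by rw [u, z, mo_mul_mo, mo_mul_mo]; exact mo_congr (by simp) (by simp)
theorem za : o.a * z F * o.a = z F := by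
  rw [a, z, mo_mul_mo, mo_mul_mo]; exact mo_congr (by simp) (by simp [e_neg, e_ne])
theorem a7 : o.a ^ 7 = 1 := Units.ext (by simp [a_val, diagonal_pow, Pi.pow_def, e7])
theorem u7 : o.u ^ 7 = 1 := Units.ext (by simp [u_val, diagonal_pow, Pi.pow_def, e7])
theorem prod_e (g : I → I) : ∏ x, o.e (g x) = o.e (∑ x, g x) :=
  (map_prod (⟨⟨fun x => o.e x.toAdd, o.e_zero⟩, fun x y => o.e_add _ _⟩ : Multiplicative I →* F)
    (fun x => Multiplicative.ofAdd (g x)) univ).symm
theorem det_a : o.a.val.det = 1 := by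
  rw [a_val, det_diagonal, o.prod_e fun x => x, show ∑ x : I, x = 0 by decide, e_zero]
theorem det_u : o.u.val.det = 1 := by
  rw [u_val, det_diagonal, o.prod_e, show ∑ x : I, 4 * x ^ 2 = 0 by decide, e_zero]
theorem fu3 : (o.f * o.u) ^ 3 = 1 := by
  have : o.u * (o.f * o.u * o.f) * o.u = o.f * z F := Units.ext (by
    ext i j
    have := o.h7
    have e1 : ∑ k, o.e (i * k + 4 * k ^ 2 + k * j) = o.G * o.e (-(4 * (i + j) ^ 2)) := by
      rw [G, sum_mul]
      exact Fintype.sum_equiv (Equiv.addRight (i + j)) _ _ fun k => by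
        rw [← e_add]; congr 1; simp; linear_combination (-(i + j) * k) * z7
    have e2 : 4 * i ^ 2 + -(4 * (i + j) ^ 2) + 4 * j ^ 2 = i * -j := by
      linear_combination (-i * j) * z7
    simp only [Units.val_mul, u_val, z, mul_mo, mul_diagonal, diagonal_mul, Equiv.neg_apply]
    rw [mul_apply]
    simp only [mul_diagonal, f_apply]
    rw [sum_congr rfl fun k _ => show _ = (o.G / 7) ^ 2 * o.e (i * k + 4 * k ^ 2 + k * j) by rw [e_add, e_add]; ring,
      ← mul_sum, e1, ← e2, e_add, e_add]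
    field_simp
    linear_combination (o.e (4 * i ^ 2) * o.G * o.e (-(4 * (i + j) ^ 2)) * o.e (4 * j ^ 2)) * o.GG)
  rw [← o.f_inv, eq_inv_iff_mul_eq_one, ← mul_eq_one_comm] at this
  simpa [pow_succ, mul_assoc] using this
theorem det_f : o.f.val.det = 1 := by
  have e1 := congrArg (·.val.det) o.fu3
  have e2 := congrArg (·.val.det) o.ff
  simp only [Units.val_pow_eq_pow_val, Units.val_mul, det_pow, det_mul, det_u, det_z, mul_one, Units.val_one, det_one] at e1 e2
  rwa [pow_succ, sq, e2, one_mul] at e1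
theorem comm_a {g : G7 F} : g * o.a = o.a * g ↔ ∀ i j, i ≠ j → g.val i j = 0 := by
  simp only [Units.ext_iff, ← ext_iff, Units.val_mul, a_val, mul_diagonal, diagonal_mul, mul_comm (o.e _)]
  refine forall₂_congr fun i j => ?_
  by_cases h : i = j <;> simp [h, e_inj, eq_comm]
theorem comm_u {g : G7 F} : g * o.u = o.u * g ↔ ∀ i j, j ≠ i → j ≠ -i → g.val i j = 0 := by
  simp only [Units.ext_iff, ← ext_iff, Units.val_mul, u_val, mul_diagonal, diagonal_mul, mul_comm (o.e _)]
  refine forall₂_congr fun i j => ?_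
  rw [mul_eq_mul_left_iff, e_inj, show 4 * j ^ 2 = 4 * i ^ 2 ↔ j = i ∨ j = -i by revert i j; decide]
  tauto

/-- the extraspecial group -/
def R : Subgroup (G7 F) := closure {o.a, b F}

theorem a_mem : o.a ∈ o.R := subset_closure (by simp)
theorem b_mem : b F ∈ o.R := subset_closure (by simp)

theorem sc_mem {x : G7 F} {c : F} (h : x.val = c • 1) (hc : c ^ 7 = 1) : x ∈ o.R := by
  obtain ⟨k, -, rfl⟩ := o.prim.eq_pow_of_pow_eq_one hc
  have e : (o.a * b F * o.a⁻¹ * (b F)⁻¹).val = o.ω • 1 := by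
    rw [mul_assoc, ← _root_.mul_inv_rev, Units.val_mul, Units.val_mul, o.ab, smul_mul_assoc, ← Units.val_mul, ← Units.val_mul,
      mul_inv_cancel, Units.val_one]
  rw [show x = (o.a * b F * o.a⁻¹ * (b F)⁻¹) ^ k from Units.ext (by rw [h, Units.val_pow_eq_pow_val, e]; simp [smul_pow])]
  exact pow_mem (mul_mem (mul_mem (mul_mem o.a_mem o.b_mem) (inv_mem o.a_mem)) (inv_mem o.b_mem)) k

theorem sc_of {y : G7 F} (h1 : Cm y o.a 1) (h2 : Cm y (b F) 1) : y.val = y.val 0 0 • 1 := by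
  have e1 := o.comm_a.1 (Units.ext (h1.trans (one_smul _ _)))
  have e2 : ∀ i, y.val (i + 1) (i + 1) = y.val i i := fun i => by
    simpa [b, mul_mo, mo_mul] using congrFun (congrFun h2 (i + 1)) i
  have e3 : ∀ n : ℕ, y.val n n = y.val 0 0 := fun n => by
    induction n with
    | zero => simp
    | succ n ih => rw [Nat.cast_succ, e2, ih]
  ext i j
  by_cases hij : i = j
  · simpa [hij] using e3 j.val
  · simp [e1 i j hij, hij]

theorem exists_nf {x : G7 F} {c d : F} (h1 : Cm x o.a c) (h2 : Cm x (b F) d) :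
    ∃ (m n : ℕ) (e : F), (x * o.a ^ m * b F ^ n).val = e • 1 := by
  obtain ⟨i, -, rfl⟩ := o.prim.eq_pow_of_pow_eq_one h1.seven
  obtain ⟨j, -, rfl⟩ := o.prim.eq_pow_of_pow_eq_one h2.seven
  have w0 := o.prim.ne_zero (by norm_num)
  refine ⟨6 * j, i, _, o.sc_of ?_ ?_⟩
  · simpa [w0] using (h1.mul ((Cm.refl _).pow (6 * j))).mul (o.ab.symm.pow i)
  · simpa [pow_mul, ← mul_pow, ← pow_succ', w7] using (h2.mul (o.ab.pow (6 * j))).mul ((Cm.refl _).pow i)

theorem mem_R {x : G7 F} {c d : F} (h1 : Cm x o.a c) (h2 : Cm x (b F) d) (hd : x.val.det = 1) : x ∈ o.R := by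
  obtain ⟨m, n, e, he⟩ := o.exists_nf h1 h2
  have := o.sc_mem he (by simpa [hd, o.det_a, det_b] using (congrArg det he).symm)
  rwa [mul_mem_cancel_right (pow_mem o.b_mem _), mul_mem_cancel_right (pow_mem o.a_mem _)] at this

theorem cm_R {x y : G7 F} (hx : x ∈ o.R) (hy : y ∈ o.R) : ∃ c, Cm x y c := by
  have key : ∀ {y}, (∃ c, Cm o.a y c) → (∃ c, Cm (b F) y c) → ∀ x ∈ o.R, ∃ c, Cm x y c := fun ⟨_, h1⟩ ⟨_, h2⟩ x hx => by
    induction hx using closure_induction with
    | mem x hx => rcases hx with rfl | rfl; exacts [⟨_, h1⟩, ⟨_, h2⟩]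
    | one => exact ⟨1, by simp [Cm]⟩
    | mul x y _ _ h h' => exact ⟨_, h.choose_spec.mul h'.choose_spec⟩
    | inv x _ h => exact ⟨_, by simpa [Cm, mul_assoc] using congrArg (x⁻¹.val * · * x⁻¹.val) h.choose_spec.symm⟩
  exact key ⟨_, (key ⟨_, .refl _⟩ ⟨_, o.ab.symm⟩ y hy).choose_spec.symm⟩
    ⟨_, (key ⟨_, o.ab⟩ ⟨_, .refl _⟩ y hy).choose_spec.symm⟩ x hx

theorem nrm [Finite F] {g : G7 F} (h1 : g * o.a * g⁻¹ ∈ o.R) (h2 : g * b F * g⁻¹ ∈ o.R) :
    g ∈ Geo.subgroupNormalizer o.R := mem_normalizer_fintype fun r hr =>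
  (closure_le (o.R.comap (MulAut.conj g).toMonoidHom)).2 (by rintro _ (rfl | rfl) <;> assumption) hr

theorem f_nrm [Finite F] : o.f ∈ Geo.subgroupNormalizer o.R :=
  o.nrm (by rw [eq_inv_mul_iff_mul_eq.2 o.fa, mul_inv_cancel_right]; exact inv_mem o.b_mem)
    (by rw [fb, mul_inv_cancel_right]; exact o.a_mem)

theorem u_nrm [Finite F] : o.u ∈ Geo.subgroupNormalizer o.R := by
  refine o.nrm (by rw [ua, mul_inv_cancel_right]; exact o.a_mem) ?_
  rw [show o.u * b F * o.u⁻¹ = b F * mo 1 (fun x => o.e (x + 4)) fun _ => o.e_ne _ from mul_inv_eq_iff_eq_mul.2 (by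
    simp only [u, b, mo_mul_mo]
    exact mo_congr (by simp) fun x => by simp [← e_add, e_inj]; linear_combination x * z7)]
  refine mul_mem o.b_mem (o.mem_R (c := 1) (d := o.ω) (cm_mo (by simp) (by simp [mul_comm]))
    (cm_mo (by simp) fun x => by simp [e_add, e_one]; ring) ?_)
  rw [mo_diag, det_diagonal, prod_e, show ∑ x : I, (x + 4) = 0 by decide, e_zero]

theorem af_nrm [Finite F] (k t : I) (hk : k ≠ 0) : af F k t hk ∈ Geo.subgroupNormalizer o.R := by
  have e1 : af F k t hk * o.a * (af F k t hk)⁻¹ = mo 1 (fun x => o.e (k⁻¹ * (x - t))) fun _ => o.e_ne _ :=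
    mul_inv_eq_iff_eq_mul.2 (by
      simp only [af, a, mo_mul_mo]
      exact mo_congr (by simp) fun x => by simp [aff_apply, hk, mul_comm])
  have e2 : af F k t hk * b F * (af F k t hk)⁻¹ = mo (Equiv.addRight k) (fun _ => 1) fun _ => one_ne_zero :=
    mul_inv_eq_iff_eq_mul.2 (by
      simp only [af, b, mo_mul_mo]
      exact mo_congr (fun x => by simp [aff_apply]; ring) (by simp))
  refine o.nrm (o.mem_R (c := 1) (d := o.e k⁻¹) (e1 ▸ cm_mo (by simp) (by simp [mul_comm]))
    (e1 ▸ cm_mo (by simp) fun x => by simp [← e_add, e_inj]; ring) (by simp [det_a, det_af]))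
    (o.mem_R (c := o.e (-k)) (d := 1) (e2 ▸ cm_mo (by simp) fun x => by simp [← e_add])
    (e2 ▸ cm_mo (fun x => by simp; ring) (by simp)) (by simp [det_b, det_af]))

end Om7

end Cfsg.Agent.H3.S7
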