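import Cfsg.Agent.H8.U5Defs
import Cfsg.Agent.H8.L5e

/-! Arithmetic for the Singer cycle of `SU₅(q)`. -/

set_option autoImplicit false

namespace Cfsg.Agent.H3.U5R
open Cfsg.Agent.H8.U5 Cfsg.Agent.H8.L5e

def chkU (k : ℕ) : Bool :=
  (List.range 6).all fun c => (List.range c).all fun a => (c == 5 && a == 4) ||
    NU (5 * k + 4) % (a + c * (tt (5 * k + 4) / 5 - 1)) != 0

theorem chkU_all : (List.range 1500).all (fun k => decide (k < 1) || chkU k) = true := by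
  decide +kernel

theorem NU_eq {q s u t : ℕ} (hs : q = s + 1) (hu : u + q = q ^ 2 + 1) (ht : t + q ^ 3 + q = q ^ 4 + q ^ 2 + 1) :
    NU q = q ^ 10 * s ^ 2 * (q + 1) ^ 4 * (q ^ 2 + 1) * u * t := by
  have e1 : q ^ 2 - 1 = s * (q + 1) := by subst hs; exact Nat.sub_eq_of_eq_add (by ring)
  have e2 : q ^ 4 - 1 = s * (q + 1) * (q ^ 2 + 1) := by subst hs; exact Nat.sub_eq_of_eq_add (by ring)
  have e3 : q ^ 3 + 1 = (q + 1) * u := by zify at hu ⊢; linear_combination (-(q : ℤ) - 1) * hu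
  have e4 : q ^ 5 + 1 = (q + 1) * t := by zify at ht ⊢; linear_combination (-(q : ℤ) - 1) * ht
  rw [NU, e1, e2, e3, e4]; ring

theorem A1 {p f q : ℕ} (hp : p.Prime) (hq : q = p ^ f) (h5 : q % 5 = 4) (h9 : 9 ≤ q) (a c : ℕ) (h1 : a < c)
    (h2 : c ≤ 5) (h : a + c * (tt q / 5 - 1) ∣ NU q) : c = 5 ∧ a = 4 := by
  obtain ⟨k, hk⟩ : ∃ k, q = 5 * k + 4 := ⟨q / 5, by omega⟩
  by_contra hne
  by_cases hs : k < 1500
  · have := List.all_eq_true.1 chkU_all k (List.mem_range.2 hs)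
    rw [decide_eq_false (by omega), Bool.false_or] at this
    have := List.all_eq_true.1 (List.all_eq_true.1 this c (List.mem_range.2 (by omega))) a
      (List.mem_range.2 h1)
    rw [← hk] at this
    simp only [Bool.or_eq_true, Bool.and_eq_true, beq_iff_eq, bne_iff_ne] at this
    rcases this with e | e
    · omega
    · exact e (Nat.mod_eq_zero_of_dvd h)
  obtain ⟨g, hg⟩ : ∃ g, g = 125 * k ^ 3 + 250 * k ^ 2 + 175 * k + 40 := ⟨_, rfl⟩
  have ht : tt q = 5 * ((k + 1) * g + 1) := by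
    rw [tt, show q ^ 5 + 1 = (q + 1) * (5 * ((k + 1) * g + 1)) by rw [hk, hg]; ring,
      Nat.mul_div_cancel_left _ (by omega)]
  rw [ht, Nat.mul_div_cancel_left _ (by norm_num), Nat.add_sub_cancel,
    NU_eq (s := 5 * k + 3) (u := 25 * k ^ 2 + 35 * k + 13) (t := 5 * ((k + 1) * g + 1)) (by omega)
      (by rw [hk]; ring) (by rw [hk, hg]; ring)] at h
  have key : ∀ {n b0 b1 b2 b3 b4 b5 : ℕ}, n ≠ 0 →
      n ∣ q ^ 10 * (5 * k + 3) ^ 2 * (q + 1) ^ 4 * (q ^ 2 + 1) * (25 * k ^ 2 + 35 * k + 13) * (5 * ((k + 1) * g + 1)) →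
      n.gcd q ≤ b0 → b0 < q → n.gcd (5 * k + 3) ≤ b1 → n.gcd (q + 1) ≤ b2 → n.gcd (q ^ 2 + 1) ≤ b3 →
      n.gcd (25 * k ^ 2 + 35 * k + 13) ≤ b4 → n.gcd (5 * ((k + 1) * g + 1)) ≤ b5 →
      n ≤ b0 * b1 ^ 2 * b2 ^ 4 * b3 * b4 * b5 := by
    intro n b0 b1 b2 b3 b4 b5 hn h h0 h0' h1 h2 h3 h4 h5
    rw [← Nat.gcd_eq_left h]
    refine gcd_mul_le hn (gcd_mul_le hn (gcd_mul_le hn (gcd_mul_le hn (gcd_mul_le hn ?_
      (gcd_pow_le hn h1 2)) (gcd_pow_le hn h2 4)) h3) h4) h5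
    rw [hq] at h0 h0' ⊢
    exact gcd_ppow_le hp hn h0 h0' 10
  have hqz : (q : ℤ) = 5 * k + 4 := by rw [hk]; push_cast; ring
  have hgz : (g : ℤ) = 125 * k ^ 3 + 250 * k ^ 2 + 175 * k + 40 := by rw [hg]; push_cast; ring
  have hk3 : 1500 ^ 3 ≤ k ^ 3 := Nat.pow_le_pow_left (by omega) 3
  by_cases ha : a = 0
  · subst ha
    have := key (n := g) (by omega) (Dvd.dvd.trans ⟨c * (k + 1), by ring⟩ h)
      (gcd_le (r := -4) (u := 1) (v := -(q ^ 2 - 2 * q + 3)) (B := 4) (by rw [hgz, hqz]; ring) (by norm_num)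
        (by norm_num)) (by omega)
      (gcd_le (r := -2) (u := 1) (v := -(q ^ 2 - q + 2)) (B := 2)
        (by push_cast; rw [hgz, hqz]; ring) (by norm_num) (by norm_num))
      (gcd_le (r := -10) (u := 1) (v := -(q ^ 2 - 3 * q + 6)) (B := 10) (by push_cast; rw [hgz, hqz]; ring)
        (by norm_num) (by norm_num))
      (gcd_le (r := 8) (u := -2 - 2 * q) (v := 4 + (2 + 2 * q) * (q - 2)) (B := 8)
        (by push_cast; rw [hgz, hqz]; ring) (by norm_num) (by norm_num))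
      (gcd_le (r := 7) (u := -2 - q) (v := 1 + (2 + q) * (q - 1)) (B := 7)
        (by push_cast; rw [hgz, hqz]; ring) (by norm_num) (by norm_num))
      (gcd_le (r := 5) (u := -1 - q) (v := 1) (B := 5) (by push_cast; rw [hgz, hqz]; ring)
        (by norm_num) (by norm_num))
    omega
  set n := a + c * ((k + 1) * g) with hn
  have hnz : (n : ℤ) = a + c * ((k + 1) * g) := by rw [hn]; push_cast; ring
  have r0 : (5 * a - 4 * c : ℤ) ≠ 0 := by omega
  have r1 : |(5 * a - 4 * c : ℤ)| ≤ (20 : ℕ) := by rw [abs_le]; constructor <;> omega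
  have := key (n := n) (by omega) h
    (gcd_le (u := 5) (v := -c * (q ^ 3 - q ^ 2 + q - 1)) (by rw [hnz, hgz, hqz]; ring) r0 r1) (by omega)
    (gcd_le (u := 5) (v := -c * (q ^ 3 + q)) (by push_cast; rw [hnz, hgz, hqz]; ring) r0 r1)
    (gcd_le (r := 5 * a) (u := 5) (v := -c * g) (B := 20) (by push_cast; rw [hnz, hgz, hqz]; ring)
      (by omega) (by rw [abs_le]; constructor <;> omega))
    (gcd_le (u := 5) (v := -c * (q ^ 2 - q)) (by push_cast; rw [hnz, hgz, hqz]; ring) r0 r1)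
    (gcd_le (r := (5 * a - 4 * c) ^ 2 - (5 * a - 4 * c) * c + c ^ 2) (u := (5 * a - 5 * c + c * q) * 5)
      (v := c ^ 2 - (5 * a - 5 * c + c * q) * c * q ^ 2) (B := 525)
      (by push_cast; rw [hnz, hgz, hqz]; ring) (by
        interval_cases c <;> interval_cases a <;> norm_num) (by
        interval_cases c <;> interval_cases a <;> norm_num))
    (gcd_le (r := 5 * a - 5 * c) (u := 5) (v := -c) (B := 25) (by push_cast; rw [hnz, hgz]; ring)
      (by omega) (by rw [abs_le]; constructor <;> omega))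
  have e1 : 1500 * (125 * 1500 ^ 3) ≤ (k + 1) * g := Nat.mul_le_mul (by omega) (by omega)
  have e2 : 1 * ((k + 1) * g) ≤ c * ((k + 1) * g) := Nat.mul_le_mul_right _ (by omega)
  omega

theorem A3 {q : ℕ} (h5 : q % 10 = 9) : ∃ r k : ℕ, r.Prime ∧ r ≠ 2 ∧ r ^ k ∣ q ^ 2 + 1 ∧ 41 ≤ r ^ k := by
  by_contra hc
  push Not at hc
  obtain ⟨j, rfl⟩ : ∃ j, q = 10 * j + 9 := ⟨q / 10, by omega⟩
  set m := 50 * j ^ 2 + 90 * j + 41 with hm
  have e : (10 * j + 9) ^ 2 + 1 = 2 * m := by rw [hm]; ring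
  have hd : m ∣ 237133 := by
    refine (Nat.dvd_iff_prime_pow_dvd_dvd _ _).2 fun r k hr hk => ?_
    rcases Nat.eq_zero_or_pos k with rfl | k0
    · simp
    have h0 : r ∣ m := (dvd_pow_self r k0.ne').trans hk
    have h2 : r ≠ 2 := by rintro rfl; omega
    have h3 : r ≠ 5 := by rintro rfl; omega
    have h4 := hc r k hr h2 (e ▸ hk.mul_left 2)
    have h6 : r % 4 ≠ 3 := by
      haveI := Fact.mk hr
      refine ZMod.mod_four_ne_three_of_sq_eq_neg_one (y := ((10 * j + 9 : ℕ) : ZMod r)) ?_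
      have : (((10 * j + 9) ^ 2 + 1 : ℕ) : ZMod r) = 0 := (ZMod.natCast_eq_zero_iff _ _).2 (e ▸ h0.mul_left 2)
      push_cast at this ⊢
      exact eq_neg_of_add_eq_zero_left this
    have h7 : r ≤ r ^ k := Nat.le_self_pow k0.ne' r
    have h8 : r = 13 ∨ r = 17 ∨ r = 29 ∨ r = 37 := by
      have : r < 41 := by omega
      interval_cases r <;> simp_all (config := {decide := true})
    have h9 : k = 1 := by
      by_contra h
      have : r ^ 2 ≤ r ^ k := Nat.pow_le_pow_right hr.pos (by omega)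
      rcases h8 with rfl | rfl | rfl | rfl <;> omega
    subst h9
    rcases h8 with rfl | rfl | rfl | rfl <;> norm_num
  have := Nat.le_of_dvd (by norm_num) hd
  have hj : j < 69 := by nlinarith
  rw [hm] at hd
  interval_cases j <;> norm_num at hd

end Cfsg.Agent.H3.U5R
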