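import Mathlib

/-! Abstract group theory for the identification of Suzuki subgroups of `Sp₄(2^n)`. -/

set_option autoImplicit false

namespace Cfsg.Agent.H3.Sz3

variable {G : Type*} [Group G] [Finite G]

theorem conj_into {T L : Subgroup G} (h : Odd (T.relIndex L)) {y : G} (hy : y ∈ L) {k : ℕ}
    (hk : y ^ 2 ^ k = 1) : ∃ a ∈ L, a⁻¹ * y * a ∈ T := by
  have hp : IsPGroup 2 (Subgroup.zpowers (⟨y, hy⟩ : L)) := by
    rintro ⟨_, n, rfl⟩
    refine ⟨k, Subtype.ext (Subtype.ext ?_)⟩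
    simp only [SubmonoidClass.mk_pow, OneMemClass.coe_one, SubgroupClass.coe_zpow, SubmonoidClass.coe_pow]
    rw [← zpow_natCast, ← zpow_mul, mul_comm, zpow_mul, zpow_natCast, hk, one_zpow]
  obtain ⟨q, hq⟩ := hp.nonempty_fixed_point_of_prime_not_dvd_card (L ⧸ T.subgroupOf L)
    (by
      intro h2
      exact (Nat.not_even_iff_odd.2 h) (even_iff_two_dvd.2 h2))
  obtain ⟨a, rfl⟩ := QuotientGroup.mk_surjective q
  have := hq ⟨⟨y, hy⟩, Subgroup.mem_zpowers _⟩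
  refine ⟨a, a.2, ?_⟩
  have h2 : (((⟨y, hy⟩ : L) * a : L) : L ⧸ T.subgroupOf L) = (a : L ⧸ T.subgroupOf L) := this
  have h3 := QuotientGroup.eq.1 h2.symm
  simpa [Subgroup.mem_subgroupOf, mul_assoc] using h3

omit [Finite G] in
theorem odd_rel {T L P : Subgroup G} (h : Odd (T.relIndex P)) (h1 : T ≤ L) (h2 : L ≤ P) :
    Odd (T.relIndex L) := by
  rw [← Subgroup.relIndex_mul_relIndex T L P h1 h2] at h
  exact (Nat.odd_mul.1 h).1

theorem dih {P : Subgroup G} {y y' : G} (hy : y ∈ P) (hy' : y' ∈ P) (h : y * y = 1) (h' : y' * y' = 1) :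
    (∃ t ∈ P, t * t = 1 ∧ t * y * t = y') ∨
      ∃ w ∈ P, w ≠ 1 ∧ w * w = 1 ∧ w * y = y * w ∧ w * y' = y' * w := by
  have ti : y⁻¹ = y := inv_eq_of_mul_eq_one_right h
  have k : ∀ n : ℕ, (y * y') ^ n * y = y * ((y * y') ^ n)⁻¹ := fun n => by
    rw [← inv_pow, mul_inv_rev, ti, inv_eq_of_mul_eq_one_right h', mul_pow_mul]
  have hm : ∀ n : ℕ, (y * y') ^ n ∈ P := fun n => pow_mem (mul_mem hy hy') n
  rcases Nat.even_or_odd' (orderOf (y * y')) with ⟨m, hm' | hm'⟩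
  · right
    have h1 : (y * y') ^ m * (y * y') ^ m = 1 := by
      rw [← pow_add, ← two_mul, ← hm', pow_orderOf_eq_one]
    have hpos := orderOf_pos (y * y')
    have h2 : (y * y') ^ m * y = y * (y * y') ^ m := by rw [k, inv_eq_of_mul_eq_one_right h1]
    refine ⟨_, hm m, pow_ne_one_of_lt_orderOf (by omega) (by omega), h1, h2, ?_⟩
    have h3 : (y * y') ^ m * (y * y') = (y * y') * (y * y') ^ m := by rw [← pow_succ, ← pow_succ']
    rw [← mul_assoc, h2, mul_assoc, mul_assoc] at h3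
    exact mul_left_cancel h3
  · left
    refine ⟨(y * y') ^ m * y, mul_mem (hm m) hy, ?_, ?_⟩
    · rw [mul_assoc, ← mul_assoc y, mul_assoc y, k, ← mul_assoc y, h, one_mul, mul_inv_cancel]
    · have h1 : (y * y') ^ m * (y * y') ^ m * (y * y') = 1 := by
        rw [← pow_add, ← pow_succ, ← two_mul, ← hm', pow_orderOf_eq_one]
      have h2 : (y * y') ^ m * (y * y') ^ m = y' * y := by
        rw [eq_inv_of_mul_eq_one_left h1, mul_inv_rev, ti, inv_eq_of_mul_eq_one_right h']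
      rw [mul_assoc _ y y, h, mul_one, ← mul_assoc, h2, mul_assoc, h, mul_one]

theorem inv_of_fpf {K : Subgroup G} {s : G} (hs : s * s = 1)
    (hK : ∀ a ∈ K, s * a * s ∈ K) (h : ∀ a ∈ K, a * s = s * a → a = 1) {a : G} (ha : a ∈ K) :
    s * a * s = a⁻¹ := by
  have hi : s⁻¹ = s := inv_eq_of_mul_eq_one_right hs
  let f : K → K := fun x => ⟨(x : G)⁻¹ * (s * x * s), K.mul_mem (K.inv_mem x.2) (hK _ x.2)⟩
  have hf : Function.Injective f := by
    intro x y e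
    have e' : (x : G)⁻¹ * (s * x * s) = (y : G)⁻¹ * (s * y * s) := congrArg Subtype.val e
    have := h (y * (x : G)⁻¹) (K.mul_mem y.2 (K.inv_mem x.2)) (by
      calc (y : G) * (x : G)⁻¹ * s = y * ((x : G)⁻¹ * (s * x * s)) * s⁻¹ * (x : G)⁻¹ := by group
        _ = _ := by rw [e']; group)
    exact Subtype.ext (mul_inv_eq_one.1 this).symm
  obtain ⟨x, hx⟩ := Finite.surjective_of_injective hf ⟨a, ha⟩
  have e : (x : G)⁻¹ * (s * x * s) = a := congrArg Subtype.val hx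
  rw [← e]
  calc s * ((x : G)⁻¹ * (s * x * s)) * s = s * (x : G)⁻¹ * s * x * (s * s) := by group
    _ = _ := by rw [hs, mul_inv_rev, mul_inv_rev, mul_inv_rev, hi]; group

omit [Finite G] in
theorem exists_inv {a : G} (h1 : a ≠ 1) (h4 : a ^ 4 = 1) :
    ∃ y, (y = a ∨ y = a * a) ∧ y ≠ 1 ∧ y * y = 1 := by
  by_cases h : a * a = 1
  · exact ⟨a, Or.inl rfl, h1, h⟩
  · exact ⟨a * a, Or.inr rfl, h, by rw [← h4]; simp [pow_succ, mul_assoc]⟩

/-- strongly embedded subgroups of groups whose involution centralisers have exponent four -/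
structure SE (P M : Subgroup G) : Prop where
  le : M ≤ P
  se : ∀ g ∈ P, ∀ y ∈ M, y ≠ 1 → y * y = 1 → g * y * g⁻¹ ∈ M → g ∈ M
  cit : ∀ z ∈ P, z ≠ 1 → z * z = 1 → ∀ x ∈ P, x * z = z * x → x ^ 4 = 1

namespace SE

variable {P M : Subgroup G} (h : SE P M)
include h

omit [Finite G] in
theorem cen {g y : G} (hg : g ∈ P) (hy : y ∈ M) (h1 : y ≠ 1) (h2 : y * y = 1) (e : g * y = y * g) :
    g ∈ M := h.se g hg y hy h1 h2 (by rwa [e, mul_inv_cancel_right])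

theorem exists_t {z : G} (hz : z ∈ M) (h1 : z ≠ 1) (h2 : z * z = 1) {g : G} (hg : g ∈ P) (hn : g ∉ M) :
    ∃ t ∈ P, t * t = 1 ∧ g⁻¹ * t ∈ M := by
  rcases dih (h.le hz) (mul_mem (mul_mem hg (h.le hz)) (inv_mem hg)) h2
    (by rw [conj_mul, h2]; simp) with ⟨t, ht, t2, e⟩ | ⟨w, hw, w1, w2, e1, e2⟩
  · refine ⟨t, ht, t2, h.cen (mul_mem (inv_mem hg) ht) hz h1 h2 ?_⟩
    calc g⁻¹ * t * z = g⁻¹ * (t * z * t) * t * (t * t)⁻¹ := by group
      _ = _ := by rw [e, t2]; group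
  · exfalso
    apply hn
    have h3 : g⁻¹ * w * g⁻¹⁻¹ ∈ M := h.cen (mul_mem (mul_mem (inv_mem hg) hw) (inv_mem (inv_mem hg)))
      hz h1 h2 (by
        calc g⁻¹ * w * g⁻¹⁻¹ * z = g⁻¹ * (w * (g * z * g⁻¹)) * g := by group
          _ = _ := by rw [e2]; group)
    simpa using inv_mem (h.se _ (inv_mem hg) w (h.cen hw hz h1 h2 e1) w1 w2 h3)

variable {t : G} (ht : t ∈ P) (t2 : t * t = 1) (tn : t ∉ M)
include ht t2 tn

omit [Finite G] in
theorem odd {d : G} (hd : d ∈ M) (hd' : t * d * t ∈ M) (h4 : d ^ 4 = 1) : d = 1 := by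
  by_contra h1
  obtain ⟨y, hy, y1, y2⟩ := exists_inv h1 h4
  apply tn
  refine h.se t ht y (by rcases hy with rfl | rfl; exacts [hd, mul_mem hd hd]) y1 y2 ?_
  rw [inv_eq_of_mul_eq_one_right t2]
  rcases hy with rfl | rfl
  · exact hd'
  · have : t * (d * d) * t = (t * d * t) * (t * d * t) := by
      calc _ = t * d * (t * t) * d * t := by rw [t2]; group
        _ = _ := by group
    rw [this]; exact mul_mem hd' hd'

theorem inv {d : G} (hd : d ∈ M) (hd' : t * d * t ∈ M) : t * d * t = d⁻¹ := by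
  have ti : t⁻¹ = t := inv_eq_of_mul_eq_one_right t2
  let K : Subgroup G := M ⊓ M.comap (MulAut.conj t).toMonoidHom
  have hK : ∀ a, a ∈ K ↔ a ∈ M ∧ t * a * t ∈ M := fun a => by simp [K, ti]
  refine inv_of_fpf (K := K) t2 (fun a ha => ?_) (fun a ha e => ?_) ((hK d).2 ⟨hd, hd'⟩)
  · rw [hK] at ha ⊢
    refine ⟨ha.2, ?_⟩
    have : t * (t * a * t) * t = (t * t) * a * (t * t) := by group
    rw [this, t2]; simpa using ha.1
  · rw [hK] at ha
    exact h.odd ht t2 tn ha.1 ha.2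
      (h.cit t ht (by rintro rfl; exact tn (one_mem _)) t2 a (h.le ha.1) e)

theorem comm {d d' : G} (hd : d ∈ M) (h1 : t * d * t ∈ M) (hd' : d' ∈ M) (h2 : t * d' * t ∈ M) :
    d * d' = d' * d := by
  have e : t * (d * d') * t = (t * d * t) * (t * d' * t) := by
    calc _ = t * d * (t * t) * d' * t := by rw [t2]; group
      _ = _ := by group
  have := h.inv ht t2 tn (mul_mem hd hd') (e ▸ mul_mem h1 h2)
  rw [e, h.inv ht t2 tn hd h1, h.inv ht t2 tn hd' h2, ← mul_inv_rev] at this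
  exact (inv_injective this).symm

theorem trans {z y : G} (hz : z ∈ M) (z1 : z ≠ 1) (z2 : z * z = 1) (hy : y ∈ M) (y1 : y ≠ 1)
    (y2 : y * y = 1) : ∃ d ∈ M, t * d * t ∈ M ∧ d * z * d⁻¹ = y := by
  have ti : t⁻¹ = t := inv_eq_of_mul_eq_one_right t2
  rcases dih (mul_mem (mul_mem ht (h.le hz)) (inv_mem ht)) (h.le hy) (by rw [conj_mul, z2]; simp) y2
    with ⟨s, hs, s2, e⟩ | ⟨w, hw, w1, w2, e1, e2⟩
  · have si : s⁻¹ = s := inv_eq_of_mul_eq_one_right s2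
    have e' : s * t * z * (s * t)⁻¹ = y := by rw [← e, mul_inv_rev, si]; group
    have hd := h.se _ (mul_mem hs ht) z hz z1 z2 (e' ▸ hy)
    refine ⟨s * t, hd, ?_, e'⟩
    have : t * (s * t) * t = (s * t)⁻¹ := by
      rw [mul_inv_rev, si, ti, mul_assoc, mul_assoc, t2, mul_one]
    rw [this]; exact inv_mem hd
  · exfalso
    apply tn
    have h3 : t⁻¹ * w * t⁻¹⁻¹ ∈ M := h.cen (mul_mem (mul_mem (inv_mem ht) hw) (inv_mem (inv_mem ht)))
      hz z1 z2 (by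
        calc t⁻¹ * w * t⁻¹⁻¹ * z = t⁻¹ * (w * (t * z * t⁻¹)) * t := by group
          _ = _ := by rw [e1]; group)
    simpa using inv_mem (h.se _ (inv_mem ht) w (h.cen hw hy y1 y2 e2) w1 w2 h3)

theorem decomp {z : G} (hz : z ∈ M) (z1 : z ≠ 1) (z2 : z * z = 1) {T : Subgroup G}
    (hC : ∀ x ∈ P, x * z = z * x → x ∈ T) {m : G} (hm : m ∈ M) :
    ∃ d ∈ M, t * d * t ∈ M ∧ d⁻¹ * m ∈ T := by
  obtain ⟨d, hd, hd', e⟩ := h.trans ht t2 tn hz z1 z2 (mul_mem (mul_mem hm hz) (inv_mem hm))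
    (by simpa using z1) (by rw [conj_mul, z2]; simp)
  refine ⟨d, hd, hd', hC _ (h.le (mul_mem (inv_mem hd) hm)) ?_⟩
  calc d⁻¹ * m * z = d⁻¹ * (m * z * m⁻¹) * m := by group
    _ = _ := by rw [← e]; group

theorem two_trans {z : G} (hz : z ∈ M) (z1 : z ≠ 1) (z2 : z * z = 1) {T : Subgroup G} (hT : T ≤ M)
    (hN : ∀ m ∈ M, ∀ u ∈ T, m * u * m⁻¹ ∈ T) (h4 : ∀ u ∈ T, u ^ 4 = 1)
    (hC : ∀ x ∈ P, x * z = z * x → x ∈ T) {d : G} (hd : d ∈ M) (hd' : t * d * t ∈ M) (d1 : d ≠ 1)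
    {g : G} (hg : g ∈ P) : g ∈ M ∨ ∃ u ∈ T, ∃ m ∈ M, g = u * t * m := by
  by_cases gn : g ∈ M
  · exact Or.inl gn
  right
  obtain ⟨t', ht', t2', e⟩ := h.exists_t hz z1 z2 hg gn
  have tn' : t' ∉ M := fun h' => gn (by simpa using mul_mem h' (inv_mem e))
  obtain ⟨d', hd1, hd2, e'⟩ := h.decomp ht' t2' tn' hz z1 z2 hC hd
  let f : T → T := fun u => ⟨u * (d * u.1⁻¹ * d⁻¹), mul_mem u.2 (hN d hd _ (inv_mem u.2))⟩
  have hf : Function.Injective f := by
    intro u v e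
    have e1 : u.1 * (d * u.1⁻¹ * d⁻¹) = v * (d * v.1⁻¹ * d⁻¹) := congrArg Subtype.val e
    by_contra hne
    obtain ⟨y, hy, y1, y2⟩ := exists_inv (a := v.1⁻¹ * u.1)
      (fun e => hne (Subtype.ext (inv_mul_eq_one.1 e).symm)) (h4 _ (mul_mem (inv_mem v.2) u.2))
    have c1 : d * (v.1⁻¹ * u.1) = (v.1⁻¹ * u.1) * d := by
      calc d * (v.1⁻¹ * u.1) = v.1⁻¹ * (v * (d * v.1⁻¹ * d⁻¹)) * d * u := by group
        _ = _ := by rw [← e1]; group
    have hm : v.1⁻¹ * u.1 ∈ P := h.le (hT (mul_mem (inv_mem v.2) u.2))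
    refine d1 (h.odd ht t2 tn hd hd' (h.cit y ?_ y1 y2 d (h.le hd) ?_))
    · rcases hy with rfl | rfl
      exacts [hm, mul_mem hm hm]
    · rcases hy with rfl | rfl
      · exact c1
      · rw [← mul_assoc, c1, mul_assoc, c1]; group
  obtain ⟨u, hu⟩ := Finite.surjective_of_injective hf ⟨d' * d⁻¹, by
    have := hN d hd _ (inv_mem e')
    convert this using 1; group⟩
  have e1 : u.1 * d * u.1⁻¹ = d' := by
    have : u.1 * (d * u.1⁻¹ * d⁻¹) = d' * d⁻¹ := congrArg Subtype.val hu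
    calc _ = u.1 * (d * u.1⁻¹ * d⁻¹) * d := by group
      _ = _ := by rw [this]; group
  have i1 := h.inv ht t2 tn hd hd'
  have i2 := h.inv ht' t2' tn' hd1 hd2
  have ti : t⁻¹ = t := inv_eq_of_mul_eq_one_right t2
  have ti' : t'⁻¹ = t' := inv_eq_of_mul_eq_one_right t2'
  have uP : u.1 ∈ P := h.le (hT u.2)
  have hx : t * (u.1⁻¹ * t' * u) ∈ P := mul_mem ht (mul_mem (mul_mem (inv_mem uP) ht') uP)
  have cx : t * (u.1⁻¹ * t' * u) * d = d * (t * (u.1⁻¹ * t' * u)) := by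
    have i3 : t * d⁻¹ = d * t := by
      rw [← i1, ← mul_assoc, ← mul_assoc, t2, one_mul]
    calc _ = t * u.1⁻¹ * (t' * (u * d * u.1⁻¹) * t') * t'⁻¹ * u := by group
      _ = t * d⁻¹ * u.1⁻¹ * t'⁻¹ * u := by rw [e1, i2, ← e1]; group
      _ = _ := by rw [i3, ti']; group
  generalize hxx : t * (u.1⁻¹ * t' * u) = x at hx cx
  by_cases xM : x ∈ M
  · refine ⟨u, u.2, x * u.1⁻¹ * (g⁻¹ * t')⁻¹, mul_mem (mul_mem xM (inv_mem (hT u.2))) (inv_mem e), ?_⟩
    rw [← hxx]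
    calc g = u * (t * t) * u.1⁻¹ * g := by rw [t2]; group
      _ = _ := by group
  exfalso
  obtain ⟨t₃, ht₃, t23, e3⟩ := h.exists_t hz z1 z2 hx xM
  have tn3 : t₃ ∉ M := fun h' => xM (by simpa using mul_mem h' (inv_mem e3))
  have ti3 : t₃⁻¹ = t₃ := inv_eq_of_mul_eq_one_right t23
  have e4 : t₃ * d * t₃ = (x⁻¹ * t₃)⁻¹ * d * (x⁻¹ * t₃) := by
    calc _ = t₃⁻¹ * (d * x) * x⁻¹ * t₃ := by rw [ti3]; group
      _ = _ := by rw [← cx]; group
  have i3 := h.inv ht₃ t23 tn3 hd (by rw [e4]; exact mul_mem (mul_mem (inv_mem e3) hd) e3)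
  rw [e4] at i3
  generalize x⁻¹ * t₃ = m at e3 i3
  obtain ⟨d₁, h1, h2, h3⟩ := h.decomp ht t2 tn hz z1 z2 hC e3
  have c := h.comm ht t2 tn hd hd' h1 h2
  have hdd : d * d ∈ T := by
    have e5 : d * d = (d * (d₁⁻¹ * m)⁻¹ * d⁻¹) * (d₁⁻¹ * m) := by
      have c' : d₁ * d⁻¹ * d₁⁻¹ = d⁻¹ := by
        calc _ = d⁻¹ * (d * d₁) * d⁻¹ * d₁⁻¹ := by group
          _ = _ := by rw [c]; group
      calc d * d = d * (m⁻¹ * d * m)⁻¹ := by rw [i3]; group
        _ = d * m⁻¹ * (d₁ * d⁻¹ * d₁⁻¹) * m := by rw [c']; group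
        _ = _ := by group
    rw [e5]
    exact mul_mem (hN d hd _ (inv_mem h3)) h3
  have e6 : t * (d * d) * t ∈ M := by
    have : t * (d * d) * t = (t * d * t) * (t * d * t) := by
      calc _ = t * d * (t * t) * d * t := by rw [t2]; group
        _ = _ := by group
    rw [this]; exact mul_mem hd' hd'
  have e7 := h.odd ht t2 tn (mul_mem hd hd) e6 (h4 _ hdd)
  exact d1 (h.odd ht t2 tn hd hd' (by
    calc d ^ 4 = (d * d) * (d * d) := by simp [pow_succ, mul_assoc]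
      _ = 1 := by rw [e7, one_mul]))

end SE

/-- a transfer argument -/
theorem transfer_lem {A : Type*} [CommGroup A] {P T : Subgroup G} (hT : T ≤ P) (hP : ⁅P, P⁆ = P)
    (ho : Odd (T.relIndex P)) (φ : T →* A) {c : A} (c1 : c ≠ 1) (c2 : c * c = 1)
    (h1 : ∀ y : T, y * y = 1 → φ y = 1) (h2 : ∀ y : T, y * y ≠ 1 → φ y = c) {u : G} (hu : u ∈ P)
    (u2 : u * u ≠ 1) (u4 : u ^ 4 = 1) : False := by
  classical
  let ψ : T.subgroupOf P →* A := φ.comp (Subgroup.subgroupOfEquivOfLe hT).toMonoidHom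
  have hc : commutator P = ⊤ := by
    have := Subgroup.map_injective (f := P.subtype) P.subtype_injective (a₁ := commutator P) (a₂ := ⊤)
    apply this
    rw [Subgroup.map_subtype_commutator, hP, ← MonoidHom.range_eq_map, Subgroup.range_subtype]
  have h3 : MonoidHom.transfer ψ ⟨u, hu⟩ = 1 := by
    have := Abelianization.commutator_subset_ker (MonoidHom.transfer ψ)
    rw [hc] at this
    exact this (Subgroup.mem_top _)
  let _ := Fintype.ofFinite (Quotient (MulAction.orbitRel (Subgroup.zpowers (⟨u, hu⟩ : P))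
    (P ⧸ T.subgroupOf P)))
  rw [MonoidHom.transfer_eq_prod_quotient_orbitRel_zpowers_quot] at h3
  have h5 : ∀ (n : ℕ) (a : P) (hm : a⁻¹ * (⟨u, hu⟩ : P) ^ n * a ∈ T.subgroupOf P), ψ ⟨_, hm⟩ = c ^ n := by
    intro n a hm
    have e : ∀ y : T, y.1 = (a : G)⁻¹ * u ^ n * a → (y * y = 1 ↔ u ^ (2 * n) = 1) := by
      intro y hy
      rw [Subtype.ext_iff, Subgroup.coe_mul, hy, OneMemClass.coe_one]
      have : (a : G)⁻¹ * u ^ n * a * ((a : G)⁻¹ * u ^ n * a) = (a : G)⁻¹ * u ^ (2 * n) * (a : G)⁻¹⁻¹ := by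
        rw [two_mul, pow_add]; group
      rw [this, conj_eq_one_iff]
    rcases Nat.even_or_odd' n with ⟨m, rfl | rfl⟩
    · rw [pow_mul c, sq, c2, one_pow]
      refine h1 _ ((e _ rfl).2 ?_)
      rw [← mul_assoc, pow_mul, show 2 * 2 = 4 from rfl, u4, one_pow]
    · rw [pow_succ c, pow_mul c, sq, c2, one_pow, one_mul]
      refine h2 _ fun h' => u2 ?_
      have := (e _ rfl).1 h'
      rwa [mul_add, ← mul_assoc, pow_add, pow_mul, show 2 * 2 = 4 from rfl, u4, one_pow, one_mul,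
        mul_one, sq] at this
  simp only [h5] at h3
  rw [Finset.prod_pow_eq_pow_sum, ← Subgroup.index_eq_sum_minimalPeriod] at h3
  obtain ⟨m, hm⟩ := ho
  change (T.subgroupOf P).index = _ at hm
  rw [hm, pow_succ, pow_mul, sq, c2, one_pow, one_mul] at h3
  exact c1 h3

/-- averaging over cosets -/
theorem avg {P T : Subgroup G} (ho : Odd (T.relIndex P)) :
    ∃ (ι : Type) (_ : Fintype ι) (x : ι → G), Odd (Fintype.card ι) ∧ (∀ i, x i ∈ P) ∧
      ∀ {A : Type*} [AddCommMonoid A] (Φ : G → A), (∀ g, ∀ t ∈ T, t ∈ P → Φ (g * t) = Φ g) →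
        ∀ g ∈ P, ∑ i, Φ (g * x i) = ∑ i, Φ (x i) := by
  let e := Finite.equivFin (P ⧸ T.subgroupOf P)
  refine ⟨Fin (Nat.card (P ⧸ T.subgroupOf P)), inferInstance, fun i => ((e.symm i).out : P),
    by rw [Fintype.card_fin]; exact ho, fun i => Subtype.prop _, fun Φ hΦ g hg => ?_⟩
  let σ : Equiv.Perm (Fin _) := e.symm.trans ((MulAction.toPerm (⟨g, hg⟩ : P)).trans e)
  rw [← Equiv.sum_comp σ (fun i => Φ ((e.symm i).out : P))]
  refine Finset.sum_congr rfl fun i _ => ?_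
  have h1 : e.symm (σ i) = (⟨g, hg⟩ : P) • e.symm i := by simp [σ]
  rw [h1]
  have h2 : (((⟨g, hg⟩ : P) * (e.symm i).out : P) : P ⧸ T.subgroupOf P) = (⟨g, hg⟩ : P) • e.symm i := by
    conv_rhs => rw [← (e.symm i).out_eq']
    rfl
  rw [← h2]
  obtain ⟨t, ht⟩ := QuotientGroup.mk_out_eq_mul (T.subgroupOf P) ((⟨g, hg⟩ : P) * (e.symm i).out)
  rw [ht]
  exact (hΦ _ _ t.2 t.1.2).symm

end Cfsg.Agent.H3.Sz3
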