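import Cfsg.Agent.H2.M4a
import Cfsg.Agent.H3.Sz3
import Cfsg.Agent.H5.ZStar

/-! Simple subgroups of `SL₄` in characteristic two without transvections: basic notions. -/

set_option autoImplicit false
set_option linter.unusedSectionVars false

namespace Cfsg.Agent.H3.C2

open Matrix H2.M4

variable {K : Type*} [Field K] {G : Type*} [Group G]

/-- faithful, determinant one, no transvections -/
structure Bas0 (ρ : G →* M4 K) : Prop where
  inj : Function.Injective ρ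
  det : ∀ g, (ρ g).det = 1
  nt : ∀ g v w, ρ g = 1 + vecMulVec v w → g = 1

/-- the basic hypotheses -/
structure Bas (ρ : G →* M4 K) : Prop extends Bas0 ρ where
  irr : ∀ W : Submodule K (Fin 4 → K), (∀ g, ∀ v ∈ W, ρ g *ᵥ v ∈ W) → W = ⊥ ∨ W = ⊤
  simple : IsSimpleGroup G
  nab : ¬ IsMulCommutative G

/-- self-dual traces -/
def Real (ρ : G →* M4 K) : Prop := ∀ g, (ρ g⁻¹).trace = (ρ g).trace

/-- elements commuting with an involution are nearly quadratic -/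
def EV (ρ : G →* M4 K) : Prop := ∀ g t, t ≠ 1 → t * t = 1 → g * t = t * g → ∃ c : K, ρ g ^ 4 + 1 = c • ρ g ^ 2

/-- generators of `A₇` -/
def mz : M4 K := !![0, 1, 0, 0; 1, 0, 0, 0; 0, 0, 0, 1; 0, 0, 1, 0]
/-- generators of `A₇` -/
def mx : M4 K := !![0, 0, 1, 0; 0, 0, 0, 1; 1, 0, 0, 0; 0, 1, 0, 0]
/-- generators of `A₇` -/
def my : M4 K := !![1, 0, 0, 0; 0, 0, 0, 1; 0, 1, 0, 0; 0, 0, 1, 0]
/-- generators of `A₇` -/
def mu : M4 K := !![0, 1, 1, 1; 1, 0, 1, 1; 1, 1, 1, 0; 1, 1, 0, 1]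
/-- generators of `A₇` -/
def mh : M4 K := !![0, 0, 1, 0; 0, 0, 0, 1; 1, 0, 1, 0; 0, 1, 0, 1]

end Cfsg.Agent.H3.C2
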