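import Mathlib

/-! Closed sets of transvection vectors in characteristic two. -/

set_option autoImplicit false

namespace Cfsg.Agent.H3.Sz1

variable {F : Type*} [Field F] [CharP F 2] {V : Type*} [AddCommGroup V] [Module F V]

theorem two : (2 : F) = 0 := CharTwo.two_eq_zero

theorem exists_sq [Finite F] (a : F) : ∃ b : F, b ^ 2 = a := by
  obtain ⟨k, hk⟩ := (Finite.injective_iff_surjective.1 (frobenius F 2).injective) a
  exact ⟨k, hk⟩

theorem sq_inj {a b : F} (h : a ^ 2 = b ^ 2) : a = b := (frobenius F 2).injective h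

theorem mem_of_sq [Finite F] (K : Subfield F) {a : F} (h : a ^ 2 ∈ K) : a ∈ K := by
  obtain ⟨b, hb⟩ := exists_sq (F := K) ⟨_, h⟩
  have : (b : F) ^ 2 = a ^ 2 := by simpa using congrArg Subtype.val hb
  rw [← sq_inj this]; exact b.2

macro "vv" : tactic => `(tactic| (match_scalars <;> grind))

/-- alternating forms -/
structure Alt (B : V →ₗ[F] V →ₗ[F] F) : Prop where
  self : ∀ v, B v v = 0

variable {B : V →ₗ[F] V →ₗ[F] F} {X : Set V}

theorem Alt.symm (hB : Alt B) (u v : V) : B u v = B v u := by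
  have h := hB.self (u + v)
  simp only [map_add, LinearMap.add_apply, hB.self] at h
  grind

/-- closed under the transvections -/
def Cl (B : V →ₗ[F] V →ₗ[F] F) (X : Set V) : Prop := ∀ y ∈ X, ∀ z ∈ X, y + B y z • z ∈ X

variable [Finite F]

theorem T0 (hB : Alt B) (hX : Cl B X) {y z : V} (hy : y ∈ X) (hz : z ∈ X) {d : F} (hd : d ≠ 0)
    (h : B y z = d ^ 2) : d⁻¹ • (y + z) ∈ X := by
  let S := {p : F × F // p.1 ^ 2 + p.2 ^ 2 + p.1 * p.2 * d ^ 2 = 1 ∧ p.1 • y + p.2 • z ∈ X}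
  let ψ : S → S := fun p => ⟨(p.1.1 ^ 2 + p.1.2 ^ 2, p.1.2 ^ 2 * d ^ 2), by
    obtain ⟨⟨a, b⟩, h1, h2⟩ := p
    simp only at h1 h2 ⊢
    refine ⟨by grind, ?_⟩
    have := hX y hy _ h2
    simp only [map_add, map_smul, hB.self, h, smul_eq_mul] at this
    convert this using 1
    vv⟩
  have hψ : Function.Injective ψ := by
    rintro ⟨⟨a, b⟩, h1, h2⟩ ⟨⟨a', b'⟩, h1', h2'⟩ e
    have e' := congrArg Subtype.val e
    simp only [ψ, Prod.mk.injEq] at e'
    have e2 : b = b' := sq_inj (mul_right_cancel₀ (pow_ne_zero 2 hd) e'.2)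
    subst e2
    have e1 : a = a' := sq_inj (add_right_cancel e'.1)
    subst e1; rfl
  obtain ⟨⟨⟨a, b⟩, h1, h2⟩, e⟩ := Finite.surjective_of_injective hψ ⟨(0, 1), by simp, by simpa⟩
  have e' := congrArg Subtype.val e
  simp only [ψ, Prod.mk.injEq] at e' h2
  have hb : b = d⁻¹ := sq_inj (by field_simp; grind)
  have ha : a = d⁻¹ := by rw [← hb]; exact sq_inj (by grind)
  rw [smul_add]; rwa [ha, hb] at h2

theorem T5 (hB : Alt B) (hX : Cl B X) {u w : V} (hu : u ∈ X) (h : B u w ≠ 0)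
    (h' : u + B u w • w ∈ X) : w ∈ X := by
  have := T0 hB hX hu h' h (by simp [hB.self, sq])
  convert this using 1
  vv

/-- the swapping vector -/
theorem swap (hB : Alt B) (hX : Cl B X) {y z : V} (hy : y ∈ X) (hz : z ∈ X) (h : B y z ≠ 0) :
    ∃ d : F, d ≠ 0 ∧ B y z = d ^ 2 ∧ d⁻¹ • (y + z) ∈ X := by
  obtain ⟨d, hd⟩ := exists_sq (B y z)
  have h0 : d ≠ 0 := by rintro rfl; exact h (by rw [← hd]; ring)
  exact ⟨d, h0, hd.symm, T0 hB hX hy hz h0 hd.symm⟩

structure Nice (B : V →ₗ[F] V →ₗ[F] F) (X : Set V) : Prop where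
  alt : Alt B
  cl : Cl B X
  nb : ∀ y ∈ X, ∃ z ∈ X, B z y ≠ 0
  conn : ∀ G : V → Prop, (∀ y ∈ X, ∀ z ∈ X, B y z ≠ 0 → G y → G z) → ∀ y ∈ X, G y → ∀ z ∈ X, G z

theorem Nice.smul_all (h : Nice B X) {a : F} {y : V} (hy : y ∈ X) (ha : a • y ∈ X) :
    ∀ z ∈ X, a • z ∈ X := by
  refine h.conn (fun z => a • z ∈ X) ?_ y hy ha
  intro y hy z hz hyz hay
  obtain ⟨d, hd, e, hw⟩ := swap h.alt h.cl hy hz hyz
  have := h.cl _ hay _ hw
  simp only [map_add, map_smul, h.alt.self, e, smul_eq_mul, LinearMap.smul_apply] at this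
  convert this using 1
  vv

theorem Nice.add_smul (h : Nice B X) {a a' : F} {y : V} (hy : y ∈ X) (ha : a • y ∈ X)
    (ha' : a' • y ∈ X) (hne : a + a' ≠ 0) : (a + a') • y ∈ X := by
  obtain ⟨z, hz, e⟩ := h.nb y hy
  refine T5 h.alt h.cl hz (by simp [hne, e]) ?_
  have := h.cl _ (h.cl z hz _ ha) _ ha'
  simp only [map_add, map_smul, h.alt.self, smul_eq_mul, LinearMap.smul_apply,
    LinearMap.add_apply] at this ⊢
  convert this using 1
  vv

/-- the field of scalars preserving `X` -/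
def Nice.K (h : Nice B X) : Subfield F where
  carrier := {a | a = 0 ∨ ∀ y ∈ X, a • y ∈ X}
  mul_mem' := by
    rintro a b (rfl | ha) (rfl | hb)
    · left; simp
    · left; simp
    · left; simp
    · right; intro y hy; rw [mul_smul]; exact ha _ (hb y hy)
  one_mem' := Or.inr (by simp)
  add_mem' := by
    rintro a b (rfl | ha) (rfl | hb)
    · left; simp
    · right; simpa using hb
    · right; simpa using ha
    · by_cases e : a + b = 0
      · exact Or.inl e
      · exact Or.inr fun y hy => h.add_smul hy (ha y hy) (hb y hy) e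
  zero_mem' := Or.inl rfl
  neg_mem' := by intro a ha; rwa [CharTwo.neg_eq]
  inv_mem' := by
    rintro a (rfl | ha)
    · left; simp
    · by_cases h0 : a = 0
      · left; simp [h0]
      right
      have hp : ∀ n : ℕ, ∀ y ∈ X, a ^ n • y ∈ X := by
        intro n
        induction n with
        | zero => simp
        | succ n ih => intro y hy; rw [pow_succ, mul_smul]; exact ih _ (ha y hy)
      have := Fintype.ofFinite F
      have e := FiniteField.pow_card_sub_one_eq_one a h0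
      have h2 : 1 < Fintype.card F := Fintype.one_lt_card
      have : a⁻¹ = a ^ (Fintype.card F - 2) := by
        apply inv_eq_of_mul_eq_one_right
        rw [← pow_succ', ← e]; congr 1; omega
      rw [this]; exact hp _

theorem Nice.smul_mem (h : Nice B X) {a : F} (ha : a ∈ h.K) (h0 : a ≠ 0) {y : V} (hy : y ∈ X) :
    a • y ∈ X := ha.resolve_left h0 y hy

theorem Nice.mem_K (h : Nice B X) {a : F} {y : V} (hy : y ∈ X) (ha : a • y ∈ X) : a ∈ h.K :=
  Or.inr (h.smul_all hy ha)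

theorem Nice.B_mem (h : Nice B X) {a : F} (ha : a ∈ h.K) (h0 : a ≠ 0) (h1 : a ≠ 1) {y z : V}
    (hy : y ∈ X) (hz : z ∈ X) : B y z ∈ h.K := by
  by_cases e : B y z = 0
  · rw [e]; exact zero_mem _
  obtain ⟨d, hd, e', h2⟩ := swap h.alt h.cl hy hz e
  have h3 := T0 h.alt h.cl hy (h.smul_mem (pow_mem ha 2) (pow_ne_zero 2 h0) hz) (d := a * d)
    (mul_ne_zero h0 hd) (by simp [e']; ring)
  have h4 := h.smul_mem ha h0 h3
  have h5 : 1 + a ≠ 0 := by grind
  have h6 := T0 h.alt h.cl h2 h4 h5 (by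
    simp only [map_add, map_smul, h.alt.self, smul_eq_mul, LinearMap.smul_apply,
      LinearMap.add_apply, h.alt.symm z y, e']
    grind)
  have h7 : ((1 + a) * d⁻¹) • z ∈ X := by
    convert h6 using 1
    vv
  have h8 := h.mem_K hz h7
  have h9 : d⁻¹ ∈ h.K := by
    have := mul_mem (inv_mem (add_mem (one_mem _) ha)) h8
    rwa [inv_mul_cancel_left₀ h5] at this
  rw [e']
  exact pow_mem (by simpa using inv_mem h9) 2

theorem Nice.plane (h : Nice B X) {y z : V} (hy : y ∈ X) (hz : z ∈ X) (e : B y z ≠ 0)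
    (hK : B y z ∈ h.K) {a b : F} (ha : a ∈ h.K) (hb : b ∈ h.K) (hab : ¬ (a = 0 ∧ b = 0)) :
    a • y + b • z ∈ X := by
  by_cases a0 : a = 0
  · have b0 : b ≠ 0 := fun b0 => hab ⟨a0, b0⟩
    simpa [a0] using h.smul_mem hb b0 hz
  by_cases b0 : b = 0
  · simpa [b0] using h.smul_mem ha a0 hy
  obtain ⟨d, hd, e', h2⟩ := swap h.alt h.cl (h.smul_mem ha a0 hy) (h.smul_mem hb b0 hz)
    (by simp [a0, b0, e])
  have hdK : d ∈ h.K := mem_of_sq _ (by
    rw [← e']
    simp only [map_smul, LinearMap.smul_apply, smul_eq_mul]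
    exact mul_mem hb (mul_mem ha hK))
  simpa [smul_smul, hd] using h.smul_mem hdK hd h2

/-- the two-dimensional lemma -/
theorem T4 (hB : Alt B) (hX : Cl B X) {x y : V} (hx : x ∈ X) (hy : y ∈ X) (e : B x y ≠ 0) {a b : F}
    (hz : a • x + b • y ∈ X) (hab : ¬ (a = 0 ∧ b = 0))
    (hQ : a ^ 2 + b ^ 2 + a * b * B x y ≠ 1) : ∃ k : F, k ≠ 0 ∧ k ≠ 1 ∧ k • (a • x + b • y) ∈ X := by
  set g := B x y with hg
  have hyx : B y x = g := hB.symm y x
  have hu := hX _ (hX _ hz y hy) x hx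
  simp only [map_add, map_smul, hB.self, smul_eq_mul, LinearMap.smul_apply,
    LinearMap.add_apply, ← hg, hyx] at hu
  obtain ⟨r, hr⟩ := exists_sq (a ^ 2 + b ^ 2 + a * b * g)
  by_cases r0 : r = 0
  · have a0 : a ≠ 0 := by rintro rfl; grind
    have b0 : b ≠ 0 := by rintro rfl; grind
    refine ⟨(b + g * a) / b, by grind, by grind, ?_⟩
    convert hu using 1
    vv
  have hw := T0 hB hX hu hz (d := g * r) (mul_ne_zero e r0) (by
    simp only [map_add, map_smul, hB.self, smul_eq_mul, LinearMap.smul_apply,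
      LinearMap.add_apply, ← hg, hyx]
    grind)
  refine ⟨r⁻¹, inv_ne_zero r0, by grind, ?_⟩
  have hw' : (r⁻¹ * (b + g * a)) • x + (r⁻¹ * a) • y ∈ X := by
    convert hw using 1
    rw [mul_inv]
    clear hQ hab
    vv
  have ht : r⁻¹ ^ 2 * (a ^ 2 + b ^ 2 + a * b * g) = 1 := by rw [← hr]; field_simp
  have key : ∀ v ∈ X, (∃ s t : F, v = s • x + t • y) →
      v + B v (r⁻¹ • (a • x + b • y)) • r⁻¹ • (a • x + b • y) ∈ X := by
    rintro v hv ⟨s, t, rfl⟩
    have := hX _ (hX _ (hX _ hv y hy) x hx) _ hw'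
    simp only [map_add, map_smul, hB.self, smul_eq_mul, LinearMap.smul_apply,
      LinearMap.add_apply, ← hg, hyx] at this ⊢
    convert this using 1
    generalize r⁻¹ = τ at ht
    clear_value g
    clear hQ hab r0 hr e this hw hw' hu
    vv
  by_cases b0 : b = 0
  · have a0 : a ≠ 0 := fun a0 => hab ⟨a0, b0⟩
    exact T5 hB hX hy (by simp [hB.self, hyx, r0, a0, e]) (key y hy ⟨0, 1, by simp⟩)
  · exact T5 hB hX hx (by simp [hB.self, ← hg, r0, b0, e]) (key x hx ⟨1, 0, by simp⟩)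

/-- the standard plane -/
def B2 (g : F) : (F × F) →ₗ[F] (F × F) →ₗ[F] F :=
  LinearMap.mk₂ F (fun p q => g * (p.1 * q.2 + p.2 * q.1)) (by intros; simp; ring)
    (by intros; simp; ring) (by intros; simp; ring) (by intros; simp; ring)

omit [CharP F 2] [Finite F] in
@[simp] theorem B2_apply (g : F) (p q : F × F) : B2 g p q = g * (p.1 * q.2 + p.2 * q.1) := rfl

/-- big planes -/
structure BP (B : V →ₗ[F] V →ₗ[F] F) (X : Set V) (x y c : V) (K : Subfield F) : Prop where
  xc : B x c = 0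
  yc : B y c = 0
  ne : B x y ≠ 0
  mem : B x y ∈ K
  big : ∃ a ∈ K, a ≠ 0 ∧ a ≠ 1
  all : ∀ a ∈ K, ∀ b ∈ K, ∀ l : F, ¬ (a = 0 ∧ b = 0) → a ^ 2 + b ^ 2 + a * b * B x y + l ^ 2 = 1 →
    a • x + b • y + l • c ∈ X

/-- the norm of the radical of a triple -/
def N3 (B : V →ₗ[F] V →ₗ[F] F) (x y z : V) : F :=
  B y z ^ 2 + B x z ^ 2 + B x y ^ 2 + B y z * B x z * B x y

theorem triple (hB : Alt B) (hX : Cl B X) {x y z : V} (hx : x ∈ X) (hy : y ∈ X) (hz : z ∈ X)
    (e : B x y ≠ 0) (hne : ¬ (B x z = 0 ∧ B y z = 0)) (hN : N3 B x y z ≠ 0) :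
    ∃ c K, BP B X x y c K ∧ B x z ∈ K ∧ B y z ∈ K := by
  obtain ⟨k, hk⟩ := exists_sq (N3 B x y z)
  have k0 : k ≠ 0 := by rintro rfl; exact hN (by rw [← hk]; ring)
  unfold N3 at hk
  obtain ⟨g, hg⟩ : ∃ g, B x y = g := ⟨_, rfl⟩
  obtain ⟨α, hα⟩ : ∃ g, B y z = g := ⟨_, rfl⟩
  obtain ⟨β, hβ⟩ : ∃ g, B x z = g := ⟨_, rfl⟩
  have hyx : B y x = g := (hB.symm y x).trans hg
  obtain ⟨c, hc⟩ : ∃ c : V, c = k⁻¹ • (α • x + β • y + g • z) := ⟨_, rfl⟩
  have xc : B x c = 0 := by simp [hc, hB.self, hg, hβ]; grind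
  have yc : B y c = 0 := by simp [hc, hB.self, hyx, hα]; grind
  have cx : B c x = 0 := (hB.symm _ _).trans xc
  have cy : B c y = 0 := (hB.symm _ _).trans yc
  rw [hg] at e hk
  rw [hα, hβ] at hne hk
  let Z : Set (F × F) := {p | ¬ (p.1 = 0 ∧ p.2 = 0) ∧
    ∃ l : F, p.1 ^ 2 + p.2 ^ 2 + p.1 * p.2 * g + l ^ 2 = 1 ∧ p.1 • x + p.2 • y + l • c ∈ X}
  have hA : Alt (B2 g) := ⟨fun p => by simp; grind⟩
  have h1 : ((1, 0) : F × F) ∈ Z := ⟨by simp, 0, by simp, by simpa⟩
  have h2 : ((0, 1) : F × F) ∈ Z := ⟨by simp, 0, by simp, by simpa⟩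
  have h3 : ((α / g, β / g) : F × F) ∈ Z := by
    refine ⟨by simp only [div_eq_zero_iff]; tauto, k / g, by clear * - hk e; grind, ?_⟩
    convert hz using 1
    rw [hc]; clear * - e k0; vv
  have hZ : Cl (B2 g) Z := by
    rintro ⟨a, b⟩ ⟨hab, l, hl, hm⟩ ⟨a', b'⟩ ⟨hab', l', hl', hm'⟩
    simp only at hab hl hm hab' hl' hm'
    refine ⟨?_, l + g * (a * b' + b * a') * l', ?_, ?_⟩
    · simp only [B2_apply, Prod.smul_mk, Prod.mk_add_mk, smul_eq_mul]
      clear * - hab; grind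
    · simp only [B2_apply, Prod.smul_mk, Prod.mk_add_mk, smul_eq_mul]
      clear * - hl hl'; grind
    · have := hX _ hm _ hm'
      simp only [map_add, map_smul, hB.self, smul_eq_mul, LinearMap.smul_apply,
        LinearMap.add_apply, hg, hyx, xc, yc, cx, cy] at this
      simp only [B2_apply, Prod.smul_mk, Prod.mk_add_mk, smul_eq_mul]
      convert this using 1
      clear * -; vv
  have hnb : ∀ p ∈ Z, B2 g (1, 0) p ≠ 0 ∨ B2 g (0, 1) p ≠ 0 := by
    rintro ⟨a, b⟩ ⟨hab, -⟩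
    simp only [B2_apply] at hab ⊢
    clear * - hab e; grind
  have hN : Nice (B2 g) Z := by
    refine ⟨hA, hZ, fun p hp => ?_, fun G hG p hp hGp q hq => ?_⟩
    · rcases hnb p hp with h | h
      exacts [⟨_, h1, h⟩, ⟨_, h2, h⟩]
    · have e12 : B2 g (1, 0) (0, 1) ≠ 0 := by simpa
      have e21 : B2 g (0, 1) (1, 0) ≠ 0 := by simpa
      have : G (1, 0) ∧ G (0, 1) := by
        rcases hnb p hp with h | h
        · have := hG p hp _ h1 (by rwa [hA.symm]) hGp
          exact ⟨this, hG _ h1 _ h2 e12 this⟩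
        · have := hG p hp _ h2 (by rwa [hA.symm]) hGp
          exact ⟨hG _ h2 _ h1 e21 this, this⟩
      rcases hnb q hq with h | h
      exacts [hG _ h1 _ hq h this.1, hG _ h2 _ hq h this.2]
  have h3' : (α / g) • ((1, 0) : F × F) + (β / g) • ((0, 1) : F × F) ∈ Z := by simpa using h3
  obtain ⟨a, a0, a1, ha⟩ := T4 hA hZ h1 h2 (by simpa) h3' (by simp only [div_eq_zero_iff]; tauto)
    (by simp only [B2_apply]; clear * - hk e k0; grind)
  have haK := hN.mem_K h3' ha
  have hgK : g ∈ hN.K := by simpa using hN.B_mem haK a0 a1 h1 h2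
  refine ⟨c, hN.K, ⟨xc, yc, by rwa [hg], by rwa [hg], ⟨a, haK, a0, a1⟩, ?_⟩, ?_, ?_⟩
  · intro a ha b hb l hab hl
    obtain ⟨-, l', hl', hm⟩ := hN.plane h1 h2 (by simpa) (by simpa) ha hb hab
    simp only [Prod.smul_mk, Prod.mk_add_mk, smul_eq_mul, mul_one, mul_zero, add_zero,
      zero_add] at hl' hm
    rw [hg] at hl
    rwa [sq_inj (a := l) (b := l') (by clear * - hl hl'; grind)]
  · have := hN.B_mem haK a0 a1 h1 h3
    simp only [B2_apply] at this
    convert this using 1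
    rw [hβ]; field_simp; ring
  · have := hN.B_mem haK a0 a1 h2 h3
    simp only [B2_apply] at this
    convert this using 1
    rw [hα]; field_simp; ring

/-- irreducibility of a set of transvection vectors -/
def Irr (B : V →ₗ[F] V →ₗ[F] F) (X : Set V) : Prop :=
  ∀ M : Submodule F V, (∀ v ∈ X, v ∈ M ∨ ∀ m ∈ M, B v m = 0) → M = ⊥ ∨ M = ⊤

structure Dat (B : V →ₗ[F] V →ₗ[F] F) (X : Set V) : Prop where
  alt : Alt B
  nd : ∀ v, (∀ w, B v w = 0) → v = 0
  cl : Cl B X
  zero : (0 : V) ∉ X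
  ne : X.Nonempty
  irr : Irr B X

omit [CharP F 2] [Finite F] in
theorem Dat.span_top (h : Dat B X) {C : Set V} (hC : ∃ v ∈ C, v ≠ 0)
    (hv : ∀ v ∈ X, v ∈ Submodule.span F C ∨ ∀ m ∈ C, B v m = 0) : Submodule.span F C = ⊤ := by
  refine (h.irr _ fun v hvX => (hv v hvX).imp id fun h' m hm => ?_).resolve_left ?_
  · exact (Submodule.span_le.2 h' : Submodule.span F C ≤ LinearMap.ker (B v)) hm
  · obtain ⟨v, hv, h0⟩ := hC
    intro e
    exact h0 ((Submodule.eq_bot_iff _).1 e v (Submodule.subset_span hv))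

omit [CharP F 2] [Finite F] in
theorem Dat.zero_of (h : Dat B X) {C : Set V} (hC : Submodule.span F C = ⊤) {v : V}
    (hv : ∀ m ∈ C, B v m = 0) : v = 0 :=
  h.nd v fun w => (Submodule.span_le.2 hv : Submodule.span F C ≤ LinearMap.ker (B v))
    (hC ▸ Submodule.mem_top)

omit [CharP F 2] [Finite F] in
theorem Dat.span (h : Dat B X) : Submodule.span F X = ⊤ := by
  obtain ⟨v, hv⟩ := h.ne
  exact h.span_top ⟨v, hv, fun e => h.zero (e ▸ hv)⟩ fun v hv => Or.inl (Submodule.subset_span hv)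

omit [Finite F] in
theorem Dat.ex (h : Dat B X) {v : V} (hv : v ≠ 0) : ∃ z ∈ X, B z v ≠ 0 := by
  by_contra hc
  push Not at hc
  exact hv (h.zero_of h.span fun m hm => by rw [h.alt.symm, hc m hm])

omit [Finite F] in
theorem Dat.nice (h : Dat B X) : Nice B X := by
  refine ⟨h.alt, h.cl, fun y hy => h.ex fun e => h.zero (e ▸ hy), fun G hG y hy hGy z hz => ?_⟩
  have key : ∀ v ∈ X, G v ∨ ∀ m ∈ {v | v ∈ X ∧ G v}, B v m = 0 := by
    intro v hv
    by_contra hc
    push Not at hc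
    obtain ⟨h1, m, hm, h2⟩ := hc
    exact h1 (hG m hm.1 v hv (by rwa [h.alt.symm]) hm.2)
  have := h.span_top (C := {v | v ∈ X ∧ G v}) ⟨y, ⟨hy, hGy⟩, fun e => h.zero (e ▸ hy)⟩
    fun v hv => (key v hv).imp (fun hG => Submodule.subset_span ⟨hv, hG⟩) id
  exact (key z hz).resolve_right fun h' => h.zero (h.zero_of this h' ▸ hz)

theorem cubic {p1 p2 q1 q2 a : F} (a0 : a ≠ 0) (a1 : a ≠ 1)
    (h : ∀ t : F, (p1 + t * q1) * (p2 + t * q2) * (p1 + p2 + t * (q1 + q2)) = 0) :
    p1 * q2 + p2 * q1 = 0 := by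
  have h0 := h 0
  have h1 := h 1
  have h2 := h a
  have h3 := h (1 + a)
  simp only [mul_eq_zero] at h0 h1 h2 h3
  rcases h0 with (h0 | h0) | h0 <;> rcases h1 with (h1 | h1) | h1 <;>
    rcases h2 with (h2 | h2) | h2 <;> rcases h3 with (h3 | h3) | h3 <;> grind

theorem Dat.full (h : Dat B X) (hK : h.nice.K = ⊤) {a : F} (a0 : a ≠ 0) (a1 : a ≠ 1) :
    ∀ v ≠ 0, v ∈ X := by
  have hs : ∀ (t : F), t ≠ 0 → ∀ y ∈ X, t • y ∈ X := fun t ht y hy =>
    h.nice.smul_mem (hK ▸ Subfield.mem_top t) ht hy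
  have hp : ∀ y ∈ X, ∀ z ∈ X, B y z ≠ 0 → ∀ t : F, y + t • z ∈ X := fun y hy z hz e t => by
    simpa using h.nice.plane hy hz e (hK ▸ Subfield.mem_top _) (one_mem _)
      (hK ▸ Subfield.mem_top t) (by simp)
  have hadd : ∀ y ∈ X, ∀ z ∈ X, y + z ≠ 0 → y + z ∈ X := by
    intro y hy z hz hne
    by_cases e : B y z = 0
    swap
    · simpa using hp y hy z hz e 1
    by_contra hn
    have h3 : ∀ u ∈ X, B u y * B u z * (B u y + B u z) = 0 := by
      intro u hu
      by_contra hc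
      simp only [mul_eq_zero, not_or] at hc
      apply hn
      refine T5 h.alt h.cl hu (by simpa using hc.2) ?_
      have := hp _ (hp u hu y hy hc.1.1 (B u (y + z))) z hz (by simp [e, hc.1.2]) (B u (y + z))
      convert this using 1
      vv
    obtain ⟨u₀, hu₀, e0⟩ := h.ex hne
    simp only [map_add] at e0
    have hsp := h.span_top (C := {u | u ∈ X ∧ ¬ (B u y = 0 ∧ B u z = 0) ∧
      B u y * B u₀ z + B u z * B u₀ y = 0}) ⟨u₀, ⟨hu₀, by grind, by grind⟩, fun e => h.zero (e ▸ hu₀)⟩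
      (by
        intro x hx
        by_contra hc
        push Not at hc
        obtain ⟨h1, u, ⟨hu, hu1, hu2⟩, h2⟩ := hc
        rw [h.alt.symm] at h2
        apply h1
        by_cases e1 : B x y = 0 ∧ B x z = 0
        · have : x = u + (u + (1 : F) • x) := by vv
          rw [this]
          refine add_mem (Submodule.subset_span ⟨hu, hu1, hu2⟩)
            (Submodule.subset_span ⟨hp u hu x hx h2 1, ?_, ?_⟩)
          · simpa [e1.1, e1.2] using hu1
          · simpa [e1.1, e1.2] using hu2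
        · refine Submodule.subset_span ⟨hx, not_and.1 e1, ?_⟩
          have := cubic (p1 := B u y) (p2 := B u z) (q1 := B x y) (q2 := B x z) a0 a1 fun t => by
            have := h3 _ (hp u hu x hx h2 t)
            simp only [map_add, map_smul, smul_eq_mul, LinearMap.smul_apply,
              LinearMap.add_apply] at this
            rw [← this]; ring
          grind)
    have h4 := h.zero_of hsp (v := B u₀ z • y + B u₀ y • z) (by
      rintro m ⟨-, -, hm⟩
      simp only [map_add, map_smul, smul_eq_mul, LinearMap.smul_apply, LinearMap.add_apply,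
        h.alt.symm _ m]
      rw [← hm]; ring)
    apply hn
    by_cases e2 : B u₀ z = 0
    · have e3 : B u₀ y ≠ 0 := by grind
      rw [e2, zero_smul, zero_add, smul_eq_zero] at h4
      exact absurd (h4.resolve_left e3 ▸ hz) h.zero
    · have e3 : y + z = ((B u₀ z)⁻¹ * (B u₀ y + B u₀ z)) • z := by
        have : y = ((B u₀ z)⁻¹ * B u₀ y) • z + (B u₀ z)⁻¹ • (B u₀ z • y + B u₀ y • z) := by vv
        rw [h4, smul_zero, add_zero] at this
        conv_lhs => rw [this]
        generalize B u₀ y = s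
        vv
      rw [e3]
      exact hs _ (by simp [e2, e0]) z hz
  let M : Submodule F V :=
    { carrier := {v | v = 0 ∨ v ∈ X}
      add_mem' := by
        rintro y z (rfl | hy) (rfl | hz)
        · left; simp
        · right; simpa
        · right; simpa
        · by_cases e : y + z = 0
          exacts [Or.inl e, Or.inr (hadd y hy z hz e)]
      zero_mem' := Or.inl rfl
      smul_mem' := by
        rintro t y (rfl | hy)
        · left; simp
        · by_cases e : t = 0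
          · left; simp [e]
          · exact Or.inr (hs t e y hy) }
  intro v hv
  have : Submodule.span F X ≤ M := Submodule.span_le.2 fun x hx => Or.inr hx
  exact (this (h.span ▸ Submodule.mem_top : v ∈ Submodule.span F X)).resolve_left hv

end Cfsg.Agent.H3.Sz1
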