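import Cfsg.Agent.H3.C2a
import Cfsg.Agent.H3.Sz1
import Cfsg.Agent.H2.Dihed3

/-! Group-theoretic and two-dimensional lemmas. -/

set_option autoImplicit false
set_option linter.unusedSectionVars false

namespace Cfsg.Agent.H3.C2

open Matrix H3.Sz3

section grp
variable {G : Type*} [Group G] [Finite G]

/-- finite submonoids are subgroups -/
def mkSub (S : G → Prop) (h1 : S 1) (hm : ∀ a b, S a → S b → S (a * b)) : Subgroup G where
  carrier := {g | S g}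
  one_mem' := h1
  mul_mem' := fun {a b} => hm a b
  inv_mem' := fun {a} ha => by
    have hp : ∀ n : ℕ, S (a ^ n) := fun n => by
      induction n with
      | zero => simpa using h1
      | succ n ih => rw [pow_succ]; exact hm _ _ ih ha
    have : a⁻¹ = a ^ (orderOf a - 1) := by
      apply inv_eq_of_mul_eq_one_right
      rw [← pow_succ', Nat.sub_add_cancel (orderOf_pos a), pow_orderOf_eq_one]
    change S a⁻¹
    rw [this]; exact hp _

@[simp] theorem mem_mkSub {S : G → Prop} {h1 : S 1} {hm : ∀ a b, S a → S b → S (a * b)} {g : G} :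
    g ∈ mkSub S h1 hm ↔ S g := Iff.rfl

theorem conj_sub {T L R : Subgroup G} (h : Odd (T.relIndex L)) (hR : R ≤ L) (hp : IsPGroup 2 R) :
    ∃ a ∈ L, ∀ r ∈ R, a⁻¹ * r * a ∈ T := by
  have hp' : IsPGroup 2 (R.subgroupOf L) := hp.of_equiv (Subgroup.subgroupOfEquivOfLe hR).symm
  obtain ⟨q, hq⟩ := hp'.nonempty_fixed_point_of_prime_not_dvd_card (L ⧸ T.subgroupOf L)
    (fun h2 => (Nat.not_even_iff_odd.2 h) (even_iff_two_dvd.2 h2))
  obtain ⟨a, rfl⟩ := QuotientGroup.mk_surjective q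
  refine ⟨a, a.2, fun r hr => ?_⟩
  have := hq ⟨⟨r, hR hr⟩, hr⟩
  have h2 : (((⟨r, hR hr⟩ : L) * a : L) : L ⧸ T.subgroupOf L) = (a : L ⧸ T.subgroupOf L) := this
  have h3 := QuotientGroup.eq.1 h2.symm
  simpa [Subgroup.mem_subgroupOf, mul_assoc] using h3

theorem pg_of_sq {R : Subgroup G} (h : ∀ r ∈ R, r * r = 1) : IsPGroup 2 R := fun r =>
  ⟨1, Subtype.ext (by simpa [sq] using h r r.2)⟩

theorem comm_of_sq {R : Subgroup G} (h : ∀ r ∈ R, r * r = 1) {a b : G} (ha : a ∈ R) (hb : b ∈ R) :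
    a * b = b * a := by
  have := h _ (mul_mem ha hb)
  calc a * b = (a * b)⁻¹ := eq_inv_of_mul_eq_one_left this
    _ = _ := by rw [_root_.mul_inv_rev, inv_eq_of_mul_eq_one_right (h a ha), inv_eq_of_mul_eq_one_right (h b hb)]

/-- conjugate subgroup -/
def cjs (g : G) (Q : Subgroup G) : Subgroup G := Q.comap (MulAut.conj g).toMonoidHom

theorem mem_cjs {g x : G} {Q : Subgroup G} : x ∈ cjs g Q ↔ g * x * g⁻¹ ∈ Q := Iff.rfl

theorem cjs_sq {Q : Subgroup G} (h : ∀ r ∈ Q, r * r = 1) (g : G) : ∀ r ∈ cjs g Q, r * r = 1 := fun r hr => by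
  have := h _ hr
  simpa [MulAut.conj_apply] using this

theorem fuse {T Q N : Subgroup G} (hT : Odd T.index) (hQ : ∀ q ∈ Q, q * q = 1)
    (wc : ∀ h, (∀ q ∈ Q, h⁻¹ * q * h ∈ T) → h ∈ N) {q g : G} (hq : q ∈ Q) (hg : g * q * g⁻¹ ∈ Q) :
    ∃ c, c * q = q * c ∧ g * c ∈ N := by
  let C := Subgroup.centralizer ({q} : Set G)
  have hC : ∀ x, x ∈ C ↔ x * q = q * x := fun x => by simp [C, Subgroup.mem_centralizer_iff, eq_comm]
  have hQC : Q ≤ C := fun x hx => (hC x).2 (comm_of_sq hQ hx hq)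
  have hp' : IsPGroup 2 (Q.subgroupOf C) := (pg_of_sq hQ).of_equiv (Subgroup.subgroupOfEquivOfLe hQC).symm
  obtain ⟨S, hS⟩ := hp'.exists_le_sylow
  let R := (S : Subgroup C).map C.subtype
  have hR : Odd (R.relIndex C) := by
    have : R.subgroupOf C = S := Subgroup.comap_map_eq_self_of_injective C.subtype_injective _
    rw [Subgroup.relIndex, this]
    exact Nat.odd_iff.2 (Nat.two_dvd_ne_zero.1 S.not_dvd_index)
  obtain ⟨c, hc, hc'⟩ := conj_sub (R := cjs g Q) hR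
    (fun x hx => (hC x).2 (comm_of_sq (cjs_sq hQ g) hx hg)) (pg_of_sq (cjs_sq hQ g))
  obtain ⟨h, -, hh⟩ := conj_sub (T := T) (L := ⊤) (R := R) (by simpa using hT) le_top (S.isPGroup'.map _)
  have h1 : h ∈ N := wc h fun x hx => hh x ⟨⟨x, hQC hx⟩, hS hx, rfl⟩
  have h2 : g * c * h ∈ N := wc _ fun x hx => by
    have := hh _ (hc' (g⁻¹ * x * g) (by simpa [mem_cjs, mul_assoc] using hx))
    simpa [mul_assoc] using this
  exact ⟨c, (hC c).1 hc, by simpa using mul_mem h2 (inv_mem h1)⟩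

theorem exists_odd_pow (g : G) : ∃ r k : ℕ, Odd r ∧ (g ^ r) ^ 2 ^ k = 1 := by
  obtain ⟨k, r, hr, e⟩ := Nat.exists_eq_two_pow_mul_odd (orderOf_pos g).ne'
  exact ⟨r, k, hr, by rw [← pow_mul, mul_comm, ← e, pow_orderOf_eq_one]⟩

theorem perfect_of (h : IsSimpleGroup G) (hn : ¬ IsMulCommutative G) : Group.IsPerfect G := by
  constructor
  rcases (inferInstance : (commutator G).Normal).eq_bot_or_eq_top with e | e
  · exact absurd ⟨⟨fun a b => by
      have := Subgroup.commutator_mem_commutator (Subgroup.mem_top a) (Subgroup.mem_top b)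
      rw [← commutator_def, e, Subgroup.mem_bot] at this
      exact commutatorElement_eq_one_iff_mul_comm.1 this⟩⟩ hn
  · exact e

theorem thom (h : IsSimpleGroup G) (hn : ¬ IsMulCommutative G) {T A : Subgroup G} (hT : Odd T.index) (hA : A ≤ T)
    {x : G} (hx : x ∈ T) (hx' : x ∉ A) (h2 : ∀ g ∈ T, g ∈ A ∨ g * x ∈ A) {y : G} (hy : y * y = 1) :
    ∃ g : G, g⁻¹ * y * g ∈ A := by
  have := perfect_of h hn
  have h3 : A.relIndex T = 2 := by
    refine Subgroup.index_eq_two_iff.2 ⟨⟨x, hx⟩, fun b => ?_⟩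
    simp only [Subgroup.mem_subgroupOf, Subgroup.coe_mul]
    rcases h2 b b.2 with e | e
    · exact Or.inr ⟨e, fun e' => hx' (by simpa using mul_mem (inv_mem e) e')⟩
    · exact Or.inl ⟨e, fun e' => hx' (by simpa using mul_mem (inv_mem e') e)⟩
  exact H2.Dihed3.thompson A hT (by rw [← h3, Subgroup.relIndex_mul_index hA]) (by rw [sq, hy])

theorem odd_sub (h4 : ¬ 4 ∣ Nat.card G) : ∃ N : Subgroup G, Odd (Nat.card N) ∧ ∀ x, x * x ∈ N := by
  classical
  by_cases ho : Odd (Nat.card G)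
  · exact ⟨⊤, by simpa using ho, by simp⟩
  obtain ⟨m, hm⟩ := Nat.not_odd_iff_even.1 ho
  have hm' : Odd m := by
    rcases Nat.even_or_odd' m with ⟨k, rfl | rfl⟩
    · exact absurd ⟨k, by omega⟩ h4
    · exact ⟨k, rfl⟩
  obtain ⟨y, hy⟩ := exists_prime_orderOf_dvd_card' (G := G) 2 ⟨m, by omega⟩
  have := Fintype.ofFinite G
  let σ := MulAction.toPermHom G G
  let φ := Equiv.Perm.sign.comp σ
  have h2 := Equiv.Perm.sign_of_pow_two_eq_one (σ := σ y) (by rw [← map_pow, ← hy, pow_orderOf_eq_one, map_one])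
  have h3 : Fintype.card (Function.fixedPoints (σ y)) = 0 := by
    rw [Fintype.card_eq_zero_iff]
    refine ⟨fun ⟨a, ha⟩ => ?_⟩
    have : y * a = a := ha
    rw [mul_eq_right.1 this, orderOf_one] at hy
    omega
  rw [h3, ← Nat.card_eq_fintype_card, hm, show (m + m - 0) / 2 = m by omega, hm'.neg_one_pow] at h2
  have h5 : φ.ker.index = 2 := by
    refine Subgroup.index_eq_two_iff.2 ⟨y, fun b => ?_⟩
    simp only [MonoidHom.mem_ker, map_mul, show φ y = -1 from h2]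
    rcases Int.units_eq_one_or (φ b) with e | e <;> rw [e] <;> decide
  refine ⟨φ.ker, ?_, fun x => by rw [MonoidHom.mem_ker, map_mul, Int.units_mul_self]⟩
  have := φ.ker.index_mul_card
  rw [h5, hm] at this
  rwa [show Nat.card φ.ker = m by omega]

end grp

variable {K : Type*} [Field K] [CharP K 2] [Finite K] {Γ : Type*} [Group Γ]

abbrev M2 (K : Type*) := Matrix (Fin 2) (Fin 2) K
abbrev S2 (K : Type*) [Field K] := SpecialLinearGroup (Fin 2) K

instance : Finite (S2 K) := Finite.of_injective _ Subtype.val_injective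

theorem eq2 {X Y : M2 K} : X = Y ↔ X 0 0 = Y 0 0 ∧ X 0 1 = Y 0 1 ∧ X 1 0 = Y 1 0 ∧ X 1 1 = Y 1 1 := by
  rw [← Matrix.ext_iff]; simp [Fin.forall_fin_two, and_assoc]

theorem mul2 (X Y : M2 K) (i j : Fin 2) : (X * Y) i j = X i 0 * Y 0 j + X i 1 * Y 1 j := by
  simp [Matrix.mul_apply, Fin.sum_univ_two]

theorem det_ne (σ : Γ →* M2 K) (g : Γ) : (σ g).det ≠ 0 := by
  have : (σ g).det * (σ g⁻¹).det = 1 := by rw [← det_mul, ← map_mul, mul_inv_cancel, map_one, det_one]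
  exact left_ne_zero_of_mul_eq_one this

/-- the matrix -/
def sv (M : S2 K) : M2 K := M.1
theorem sv_mul (a b : S2 K) : sv (a * b) = sv a * sv b := rfl
theorem sv_one : sv (1 : S2 K) = 1 := rfl
theorem sv_mk (a : M2 K) (h : a.det = 1) : sv ⟨a, h⟩ = a := rfl
theorem sv_inj {a b : S2 K} : a = b ↔ sv a = sv b := ⟨fun h => h ▸ rfl, Subtype.ext⟩
theorem sv_det (a : S2 K) : sv a 0 0 * sv a 1 1 - sv a 0 1 * sv a 1 0 = 1 := by rw [← det_fin_two]; exact a.2
theorem sv_inv (a : S2 K) : sv a⁻¹ = !![sv a 1 1, -sv a 0 1; -sv a 1 0, sv a 0 0] := adjugate_fin_two (sv a)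

theorem odd2 (σ : Γ →* M2 K) (h : ∀ g, σ g 0 0 + σ g 1 1 = 0 → ∃ c : K, σ g = c • 1) (x y : Γ) :
    σ x * σ y = σ y * σ x := by
  let Λ : Subgroup (S2 K) := mkSub (fun M => ∃ g, ∃ c : K, sv M = c • σ g) ⟨1, 1, by simp [sv_one]⟩ (by
    rintro a b ⟨g, c, e⟩ ⟨g', c', e'⟩
    exact ⟨g * g', c * c', by simp [sv_mul, e, e', smul_smul, mul_comm]⟩)
  have hΛ : ∀ M ∈ Λ, sv M 0 0 + sv M 1 1 = 0 → M = 1 := by
    rintro M ⟨g, c, e⟩ ht
    have hd := sv_det M
    have c0 : c ≠ 0 := by rintro rfl; simp [e] at hd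
    obtain ⟨c', e'⟩ := h g (by simp only [e, Matrix.smul_apply, smul_eq_mul] at ht; grind)
    rw [e', smul_smul] at e
    simp [e] at hd
    rw [sv_inj, e, Sz1.sq_inj (a := c * c') (b := 1) (by grind), sv_one, one_smul]
  have hn : ∀ g, ∃ M ∈ Λ, ∃ c : K, c ≠ 0 ∧ σ g = c • sv M := fun g => by
    obtain ⟨r, hr⟩ := Sz1.exists_sq (σ g).det
    have r0 : r ≠ 0 := by rintro rfl; exact det_ne σ g (by rw [← hr]; simp)
    exact ⟨⟨r⁻¹ • σ g, by rw [det_smul, ← hr]; simp [r0]⟩, ⟨g, r⁻¹, rfl⟩, r, r0, by simp [sv_mk, smul_smul, r0]⟩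
  obtain ⟨X, hX, c, -, e1⟩ := hn x
  obtain ⟨Y, hY, c', -, e2⟩ := hn y
  suffices X * Y = Y * X by
    rw [sv_inj, sv_mul, sv_mul] at this
    rw [e1, e2]; simp [smul_smul, this, mul_comm]
  clear e1 e2 hn h
  have dX := sv_det X
  have dY := sv_det Y
  obtain ⟨r, hr⟩ := Sz1.exists_sq (sv X * sv Y + sv Y * sv X).det
  by_cases r0 : r = 0
  · have := hΛ _ (mul_mem (mul_mem hX hY) (inv_mem (mul_mem hY hX))) (by
      rw [det_fin_two] at hr
      simp only [Matrix.add_apply, mul2] at hr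
      simp only [sv_mul, sv_inv, mul2]
      simp
      clear * - hr r0 dX dY
      grind)
    exact mul_inv_eq_one.1 this
  obtain ⟨s, hs⟩ : ∃ s : S2 K, sv s = r⁻¹ • (sv X * sv Y + sv Y * sv X) := ⟨⟨_, by
    rw [det_smul, ← hr]; simp [r0]⟩, rfl⟩
  have ds := sv_det s
  have st : sv s 0 0 + sv s 1 1 = 0 := by simp only [hs, Matrix.smul_apply, Matrix.add_apply, mul2, smul_eq_mul]; grind
  have s2 : s * s = 1 := by
    simp only [sv_inj, sv_mul, sv_one, eq2, mul2]; simp; grind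
  have si : s⁻¹ = s := inv_eq_of_mul_eq_one_right s2
  have sI : ∀ Z : S2 K, s * Z = Z⁻¹ * s → s * Z * s = Z⁻¹ := fun Z e => by rw [e, mul_assoc, s2, mul_one]
  have sX : s * X * s = X⁻¹ := sI _ (by
    simp only [sv_inj, sv_mul, sv_inv, hs, eq2, mul2, Matrix.smul_apply, Matrix.add_apply, smul_eq_mul]
    simp
    clear * -
    grind)
  have sY : s * Y * s = Y⁻¹ := sI _ (by
    simp only [sv_inj, sv_mul, sv_inv, hs, eq2, mul2, Matrix.smul_apply, Matrix.add_apply, smul_eq_mul]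
    simp
    clear * -
    grind)
  clear hs hr
  by_cases s1 : s = 1
  · rw [s1, mul_one, one_mul] at sX
    have : X = 1 := hΛ X hX (by
      rw [sv_inj, sv_inv, eq2] at sX
      simp at sX; grind)
    simp [this]
  have hK : ∀ a, a ∈ Λ ⊓ cjs s Λ ↔ a ∈ Λ ∧ s * a * s ∈ Λ := fun a => by rw [Subgroup.mem_inf, mem_cjs, si]
  have key := inv_of_fpf (K := Λ ⊓ cjs s Λ) s2 (fun a ha => by
      rw [hK] at ha ⊢
      refine ⟨ha.2, ?_⟩
      have : s * (s * a * s) * s = (s * s) * a * (s * s) := by group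
      rw [this, s2, one_mul, mul_one]; exact ha.1)
    (fun a ha e => hΛ a ha.1 (by
      simp only [sv_inj, sv_mul, sv_one, eq2, mul2] at e s1
      simp at s1
      clear * - e s1 st ds
      by_contra h0
      have h1 : sv s 0 1 = 0 := by grind
      have h2 : sv s 1 0 = 0 := by grind
      have := Sz1.sq_inj (a := sv s 0 0) (b := 1) (by grind)
      grind))
    (mul_mem ((hK X).2 ⟨hX, sX ▸ inv_mem hX⟩) ((hK Y).2 ⟨hY, sY ▸ inv_mem hY⟩))
  have : s * (X * Y) * s = (s * X * s) * (s * Y * s) := by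
    calc _ = s * X * (s * s) * Y * s := by rw [s2]; group
      _ = _ := by group
  rw [this, sX, sY, ← _root_.mul_inv_rev] at key
  exact (inv_injective key).symm

theorem tor2 (σ : Γ →* M2 K) {u1 u2 g : Γ} {a1 a2 : K} (h1 : a1 ≠ 0) (h2 : a2 ≠ 0) (e1 : σ u1 = !![1, a1; 0, 1])
    (e2 : σ u2 = !![1, a2; 0, 1]) (hg : σ g 1 0 ≠ 0) : ∃ n, σ n 1 0 = 0 ∧ σ n 0 0 ^ 4 * a1 = a2 := by
  let Λ : Subgroup (S2 K) := mkSub (fun M => ∃ g, sv M = σ g) ⟨1, by simp [sv_one]⟩ (by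
    rintro a b ⟨g, e⟩ ⟨g', e'⟩
    exact ⟨g * g', by simp [sv_mul, e, e']⟩)
  obtain ⟨i, ei⟩ : ∃ i : S2 K, sv i = σ (g * u1 * g⁻¹) := ⟨⟨_, by
    rw [map_mul, map_mul, det_mul, det_mul, mul_right_comm, ← det_mul, ← map_mul, e1]; simp [det_fin_two]⟩, rfl⟩
  have hi : i ∈ Λ := ⟨_, ei⟩
  have i2 : i * i = 1 := by
    have : σ u1 * σ u1 = 1 := by rw [e1, eq2]; simp [mul2]; grind
    rw [sv_inj, sv_mul, ei, ← map_mul, conj_mul, map_mul, map_mul, map_mul, this, mul_one, ← map_mul]; simp [sv_one]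
  have i10 : sv i 1 0 ≠ 0 := by
    have : sv i * σ g = σ g * σ u1 := by simp only [ei, ← map_mul]; simp
    have hd := det_ne σ g
    rw [det_fin_two] at hd
    simp only [eq2, mul2, e1] at this
    simp at this
    clear * - this hd h1 hg
    grind
  have key : ∀ (a : K) (u : S2 K), a ≠ 0 → u ∈ Λ → sv u = !![1, a; 0, 1] → ∃ t ∈ Λ, t * t = 1 ∧ t * i * t = u := by
    intro a u a0 hu e
    refine (dih hi hu i2 (by simp only [sv_inj, sv_mul, sv_one, e, eq2, mul2]; simp; grind)).resolve_right ?_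
    rintro ⟨w, -, w1, w2, e3, e4⟩
    simp only [sv_inj, sv_mul, sv_one, e, eq2, mul2, ne_eq] at w1 w2 e3 e4
    simp at w1 w2 e4
    clear * - w1 w2 e3 e4 a0 i10
    have := Sz1.sq_inj (a := sv w 0 0) (b := 1) (by grind)
    grind
  obtain ⟨t1, ⟨n1, m1⟩, t12, f1⟩ := key a1 ⟨σ u1, by simp [e1, det_fin_two]⟩ h1 ⟨_, rfl⟩ e1
  obtain ⟨t2, ⟨n2, m2⟩, t22, f2⟩ := key a2 ⟨σ u2, by simp [e2, det_fin_two]⟩ h2 ⟨_, rfl⟩ e2
  have f3 : t2 * t1 * (t1 * i * t1) = (t2 * i * t2) * (t2 * t1) := by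
    calc _ = t2 * (t1 * t1) * i * t1 := by group
      _ = t2 * i * (t2 * t2) * t1 := by rw [t12, t22]; group
      _ = _ := by group
  rw [f1, f2, sv_inj] at f3
  have f5 := sv_det (t2 * t1)
  rw [sv_mul _ ⟨_, _⟩, sv_mul ⟨_, _⟩, sv_mk, sv_mk, e1, e2] at f3
  rw [sv_mul, m1, m2, ← map_mul σ n2 n1] at f3 f5
  generalize n2 * n1 = n at f3 f5
  simp only [eq2, mul2] at f3
  simp at f3
  have n0 : σ n 1 0 = 0 := by grind
  have n1 : σ n 0 0 ^ 2 * a1 = a2 := by grind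
  have hp : ∀ k : ℕ, σ (n ^ k) 1 0 = 0 ∧ σ (n ^ k) 0 0 = σ n 0 0 ^ k := fun k => by
    induction k with
    | zero => simp
    | succ k ih => rw [pow_succ, map_mul, mul2, mul2, ih.1, ih.2, n0]; simp [pow_succ]
  have := Fintype.ofFinite K
  obtain ⟨k, -, hk⟩ := FiniteField.card K 2
  refine ⟨n ^ 2 ^ ((k : ℕ) - 1), (hp _).1, ?_⟩
  have hq := FiniteField.pow_card (σ n 0 0)
  rw [(hp _).2, ← n1, ← pow_mul, show 2 ^ ((k : ℕ) - 1) * 4 = Fintype.card K * 2 by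
    rw [hk]; obtain ⟨k, k0⟩ := k; obtain ⟨j, rfl⟩ := Nat.exists_eq_succ_of_ne_zero k0.ne'; simp [pow_succ]; ring,
    pow_mul, hq]

end Cfsg.Agent.H3.C2
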