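import Cfsg.Agent.H3.C2b

/-! Normal forms. -/

set_option autoImplicit false
set_option linter.unusedSectionVars false

namespace Cfsg.Agent.H3.C2

open Matrix H2.M4 H3.Sz3

variable {K : Type*} [Field K] [CharP K 2] {G : Type*} [Group G] [Finite G] {ρ : G →* M4 K}

theorem eq4 {X Y : M4 K} : X = Y ↔ (X 0 0 = Y 0 0 ∧ X 0 1 = Y 0 1 ∧ X 0 2 = Y 0 2 ∧ X 0 3 = Y 0 3) ∧
    (X 1 0 = Y 1 0 ∧ X 1 1 = Y 1 1 ∧ X 1 2 = Y 1 2 ∧ X 1 3 = Y 1 3) ∧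
    (X 2 0 = Y 2 0 ∧ X 2 1 = Y 2 1 ∧ X 2 2 = Y 2 2 ∧ X 2 3 = Y 2 3) ∧
    (X 3 0 = Y 3 0 ∧ X 3 1 = Y 3 1 ∧ X 3 2 = Y 3 2 ∧ X 3 3 = Y 3 3) := by
  rw [← Matrix.ext_iff]; simp [Fin.forall_fin_succ]

theorem mul4 (X Y : M4 K) (i j : Fin 4) : (X * Y) i j = X i 0 * Y 0 j + X i 1 * Y 1 j + X i 2 * Y 2 j + X i 3 * Y 3 j := by
  simp [Matrix.mul_apply, Fin.sum_univ_four]

theorem det4 (X : M4 K) : X.det =
    (X 0 0 * X 1 1 + X 0 1 * X 1 0) * (X 2 2 * X 3 3 + X 2 3 * X 3 2) + (X 0 0 * X 1 2 + X 0 2 * X 1 0) * (X 2 1 * X 3 3 + X 2 3 * X 3 1) +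
    (X 0 0 * X 1 3 + X 0 3 * X 1 0) * (X 2 1 * X 3 2 + X 2 2 * X 3 1) + (X 0 1 * X 1 2 + X 0 2 * X 1 1) * (X 2 0 * X 3 3 + X 2 3 * X 3 0) +
    (X 0 1 * X 1 3 + X 0 3 * X 1 1) * (X 2 0 * X 3 2 + X 2 2 * X 3 0) + (X 0 2 * X 1 3 + X 0 3 * X 1 2) * (X 2 0 * X 3 1 + X 2 1 * X 3 0) := by
  simp [det_succ_row_zero, Fin.sum_univ_succ, Fin.succAbove]
  grind

/-- unitriangular matrices -/
def U (a b c d e f : K) : M4 K := !![1, a, d, f; 0, 1, b, e; 0, 0, 1, c; 0, 0, 0, 1]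

/-- turn a matrix equation into equations of entries -/
macro "ent " "at " h:ident : tactic => `(tactic| (simp only [eq4, mul4, Matrix.add_apply, Matrix.smul_apply, smul_eq_mul] at $h:ident; simp [U, mz, mx, my, mu, mh, -mul_eq_mul_left_iff, -mul_eq_mul_right_iff, -mul_eq_zero, -add_eq_left, -left_eq_add, -add_eq_right, -right_eq_add] at $h:ident))
macro "ent" : tactic => `(tactic| (simp only [eq4, mul4, Matrix.add_apply, Matrix.smul_apply, smul_eq_mul]; simp [U, mz, mx, my, mu, mh, -mul_eq_mul_left_iff, -mul_eq_mul_right_iff, -mul_eq_zero]))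

theorem U_mul (a b c d e f a' b' c' d' e' f' : K) : U a b c d e f * U a' b' c' d' e' f' =
    U (a + a') (b + b') (c + c') (d + d' + a * b') (e + e' + b * c') (f + f' + a * e' + d * c') := by
  ent; grind

theorem U_inj {a b c d e f a' b' c' d' e' f' : K} : U a b c d e f = U a' b' c' d' e' f' ↔
    a = a' ∧ b = b' ∧ c = c' ∧ d = d' ∧ e = e' ∧ f = f' := by
  ent; grind

theorem U_one : (1 : M4 K) = U 0 0 0 0 0 0 := by ent

/-- conjugate representation -/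
def cjr (P : G4 K) (ρ : G →* M4 K) : G →* M4 K where
  toFun g := (P⁻¹).val * ρ g * P.val
  map_one' := by simp
  map_mul' a b := by
    simp only [map_mul, Matrix.mul_assoc]
    rw [← Matrix.mul_assoc P.val, Units.mul_inv, Matrix.one_mul]

theorem cjr_apply (P : G4 K) (g : G) : cjr P ρ g = (P⁻¹).val * ρ g * P.val := rfl

theorem cjr_mul (P : G4 K) (g : G) : P.val * cjr P ρ g = ρ g * P.val := by
  rw [cjr_apply, Matrix.mul_assoc, ← Matrix.mul_assoc P.val, Units.mul_inv, Matrix.one_mul]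

theorem cjr_of {P : G4 K} {g : G} {X : M4 K} (h : ρ g * P.val = P.val * X) : cjr P ρ g = X := by
  rw [cjr_apply, Matrix.mul_assoc, h, ← Matrix.mul_assoc, Units.inv_mul, Matrix.one_mul]

theorem cjr_inv (P : G4 K) (g : G) : ρ g = P.val * cjr P ρ g * (P⁻¹).val := by
  rw [cjr_mul, Matrix.mul_assoc, Units.mul_inv, Matrix.mul_one]

theorem tr_cjr (P : G4 K) (g : G) : (cjr P ρ g).trace = (ρ g).trace := by
  rw [cjr_apply, trace_mul_comm, ← Matrix.mul_assoc, Units.mul_inv, Matrix.one_mul]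

theorem Real.of_cj {P : G4 K} (h : Real (cjr P ρ)) : Real ρ := fun g => by simpa [tr_cjr] using h g

theorem Bas0.cj (h : Bas0 ρ) (P : G4 K) : Bas0 (cjr P ρ) where
  inj a b e := h.inj (by rw [cjr_inv P, e, ← cjr_inv])
  det g := by
    rw [cjr_apply, det_mul, det_mul, mul_right_comm, ← det_mul, Units.inv_mul, det_one, one_mul, h.det]
  nt g v w e := h.nt g (P.val *ᵥ v) (w ᵥ* (P⁻¹).val) (by
    rw [cjr_inv P, e, Matrix.mul_add, Matrix.add_mul, Matrix.mul_one, Units.mul_inv, mul_vecMulVec, vecMulVec_mul])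

theorem Bas.cj (h : Bas ρ) (P : G4 K) : Bas (cjr P ρ) where
  toBas0 := h.toBas0.cj P
  simple := h.simple
  nab := h.nab
  irr W hW := by
    let e : (Fin 4 → K) ≃ₗ[K] (Fin 4 → K) := Matrix.toLinearEquiv' P.val P.invertible
    have := h.irr (W.map e.toLinearMap) (by
      rintro g _ ⟨v, hv, rfl⟩
      refine ⟨_, hW g v hv, ?_⟩
      change P.val *ᵥ (cjr P ρ g *ᵥ v) = ρ g *ᵥ (P.val *ᵥ v)
      rw [mulVec_mulVec, mulVec_mulVec, cjr_mul])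
    simpa using this

/-- units from matrices -/
noncomputable def mkU (X : M4 K) (h : X.det ≠ 0) : G4 K := Matrix.GeneralLinearGroup.mkOfDetNeZero X h

theorem mkU_val (X : M4 K) (h : X.det ≠ 0) : (mkU X h).val = X := rfl

/-- matrix from columns -/
def cols (a b c d : Fin 4 → K) : M4 K := of fun i => ![a i, b i, c i, d i]

theorem mul_cols (X : M4 K) (a b c d : Fin 4 → K) : X * cols a b c d = cols (X *ᵥ a) (X *ᵥ b) (X *ᵥ c) (X *ᵥ d) := by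
  ext i j; fin_cases j <;> simp [cols, Matrix.mul_apply, mulVec, dotProduct]

theorem cols_mulVec (a b c d v : Fin 4 → K) : cols a b c d *ᵥ v = v 0 • a + v 1 • b + v 2 • c + v 3 • d := by
  ext i; simp [cols, mulVec, dotProduct, Fin.sum_univ_four]; ring

theorem Bas0.sq (h : Bas0 ρ) {g : G} : g * g = 1 ↔ ρ g * ρ g = 1 :=
  ⟨fun e => by rw [← map_mul, e, map_one], fun e => h.inj (by rw [map_mul, e, map_one])⟩

theorem Bas0.comm (h : Bas0 ρ) {g k : G} : g * k = k * g ↔ ρ g * ρ k = ρ k * ρ g :=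
  ⟨fun e => by rw [← map_mul, e, map_mul], fun e => h.inj (by rw [map_mul, e, map_mul])⟩

theorem add_self4 (X : M4 K) : X + X = 0 := by ext; simp [CharTwo.add_self_eq_zero]

theorem Bas0.inv_nf (h : Bas0 ρ) {t : G} (t1 : t ≠ 1) (t2 : t * t = 1) : ∃ P : G4 K, cjr P ρ t = U 0 0 0 1 1 0 := by
  obtain ⟨N, hN⟩ : ∃ N, ρ t = 1 + N := ⟨1 + ρ t, by rw [← add_assoc, add_self4, zero_add]⟩
  have N2 : N * N = 0 := by
    have := h.sq.1 t2
    rw [hN, add_mul, mul_add, mul_add, one_mul, one_mul, mul_one, add_assoc, ← add_assoc N, add_self4] at this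
    simpa using this
  obtain ⟨v, hv⟩ : ∃ v, N *ᵥ v ≠ 0 := by
    by_contra! e
    exact t1 (h.nt t 0 0 (by rw [hN, Matrix.ext_iff_mulVec.2 (fun v => (e v).trans (zero_mulVec v).symm)]; simp))
  obtain ⟨u, hu⟩ : ∃ u, ∀ c : K, N *ᵥ u ≠ c • N *ᵥ v := by
    by_contra! e
    choose c hc using e
    refine t1 (h.nt t (N *ᵥ v) (fun j => c (Pi.single j 1)) (by
      rw [hN]; congr 1; ext i j
      have := congrFun (hc (Pi.single j 1)) i
      simp only [mulVec_single_one, Pi.smul_apply, smul_eq_mul] at this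
      rw [vecMulVec_apply, mul_comm]; exact this))
  have ind : ∀ a b : K, a • N *ᵥ u + b • N *ᵥ v = 0 → a = 0 ∧ b = 0 := fun a b e => by
    by_cases a0 : a = 0
    · simpa [a0, hv] using e
    · exact absurd (by
        rw [← inv_smul_smul₀ a0 (N *ᵥ u), eq_neg_of_add_eq_zero_left e, smul_neg, smul_smul, neg_smul]) (hu (-(a⁻¹ * b)))
  have hd : (cols (N *ᵥ u) (N *ᵥ v) u v).det ≠ 0 := fun e => by
    obtain ⟨w, w0, hw⟩ := exists_mulVec_eq_zero_iff.2 e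
    rw [cols_mulVec] at hw
    have h2 := congrArg (N *ᵥ ·) hw
    simp only [mulVec_add, mulVec_smul, mulVec_mulVec, N2, zero_mulVec, smul_zero, zero_add, mulVec_zero] at h2
    obtain ⟨e2, e3⟩ := ind _ _ h2
    obtain ⟨e0, e1⟩ := ind (w 0) (w 1) (by simpa [e2, e3] using hw)
    exact w0 (by ext i; fin_cases i <;> assumption)
  refine ⟨mkU _ hd, cjr_of ?_⟩
  rw [mkU_val, mul_cols, hN]
  simp only [mulVec_mulVec, add_mul, one_mul, N2, add_zero]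
  simp only [add_mulVec, one_mulVec]
  ext i j; fin_cases j <;> simp [cols, U, Matrix.mul_apply, Fin.sum_univ_four, add_comm]

/-- the centraliser of the standard involution -/
theorem cz_form {X : M4 K} (e : X * U 0 0 0 1 1 0 = U 0 0 0 1 1 0 * X) :
    X 2 0 = 0 ∧ X 2 1 = 0 ∧ X 3 0 = 0 ∧ X 3 1 = 0 ∧ X 2 2 = X 0 0 ∧ X 2 3 = X 0 1 ∧ X 3 2 = X 1 0 ∧ X 3 3 = X 1 1 := by
  ent at e; grind

theorem cz_det {X : M4 K} (e : X * U 0 0 0 1 1 0 = U 0 0 0 1 1 0 * X) (hd : X.det = 1) :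
    X 0 0 * X 1 1 + X 0 1 * X 1 0 = 1 := by
  have := cz_form e
  rw [det4] at hd
  exact Sz1.sq_inj (by grind)

theorem cz_ev {X : M4 K} (e : X * U 0 0 0 1 1 0 = U 0 0 0 1 1 0 * X) (hd : X.det = 1) :
    X ^ 4 + 1 = (X 0 0 + X 1 1) ^ 2 • X ^ 2 := by
  have h1 := cz_form e
  have h2 := cz_det e hd
  have h3 : (X * X + (X 0 0 + X 1 1) • X + 1) * (X * X + (X 0 0 + X 1 1) • X + 1) = 0 := by
    generalize hN : X * X + (X 0 0 + X 1 1) • X + 1 = N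
    have := hN.symm
    ent at this
    have h4 : N 0 0 = 0 ∧ N 0 1 = 0 ∧ N 1 0 = 0 ∧ N 1 1 = 0 ∧ N 2 0 = 0 ∧ N 2 1 = 0 ∧ N 2 2 = 0 ∧ N 2 3 = 0 ∧
      N 3 0 = 0 ∧ N 3 1 = 0 ∧ N 3 2 = 0 ∧ N 3 3 = 0 := by grind
    simp only [eq4, mul4, h4]; simp
  generalize X 0 0 + X 1 1 = τ at h3
  have h5 : (X * X + τ • X + 1) * (X * X + τ • X + 1) = X ^ 4 + 1 + τ ^ 2 • X ^ 2 + (2 : K) • (τ • X ^ 3 + X ^ 2 + τ • X) := by
    simp only [add_mul, mul_add, pow_succ, pow_zero, one_mul, mul_one, smul_mul_assoc, mul_smul_comm, mul_assoc]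
    module
  rw [h5, Sz1.two, zero_smul, add_zero] at h3
  rw [← add_zero (X ^ 4 + 1), ← add_self4 (τ ^ 2 • X ^ 2), ← add_assoc, h3, zero_add]

theorem Bas0.ev (h : Bas0 ρ) : EV ρ := fun g t t1 t2 e => by
  obtain ⟨P, hP⟩ := h.inv_nf t1 t2
  have := cz_ev (X := cjr P ρ g) (by rw [← hP]; exact (h.cj P).comm.1 e) ((h.cj P).det g)
  refine ⟨(cjr P ρ g 0 0 + cjr P ρ g 1 1) ^ 2, ?_⟩
  rw [← map_pow, ← map_pow] at this ⊢
  rw [cjr_inv P (g ^ 4), cjr_inv P (g ^ 2), ← smul_mul_assoc, ← mul_smul_comm, ← this, mul_add, add_mul]; simp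

variable (ρ) in
/-- unitriangular elements -/
def T0 : Subgroup G := mkSub (fun g => ∃ a b c d e f, ρ g = U a b c d e f) ⟨0, 0, 0, 0, 0, 0, by rw [map_one, U_one]⟩ (by
  rintro g k ⟨a, b, c, d, e, f, h⟩ ⟨a', b', c', d', e', f', h'⟩
  exact ⟨_, _, _, _, _, _, by rw [map_mul, h, h', U_mul]⟩)

variable (ρ) in
/-- line stabiliser -/
def P1 : Subgroup G := mkSub (fun g => ρ g 2 0 = 0 ∧ ρ g 2 1 = 0 ∧ ρ g 3 0 = 0 ∧ ρ g 3 1 = 0) (by simp) (by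
  intro g k h h'; simp [mul4, h, h'])

variable (ρ) in
/-- flag stabiliser -/
def P2 : Subgroup G := mkSub (fun g => ρ g 1 0 = 0 ∧ ρ g 2 0 = 0 ∧ ρ g 3 0 = 0 ∧ ρ g 3 1 = 0 ∧ ρ g 3 2 = 0) (by simp) (by
  intro g k h h'; simp [mul4, h, h'])

variable (ρ) in
/-- line radical -/
def A0 : Subgroup G := mkSub (fun g => ∃ b d e f, ρ g = U 0 b 0 d e f) ⟨0, 0, 0, 0, by rw [map_one, U_one]⟩ (by
  rintro g k ⟨b, d, e, f, h⟩ ⟨b', d', e', f', h'⟩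
  exact ⟨_, _, _, _, by rw [map_mul, h, h', U_mul, add_zero]⟩)

variable (ρ) in
/-- flag radical -/
def Q0 : Subgroup G := mkSub (fun g => ∃ a d f, ρ g = U a 0 a d d f) ⟨0, 0, 0, by rw [map_one, U_one]⟩ (by
  rintro g k ⟨a, d, f, h⟩ ⟨a', d', f', h'⟩
  exact ⟨_, d + d', _, by rw [map_mul, h, h', U_mul, add_zero (0 : K), mul_zero, zero_mul, add_zero]⟩)

theorem mem_T0 {g : G} : g ∈ T0 ρ ↔ ∃ a b c d e f, ρ g = U a b c d e f := Iff.rfl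
theorem mem_P1 {g : G} : g ∈ P1 ρ ↔ ρ g 2 0 = 0 ∧ ρ g 2 1 = 0 ∧ ρ g 3 0 = 0 ∧ ρ g 3 1 = 0 := Iff.rfl
theorem mem_P2 {g : G} : g ∈ P2 ρ ↔ ρ g 1 0 = 0 ∧ ρ g 2 0 = 0 ∧ ρ g 3 0 = 0 ∧ ρ g 3 1 = 0 ∧ ρ g 3 2 = 0 := Iff.rfl
theorem mem_A0 {g : G} : g ∈ A0 ρ ↔ ∃ b d e f, ρ g = U 0 b 0 d e f := Iff.rfl
theorem mem_Q0 {g : G} : g ∈ Q0 ρ ↔ ∃ a d f, ρ g = U a 0 a d d f := Iff.rfl

theorem Bas0.T4 (h : Bas0 ρ) {g : G} (hg : g ∈ T0 ρ) : g ^ 2 ^ 2 = 1 := by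
  obtain ⟨a, b, c, d, e, f, hg⟩ := hg
  apply h.inj
  rw [show g ^ 2 ^ 2 = (g * g) * (g * g) by simp [pow_succ, mul_assoc], map_mul, map_mul, hg, U_mul, U_mul, map_one, U_one, U_inj]
  grind

theorem Bas0.Tp (h : Bas0 ρ) : IsPGroup 2 (T0 ρ) := fun g => ⟨2, Subtype.ext (h.T4 g.2)⟩

theorem le_of_odd {S T : Subgroup G} (hS : Odd S.index) (hT : IsPGroup 2 T) (h : S ≤ T) : T ≤ S := by
  have h1 : Odd (S.relIndex T) := odd_rel (P := ⊤) (by simpa using hS) h le_top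
  obtain ⟨k, hk⟩ := hT.index (S.subgroupOf T)
  rw [Subgroup.relIndex, hk] at h1
  rcases k with _ | k
  · exact Subgroup.relIndex_eq_one.1 (by simpa using hk)
  · exact absurd h1 (by simp [pow_succ, Nat.odd_mul])

/-- normal form -/
structure NF (ρ : G →* M4 K) (z : G) : Prop extends Bas ρ where
  hz : ρ z = U 0 0 0 1 1 0
  odd : Odd (T0 ρ).index
  cen : ∀ g ∈ T0 ρ, g * z = z * g

theorem tr_two (h : Bas0 ρ) {z : G} (hz : ρ z = U 0 0 0 1 1 0) {g : G} (e : g * z = z * g) {k : ℕ} (hk : g ^ 2 ^ k = 1) :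
    ρ g 0 0 + ρ g 1 1 = 0 := by
  have : ∀ k : ℕ, ρ (g ^ 2 ^ k) 0 0 + ρ (g ^ 2 ^ k) 1 1 = (ρ g 0 0 + ρ g 1 1) ^ 2 ^ k := fun k => by
    induction k with
    | zero => simp
    | succ k ih =>
      have := cz_form (X := ρ (g ^ 2 ^ k)) (by rw [← hz]; exact h.comm.1 ((Commute.pow_left e _).eq))
      rw [pow_succ, pow_mul, pow_mul, ← ih, sq, map_mul, mul4, mul4]; grind
  have := this k
  rw [hk, map_one] at this
  exact pow_eq_zero_iff (n := 2 ^ k) (by positivity) |>.1 (by rw [← this]; simp; grind)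

theorem Bas.exists_nf (h : Bas ρ) {S : Subgroup G} (ho : Odd S.index) (hS : IsPGroup 2 S) {z : G} (z1 : z ≠ 1)
    (z2 : z * z = 1) (hc : ∀ s ∈ S, s * z = z * s) : ∃ P : G4 K, NF (cjr P ρ) z ∧ T0 (cjr P ρ) = S := by
  obtain ⟨P, hP⟩ := h.inv_nf z1 z2
  have fin : ∀ (ρ' : G →* M4 K), Bas ρ' → ρ' z = U 0 0 0 1 1 0 → (∀ s ∈ S, ρ' s 1 0 = 0) → NF ρ' z ∧ T0 ρ' = S := by
    intro ρ' h' hz h0
    have : S ≤ T0 ρ' := fun s hs => by
      obtain ⟨k, hk⟩ := hS ⟨s, hs⟩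
      have e1 := tr_two h'.toBas0 hz (hc s hs) (congrArg Subtype.val hk)
      have e2 : ρ' s * U 0 0 0 1 1 0 = U 0 0 0 1 1 0 * ρ' s := by rw [← hz]; exact h'.comm.1 (hc s hs)
      have e3 := cz_det e2 (h'.det s)
      have e4 := cz_form e2
      have e5 := h0 s hs
      have e6 := Sz1.sq_inj (a := ρ' s 0 0) (b := 1) (by grind)
      exact ⟨ρ' s 0 1, ρ' s 1 2, ρ' s 0 1, ρ' s 0 2, ρ' s 1 3, ρ' s 0 3, by ent; grind⟩
    have e : T0 ρ' = S := le_antisymm (le_of_odd ho h'.Tp this) this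
    exact ⟨⟨h', hz, e ▸ ho, e ▸ hc⟩, e⟩
  have h' := h.cj P
  by_cases h0 : ∀ s ∈ S, cjr P ρ s 1 0 = 0
  · exact ⟨P, fin _ h' hP h0⟩
  push Not at h0
  obtain ⟨s, hs, s0⟩ := h0
  have tr : ∀ s ∈ S, cjr P ρ s 0 0 + cjr P ρ s 1 1 = 0 := fun s hs => by
    obtain ⟨k, hk⟩ := hS ⟨s, hs⟩
    exact tr_two h'.toBas0 hP (hc s hs) (congrArg Subtype.val hk)
  have cm : ∀ s ∈ S, cjr P ρ s * U 0 0 0 1 1 0 = U 0 0 0 1 1 0 * cjr P ρ s := fun s hs => by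
    rw [← hP]; exact h'.comm.1 (hc s hs)
  obtain ⟨r, hr⟩ : ∃ r, r = (1 + cjr P ρ s 0 0) / cjr P ρ s 1 0 := ⟨_, rfl⟩
  have hd : (!![r, 1, 0, 0; 1, 0, 0, 0; 0, 0, r, 1; 0, 0, 1, 0] : M4 K).det ≠ 0 := by rw [det4]; simp
  have e : cjr (P * mkU _ hd) ρ = cjr (mkU _ hd) (cjr P ρ) := by
    ext1 g; simp [cjr_apply, Matrix.mul_assoc]
  refine ⟨P * mkU _ hd, ?_⟩
  rw [e]
  refine fin _ (h'.cj _) (cjr_of (by rw [hP, mkU_val]; ent)) fun t ht => ?_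
  have e1 := cjr_mul (ρ := cjr P ρ) (mkU _ hd) t
  rw [mkU_val] at e1
  ent at e1
  have e2 := tr _ (mul_mem hs ht)
  rw [map_mul, mul4, mul4] at e2
  have e3 := tr s hs
  have e4 := tr t ht
  have e5 := cz_form (cm s hs)
  have e6 := cz_form (cm t ht)
  have e7 := cz_det (cm s hs) (h'.det s)
  have e8 := cz_det (cm t ht) (h'.det t)
  generalize cjr (mkU _ hd) (cjr P ρ) t = Y at *
  generalize cjr P ρ t = X at *
  generalize cjr P ρ s = W at *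
  clear * - e1 e2 e3 e4 e5 e6 e7 e8 hr s0
  apply Sz1.sq_inj
  grind

end Cfsg.Agent.H3.C2
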