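import Cfsg.Agent.H3.C2c

/-! Local structure. -/

set_option autoImplicit false
set_option linter.unusedSectionVars false

namespace Cfsg.Agent.H3.C2

open Matrix H2.M4 H3.Sz3

variable {K : Type*} [Field K] [CharP K 2] {G : Type*} [Group G] [Finite G] {ρ : G →* M4 K}

/-- entries with extra facts -/
macro "entw " "[" ts:Lean.Parser.Tactic.simpLemma,* "]" " at " h:ident : tactic => `(tactic| (simp only [eq4, mul4, Matrix.add_apply, Matrix.smul_apply, smul_eq_mul] at $h:ident; simp [U, mz, mx, my, mu, mh, -mul_eq_mul_left_iff, -mul_eq_mul_right_iff, -mul_eq_zero, -add_eq_left, -left_eq_add, -add_eq_right, -right_eq_add, $ts,*] at $h:ident))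
/-- entries with extra facts -/
macro "entw " "[" ts:Lean.Parser.Tactic.simpLemma,* "]" : tactic => `(tactic| (simp only [eq4, mul4, Matrix.add_apply, Matrix.smul_apply, smul_eq_mul]; simp [U, mz, mx, my, mu, mh, -mul_eq_mul_left_iff, -mul_eq_mul_right_iff, -mul_eq_zero, $ts,*]))
/-- more ring steps -/
macro "gr" : tactic => `(tactic| grind (ringSteps := 2000000))

variable (G) in
/-- strongly embedded subgroup with commuting involutions -/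
def SEA : Prop := ∃ M : Subgroup G, M ≠ ⊤ ∧ (∃ y ∈ M, y ≠ 1 ∧ y * y = 1) ∧
  (∀ g, ∀ y ∈ M, y ≠ 1 → y * y = 1 → g * y * g⁻¹ ∈ M → g ∈ M) ∧ ∀ u ∈ M, ∀ v ∈ M, u * u = 1 → v * v = 1 → u * v = v * u

theorem mul_inv4 (g : G) : ρ g * ρ g⁻¹ = 1 := by rw [← map_mul, mul_inv_cancel, map_one]
theorem inv_mul4 (g : G) : ρ g⁻¹ * ρ g = 1 := by rw [← map_mul, inv_mul_cancel, map_one]
theorem cj4 (g u : G) : ρ (g * u * g⁻¹) * ρ g = ρ g * ρ u := by rw [← map_mul, ← map_mul]; simp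

theorem Bas.ex30 (h : Bas ρ) : ∃ g, ρ g 3 0 ≠ 0 := by
  by_contra! e
  rcases h.irr (Submodule.span K (Set.range fun g => ρ g *ᵥ Pi.single 0 1)) (fun g v hv => by
    refine Submodule.span_induction (p := fun v _ => ρ g *ᵥ v ∈ _) ?_ (by simp) ?_ ?_ hv
    · rintro _ ⟨k, rfl⟩; exact Submodule.subset_span ⟨g * k, by simp only [map_mul, mulVec_mulVec]⟩
    · intro x y _ _ hx hy; rw [mulVec_add]; exact add_mem hx hy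
    · intro c x _ hx; rw [mulVec_smul]; exact Submodule.smul_mem _ _ hx) with e1 | e1
  · have : ρ 1 *ᵥ Pi.single 0 1 ∈ (⊥ : Submodule K (Fin 4 → K)) := e1 ▸ Submodule.subset_span ⟨1, rfl⟩
    simpa using congrFun this 0
  · have : ∀ v ∈ Submodule.span K (Set.range fun g => ρ g *ᵥ Pi.single 0 1), v 3 = 0 := fun v hv => by
      refine Submodule.span_induction (p := fun v _ => v 3 = 0) ?_ rfl ?_ ?_ hv
      · rintro _ ⟨k, rfl⟩; simpa using e k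
      · intro x y _ _ hx hy; simp [hx, hy]
      · intro c x _ hx; simp [hx]
    simpa using this (Pi.single 3 1) (e1 ▸ Submodule.mem_top)

theorem Bas0.ntA (h : Bas0 ρ) {g : G} {b d e f : K} (hg : ρ g = U 0 b 0 d e f) (hd : d * e + b * f = 0) : g = 1 := by
  by_cases d0 : d = 0
  · by_cases b0 : b = 0
    · exact h.nt g ![f, e, 0, 0] ![0, 0, 0, 1] (by rw [hg]; ent; grind)
    · exact h.nt g ![0, 1, 0, 0] ![0, 0, b, e] (by rw [hg]; ent; grind)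
  · exact h.nt g ![d, b, 0, 0] ![0, 0, 1, f / d] (by rw [hg]; ent; grind)

theorem A_le_T : A0 ρ ≤ T0 ρ := fun _ ⟨_, _, _, _, h⟩ => ⟨_, _, _, _, _, _, h⟩
theorem Q_le_T : Q0 ρ ≤ T0 ρ := fun _ ⟨_, _, _, h⟩ => ⟨_, _, _, _, _, _, h⟩
theorem T_le_P1 : T0 ρ ≤ P1 ρ := fun _ ⟨_, _, _, _, _, _, h⟩ => by simp [mem_P1, h, U]
theorem T_le_P2 : T0 ρ ≤ P2 ρ := fun _ ⟨_, _, _, _, _, _, h⟩ => by simp [mem_P2, h, U]

theorem Bas0.A_sq (h : Bas0 ρ) : ∀ g ∈ A0 ρ, g * g = 1 := fun g ⟨b, d, e, f, hg⟩ =>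
  h.sq.2 (by rw [hg, U_mul, U_one, U_inj]; grind)

theorem Bas0.Q_sq (h : Bas0 ρ) : ∀ g ∈ Q0 ρ, g * g = 1 := fun g ⟨a, d, f, hg⟩ =>
  h.sq.2 (by rw [hg, U_mul, U_one, U_inj]; grind)

theorem A_norm {g u : G} (hg : g ∈ P1 ρ) (hu : u ∈ A0 ρ) : g * u * g⁻¹ ∈ A0 ρ := by
  obtain ⟨b, d, e, f, hu⟩ := hu
  have h1 := inv_mem hg
  have h2 := mul_inv4 (ρ := ρ) g
  rw [mem_P1] at hg h1
  refine ⟨ρ (g * u * g⁻¹) 1 2, ρ (g * u * g⁻¹) 0 2, ρ (g * u * g⁻¹) 1 3, ρ (g * u * g⁻¹) 0 3, ?_⟩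
  simp only [map_mul, hu]
  entw [hg, h1] at h2
  entw [hg, h1]
  grind

theorem Bas0.A_line (h : Bas0 ρ) {g u : G} (hu : u ∈ A0 ρ) (u1 : u ≠ 1) (hg : g * u * g⁻¹ ∈ A0 ρ) : g ∈ P1 ρ := by
  obtain ⟨b, d, e, f, hu⟩ := hu
  obtain ⟨b', d', e', f', hg⟩ := hg
  have h1 := mt (h.ntA hu) u1
  have h2 := cj4 (ρ := ρ) g u
  rw [hu, hg] at h2
  ent at h2
  rw [mem_P1]
  grind

theorem T_norm {g u : G} (h1 : g ∈ P1 ρ) (h2 : g ∈ P2 ρ) (hu : u ∈ T0 ρ) : g * u * g⁻¹ ∈ T0 ρ := by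
  obtain ⟨a, b, c, d, e, f, hu⟩ := hu
  have h1' := inv_mem h1
  have h2' := inv_mem h2
  have h3 := mul_inv4 (ρ := ρ) g
  rw [mem_P1] at h1 h1'
  rw [mem_P2] at h2 h2'
  refine ⟨ρ (g * u * g⁻¹) 0 1, ρ (g * u * g⁻¹) 1 2, ρ (g * u * g⁻¹) 2 3, ρ (g * u * g⁻¹) 0 2, ρ (g * u * g⁻¹) 1 3,
    ρ (g * u * g⁻¹) 0 3, ?_⟩
  simp only [map_mul, hu]
  entw [h1, h2, h1', h2'] at h3
  entw [h1, h2, h1', h2']
  grind

/-- restriction to an invariant plane -/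
def resH (ρ : G →* M4 K) (H : Subgroup G) (Φ : Matrix (Fin 2) (Fin 4) K) (Ψ : Matrix (Fin 4) (Fin 2) K) (h1 : Φ * Ψ = 1)
    (h2 : ∀ g ∈ H, Ψ * (Φ * ρ g * Ψ) = ρ g * Ψ) : H →* M2 K where
  toFun g := Φ * ρ g * Ψ
  map_one' := by simpa using h1
  map_mul' a b := by
    rw [Matrix.mul_assoc (Φ * ρ a), h2 b b.2]; simp [Matrix.mul_assoc]

theorem tor4 [Finite K] {H : Subgroup G} {Φ : Matrix (Fin 2) (Fin 4) K} {Ψ : Matrix (Fin 4) (Fin 2) K} (h1 : Φ * Ψ = 1)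
    (h2 : ∀ g ∈ H, Ψ * (Φ * ρ g * Ψ) = ρ g * Ψ) {u1 u2 g : G} (m1 : u1 ∈ H) (m2 : u2 ∈ H) (m3 : g ∈ H) {a1 a2 : K}
    (n1 : a1 ≠ 0) (n2 : a2 ≠ 0) (e1 : Φ * ρ u1 * Ψ = !![1, a1; 0, 1]) (e2 : Φ * ρ u2 * Ψ = !![1, a2; 0, 1])
    (hg : (Φ * ρ g * Ψ) 1 0 ≠ 0) : ∃ n ∈ H, (Φ * ρ n * Ψ) 1 0 = 0 ∧ (Φ * ρ n * Ψ) 0 0 ^ 4 * a1 = a2 := by
  obtain ⟨n, hn⟩ := tor2 (resH ρ H Φ Ψ h1 h2) (u1 := ⟨u1, m1⟩) (u2 := ⟨u2, m2⟩) (g := ⟨g, m3⟩) n1 n2 e1 e2 hg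
  exact ⟨n, n.2, hn⟩

theorem mem_cen {g t : G} : g ∈ Subgroup.centralizer ({t} : Set G) ↔ g * t = t * g := by
  simp [Subgroup.mem_centralizer_iff, eq_comm]

theorem Bas0.torL [Finite K] (h : Bas0 ρ) {w u1 u2 g : G} (hw : w ∈ A0 ρ) (w1 : w ≠ 1) (m1 : u1 * w = w * u1)
    (m2 : u2 * w = w * u2) (m3 : g * w = w * g) {a1 a2 b1 c1 d1 e1 f1 b2 c2 d2 e2 f2 : K} (n1 : a1 ≠ 0) (n2 : a2 ≠ 0)
    (h1 : ρ u1 = U a1 b1 c1 d1 e1 f1) (h2 : ρ u2 = U a2 b2 c2 d2 e2 f2) (hg : ρ g 1 0 ≠ 0) :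
    ∃ n, n * w = w * n ∧ ρ n 1 0 = 0 ∧ ρ n 0 0 ^ 4 * a1 = a2 := by
  have e : ∀ X : M4 K, !![(1 : K), 0, 0, 0; 0, 1, 0, 0] * X * !![(1 : K), 0; 0, 1; 0, 0; 0, 0] = !![X 0 0, X 0 1; X 1 0, X 1 1] := fun X => by
    ext i j; fin_cases i <;> fin_cases j <;> simp [Matrix.mul_apply, Fin.sum_univ_four, vecMul, dotProduct]
  obtain ⟨n, hn, e1, e2⟩ := tor4 (ρ := ρ) (H := Subgroup.centralizer {w}) (Φ := !![1, 0, 0, 0; 0, 1, 0, 0])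
    (Ψ := !![1, 0; 0, 1; 0, 0; 0, 0]) (by ext i j; fin_cases i <;> fin_cases j <;> simp [Matrix.mul_apply, Fin.sum_univ_four])
    (fun g hg => by
      have := h.A_line hw w1 (g := g) (by rwa [mem_cen.1 hg, mul_inv_cancel_right])
      rw [mem_P1] at this
      rw [e]; ext i j; fin_cases i <;> fin_cases j <;> simp [Matrix.mul_apply, Fin.sum_univ_four, this])
    (mem_cen.2 m1) (mem_cen.2 m2) (mem_cen.2 m3) n1 n2 (by rw [e, h1]; simp [U]) (by rw [e, h2]; simp [U]) (by rwa [e])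
  rw [e] at e1 e2
  exact ⟨n, mem_cen.1 hn, e1, e2⟩

theorem Bas0.cenQ (h : Bas0 ρ) {t g : G} {a d f : K} (ht : ρ t = U a 0 a d d f) (a0 : a ≠ 0) (m : g * t = t * g)
    (hg : ρ g 2 0 = 0) : g ∈ P2 ρ := by
  have := h.comm.1 m
  rw [ht] at this
  ent at this
  rw [mem_P2]
  grind

theorem Bas0.torQ [Finite K] (h : Bas0 ρ) {t u1 u2 g : G} {a d f a1 d1 f1 a2 d2 f2 : K} (ht : ρ t = U a 0 a d d f) (a0 : a ≠ 0)
    (m3 : g * t = t * g) (hg : g ∉ P2 ρ) (h1 : ρ u1 = U a1 0 a1 d1 d1 f1) (h2 : ρ u2 = U a2 0 a2 d2 d2 f2)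
    (n1 : a * d1 + d * a1 ≠ 0) (n2 : a * d2 + d * a2 ≠ 0) :
    ∃ n ∈ P2 ρ, n * t = t * n ∧ ρ n 0 0 ^ 4 * (a * d1 + d * a1) = a * d2 + d * a2 := by
  have e : ∀ X : M4 K, !![1, 0, f / a, 0; 0, 0, a⁻¹, 0] * X * !![1, f; 0, d; 0, a; 0, 0] =
      !![X 0 0 + f / a * X 2 0, (X 0 0 + f / a * X 2 0) * f + (X 0 1 + f / a * X 2 1) * d + (X 0 2 + f / a * X 2 2) * a;
        a⁻¹ * X 2 0, a⁻¹ * X 2 0 * f + a⁻¹ * X 2 1 * d + a⁻¹ * X 2 2 * a] := fun X => by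
    ext i j; fin_cases i <;> fin_cases j <;> simp [Matrix.mul_apply, Fin.sum_univ_four, vecMul, dotProduct]
  have cm : ∀ {u a' d' f'}, ρ u = U a' 0 a' d' d' f' → u * t = t * u := fun hu =>
    comm_of_sq h.Q_sq ⟨_, _, _, hu⟩ ⟨_, _, _, ht⟩
  obtain ⟨n, hn, e1, e2⟩ := tor4 (ρ := ρ) (H := Subgroup.centralizer {t}) (Φ := !![1, 0, f / a, 0; 0, 0, a⁻¹, 0])
    (Ψ := !![1, f; 0, d; 0, a; 0, 0])
    (by ext i j; fin_cases i <;> fin_cases j <;> simp [Matrix.mul_apply, Fin.sum_univ_four, a0]; grind)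
    (fun g hg => by
      have := h.comm.1 (mem_cen.1 hg)
      rw [ht] at this
      ent at this
      rw [e]; ext i j; fin_cases i <;> fin_cases j <;> simp [Matrix.mul_apply, Fin.sum_univ_four, -mul_eq_zero] <;> grind)
    (mem_cen.2 (cm h1)) (mem_cen.2 (cm h2)) (mem_cen.2 m3) n1 n2 (by rw [e, h1, eq2]; simp [U]; grind)
    (by rw [e, h2, eq2]; simp [U]; grind) (by rw [e]; simpa [a0] using mt (h.cenQ ht a0 m3) hg)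
  rw [e] at e1 e2
  have e3 : ρ n 2 0 = 0 := by simpa [a0] using e1
  exact ⟨n, h.cenQ ht a0 (mem_cen.1 hn) e3, mem_cen.1 hn, by simpa [e3] using e2⟩

namespace NF
variable {z : G} (h : NF ρ z)
include h

theorem z1 : z ≠ 1 := fun e => by simpa [e, U_one, U_inj] using h.hz
theorem zA : z ∈ A0 ρ := ⟨_, _, _, _, h.hz⟩
theorem zQ : z ∈ Q0 ρ := ⟨_, _, _, h.hz⟩
theorem z2 : z * z = 1 := h.A_sq _ h.zA

theorem T {g : G} (hg : g ∈ T0 ρ) : ∃ a b d e f, ρ g = U a b a d e f := by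
  have := h.comm.1 (h.cen g hg)
  obtain ⟨a, b, c, d, e, f, hg⟩ := hg
  rw [hg, h.hz, U_mul, U_mul, U_inj] at this
  exact ⟨a, b, d, e, f, by rw [hg, show c = a by grind]⟩

theorem AQ {g : G} (hg : g ∈ T0 ρ) (g2 : g * g = 1) : g ∈ A0 ρ ∨ g ∈ Q0 ρ := by
  obtain ⟨a, b, d, e, f, hg⟩ := h.T hg
  have := h.sq.1 g2
  rw [hg, U_mul, U_one, U_inj] at this
  by_cases a0 : a = 0
  · exact Or.inl ⟨_, _, _, _, by rw [hg, a0]⟩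
  · exact Or.inr ⟨a, d, f, by rw [hg, show b = 0 by grind, show e = d by grind]⟩

theorem into {L : Subgroup G} (hL : T0 ρ ≤ L) {y : G} (hy : y ∈ L) (y2 : y * y = 1) : ∃ a ∈ L, a⁻¹ * y * a ∈ T0 ρ :=
  conj_into (odd_rel (P := ⊤) (by simpa using h.odd) hL le_top) hy (k := 1) (by rw [pow_one, sq, y2])

theorem seL (hA : ∀ g ∈ T0 ρ, g * g = 1 → g ∈ A0 ρ) : SEA G := by
  have key : ∀ y ∈ P1 ρ, y * y = 1 → y ∈ A0 ρ := fun y hy y2 => by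
    obtain ⟨a, ha, e⟩ := h.into T_le_P1 hy y2
    simpa [mul_assoc] using A_norm ha (hA _ e (by simp [mul_assoc, ← mul_assoc y y, y2]))
  refine ⟨P1 ρ, fun e => ?_, ⟨z, T_le_P1 (A_le_T h.zA), h.z1, h.z2⟩, fun g y hy y1 y2 e => ?_, fun u hu v hv u2 v2 => ?_⟩
  · obtain ⟨g, hg⟩ := h.ex30
    exact hg (e ▸ Subgroup.mem_top g : g ∈ P1 ρ).2.2.1
  · exact h.A_line (key y hy y2) y1 (key _ e (by rw [conj_mul, y2]; simp))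
  · exact comm_of_sq h.A_sq (key u hu u2) (key v hv v2)

end NF

/-- normal form with two lines -/
structure NC (ρ : G →* M4 K) (z : G) : Prop extends NF ρ z where
  nc : ∃ t a d f, a ≠ 0 ∧ ρ t = U a 0 a d d f

namespace NC
variable {z : G} (h : NC ρ z)
include h

theorem Qb {g : G} {a c d e f : K} (hg : ρ g = U a 0 c d e f) : c = a ∧ e = d := by
  obtain ⟨a', b', d', e', f', hg'⟩ := h.T ⟨_, _, _, _, _, _, hg⟩
  obtain ⟨t, a1, d1, f1, a0, ht⟩ := h.nc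
  obtain rfl : c = a := by rw [hg, U_inj] at hg'; grind
  have e1 : ρ (g * t * g * t) = U 0 0 0 0 0 (c * (d + e) + a1 * (d + e)) := by
    simp only [map_mul, hg, ht, U_mul, U_inj]; grind
  have e2 : ρ (g * g) = U 0 0 0 0 0 (c * (d + e)) := by
    simp only [map_mul, hg, U_mul, U_inj]; grind
  have e3 := h.ntA e1 (by simp)
  have e4 := h.ntA e2 (by simp)
  rw [e3, map_one, U_one, U_inj] at e1
  rw [e4, map_one, U_one, U_inj] at e2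
  grind

theorem Qm {g : G} {a c d e f : K} (hg : ρ g = U a 0 c d e f) : g ∈ Q0 ρ := by
  obtain ⟨rfl, rfl⟩ := h.Qb hg
  exact ⟨_, _, _, hg⟩

theorem Q_norm {g u : G} (hg : g ∈ P2 ρ) (hu : u ∈ Q0 ρ) : g * u * g⁻¹ ∈ Q0 ρ := by
  obtain ⟨a, d, f, hu⟩ := hu
  have h1 := inv_mem hg
  have h2 := mul_inv4 (ρ := ρ) g
  rw [mem_P2] at hg h1
  refine h.Qm (a := ρ (g * u * g⁻¹) 0 1) (c := ρ (g * u * g⁻¹) 2 3) (d := ρ (g * u * g⁻¹) 0 2) (e := ρ (g * u * g⁻¹) 1 3)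
    (f := ρ (g * u * g⁻¹) 0 3) ?_
  simp only [map_mul, hu]
  entw [hg, h1] at h2
  entw [hg, h1]
  grind

theorem det2 {n : G} (hn : n ∈ P2 ρ) : ρ n 0 0 * ρ n 3 3 = 1 ∧ ρ n 1 1 * ρ n 2 2 + ρ n 1 2 * ρ n 2 1 = 1 := by
  obtain ⟨t, a, d, f, a0, ht⟩ := h.nc
  obtain ⟨a', d', f', e⟩ := h.Q_norm hn ⟨_, _, _, ht⟩
  have e1 := cj4 (ρ := ρ) n t
  have e2 := h.det n
  rw [e, ht] at e1
  rw [det4] at e2
  rw [mem_P2] at hn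
  ent at e1
  have e3 : ρ n 0 0 * ρ n 3 3 = ρ n 1 1 * ρ n 2 2 + ρ n 1 2 * ρ n 2 1 := mul_right_cancel₀ a0 (by grind)
  have := Sz1.sq_inj (a := ρ n 0 0 * ρ n 3 3) (b := 1) (by grind)
  grind

theorem act {n q : G} (hn : n ∈ P2 ρ) {a d f : K} (hq : ρ q = U a 0 a d d f) : ∃ a' d' f', ρ (n * q * n⁻¹) = U a' 0 a' d' d' f' ∧
    d' = ρ n 0 0 * (ρ n 1 1 * d + ρ n 1 2 * a) ∧ a' = ρ n 0 0 * (ρ n 2 1 * d + ρ n 2 2 * a) ∧
    f' = ρ n 0 0 * (ρ n 0 0 * f + ρ n 0 1 * d + ρ n 0 2 * a + a' * ρ n 1 3 + d' * ρ n 2 3) := by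
  obtain ⟨a', d', f', e⟩ := h.Q_norm hn ⟨_, _, _, hq⟩
  have e1 := cj4 (ρ := ρ) n q
  have e2 := h.det2 hn
  rw [e, hq] at e1
  rw [mem_P2] at hn
  ent at e1
  exact ⟨a', d', f', e, by grind⟩

theorem Q_eq {q q' : G} {a d f f' : K} (hq : ρ q = U a 0 a d d f) (hq' : ρ q' = U a 0 a d d f') : q = q' := by
  have := h.ntA (g := q * q') (b := 0) (d := 0) (e := 0) (f := f + f') (by rw [map_mul, hq, hq', U_mul, U_inj]; grind) (by simp)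
  rw [eq_inv_of_mul_eq_one_left this, inv_eq_of_mul_eq_one_right (h.Q_sq _ ⟨_, _, _, hq'⟩)]

theorem ker2 {n : G} (hn : n ∈ P2 ρ) (e1 : ρ n 0 0 * ρ n 1 1 = 1) (e2 : ρ n 1 2 = 0) (e3 : ρ n 2 1 = 0)
    (e4 : ρ n 0 0 * ρ n 2 2 = 1) : n ∈ Q0 ρ := by
  have := h.det2 hn
  rw [mem_P2] at hn
  have e5 := Sz1.sq_inj (a := ρ n 0 0) (b := 1) (by grind)
  exact h.Qm (a := ρ n 0 1) (c := ρ n 2 3) (d := ρ n 0 2) (e := ρ n 1 3) (f := ρ n 0 3) (by ent; grind)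

theorem wc (g : G) (hg : ∀ q ∈ Q0 ρ, g⁻¹ * q * g ∈ T0 ρ) : g ∈ P2 ρ := by
  obtain ⟨t, a, d, f, a0, ht⟩ := h.nc
  have tQ : t ∈ Q0 ρ := ⟨_, _, _, ht⟩
  obtain ⟨a1, b1, d1, e1, f1, h1⟩ := h.T (hg z h.zQ)
  obtain ⟨a2, b2, d2, e2, f2, h2⟩ := h.T (hg t tQ)
  have s1 := h.sq.1 (show (g⁻¹ * z * g) * (g⁻¹ * z * g) = 1 by simp [mul_assoc, ← mul_assoc z z, h.z2])
  have s2 := h.sq.1 (show (g⁻¹ * t * g) * (g⁻¹ * t * g) = 1 by simp [mul_assoc, ← mul_assoc t t, h.Q_sq t tQ])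
  have s3 := h.comm.1 (show (g⁻¹ * z * g) * (g⁻¹ * t * g) = (g⁻¹ * t * g) * (g⁻¹ * z * g) by
    calc _ = g⁻¹ * (z * t) * g := by group
      _ = _ := by rw [← h.cen t (Q_le_T tQ)]; group)
  have s4 : ρ g * ((ρ (g⁻¹ * z * g) + 1) * (ρ (g⁻¹ * t * g) + 1)) = (ρ z + 1) * (ρ t + 1) * ρ g := by
    simp only [mul_add, add_mul, mul_one, one_mul, ← map_mul]; simp [mul_assoc]
  rw [h1] at s1 s3 s4
  rw [h2] at s2 s3 s4
  rw [U_mul, U_one, U_inj] at s1 s2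
  rw [U_mul, U_mul, U_inj] at s3
  have s5 : a1 * b2 = 0 ∧ b1 * a2 = 0 := by grind
  rw [h.hz, ht] at s4
  have s6 := h.det g
  rw [det4] at s6
  ent at s4
  have s7 : ρ g 3 0 = 0 ∧ ρ g 3 1 = 0 ∧ ρ g 3 2 = 0 := by grind
  have s8 : ρ g 3 3 ≠ 0 := by grind
  rw [mem_P2]
  clear s1 s2 s3 s6
  grind

theorem fus {q g : G} (hq : q ∈ Q0 ρ) (hg : g * q * g⁻¹ ∈ Q0 ρ) : ∃ c, c * q = q * c ∧ g * c ∈ P2 ρ :=
  fuse h.odd h.Q_sq h.wc hq hg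

end NC

end Cfsg.Agent.H3.C2
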