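import Cfsg.Agent.H3.C2d

/-! The non-abelian Sylow case. -/

set_option autoImplicit false
set_option linter.unusedSectionVars false

namespace Cfsg.Agent.H3.C2

open Matrix H2.M4 H3.Sz3

variable {K : Type*} [Field K] [CharP K 2] [Finite K] {G : Type*} [Group G] [Finite G] {ρ : G →* M4 K}

/-- clear and grind -/
macro "gc " hs:(colGt ident)* : tactic => `(tactic| (clear * - $hs*; grind (ringSteps := 1000000)))

theorem cj_eq {g u : G} {Y : M4 K} (e : ρ g * ρ u = Y * ρ g) : ρ (g * u * g⁻¹) = Y := by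
  rw [map_mul, map_mul, e, Matrix.mul_assoc, mul_inv4, Matrix.mul_one]

theorem actA {u w : G} {a b d e f b2 d2 e2 f2 : K} (hu : ρ u = U a b a d e f) (hw : ρ w = U 0 b2 0 d2 e2 f2) :
    ρ (u * w * u⁻¹ * w) = U 0 0 0 (a * b2) (a * b2) (a * (d2 + e2) + a ^ 2 * b2) := by
  rw [map_mul, cj_eq (Y := U 0 b2 0 (d2 + a * b2) (e2 + a * b2) (f2 + a * (d2 + e2) + a ^ 2 * b2))
    (by rw [hu, hw, U_mul, U_mul, U_inj]; grind), hw, U_mul, U_inj]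
  grind

theorem actQ {u q : G} {α b δ ε φ a d f : K} (hu : ρ u = U α b α δ ε φ) (hq : ρ q = U a 0 a d d f) :
    ρ (u * q * u⁻¹ * q) = U 0 0 0 (a * b) (a * b) (a * (δ + ε + α * b) + a ^ 2 * b) := by
  rw [map_mul, cj_eq (Y := U a 0 a (d + a * b) (d + a * b) (f + a * (δ + ε + α * b)))
    (by rw [hu, hq, U_mul, U_mul, U_inj]; grind), hq, U_mul, U_inj]
  grind

theorem notA {t : G} {a b c d e f : K} (ht : ρ t = U a b c d e f) : t ∈ A0 ρ ↔ a = 0 ∧ c = 0 :=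
  ⟨fun ⟨_, _, _, _, e⟩ => by rw [ht, U_inj] at e; exact ⟨e.1, e.2.2.1⟩, fun ⟨e1, e2⟩ => ⟨_, _, _, _, by rw [ht, e1, e2]⟩⟩

theorem conj_sq {g y : G} (h : y * y = 1) : g * y * g⁻¹ * (g * y * g⁻¹) = 1 := by rw [conj_mul, h]; simp
theorem conj_sq' {g y : G} (h : y * y = 1) : g⁻¹ * y * g * (g⁻¹ * y * g) = 1 := by simpa using conj_sq (g := g⁻¹) h
theorem conj_ne {g y : G} (h : y ≠ 1) : g * y * g⁻¹ ≠ 1 := by simpa using h

/-- the dihedral configuration -/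
structure D8 (ρ : G →* M4 K) (z x u y : G) : Prop extends NC ρ z where
  hx : ∃ a d f b d2 e2 f2, a * b = 1 ∧ ρ x = U a 0 a d d f ∧ ρ u = U 0 b 0 d2 e2 f2 ∧ d2 + e2 = 1 ∧ d2 * e2 + b * f2 = 1
  hQ : ∀ q ∈ Q0 ρ, q = 1 ∨ q = z ∨ q = x ∨ q = z * x
  hA : ∀ q ∈ A0 ρ, q = 1 ∨ q = z ∨ q = u ∨ q = z * u
  hT : ∀ g ∈ T0 ρ, g ∈ Q0 ρ ∨ g * u ∈ Q0 ρ
  y2 : y ∈ P2 ρ
  y1 : y ∉ P1 ρ
  fu : ∃ g, g * u * g⁻¹ = z

namespace NC
variable {z : G} (h : NC ρ z)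
include h

theorem notQ {t : G} {a b c d e f : K} (ht : ρ t = U a b c d e f) : t ∈ Q0 ρ ↔ b = 0 :=
  ⟨fun ⟨_, _, _, e⟩ => by rw [ht, U_inj] at e; exact e.2.1, fun e => h.Qm (e ▸ ht)⟩

theorem fA {q g : G} (hq : q ∈ Q0 ρ) (q1 : q ≠ 1) (hg : g * q * g⁻¹ ∈ A0 ρ) : ∃ a ∈ P1 ρ, g⁻¹ * a ∈ P2 ρ := by
  obtain ⟨a, ha, e⟩ := conj_sub (T := T0 ρ) (L := P1 ρ) (R := cjs g⁻¹ (Q0 ρ))
    (odd_rel (P := ⊤) (by simpa using h.odd) T_le_P1 le_top) (fun r hr => h.A_line hg (conj_ne q1) (by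
      rwa [comm_of_sq (cjs_sq h.Q_sq g⁻¹) hr (show g * q * g⁻¹ ∈ _ by simpa [mem_cjs, mul_assoc] using hq),
        mul_inv_cancel_right])) (pg_of_sq (cjs_sq h.Q_sq _))
  refine ⟨a, ha, h.wc _ fun r hr => ?_⟩
  simpa [mul_assoc] using e (g * r * g⁻¹) (by simpa [mem_cjs, mul_assoc] using hr)

theorem actT {n u : G} (h1 : n ∈ P1 ρ) (h2 : n ∈ P2 ρ) {a b d e f : K} (hu : ρ u = U a b a d e f) :
    ∃ a' b' d' e' f', ρ (n * u * n⁻¹) = U a' b' a' d' e' f' ∧ a' * ρ n 1 1 = ρ n 0 0 * a ∧ b' * ρ n 2 2 = ρ n 1 1 * b := by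
  obtain ⟨a', b', d', e', f', e⟩ := h.T (T_norm h1 h2 ⟨_, _, _, _, _, _, hu⟩)
  have e1 := cj4 (ρ := ρ) n u
  rw [e, hu] at e1
  rw [mem_P1] at h1
  rw [mem_P2] at h2
  entw [h1, h2] at e1
  exact ⟨a', b', d', e', f', e, by linear_combination e1.1.1, by linear_combination e1.2.1.1⟩

theorem stepC (hb : ∃ g ∈ T0 ρ, g ∉ Q0 ρ) : ∃ y ∈ P2 ρ, y ∉ P1 ρ := by
  by_contra! h21
  have F1 : ∀ t ∈ Q0 ρ, t ∉ A0 ρ → ∀ g, g * t * g⁻¹ ∉ A0 ρ := fun t ht tA g hg => by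
    obtain ⟨a, ha, e⟩ := h.fA ht (fun e => tA (e ▸ one_mem _)) hg
    have : g⁻¹ ∈ P1 ρ := by simpa using mul_mem (h21 _ e) (inv_mem ha)
    exact tA (by simpa [mul_assoc] using A_norm this hg)
  by_cases hc : ∀ t ∈ Q0 ρ, t ∉ A0 ρ → ∀ g, g * t = t * g → g ∈ P2 ρ
  · obtain ⟨g, hg⟩ := h.ex30
    refine hg (show g ∈ P1 ρ from ?_).2.2.1
    obtain ⟨t, a, d, f, a0, ht⟩ := h.nc
    have tQ : t ∈ Q0 ρ := ⟨_, _, _, ht⟩
    have tA : t ∉ A0 ρ := by simp [notA ht, a0]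
    rcases dih (P := ⊤) (y := z) (y' := g * t * g⁻¹) trivial trivial h.z2 (conj_sq (h.Q_sq t tQ)) with
      ⟨w, -, w2, e⟩ | ⟨i, -, i1, i2, e1, e2⟩
    · refine absurd ?_ (F1 t tQ tA (w * g))
      have : w * g * t * (w * g)⁻¹ = w * (g * t * g⁻¹) * w⁻¹ := by group
      rw [this, ← e, inv_eq_of_mul_eq_one_right w2, ← mul_assoc, ← mul_assoc, w2, one_mul, mul_assoc, w2, mul_one]
      exact h.zA
    have j2 : g⁻¹ * i * g ∈ P2 ρ := hc t tQ tA _ (by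
      calc _ = g⁻¹ * (i * (g * t * g⁻¹)) * g := by group
        _ = _ := by rw [e2]; group)
    obtain ⟨a, ha, e⟩ := h.into T_le_P2 j2 (conj_sq' i2)
    have j3 : g⁻¹ * i * g ∈ A0 ρ ∨ g⁻¹ * i * g ∈ Q0 ρ := (h.AQ e (conj_sq' (conj_sq' i2))).imp
      (fun e => by simpa [mul_assoc] using A_norm (h21 _ ha) e) (fun e => by simpa [mul_assoc] using h.Q_norm ha e)
    obtain ⟨n, hn, e'⟩ := h.into (L := Subgroup.centralizer {z}) (fun g hg => mem_cen.2 (h.cen g hg)) (mem_cen.2 e1) i2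
    have n1 : n ∈ P1 ρ := h.A_line h.zA h.z1 (by rw [mem_cen.1 hn, mul_inv_cancel_right]; exact h.zA)
    have j4 := h.AQ e' (conj_sq' i2)
    have j5 : n⁻¹ * i * n = (n⁻¹ * g) * (g⁻¹ * i * g) * (n⁻¹ * g)⁻¹ := by group
    suffices n⁻¹ * g ∈ P1 ρ by simpa using mul_mem n1 this
    by_cases j6 : g⁻¹ * i * g ∈ A0 ρ
    · refine h.A_line j6 (by simpa using conj_ne (g := g⁻¹) i1) (j5 ▸ ?_)
      by_contra j7
      exact F1 _ (j4.resolve_left j7) j7 (g⁻¹ * n) (by simpa [mul_assoc] using j6)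
    · have j7 := j3.resolve_left j6
      obtain ⟨c, c1, c2⟩ := h.fus j7 (j5 ▸ j4.resolve_left (j5 ▸ F1 _ j7 j6 _))
      exact h21 _ (by simpa using mul_mem c2 (inv_mem (hc _ j7 j6 c c1)))
  push Not at hc
  obtain ⟨t, tQ, tA, g, gt, g2⟩ := hc
  obtain ⟨a, d, f, ht⟩ := id tQ
  have a0 : a ≠ 0 := by simpa [notA ht] using tA
  obtain ⟨g1, hg1, g1Q⟩ := hb
  obtain ⟨a1, b1, d1, e1, f1, hg1⟩ := h.T hg1
  have b0 : b1 ≠ 0 := by simpa [h.notQ hg1] using g1Q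
  obtain ⟨k, hk⟩ := thom h.simple h.nab h.odd A_le_T (Q_le_T tQ) tA (fun u hu => by
    obtain ⟨α, β, δ, ε, φ, hu⟩ := h.T hu
    rw [notA hu, notA (show ρ (u * t) = _ by rw [map_mul, hu, ht, U_mul])]
    by_contra! hα
    have α0 : α ≠ 0 := by grind
    have αa : α ≠ a := by grind
    obtain ⟨s1, s2, d3, f3, d4, f4, d0, e3, hs1, hs2⟩ : ∃ s1 s2 d3 f3 d4 f4, d3 ≠ 0 ∧ d4 * a = d3 * α ∧
        ρ s1 = U 0 0 0 d3 d3 f3 ∧ ρ s2 = U 0 0 0 d4 d4 f4 := by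
      by_cases β0 : β = 0
      · obtain ⟨-, rfl⟩ := h.Qb (β0 ▸ hu)
        exact ⟨_, _, _, _, _, _, mul_ne_zero a0 b0, by ring, actQ hg1 ht, actQ hg1 (β0 ▸ hu)⟩
      · exact ⟨_, u * u, _, _, α * β, α * (δ + ε), mul_ne_zero a0 β0, by ring, actQ hu ht, by
          rw [map_mul, hu, U_mul, U_inj]; grind⟩
    obtain ⟨n, n2, nt, e4⟩ := h.torQ ht a0 gt g2 hs1 hs2 (by grind) (by grind)
    have n1 := h21 n n2
    obtain ⟨a', d', f', e5, -, e6, -⟩ := h.act n2 ht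
    rw [nt, mul_inv_cancel_right, ht, U_inj] at e5
    have e7 := h.det2 n2
    have n21 := n1.2.1
    have e8 : ρ n 0 0 * ρ n 2 2 = 1 := by grind
    have e9 : ρ n 1 1 = ρ n 0 0 := by grind
    have e10 : ρ n 0 0 ^ 4 * a = α := by grind
    obtain ⟨a2, b2, d2, e2, f2, hg2, e11, e12⟩ := h.actT n1 n2 hg1
    have hx : ρ (n * g1 * n⁻¹ * g1) = U 0 (b2 + b1) 0 (d2 + d1 + a2 * b1) (e2 + e1 + b2 * a1) (f2 + f1 + a2 * e1 + d2 * a1) := by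
      rw [map_mul, hg2, hg1, U_mul, U_inj]; grind
    have e13 : b2 + b1 ≠ 0 := by grind
    obtain ⟨a5, d5, f5, e14, e15, e16, e17⟩ := h.act n2 (actA ht hx)
    obtain rfl : a5 = 0 := by grind
    obtain ⟨a6, d6, f6, e18, e19, e20, e21⟩ := h.act n2 e14
    obtain rfl : a6 = 0 := by grind
    have e22 := actA hu hx
    have e23 : d6 = α * (b2 + b1) := by grind
    rw [e23] at e18
    rw [← h.Q_eq e18 e22, e18, U_inj] at e22
    clear * - e22 e21 e19 e17 e15 e13 e10 e9 α0 αa a0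
    generalize b2 + b1 = b at *
    generalize d2 + d1 + a2 * b1 + (e2 + e1 + b2 * a1) = k at *
    grind) (h.Q_sq t tQ)
  exact F1 t tQ tA k⁻¹ (by simpa using hk)

theorem stepA {y : G} (y2 : y ∈ P2 ρ) (y1 : y ∉ P1 ρ) {u1 u2 : G} {α1 b1 δ1 ε1 φ1 α2 b2 δ2 ε2 φ2 : K}
    (h1 : ρ u1 = U α1 b1 α1 δ1 ε1 φ1) (h2 : ρ u2 = U α2 b2 α2 δ2 ε2 φ2) (n1 : b1 ≠ 0) (n2 : b2 ≠ 0) : b1 = b2 := by
  let Γ : Subgroup G := mkSub (fun n => n ∈ P2 ρ ∧ ρ n 0 0 = 1) ⟨one_mem _, by simp⟩ (fun a b ha hb =>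
    ⟨mul_mem ha.1 hb.1, by simp [mul4, ha.2, hb.2, (mem_P2.1 hb.1)]⟩)
  let σ : Γ →* M2 K :=
    { toFun := fun n => !![ρ n 1 1, ρ n 1 2; ρ n 2 1, ρ n 2 2]
      map_one' := by simp [eq2]
      map_mul' := fun a b => by simp [eq2, mul2, mul4, mem_P2.1 a.2.1, mem_P2.1 b.2.1] }
  have mT : ∀ {u α b δ ε φ}, ρ u = U α b α δ ε φ → u ∈ Γ := fun hu => ⟨T_le_P2 ⟨_, _, _, _, _, _, hu⟩, by simp [hu, U]⟩
  have y3 := cj4 (ρ := ρ) y u1
  have y4 := mul_mem (mul_mem y2 (mT h1).1) (inv_mem y2)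
  have y5 := h.det2 y2
  have y6 := mem_P2.1 y2
  have y7 := mem_P2.1 y4
  have y8 : ρ y 2 1 ≠ 0 := fun e => y1 (by simp [mem_P1, y6, e])
  rw [h1] at y3
  generalize y * u1 * y⁻¹ = i at *
  entw [y6, y7] at y3
  obtain ⟨⟨n, n2, n0⟩, e1, e2⟩ := tor2 σ (u1 := ⟨u1, mT h1⟩) (u2 := ⟨u2, mT h2⟩) (g := ⟨i, y4, by grind⟩) n1 n2
    (by simp [σ, h1, U]) (by simp [σ, h2, U]) (by simp only [σ]; simp; grind)
  simp [σ] at e1 e2
  have e3 := h.det2 n2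
  have cl : ∀ {q a d f}, ρ q = U a 0 a d d f → ∃ q d f, ρ q = U (ρ n 2 2 * a) 0 (ρ n 2 2 * a) d d f := fun hq => by
    obtain ⟨a', d', f', e4, -, e5, -⟩ := h.act n2 hq
    exact ⟨_, d', f', by rw [e4, e5, n0, e1]; simp⟩
  have key : ∀ {q a d f}, ρ q = U a 0 a d d f → a ≠ 0 → ∃ q d f, ρ q = U (ρ n 2 2 ^ 4 * a) 0 (ρ n 2 2 ^ 4 * a) d d f ∧
      a * b1 * (1 + ρ n 2 2 ^ 4) = δ1 + ε1 + α1 * b1 + ρ n 2 2 ^ 4 * (δ2 + ε2 + α2 * b2) := by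
    intro q a d f hq a0
    obtain ⟨_, _, _, q1⟩ := cl hq
    obtain ⟨_, _, _, q2⟩ := cl q1
    obtain ⟨_, _, _, q3⟩ := cl q2
    obtain ⟨q', d', f', q4⟩ := cl q3
    rw [show ρ n 2 2 * (ρ n 2 2 * (ρ n 2 2 * (ρ n 2 2 * a))) = ρ n 2 2 ^ 4 * a by ring] at q4
    refine ⟨q', d', f', q4, ?_⟩
    have c1 := actQ h1 hq
    have c2 := actQ h2 q4
    have c3 : b1 = ρ n 2 2 ^ 4 * b2 := by gc e1 e2 e3
    rw [show ρ n 2 2 ^ 4 * a * b2 = a * b1 by gc c3] at c2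
    rw [← h.Q_eq c1 c2, c1, U_inj] at c2
    clear * - c2 c3 a0
    grind
  obtain ⟨t, a, d, f, a0, ht⟩ := h.nc
  obtain ⟨q, d', f', k1, k2⟩ := key ht a0
  obtain ⟨-, -, -, -, k3⟩ := key k1 (by gc e1 e3 a0)
  have : ρ n 2 2 ^ 4 = 1 := by
    clear * - k2 k3 a0 n1
    generalize ρ n 2 2 ^ 4 = s at *
    exact Sz1.sq_inj (by grind)
  gc this e1 e2 e3

theorem Zcen {w g : G} {d f : K} (hw : ρ w = U 0 0 0 d d f) (hg : g ∈ T0 ρ) : g * w = w * g := by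
  obtain ⟨_, _, _, _, _, hg⟩ := h.T hg
  exact h.comm.2 (by rw [hw, hg, U_mul, U_mul, U_inj]; grind)

theorem cenZ {w n : G} {d f : K} (hw : ρ w = U 0 0 0 d d f) (w1 : w ≠ 1) (e : n * w = w * n) (n0 : ρ n 1 0 = 0) :
    n ∈ P1 ρ ∧ n ∈ P2 ρ ∧ ρ n 2 2 = ρ n 0 0 ∧ ρ n 3 3 = ρ n 1 1 := by
  have d0 : d ≠ 0 := fun e => w1 (h.ntA hw (by simp [e]))
  have := h.comm.1 e
  rw [hw] at this
  entw [n0] at this
  rw [mem_P1, mem_P2]
  grind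

theorem d8 (hb : ∃ g ∈ T0 ρ, g ∉ Q0 ρ) : ∃ x u y, D8 ρ z x u y := by
  obtain ⟨y, y2, y1⟩ := h.stepC hb
  obtain ⟨g1, hg1, g1Q⟩ := hb
  obtain ⟨a1, b, d1, e1, f1, hg1⟩ := h.T hg1
  have b0 : b ≠ 0 := by simpa [h.notQ hg1] using g1Q
  have hB : ∀ {u α β δ ε φ}, ρ u = U α β α δ ε φ → β = 0 ∨ β = b := fun hu =>
    or_iff_not_imp_left.2 fun e => h.stepA y2 y1 hu hg1 e b0
  have y6 := mem_P2.1 y2
  have y8 : ρ y 2 1 ≠ 0 := fun e => y1 (by simp [mem_P1, y6, e])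
  have y5 := h.det2 y2
  have hD : ∀ {w d f}, ρ w = U 0 0 0 d d f → ∃ q a d' f', ρ q = U a 0 a d' d' f' ∧ d = a * b := by
    intro w d f hw
    let D : Set K := {d | ∃ w f, ρ w = U 0 0 0 d d f}
    have hm : Set.MapsTo (fun d => ρ y 0 0 * ρ y 2 1 * d * b) D D := by
      rintro d ⟨w, f, hw⟩
      obtain ⟨a', d', f', e4, -, e5, -⟩ := h.act y2 hw
      exact ⟨_, _, by rw [actQ hg1 e4, e5]; simp [mul_assoc]; rfl⟩
    obtain ⟨d', ⟨w', f', hw'⟩, e⟩ := ((Set.toFinite D).injOn_iff_bijOn_of_mapsTo hm).1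
      (fun a _ a' _ e => by simp only at e; grind) |>.surjOn ⟨w, f, hw⟩
    obtain ⟨a', d'', f'', e4, -, e5, -⟩ := h.act y2 hw'
    exact ⟨_, _, _, _, e4, by simp only at e; grind⟩
  obtain ⟨u, d2, e2, f2, hu⟩ : ∃ u d2 e2 f2, ρ u = U 0 b 0 d2 e2 f2 := by
    obtain ⟨q, a, d, f, hq, e⟩ := hD (w := g1 * g1) (d := a1 * b) (f := a1 * (d1 + e1)) (by
      rw [map_mul, hg1, U_mul, U_inj]; grind)
    obtain rfl : a1 = a := by grind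
    exact ⟨g1 * q, _, _, _, by rw [map_mul, hg1, hq, U_mul, add_zero, CharTwo.add_self_eq_zero]⟩
  have uA : u ∈ A0 ρ := ⟨_, _, _, _, hu⟩
  have uQ : u ∉ Q0 ρ := by simpa [h.notQ hu] using b0
  have u1 : u ≠ 1 := fun e => uQ (e ▸ one_mem _)
  have hT : ∀ g ∈ T0 ρ, g ∈ Q0 ρ ∨ g * u ∈ Q0 ρ := fun g hg => by
    obtain ⟨α, β, δ, ε, φ, hg⟩ := h.T hg
    rw [h.notQ hg, h.notQ (show ρ (g * u) = _ by rw [map_mul, hu, hg, U_mul])]
    have := hB hg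
    grind
  obtain ⟨k, hk⟩ := thom h.simple h.nab h.odd Q_le_T (A_le_T uA) uQ hT (h.A_sq u uA)
  obtain ⟨g, gP, e⟩ := h.fA (g := k) hk (by simpa using conj_ne (g := k⁻¹) u1) (by simpa [mul_assoc] using uA)
  have gQ : g⁻¹ * u * g ∈ Q0 ρ := by simpa [mul_assoc] using h.Q_norm (inv_mem e) hk
  have gA : g⁻¹ * u * g ∈ A0 ρ := by simpa using A_norm (inv_mem gP) uA
  clear hk e k
  obtain ⟨x, a, d, f, hx, ab⟩ := hD h.hz
  have a0 : a ≠ 0 := by grind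
  have hD2 : ∀ {w d f}, ρ w = U 0 0 0 d d f → d = 0 ∨ d = 1 := by
    intro s d3 f3 hs
    by_contra! hd
    obtain ⟨x', a', d', f', hx', ab'⟩ := hD hs
    obtain ⟨w, d4, f4, w1, hw, wc⟩ : ∃ w d4 f4, w ≠ 1 ∧ ρ w = U 0 0 0 d4 d4 f4 ∧
        ∀ t ∈ T0 ρ, g * t * g⁻¹ * w = w * (g * t * g⁻¹) := by
      have key : ∀ {s d f}, ρ s = U 0 0 0 d d f → d ≠ 0 → g * s * g⁻¹ ∈ Q0 ρ → ∃ w d4 f4, w ≠ 1 ∧ ρ w = U 0 0 0 d4 d4 f4 ∧
          ∀ t ∈ T0 ρ, g * t * g⁻¹ * w = w * (g * t * g⁻¹) := by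
        intro s d f hs d0 ⟨a4, d4, f4, e⟩
        obtain ⟨rfl, -⟩ := (notA e).1 (A_norm gP ⟨_, _, _, _, hs⟩)
        refine ⟨_, d4, f4, conj_ne fun e => by simp [e, U_one, U_inj, d0.symm] at hs, e, fun t ht => ?_⟩
        rw [conj_mul, conj_mul, h.Zcen hs ht]
      obtain ⟨β1, _, _, _, c1⟩ := A_norm gP h.zA
      obtain ⟨β2, _, _, _, c2⟩ := A_norm gP (u := s) ⟨_, _, _, _, hs⟩
      rcases hB c1 with rfl | rfl
      · exact key h.hz one_ne_zero (h.Qm c1)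
      rcases hB c2 with rfl | rfl
      · exact key hs hd.1 (h.Qm c2)
      refine key (s := z * s) (d := 1 + d3) (f := f3) (by rw [map_mul, h.hz, hs, U_mul]; simp) (by grind) ?_
      rw [← conj_mul, h.notQ (show ρ _ = _ by rw [map_mul, c1, c2, U_mul])]; grind
    have xQ : x ∈ Q0 ρ := ⟨_, _, _, hx⟩
    obtain ⟨n, nw, n0, e⟩ := h.torL ⟨_, _, _, _, hw⟩ w1 (h.Zcen hw (Q_le_T xQ)) (h.Zcen hw (Q_le_T ⟨_, _, _, hx'⟩))
      (wc x (Q_le_T xQ)) a0 (show a' ≠ 0 by grind) hx hx' (fun i0 => by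
        obtain ⟨i1, i2, -⟩ := h.cenZ hw w1 (wc x (Q_le_T xQ)) i0
        obtain ⟨c, hc, e⟩ := h.into (L := P1 ρ ⊓ P2 ρ) (le_inf T_le_P1 T_le_P2) ⟨i1, i2⟩ (conj_sq (h.Q_sq x xQ))
        have e' : g * x * g⁻¹ ∈ T0 ρ := by simpa [mul_assoc] using T_norm hc.1 hc.2 e
        rcases h.AQ e' (conj_sq (h.Q_sq x xQ)) with e3 | ⟨a5, d5, f5, e3⟩
        · have : x ∈ A0 ρ := by simpa [mul_assoc] using A_norm (inv_mem gP) e3
          exact a0 ((notA hx).1 this).1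
        · have e4 : g * x * g⁻¹ * u = u * (g * x * g⁻¹) := by
            have := comm_of_sq h.Q_sq xQ gQ
            calc _ = g * (x * (g⁻¹ * u * g)) * g⁻¹ := by group
              _ = _ := by rw [this]; group
          have e5 := h.comm.1 e4
          rw [e3, hu, U_mul, U_mul, U_inj] at e5
          have : x ∈ A0 ρ := by simpa [mul_assoc] using A_norm (inv_mem gP) ((notA e3).2 (by grind))
          exact a0 ((notA hx).1 this).1)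
    obtain ⟨n1, n2, n3, n4⟩ := h.cenZ hw w1 nw n0
    obtain ⟨a6, b6, _, _, _, e5, -, e6⟩ := h.actT n1 n2 hu
    have e7 := hB e5
    have e8 := h.det2 n2
    have := Sz1.sq_inj (a := ρ n 0 0) (b := 1) (by grind)
    grind
  have hZ : ∀ {w d f}, ρ w = U 0 0 0 d d f → w = 1 ∨ w = z := fun hw => (hD2 hw).imp
    (fun e => h.ntA hw (by simp [e])) fun e => h.Q_eq (e ▸ hw) h.hz
  have hA : ∀ q ∈ A0 ρ, q = 1 ∨ q = z ∨ q = u ∨ q = z * u := fun q ⟨β, δ, ε, φ, hq⟩ => by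
    rcases hB hq with rfl | rfl
    · obtain ⟨-, rfl⟩ := h.Qb hq
      rcases hZ hq with e | e <;> simp [e]
    · have e1 : ρ (q * u) = U 0 0 0 (δ + d2) (ε + e2) (φ + f2) := by rw [map_mul, hq, hu, U_mul, U_inj]; grind
      rw [(h.Qb e1).2] at e1
      have ui := inv_eq_of_mul_eq_one_right (h.A_sq u uA)
      rcases hZ e1 with e | e
      · rw [eq_inv_of_mul_eq_one_left e, ui]; simp
      · rw [eq_mul_inv_of_mul_eq e, ui]; simp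
  have gz : g⁻¹ * u * g = z := by
    obtain ⟨a4, d4, f4, e⟩ := gQ
    obtain ⟨rfl, -⟩ := (notA e).1 gA
    exact (hZ e).resolve_left (by simpa using conj_ne (g := g⁻¹) u1)
  have tr : d2 + e2 = 1 := by
    have e1 := actA hx hu
    rw [← ab] at e1
    rw [h.Q_eq e1 h.hz, h.hz, U_inj] at e1
    grind
  refine ⟨x, u, y, h, ⟨a, d, f, b, d2, e2, f2, ab.symm, hx, hu, tr, ?_⟩, fun q ⟨a', d', f', hq⟩ => ?_, hA, hT, y2, y1,
    ⟨g⁻¹, by simpa using gz⟩⟩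
  · have c1 : ρ u * ρ g = ρ g * ρ z := by rw [← gz, ← map_mul, ← map_mul]; simp [mul_assoc]
    have c2 := cj4 (ρ := ρ) g⁻¹ z
    have c3 : ρ z * ρ g = ρ g * ρ (g⁻¹ * z * g⁻¹⁻¹) := by rw [← map_mul, ← map_mul]; simp [mul_assoc]
    have c4 := h.det g
    have gP' := mem_P1.1 gP
    rw [det4] at c4
    simp only [gP'] at c4
    clear c2
    rcases hA _ (A_norm (inv_mem gP) h.zA) with e | e | e | e
    · exact absurd e (conj_ne h.z1)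
    · rw [inv_inv] at e
      have e' : z = u := by simpa using e.trans gz.symm
      exact absurd (e' ▸ h.zQ) uQ
    · rw [e, hu] at c3
      rw [hu, h.hz] at *
      entw [gP'] at c1
      entw [gP'] at c3
      exact Sz1.sq_inj (by clear * - c1 c3 c4 tr; gr)
    · rw [e, map_mul, hu] at c3
      rw [hu, h.hz] at *
      entw [gP'] at c1
      entw [gP'] at c3
      exact Sz1.sq_inj (by clear * - c1 c3 c4 tr; gr)
  · rcases hD2 (actQ hg1 hq) with e | e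
    · obtain rfl : a' = 0 := by grind
      rcases hZ hq with e | e <;> simp [e]
    · obtain rfl : a' = a := by grind
      have xi := inv_eq_of_mul_eq_one_right (h.Q_sq x ⟨_, _, _, hx⟩)
      rcases hZ (w := q * x) (d := d' + d) (by rw [map_mul, hq, hx, U_mul]; simp [CharTwo.add_self_eq_zero]; rfl) with e | e
      · rw [eq_inv_of_mul_eq_one_left e, xi]; simp
      · rw [eq_mul_inv_of_mul_eq e, xi]; simp

end NC

end Cfsg.Agent.H3.C2
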