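import Cfsg.Agent.H3.C2e

/-! The abelian Sylow case. -/

set_option autoImplicit false
set_option linter.unusedSectionVars false

namespace Cfsg.Agent.H3.C2

open Matrix H2.M4 H3.Sz3

variable {K : Type*} [Field K] [CharP K 2] [Finite K] {G : Type*} [Group G] [Finite G] {ρ : G →* M4 K}

theorem simple_comm (h : IsSimpleGroup G) (hn : ¬ IsMulCommutative G) {z w : G} (z1 : z ≠ 1) (w1 : w ≠ 1)
    (e : ∀ g, g * w * g⁻¹ * z = z * (g * w * g⁻¹)) : False := by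
  have h1 : (Subgroup.centralizer {z}).normalCore = ⊤ :=
    (Subgroup.normalCore_normal _).eq_bot_or_eq_top.resolve_left fun e' =>
      w1 (Subgroup.mem_bot.1 (e' ▸ fun g => mem_cen.2 (e g)))
  have h2 : Subgroup.center G = ⊤ := (inferInstance : (Subgroup.center G).Normal).eq_bot_or_eq_top.resolve_left fun e' =>
    z1 (Subgroup.mem_bot.1 (e' ▸ Subgroup.mem_center_iff.2 fun g =>
      mem_cen.1 (Subgroup.normalCore_le _ (h1 ▸ Subgroup.mem_top g))))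
  exact hn ⟨⟨fun a b => Subgroup.mem_center_iff.1 (h2 ▸ Subgroup.mem_top b) a⟩⟩

/-- the middle block -/
def midH (ρ : G →* M4 K) : P2 ρ →* M2 K where
  toFun n := !![ρ n 1 1, ρ n 1 2; ρ n 2 1, ρ n 2 2]
  map_one' := by simp [eq2]
  map_mul' a b := by simp [eq2, mul2, mul4, mem_P2.1 a.2, mem_P2.1 b.2]

/-- abelian Sylow subgroup, not strongly embedded normaliser -/
structure TQ (ρ : G →* M4 K) (z g : G) : Prop extends NC ρ z where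
  hT : ∀ s ∈ T0 ρ, s ∈ Q0 ρ
  gz : g * z = z * g
  g2 : g ∉ P2 ρ

/-- the four-group with an element of order three -/
structure FR (ρ : G →* M4 K) (z x y : G) : Prop extends NC ρ z where
  hx : ∃ a d f, a ≠ 0 ∧ ρ x = U a 0 a d d f
  hQ : ∀ q ∈ Q0 ρ, q = 1 ∨ q = z ∨ q = x ∨ q = z * x
  y2 : y ∈ P2 ρ
  yz : y * z * y⁻¹ = x
  yx : y * x * y⁻¹ = z * x

theorem NC.invP {z : G} (h : NC ρ z) (hT : ∀ s ∈ T0 ρ, s ∈ Q0 ρ) {y : G} (hy : y ∈ P2 ρ) {k : ℕ} (y2 : y ^ 2 ^ k = 1) :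
    y ∈ Q0 ρ := by
  obtain ⟨a, ha, e⟩ := conj_into (odd_rel (P := ⊤) (by simpa using h.odd) T_le_P2 le_top) hy y2
  simpa [mul_assoc] using h.Q_norm ha (hT _ e)

theorem NC.tq {z : G} (h : NC ρ z) (hT : ∀ s ∈ T0 ρ, s ∈ Q0 ρ) : SEA G ∨ ∃ P t g, TQ (cjr P ρ) t g := by
  have key : ∀ y ∈ P2 ρ, y * y = 1 → y ∈ Q0 ρ := fun y hy y2 => h.invP hT hy (k := 1) (by rw [pow_one, sq, y2])
  by_cases hc : ∀ t ∈ Q0 ρ, t ≠ 1 → ∀ g, g * t = t * g → g ∈ P2 ρ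
  · refine Or.inl ⟨P2 ρ, fun e => ?_, ⟨z, T_le_P2 (A_le_T h.zA), h.z1, h.z2⟩, fun g y hy y1 y2 e => ?_,
      fun u hu v hv u2 v2 => comm_of_sq h.Q_sq (key u hu u2) (key v hv v2)⟩
    · obtain ⟨g, hg⟩ := h.ex30
      exact hg (e ▸ Subgroup.mem_top g : g ∈ P2 ρ).2.2.1
    · obtain ⟨c, c1, c2⟩ := h.fus (key y hy y2) (key _ e (conj_sq y2))
      simpa using mul_mem c2 (inv_mem (hc y (key y hy y2) y1 c c1))
  push Not at hc
  obtain ⟨t, tQ, t1, g, gt, g2⟩ := hc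
  have sq : ∀ s ∈ T0 ρ, s * s = 1 := fun s hs => h.Q_sq s (hT s hs)
  obtain ⟨P, h', e⟩ := h.exists_nf h.odd h.Tp t1 (h.Q_sq t tQ) fun s hs => comm_of_sq sq hs (Q_le_T tQ)
  have gn : ¬ ∀ s ∈ T0 (cjr P ρ), g⁻¹ * s * g ∈ T0 (cjr P ρ) := fun e' => g2 (h.wc g fun q hq => e ▸ e' q (e ▸ Q_le_T hq))
  rw [← e] at sq
  have h2 : NC (cjr P ρ) t := ⟨h', by
    by_contra! e'
    have hA : ∀ s ∈ T0 (cjr P ρ), s ∈ A0 (cjr P ρ) := fun s hs => (h'.AQ hs (sq s hs)).elim id fun ⟨a, d, f, e1⟩ =>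
      (notA e1).2 (by simpa using fun a0 => e' s a d f a0 e1)
    have g1 : g ∈ P1 (cjr P ρ) := h'.A_line h'.zA t1 (by rw [gt, mul_inv_cancel_right]; exact h'.zA)
    exact gn fun s hs => A_le_T (by simpa using A_norm (inv_mem g1) (hA s hs))⟩
  have h3 : ∀ s ∈ T0 (cjr P ρ), s ∈ Q0 (cjr P ρ) := fun s hs => by
    obtain ⟨t', a, d, f, a0, ht⟩ := h2.nc
    have := h2.comm.1 (comm_of_sq sq hs ⟨_, _, _, _, _, _, ht⟩)
    obtain ⟨_, _, _, _, _, hs⟩ := h2.T hs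
    rw [hs, ht, U_mul, U_mul, U_inj] at this
    rw [h2.notQ hs]; gc this a0
  exact Or.inr ⟨P, t, g, h2, h3, gt, fun e' => gn fun s hs => Q_le_T (by simpa using h2.Q_norm (inv_mem e') (h3 s hs))⟩

namespace TQ
variable {z g : G} (h : TQ ρ z g)
include h

theorem g10 : ρ g 1 0 ≠ 0 := fun e => h.g2 (h.cenZ h.hz h.z1 h.gz e).2.1

theorem oddP {n : G} (hn : n ∈ P2 ρ) : ∃ r, Odd r ∧ n ^ r ∈ Q0 ρ := by
  obtain ⟨r, k, hr, e⟩ := exists_odd_pow n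
  exact ⟨r, hr, h.invP h.hT (pow_mem hn r) e⟩

theorem mid {m n : G} (hm : m ∈ P2 ρ) (hn : n ∈ P2 ρ) : midH ρ ⟨m, hm⟩ * midH ρ ⟨n, hn⟩ = midH ρ ⟨n, hn⟩ * midH ρ ⟨m, hm⟩ := by
  refine odd2 _ (fun n e => ⟨1, ?_⟩) _ _
  obtain ⟨_, ⟨r, rfl⟩, a, d, f, e1⟩ := h.oddP n.2
  have e2 := h.det2 n.2
  have e3 : midH ρ n * midH ρ n = 1 := by
    simp [midH] at e
    simp [midH, eq2, mul2]
    gc e e2
  have e4 : midH ρ (n ^ (2 * r + 1)) = 1 := by simp [midH, eq2, -map_pow, e1, U]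
  rwa [map_pow, pow_succ, pow_mul, sq, e3, one_pow, one_mul, ← one_smul K (1 : M2 K)] at e4

theorem big {q1 q2 : G} {a1 d1 f1 a2 d2 f2 : K} (h1 : ρ q1 = U a1 0 a1 d1 d1 f1) (h2 : ρ q2 = U a2 0 a2 d2 d2 f2)
    (n1 : a1 ≠ 0) (n2 : a2 ≠ 0) : a1 = a2 := by
  by_contra ne
  have cz : ∀ {q a d f}, ρ q = U a 0 a d d f → q * z = z * q := fun hq => h.cen _ ⟨_, _, _, _, _, _, hq⟩
  obtain ⟨n, nz, n0, e⟩ := h.torL h.zA h.z1 (cz h1) (cz h2) h.gz n1 n2 h1 h2 h.g10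
  obtain ⟨nP1, nP, n22, n33⟩ := h.cenZ h.hz h.z1 nz n0
  have nd := h.det2 nP
  have n21 := nP1.2.1
  have s1 : ρ n 0 0 ^ 2 + 1 ≠ 0 := by gc e ne
  obtain ⟨κ, hκ⟩ : ∃ κ, κ * (ρ n 0 0 ^ 2 + 1) = ρ n 0 0 * ρ n 1 2 := ⟨_, div_mul_cancel₀ _ s1⟩
  have hP : ∀ m ∈ P2 ρ, ρ m 2 1 = 0 ∧ ρ m 1 2 = κ * (ρ m 1 1 + ρ m 2 2) := fun m hm => by
    have := h.mid hm nP
    simp [midH, eq2, mul2, n21, -mul_eq_zero, -mul_eq_mul_left_iff, -mul_eq_mul_right_iff] at this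
    gc this nd n21 n22 n33 s1 hκ
  have ty : ∀ {q q' k a d f a' d' f'}, ρ q = U a 0 a d d f → ρ q' = U a' 0 a' d' d' f' → k * q * k⁻¹ = q' →
      (a = 0 ↔ a' = 0) ∧ (d = κ * a → d' = κ * a') := by
    intro q q' k a d f a' d' f' hq hq' e
    obtain ⟨c, c1, c2⟩ := h.fus (q := q) (g := k) ⟨_, _, _, hq⟩ ⟨_, _, _, e ▸ hq'⟩
    obtain ⟨a'', d'', f'', e1, e2, e3, -⟩ := h.act c2 hq
    have : k * c * q * (k * c)⁻¹ = q' := by rw [mul_assoc k, c1, ← e]; group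
    rw [this, hq', U_inj] at e1
    have e4 := hP _ c2
    have e5 := h.det2 c2
    gc e1 e2 e3 e4 e5
  have nzz := cz_form (X := ρ n) (by rw [← h.hz]; exact h.comm.1 nz)
  have F1 : ∀ {w d f}, ρ w = U 0 0 0 d d f → f = 0 := fun {w d f} hw => by
    obtain ⟨a', d', f', e1, e2, e3, e4⟩ := h.act nP hw
    obtain rfl : a' = 0 := by gc e3 n21
    have e5 : d' = d := by gc e2 nd n33
    rw [e5] at e1 e4
    rw [h.Q_eq e1 hw, hw, U_inj] at e1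
    gc e1 e4 s1 nzz
  have F2 : ∀ {q q' a f a' f'}, ρ q = U a 0 a (κ * a) (κ * a) f → ρ q' = U a' 0 a' (κ * a') (κ * a') f' → a ≠ 0 → a' ≠ 0 →
      f' * a = f * a' := by
    intro q q' a f a' f' hq hq' a0 a0'
    obtain ⟨m, mz, m0, e⟩ := h.torL h.zA h.z1 (cz hq) (cz hq') h.gz a0 a0' hq hq' h.g10
    obtain ⟨mP1, mP, m22, m33⟩ := h.cenZ h.hz h.z1 mz m0
    have md := h.det2 mP
    have mp := hP m mP
    obtain ⟨a3, d3, f3, e1, e2, e3, e4⟩ := h.act mP hq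
    obtain ⟨a4, d4, f4, e5, e6, e7, e8⟩ := h.act mP e1
    have e9 : a3 = ρ m 0 0 ^ 2 * a ∧ d3 = κ * a3 := by gc e2 e3 md mp m22 m33
    have e10 : a4 = a' ∧ d4 = κ * a' := by gc e9 e6 e7 md mp m22 m33 e
    rw [e10.1, e10.2] at e5 e8
    rw [h.Q_eq e5 hq', hq', U_inj] at e5
    rw [e9.2, e9.1] at e4 e8
    rw [← e5.2.2.2.2.2] at e8
    rw [e8, e4, ← e]
    gc
  obtain ⟨w, a, f, a0, hw⟩ : ∃ w a f, a ≠ 0 ∧ ρ w = U a 0 a (κ * a) (κ * a) f := by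
    obtain ⟨a', d', f', e1, e2, e3, -⟩ := h.act nP h1
    refine ⟨n * q1 * n⁻¹ * q1, a' + a1, f' + f1 + a' * d1 + d' * a1, by gc e3 n21 n22 s1 n1, ?_⟩
    rw [map_mul, e1, h1, U_mul, U_inj]
    gc e2 e3 n21 n22 n33 nd hκ
  have wQ : w ∈ Q0 ρ := ⟨_, _, _, hw⟩
  have mixed : ∀ {q a' d' f'}, ρ q = U a' 0 a' d' d' f' → a' ≠ 0 → d' ≠ κ * a' → ∀ k, k * q = q * k → k ∈ P2 ρ := by
    intro q a' d' f' hq a0' hd k e
    by_contra k2
    obtain ⟨a3, d3, f3, e1, e2, e3, -⟩ := h.act nP hw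
    have e4 : a3 = ρ n 0 0 ^ 2 * a ∧ d3 = κ * a3 := by gc e2 e3 nd n21 n22 n33 hκ
    obtain ⟨m, mP, mq, e5⟩ := h.torQ hq a0' e k2 hw e1 (by gc hd a0) (by gc hd a0 e4 nd)
    obtain ⟨a5, d5, f5, e6, e7, e8, -⟩ := h.act mP hq
    rw [mq, mul_inv_cancel_right, hq, U_inj] at e6
    have md := h.det2 mP
    have mp := hP m mP
    have e9 : ρ m 0 0 * ρ m 2 2 = 1 := by gc e6 e8 mp a0'
    have e10 : ρ m 0 0 * ρ m 1 1 = 1 := by gc e6 e7 e9 mp hd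
    have e11 := Sz1.sq_inj (a := ρ m 0 0) (b := 1) (by gc e9 e10 md mp)
    rw [e11, e4.2, e4.1] at e5
    gc e5 s1 hd a0
  refine simple_comm h.simple h.nab h.z1 (w := w) (fun e => a0 (by rw [e, map_one, U_one, U_inj] at hw; exact hw.1.symm)) fun k => ?_
  have w2 := h.Q_sq w wQ
  rcases dih (P := ⊤) (y := z) (y' := k * w * k⁻¹) trivial trivial h.z2 (conj_sq w2) with ⟨t, -, t2, e⟩ | ⟨i, -, i1, i2, e1, e2⟩
  · refine absurd ((ty h.hz hw (k := k⁻¹ * t) ?_).1.1 rfl) a0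
    rw [_root_.mul_inv_rev, inv_eq_of_mul_eq_one_right t2, inv_inv]
    calc _ = k⁻¹ * (t * z * t) * k := by group
      _ = _ := by rw [e]; group
  obtain ⟨c, hc, e3⟩ := h.into (L := Subgroup.centralizer {z}) (fun g hg => mem_cen.2 (h.cen g hg)) (mem_cen.2 e1) i2
  obtain ⟨a3, d3, f3, e3⟩ := h.hT _ e3
  have e4 : c⁻¹ * (k * w * k⁻¹) * c * (c⁻¹ * i * c) = c⁻¹ * i * c * (c⁻¹ * (k * w * k⁻¹) * c) := by
    calc _ = c⁻¹ * (k * w * k⁻¹ * i) * c := by group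
      _ = _ := by rw [← e2]; group
  have fin : c⁻¹ * (k * w * k⁻¹) * c * z = z * (c⁻¹ * (k * w * k⁻¹) * c) → k * w * k⁻¹ * z = z * (k * w * k⁻¹) := fun e => by
    simpa [mul_assoc] using mem_cen.1 (show k * w * k⁻¹ ∈ _ by
      simpa [mul_assoc] using mul_mem (mul_mem hc (mem_cen.2 e)) (inv_mem hc))
  by_cases a3' : a3 = 0
  · subst a3'
    have d0 : d3 ≠ 0 := fun e => (by simpa using conj_ne (g := c⁻¹) i1 : c⁻¹ * i * c ≠ 1) (h.ntA e3 (by simp [e]))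
    refine fin (h.comm.2 ?_)
    have e5 := h.comm.1 e4
    rw [e3, F1 e3] at e5
    rw [h.hz]
    generalize ρ (c⁻¹ * (k * w * k⁻¹) * c) = X at *
    ent at e5
    ent
    gc e5 d0
  by_cases d3' : d3 = κ * a3
  swap
  · exact fin (comm_of_sq h.Q_sq (h.invP h.hT (mixed e3 a3' d3' _ e4) (k := 1) (by rw [pow_one, sq, conj_sq' (conj_sq w2)])) h.zQ)
  obtain ⟨c', hc', e5⟩ := h.into (L := Subgroup.centralizer {w}) (y := k⁻¹ * i * k)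
    (fun g hg => mem_cen.2 (comm_of_sq h.Q_sq (h.hT g hg) wQ)) (mem_cen.2 (by
      calc _ = k⁻¹ * (i * (k * w * k⁻¹)) * k := by group
        _ = _ := by rw [e2]; group)) (conj_sq' i2)
  obtain ⟨a5, d5, f5, e5⟩ := h.hT _ e5
  obtain ⟨e6, e7⟩ := ty e3 e5 (k := c'⁻¹ * k⁻¹ * c) (by group)
  rw [e7 d3'] at e5
  have a5' : a5 ≠ 0 := mt e6.2 a3'
  have e8 := F2 hw e5 a0 a5'
  have e9 : c'⁻¹ * (k⁻¹ * z * k) * c' * (c'⁻¹ * (k⁻¹ * i * k) * c') = c'⁻¹ * (k⁻¹ * i * k) * c' * (c'⁻¹ * (k⁻¹ * z * k) * c') := by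
    calc _ = c'⁻¹ * k⁻¹ * (z * i) * k * c' := by group
      _ = _ := by rw [← e1]; group
  have e10 : c'⁻¹ * (k⁻¹ * z * k) * c' * w = w * (c'⁻¹ * (k⁻¹ * z * k) * c') := by
    refine h.comm.2 ?_
    have e11 := h.comm.1 e9
    rw [e5] at e11
    rw [hw]
    obtain rfl : f = a * (f5 / a5) := by gc e8 a5'
    obtain ⟨φ, rfl⟩ : ∃ φ, f5 = a5 * φ := ⟨f5 / a5, by gc a5'⟩
    rw [mul_div_cancel_left₀ _ a5']
    generalize ρ (c'⁻¹ * (k⁻¹ * z * k) * c') = X at *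
    ent at e11
    ent
    gc e11 a5'
  have e12 : k⁻¹ * z * k * w = w * (k⁻¹ * z * k) := by
    simpa [mul_assoc] using mem_cen.1 (show k⁻¹ * z * k ∈ _ by
      simpa [mul_assoc] using mul_mem (mul_mem hc' (mem_cen.2 e10)) (inv_mem hc'))
  calc _ = k * (w * (k⁻¹ * z * k)) * k⁻¹ := by group
    _ = _ := by rw [← e12]; group

theorem fr : ∃ x y, FR ρ z x y := by
  obtain ⟨t, a, d, f, a0, ht⟩ := h.nc
  have tQ : t ∈ Q0 ρ := ⟨_, _, _, ht⟩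
  have hA : ∀ {q a' d' f'}, ρ q = U a' 0 a' d' d' f' → a' = 0 ∨ a' = a := fun hq =>
    or_iff_not_imp_left.2 fun e => h.big hq ht e a0
  obtain ⟨k, hk⟩ := thom h.simple h.nab h.odd A_le_T (Q_le_T tQ) (by simp [notA ht, a0]) (fun u hu => by
    obtain ⟨α, δ, φ, hu⟩ := h.hT u hu
    rw [notA hu, notA (show ρ (u * t) = _ by rw [map_mul, hu, ht, U_mul])]
    have := hA hu
    gc this) (h.Q_sq t tQ)
  obtain ⟨c, c1, c2⟩ := h.fus (g := k⁻¹) tQ (by simpa using h.hT _ (A_le_T hk))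
  have y2 := inv_mem c2
  have y1 : ρ (k⁻¹ * c)⁻¹ 2 1 ≠ 0 := fun e => by
    have e1 : (k⁻¹ * c)⁻¹ ∈ P1 ρ := by simp only [mem_P1, mem_P2.1 y2, e, and_self]
    have e2 := A_norm e1 hk
    have : (k⁻¹ * c)⁻¹ * (k⁻¹ * t * k) * (k⁻¹ * c)⁻¹⁻¹ = t := by
      calc _ = c⁻¹ * (t * c) := by group
        _ = _ := by rw [← c1]; group
    rw [this, notA ht] at e2
    exact a0 e2.1
  generalize (k⁻¹ * c)⁻¹ = y at y1 y2
  have yd := h.det2 y2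
  obtain ⟨a1, d1, f1, hx, -, e1, -⟩ := h.act y2 h.hz
  have a1' : a1 ≠ 0 := by gc e1 y1 yd
  have hZ : ∀ {w d f}, ρ w = U 0 0 0 d d f → w = 1 ∨ w = z := fun {w d f} hw => by
    by_cases d0 : d = 0
    · exact Or.inl (h.ntA hw (by simp [d0]))
    obtain ⟨a2, d2, f2, e2, -, e3, -⟩ := h.act y2 hw
    have e4 := h.big hx e2 a1' (by gc e3 y1 yd d0)
    obtain rfl : d = 1 := by gc e4 e1 e3 y1 yd
    exact Or.inr (h.Q_eq hw h.hz)
  obtain ⟨x, ex⟩ : ∃ x, y * z * y⁻¹ = x := ⟨_, rfl⟩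
  rw [ex] at hx
  have xQ : x ∈ Q0 ρ := ⟨_, _, _, hx⟩
  have hQ : ∀ q ∈ Q0 ρ, q = 1 ∨ q = z ∨ q = x ∨ q = z * x := fun q ⟨a', d', f', hq⟩ => by
    by_cases e : a' = 0
    · rcases hZ (e ▸ hq) with e | e <;> simp [e]
    · obtain rfl := h.big hq hx e a1'
      have xi := inv_eq_of_mul_eq_one_right (h.Q_sq x xQ)
      rcases hZ (w := q * x) (d := d' + d1) (by rw [map_mul, hq, hx, U_mul]; simp [CharTwo.add_self_eq_zero]; rfl) with e | e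
      · rw [eq_inv_of_mul_eq_one_left e, xi]; simp
      · rw [eq_mul_inv_of_mul_eq e, xi]; simp
  refine ⟨x, y, h.toNC, ⟨_, _, _, a1', hx⟩, hQ, y2, ex, ?_⟩
  have xz : x ≠ z := fun e => a1' (by rw [e, h.hz, U_inj] at hx; exact hx.1.symm)
  rcases hQ _ (h.Q_norm y2 xQ) with e | e | e | e
  · exact absurd e (conj_ne (ex ▸ conj_ne h.z1))
  · exfalso
    obtain ⟨_, ⟨r, rfl⟩, e2⟩ := h.oddP y2
    have e3 : Commute (y ^ 2) z := by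
      change y ^ 2 * z = z * y ^ 2
      calc _ = y * (y * z * y⁻¹) * y⁻¹ * y ^ 2 := by simp [sq, mul_assoc]
        _ = _ := by rw [ex, e]
    have e4 : Commute (y ^ (2 * r + 1)) z := comm_of_sq h.Q_sq e2 h.zQ
    have e5 : Commute y z := by
      have := (e3.pow_left r).inv_left.mul_left e4
      rwa [← pow_mul, pow_succ, inv_mul_cancel_left] at this
    exact xz (by rw [← ex, e5.eq, mul_inv_cancel_right])
  · exact absurd (by simpa using e.trans ex.symm) xz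
  · exact e

end TQ

end Cfsg.Agent.H3.C2
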