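import Cfsg.Agent.H3.C2f

/-! The permutation frame. -/

set_option autoImplicit false
set_option linter.unusedSectionVars false

namespace Cfsg.Agent.H3.C2

open Matrix H2.M4 H3.Sz3

variable {K : Type*} [Field K] [CharP K 2] [Finite K] {G : Type*} [Group G] [Finite G] {ρ : G →* M4 K}

/-- quadratic elements -/
def Qd (ρ : G →* M4 K) (h : G) (τ : K) : Prop := τ ≠ 0 ∧ ρ h * ρ h + 1 = τ • ρ h

theorem Qd.cj {h : G} {τ : K} (e : Qd ρ h τ) (P : G4 K) : Qd (cjr P ρ) h τ := ⟨e.1, by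
  have := congrArg (fun X => (P⁻¹).val * X * P.val) e.2
  simp only [mul_add, add_mul, mul_one, Units.inv_mul, mul_smul_comm, smul_mul_assoc, ← map_mul] at this
  rw [← map_mul]; exact this⟩

/-- same axis -/
def Ax (ρ : G →* M4 K) (s w : G) : Prop := (ρ w + 1) * (ρ s + 1) = 0 ∧ (ρ s + 1) * (ρ w + 1) = 0

theorem cjr_add (P : G4 K) (g : G) : cjr P ρ g + 1 = (P⁻¹).val * (ρ g + 1) * P.val := by
  simp [cjr_apply, mul_add, add_mul]

theorem cj_mul (P : G4 K) (X Y : M4 K) : (P⁻¹).val * X * P.val * ((P⁻¹).val * Y * P.val) = (P⁻¹).val * (X * Y) * P.val := by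
  simp only [Matrix.mul_assoc]; rw [← Matrix.mul_assoc P.val, Units.mul_inv, Matrix.one_mul]

theorem cj_zero (P : G4 K) {X : M4 K} : (P⁻¹).val * X * P.val = 0 ↔ X = 0 := by
  rw [Units.mul_left_eq_zero, Units.mul_right_eq_zero]

theorem Ax_cj {P : G4 K} {s w : G} : Ax (cjr P ρ) s w ↔ Ax ρ s w := by
  simp only [Ax, cjr_add, cj_mul, cj_zero]

theorem Ax.conj {s w : G} (h : Ax ρ s w) (g : G) : Ax ρ (g * s * g⁻¹) (g * w * g⁻¹) := by
  have e : ∀ s, ρ (g * s * g⁻¹) + 1 = ρ g * (ρ s + 1) * ρ g⁻¹ := fun s => by simp [mul_add, add_mul, mul_inv4]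
  have e' : ∀ X Y : M4 K, ρ g * X * ρ g⁻¹ * (ρ g * Y * ρ g⁻¹) = ρ g * (X * Y) * ρ g⁻¹ := fun X Y => by
    simp only [Matrix.mul_assoc]; rw [← Matrix.mul_assoc (ρ g⁻¹), inv_mul4, Matrix.one_mul]
  simp only [Ax, e, e', h.1, h.2, mul_zero, zero_mul, and_self]

/-- permutation frame -/
structure PF (ρ : G →* M4 K) (z x y : G) : Prop extends Bas ρ where
  hz : ρ z = mz
  hx : ρ x = mx
  hy : ρ y = my

/-- four-group Sylow subgroup -/
structure VG (ρ : G →* M4 K) (z x y g : G) (T : Subgroup G) (τ : K) : Prop extends PF ρ z x y where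
  odd : Odd T.index
  hT : ∀ q ∈ T, q = 1 ∨ q = z ∨ q = x ∨ q = z * x
  gz : g * z = z * g
  qd : Qd ρ ((x * (g * x * g⁻¹)) ^ 2) τ

/-- dihedral Sylow subgroup -/
structure DG (ρ : G →* M4 K) (z x y u : G) (T : Subgroup G) : Prop extends PF ρ z x y where
  hu : ρ u = mu
  odd : Odd T.index
  hT : ∀ t ∈ T, ∃ q, (q = 1 ∨ q = z ∨ q = x ∨ q = z * x) ∧ (t = q ∨ t = q * u)
  mT : z ∈ T ∧ x ∈ T ∧ u ∈ T
  cz : ∀ g, g * z = z * g → g ∈ T ∨ ∃ τ, Qd ρ ((x * (g * x * g⁻¹)) ^ 2) τ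
  hA : ∀ w, Ax ρ z w → w = 1 ∨ w = z ∨ w = u ∨ w = z * u
  fu : ∃ g, g * u * g⁻¹ = z ∧ (g * z * g⁻¹ = u ∨ g * z * g⁻¹ = z * u)

theorem NF.qd {z x g : G} (h : NF ρ z) {a d f : K} (a0 : a ≠ 0) (hx : ρ x = U a 0 a d d f) (gz : g * z = z * g)
    (g0 : ρ g 1 0 ≠ 0) : ∃ τ, Qd ρ ((x * (g * x * g⁻¹)) ^ 2) τ := by
  have xz := h.cen x ⟨_, _, _, _, _, _, hx⟩
  have e1 : g * x * g⁻¹ * z = z * (g * x * g⁻¹) :=
    mem_cen.1 (mul_mem (mul_mem (mem_cen.2 gz) (mem_cen.2 xz)) (inv_mem (mem_cen.2 gz)))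
  have e2 : x * (g * x * g⁻¹) * z = z * (x * (g * x * g⁻¹)) := mem_cen.1 (mul_mem (mem_cen.2 xz) (mem_cen.2 e1))
  have e3 := cz_ev (X := ρ (x * (g * x * g⁻¹))) (by rw [← h.hz]; exact h.comm.1 e2) (h.det _)
  refine ⟨_, pow_ne_zero 2 ?_, by rw [map_pow, ← pow_add]; exact e3⟩
  have e4 := cj4 (ρ := ρ) g x
  have e5 := cz_form (X := ρ (g * x * g⁻¹)) (by rw [← h.hz]; exact h.comm.1 e1)
  have e6 := cz_form (X := ρ g) (by rw [← h.hz]; exact h.comm.1 gz)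
  have e7 := cz_det (X := ρ g) (by rw [← h.hz]; exact h.comm.1 gz) (h.det _)
  rw [map_mul, hx, mul4, mul4]
  rw [hx] at e4
  generalize ρ (g * x * g⁻¹) = Y at *
  entw [e5, e6] at e4
  simp [U, e5]
  have e8 : Y 1 0 = a * ρ g 1 0 ^ 2 := by gc e4 e7
  have e9 : Y 0 0 = 1 + a * ρ g 1 0 * ρ g 0 0 := by gc e4 e7
  have e10 : Y 1 1 = 1 + a * ρ g 1 0 * ρ g 0 0 := by gc e4 e7
  gc e8 e9 e10 a0 g0

theorem cols_mul (a b c d : Fin 4 → K) : cols a b c d * mz = cols b a d c ∧ cols a b c d * mx = cols c d a b ∧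
    cols a b c d * my = cols a c d b ∧ cols a b c d * mu = cols (b + c + d) (a + c + d) (a + b + c) (a + b + d) := by
  refine ⟨?_, ?_, ?_, ?_⟩ <;> entw [cols]

namespace FR
variable {z x y : G} (h : FR ρ z x y)
include h

theorem xQ : x ∈ Q0 ρ := by obtain ⟨a, d, f, -, hx⟩ := h.hx; exact ⟨_, _, _, hx⟩
theorem x2 : x * x = 1 := h.Q_sq x h.xQ
theorem xz : x * z = z * x := h.cen x (Q_le_T h.xQ)

theorem cq {n : G} (e1 : n * z = z * n) (e2 : n * x = x * n) : n ∈ Q0 ρ := by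
  obtain ⟨a, d, f, a0, hx⟩ := h.hx
  have n2 := h.cenQ hx a0 e2 (cz_form (X := ρ n) (by rw [← h.hz]; exact h.comm.1 e1)).1
  obtain ⟨_, _, _, c1, c2, c3, -⟩ := h.act n2 h.hz
  obtain ⟨_, _, _, c4, c5, c6, -⟩ := h.act n2 hx
  rw [e1, mul_inv_cancel_right, h.hz, U_inj] at c1
  rw [e2, mul_inv_cancel_right, hx, U_inj] at c4
  have := h.det2 n2
  refine h.ker2 n2 ?_ ?_ ?_ ?_ <;> gc c1 c2 c3 c4 c5 c6 this a0

theorem yzx : y * (z * x) * y⁻¹ = z := by rw [← conj_mul, h.yz, h.yx, ← mul_assoc, h.xz, mul_assoc, h.x2, mul_one]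

theorem y3 : y * y * y = 1 := by
  have e : ∀ q, y * y * y * q = y * (y * (y * q * y⁻¹) * y⁻¹) * y⁻¹ * (y * y * y) := fun q => by group
  obtain ⟨a, d, f, a0, hx⟩ := h.hx
  have xz : x ≠ z := fun e => a0 (by rw [e, h.hz, U_inj] at hx; exact hx.1.symm)
  have e1 : y * (y * y * y) * y⁻¹ = y * y * y := by group
  rcases h.hQ _ (h.cq (n := y * y * y) (by rw [e, h.yz, h.yx, h.yzx]) (by rw [e, h.yx, h.yzx, h.yz])) with e2 | e2 | e2 | e2
  · exact e2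
  · rw [e2, h.yz] at e1; exact absurd e1 xz
  · rw [e2, h.yx] at e1; exact absurd (by simpa using e1) h.z1
  · rw [e2, h.yzx] at e1
    exact absurd (by simpa using e1) (h.yz ▸ conj_ne h.z1 : x ≠ 1)

theorem perm : ∃ (P : G4 K) (v : Fin 4 → K), PF (cjr P ρ) z x y ∧ v 3 = 1 ∧ ρ y *ᵥ v = v ∧
    P.val = cols v (ρ z *ᵥ v) (ρ x *ᵥ v) (ρ (z * x) *ᵥ v) := by
  obtain ⟨a, d, f, a0, hx⟩ := h.hx
  obtain ⟨_, _, _, c1, c2, c3, -⟩ := h.act h.y2 h.hz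
  obtain ⟨_, _, _, c4, c5, c6, -⟩ := h.act h.y2 hx
  rw [h.yz, hx, U_inj] at c1
  rw [h.yx, map_mul, h.hz, hx, U_mul, U_inj] at c4
  have c7 := h.det2 h.y2
  have c8 := Sz1.sq_inj (a := ρ y 0 0) (b := 1) (by gc c1 c2 c3 c4 c5 c6 c7 a0)
  have c9 : ρ y 3 3 = 1 := by gc c7 c8
  obtain ⟨v, hv⟩ : ∃ v, v = Pi.single 3 1 + ρ y *ᵥ Pi.single 3 1 + ρ (y * y) *ᵥ Pi.single 3 1 := ⟨_, rfl⟩
  have v3 : v 3 = 1 := by simp [hv, mul4, mem_P2.1 h.y2, c9]; gc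
  have yv : ρ y *ᵥ v = v := by
    simp only [hv, mulVec_add, mulVec_mulVec, ← map_mul, ← mul_assoc, h.y3, map_one, one_mulVec]; abel
  have hd : (cols v (ρ z *ᵥ v) (ρ x *ᵥ v) (ρ (z * x) *ᵥ v)).det ≠ 0 := by
    rw [det4, map_mul, h.hz, hx, U_mul]
    simp [cols, U, mulVec, dotProduct, Fin.sum_univ_four, v3]
    gc a0
  have e : ∀ q, ρ y *ᵥ ρ q *ᵥ v = ρ (y * q * y⁻¹) *ᵥ v := fun q => by
    conv_rhs => rw [← yv]
    rw [mulVec_mulVec, mulVec_mulVec, cj4]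
  refine ⟨mkU _ hd, v, ⟨h.toBas.cj _, cjr_of ?_, cjr_of ?_, cjr_of ?_⟩, v3, yv, rfl⟩
  · rw [mkU_val, mul_cols, (cols_mul ..).1]
    simp only [mulVec_mulVec, ← map_mul, ← mul_assoc, h.z2, map_one, one_mulVec, one_mul]
  · rw [mkU_val, mul_cols, (cols_mul ..).2.1]
    simp only [mulVec_mulVec, ← map_mul, ← mul_assoc, h.x2, h.xz, map_one, one_mulVec, one_mul]
    rw [mul_assoc, h.x2, mul_one]
  · rw [mkU_val, mul_cols, (cols_mul ..).2.2.1, e, e, e, yv, h.yz, h.yx, h.yzx]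

end FR

theorem TQ.vg {z g : G} (h : TQ ρ z g) : ∃ P x y τ, VG (cjr P ρ) z x y g (T0 ρ) τ := by
  obtain ⟨x, y, h'⟩ := h.fr
  obtain ⟨P, -, hP, -⟩ := h'.perm
  obtain ⟨a, d, f, a0, hx⟩ := h'.hx
  obtain ⟨τ, hτ⟩ := h.qd a0 hx h.gz h.g10
  exact ⟨P, x, y, τ, hP, h.odd, fun q hq => h'.hQ q (h.hT q hq), h.gz, hτ.cj P⟩

theorem D8.dg {z x u y0 : G} (h : D8 ρ z x u y0) : ∃ P y, DG (cjr P ρ) z x y u (T0 ρ) := by
  obtain ⟨a, d, f, b, d2, e2, f2, ab, hx, hu, tr, dt⟩ := h.hx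
  have a0 : a ≠ 0 := by gc ab
  have xQ : x ∈ Q0 ρ := ⟨_, _, _, hx⟩
  have uA : u ∈ A0 ρ := ⟨_, _, _, _, hu⟩
  have x2 := h.Q_sq x xQ
  have u2 := h.A_sq u uA
  have ui := inv_eq_of_mul_eq_one_right u2
  have xz := h.cen x (Q_le_T xQ)
  have uz := h.cen u (A_le_T uA)
  have z2 := h.z2
  have ux : u * x * u⁻¹ = z * x := by
    have := actQ hu hx
    rw [ab] at this
    rw [← h.Q_eq this h.hz, mul_assoc _ x x, x2, mul_one]
  have uz' : u * z * u⁻¹ = z := by rw [uz]; simp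
  have uzx : u * (z * x) * u⁻¹ = x := by rw [← conj_mul, ux, uz', ← mul_assoc, z2, one_mul]
  have xz1 : x ≠ z := fun e => a0 (by rw [e, h.hz, U_inj] at hx; exact hx.1.symm)
  have x1 : x ≠ 1 := fun e => a0 (by rw [e, map_one, U_one, U_inj] at hx; exact hx.1.symm)
  obtain ⟨s, s2, sP, sz⟩ : ∃ s, s * s = 1 ∧ s ∈ P2 ρ ∧ (s * z * s⁻¹ = x ∧ s * x * s⁻¹ = z ∨
      s * z * s⁻¹ = z * x ∧ s * x * s⁻¹ = x) := by
    refine ⟨y0 * u * y0⁻¹, conj_sq u2, mul_mem (mul_mem h.y2 (T_le_P2 (A_le_T uA))) (inv_mem h.y2), ?_⟩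
    have e : ∀ q, y0 * u * y0⁻¹ * (y0 * q * y0⁻¹) * (y0 * u * y0⁻¹)⁻¹ = y0 * (u * q * u⁻¹) * y0⁻¹ := fun q => by group
    have e1 := e z
    have e2 := e x
    have e3 := e (z * x)
    rw [uz'] at e1
    rw [ux, ← conj_mul (a := z)] at e2
    rw [uzx, ← conj_mul (a := z)] at e3
    have n1 : y0 * z * y0⁻¹ ≠ z := fun e => h.y1 (h.A_line h.zA h.z1 (e.symm ▸ h.zA))
    have n2 : y0 * z * y0⁻¹ ≠ y0 * x * y0⁻¹ := by simpa using xz1.symm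
    rcases h.hQ _ (h.Q_norm h.y2 h.zQ) with c | c | c | c
    · exact absurd c (conj_ne h.z1)
    · exact absurd c n1
    · rcases h.hQ _ (h.Q_norm h.y2 xQ) with c' | c' | c' | c'
      · exact absurd c' (conj_ne x1)
      · rw [c, c'] at e2; rw [c] at e1; exact Or.inr ⟨e2.trans xz, e1⟩
      · exact absurd (c.trans c'.symm) n2
      · rw [c, c', ← mul_assoc x, xz, mul_assoc z, x2, mul_one] at e3; rw [c] at e1; exact Or.inr ⟨e3, e1⟩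
    · have e4 : z * x * z = x := by rw [mul_assoc, xz, ← mul_assoc, z2, one_mul]
      have e5 : z * x * x = z := by rw [mul_assoc, x2, mul_one]
      rcases h.hQ _ (h.Q_norm h.y2 xQ) with c' | c' | c' | c'
      · exact absurd c' (conj_ne x1)
      · rw [c, c', e4] at e2 e3; exact Or.inl ⟨e2, e3⟩
      · rw [c, c', e5] at e2 e3; exact Or.inl ⟨e3, e2⟩
      · exact absurd (c.trans c'.symm) n2
  have uP := T_le_P2 (A_le_T uA)
  obtain ⟨y, yP, yu, yz, yx⟩ : ∃ y ∈ P2 ρ, u * y = y⁻¹ * u ∧ y * z * y⁻¹ = x ∧ y * x * y⁻¹ = z * x := by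
    have si := inv_eq_of_mul_eq_one_right s2
    have e : ∀ a b q : G, a * b * q * (a * b)⁻¹ = a * (b * q * b⁻¹) * a⁻¹ := fun a b q => by group
    rcases sz with ⟨e1, e2⟩ | ⟨e1, e2⟩
    · exact ⟨s * u, mul_mem sP uP, by rw [_root_.mul_inv_rev, ui, si, mul_assoc], by rw [e, uz', e1],
        by rw [e, ux, ← conj_mul, e1, e2, xz]⟩
    · exact ⟨u * s, mul_mem uP sP, by rw [_root_.mul_inv_rev, ui, si, ← mul_assoc, u2, mul_assoc, u2]; simp,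
        by rw [e, e1, uzx], by rw [e, e2, ux]⟩
  have h' : FR ρ z x y := ⟨h.toNC, ⟨a, d, f, a0, hx⟩, h.hQ, yP, yz, yx⟩
  obtain ⟨P, v, hP, v3, yv, eP⟩ := h'.perm
  refine ⟨P, y, hP, cjr_of ?_, h.odd, fun t ht => ?_, ⟨A_le_T h.zA, Q_le_T xQ, A_le_T uA⟩, fun g gz => ?_, fun w hw => ?_, ?_⟩
  · have e1 : ρ u *ᵥ v = ρ z *ᵥ v + ρ x *ᵥ v + ρ (z * x) *ᵥ v := by
      have e3 : ρ y *ᵥ ρ u *ᵥ v = ρ u *ᵥ v := by
        conv_lhs => rw [← yv]
        rw [mulVec_mulVec, mulVec_mulVec, ← map_mul, ← map_mul, mul_assoc, yu, mul_inv_cancel_left]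
      obtain ⟨_, _, _, c1, c2, c3, -⟩ := h.act yP h.hz
      rw [yz, hx, U_inj] at c1
      have c4 := congrFun e3 2
      have c5 := congrFun yv 2
      rw [hu] at c4
      simp [mulVec, dotProduct, Fin.sum_univ_four, U, mem_P2.1 yP, v3] at c4 c5
      have c6 : b * v 2 + e2 = 0 := by gc c1 c3 c4 c5 a0
      ext i
      rw [map_mul, hu, h.hz, hx, U_mul]
      fin_cases i <;> simp [mulVec, dotProduct, Fin.sum_univ_four, U, v3] <;> gc c6 ab dt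
    have e2 : ∀ q, ρ u *ᵥ ρ q *ᵥ v = ρ (u * q * u⁻¹) *ᵥ ρ u *ᵥ v := fun q => by rw [mulVec_mulVec, mulVec_mulVec, cj4]
    rw [eP, mul_cols, (cols_mul ..).2.2.2, e2, e2, e2, uz', ux, uzx, e1]
    simp only [mulVec_add, mulVec_mulVec, ← map_mul, ← mul_assoc, z2, x2, xz, map_one, one_mul, one_mulVec,
      show z * x * z = x by rw [mul_assoc, xz, ← mul_assoc, z2, one_mul], show z * x * x = z by rw [mul_assoc, x2, mul_one]]
    congr 1 <;> abel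
  · rcases h.hT t ht with e | e
    · exact ⟨t, h.hQ t e, Or.inl rfl⟩
    · exact ⟨t * u, h.hQ _ e, Or.inr (by rw [mul_assoc, u2, mul_one])⟩
  · by_cases g0 : ρ g 1 0 = 0
    · left
      have g2 := (h.cenZ h.hz h.z1 gz g0).2.1
      rcases h.hQ _ (h.Q_norm g2 xQ) with c | c | c | c
      · exact absurd c (conj_ne x1)
      · exact absurd (by simpa using c.trans (show z = g * z * g⁻¹ by rw [gz, mul_inv_cancel_right])) xz1
      · exact Q_le_T (h'.cq gz (by rw [← mul_inv_eq_iff_eq_mul, c]))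
      · have := Q_le_T (h'.cq (n := u * g) (by rw [mul_assoc, gz, ← mul_assoc, uz, mul_assoc]) (by
          rw [← mul_inv_eq_iff_eq_mul]
          calc _ = u * (g * x * g⁻¹) * u⁻¹ := by group
            _ = x := by rw [c, uzx]))
        simpa using mul_mem (inv_mem (A_le_T uA)) this
    · obtain ⟨τ, hτ⟩ := h.qd a0 hx gz g0
      exact Or.inr ⟨τ, hτ.cj P⟩
  · obtain ⟨e1, e2⟩ := Ax_cj.1 hw
    rw [h.hz] at e1 e2
    refine h.hA w ⟨ρ w 1 2, ρ w 0 2, ρ w 1 3, ρ w 0 3, ?_⟩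
    entw [CharTwo.add_self_eq_zero] at e1
    entw [CharTwo.add_self_eq_zero] at e2
    ent
    gc e1 e2
  · obtain ⟨g, hg⟩ := h.fu
    have u1 : u ≠ 1 := fun e => h.z1 (by rw [← hg, e]; simp)
    refine ⟨g, hg, ?_⟩
    rcases h.hA _ (A_norm (h.A_line uA u1 (hg ▸ h.zA)) h.zA) with c | c | c | c
    · exact absurd c (conj_ne h.z1)
    · have : z = u := by simpa using c.trans hg.symm
      rw [← this, h.hz, U_inj] at hu
      exact absurd hu.2.1.symm (by gc ab)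
    · exact Or.inl c
    · exact Or.inr c

end Cfsg.Agent.H3.C2
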