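import Cfsg.Agent.H3.C2g

/-! The four-group case is impossible. -/

set_option autoImplicit false
set_option linter.unusedSectionVars false

namespace Cfsg.Agent.H3.C2

open Matrix H2.M4 H3.Sz3

variable {K : Type*} [Field K] [CharP K 2] [Finite K] {G : Type*} [Group G] [Finite G] {ρ : G →* M4 K}

/-- shape of the torus elements -/
def Hm (a τ b c : K) : M4 K := !![a, 0, b, c; 0, a, c, b; b, c, a + τ, 0; c, b, 0, a + τ]

theorem Qd.inv {h : G} {τ : K} (e : Qd ρ h τ) : ρ h⁻¹ = ρ h + τ • 1 := by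
  have : ρ h * (ρ h + τ • 1) = 1 := by
    rw [mul_add, mul_smul_comm, mul_one, ← e.2, ← add_assoc, add_self4, zero_add]
  calc ρ h⁻¹ = ρ h⁻¹ * (ρ h * (ρ h + τ • 1)) := by rw [this, mul_one]
    _ = _ := by rw [← mul_assoc, inv_mul4, one_mul]

theorem PF.shape {z x y h : G} {τ : K} (p : PF ρ z x y) (hz : h * z = z * h) (hx : x * h * x = h⁻¹) (e : Qd ρ h τ) :
    ∃ a b c, ρ h = Hm a τ b c ∧ a ^ 2 + τ * a + (b + c) ^ 2 = 1 := by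
  have e1 := p.comm.1 hz
  have e2 := congrArg ρ hx
  have e3 := e.2
  have e4 := e.1
  rw [e.inv, map_mul, map_mul, p.hx] at e2
  rw [p.hz] at e1
  generalize ρ h = X at *
  ent at e1
  ent at e2
  have e5 : X = !![X 0 0, X 0 1, X 0 2, X 0 3; X 0 1, X 0 0, X 0 3, X 0 2; X 0 2, X 0 3, X 0 0 + τ, X 0 1;
      X 0 3, X 0 2, X 0 1, X 0 0 + τ] := by ent; gc e1 e2
  rw [e5] at e3
  ent at e3
  have e6 : X 0 1 = 0 := by gc e3 e4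
  exact ⟨X 0 0, X 0 2, X 0 3, by rw [e5]; simp [Hm, e6], by gc e3 e6⟩

/-- the centraliser of the frame -/
noncomputable def Jg (γ : K) : G4 K := mkU !![1 + γ, γ, γ, γ; γ, 1 + γ, γ, γ; γ, γ, 1 + γ, γ; γ, γ, γ, 1 + γ]
  (by rw [det4]; simp; gc)

theorem PF.norm {z x y : G} (p : PF ρ z x y) (γ : K) : PF (cjr (Jg γ) ρ) z x y :=
  ⟨p.toBas.cj _, cjr_of (by rw [p.hz, Jg, mkU_val]; ent), cjr_of (by rw [p.hx, Jg, mkU_val]; ent),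
    cjr_of (by rw [p.hy, Jg, mkU_val]; ent)⟩

theorem norm_h {h : G} {a τ b c : K} (τ0 : τ ≠ 0) (e : ρ h = Hm a τ b c) : cjr (Jg (c / τ)) ρ h = Hm a τ (b + c) 0 :=
  cjr_of (by rw [e, Jg, mkU_val]; entw [Hm]; gc τ0)

theorem inv_x {x g : G} (x2 : x * x = 1) : x * (x * (g * x * g⁻¹)) ^ 2 * x = ((x * (g * x * g⁻¹)) ^ 2)⁻¹ := by
  have := conj_sq (g := g) x2
  generalize g * x * g⁻¹ = w at *
  rw [sq, _root_.mul_inv_rev, _root_.mul_inv_rev, inv_eq_of_mul_eq_one_right x2, inv_eq_of_mul_eq_one_right this]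
  simp [← mul_assoc, x2]

theorem Bas0.nt2 (h : Bas0 ρ) {u : G} (u2 : u * u = 1) (e : ρ u 2 0 = 0 ∧ ρ u 2 1 = 0 ∧ ρ u 2 2 = 1 ∧ ρ u 2 3 = 0 ∧
    ρ u 3 0 = 0 ∧ ρ u 3 1 = 0 ∧ ρ u 3 2 = 0 ∧ ρ u 3 3 = 1) : ρ u 0 0 = 1 ∧ ρ u 0 1 = 0 ∧ ρ u 1 0 = 0 ∧ ρ u 1 1 = 1 := by
  have e1 := h.sq.1 u2
  entw [e] at e1
  have e2 := Sz1.sq_inj (a := ρ u 0 0) (b := ρ u 1 1) (by gc e1)
  by_cases q0 : ρ u 0 1 = 0
  · have e3 := Sz1.sq_inj (a := ρ u 0 0) (b := 1) (by gc e1 q0)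
    by_cases r0 : ρ u 1 0 = 0
    · gc e2 e3 q0 r0
    have := h.nt u ![0, 1, 0, 0] ![ρ u 1 0, 0, ρ u 1 2, ρ u 1 3] (by entw [e]; gc e1 e2 e3 q0 r0)
    simp [this]
  · have := h.nt u ![1, (ρ u 0 0 + 1) / ρ u 0 1, 0, 0] ![ρ u 0 0 + 1, ρ u 0 1, ρ u 0 2, ρ u 0 3] (by
      entw [e]; gc e1 e2 q0)
    simp [this]

theorem top_eq (X : M4 K) : !![(1 : K), 0, 0, 0; 0, 1, 0, 0] * X * !![(1 : K), 0; 0, 1; 0, 0; 0, 0] =
    !![X 0 0, X 0 1; X 1 0, X 1 1] := by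
  ext i j; fin_cases i <;> fin_cases j <;> simp [Matrix.mul_apply, Fin.sum_univ_four, vecMul, dotProduct]

/-- the top left block -/
def topH (ρ : G →* M4 K) (B : Subgroup G) (hB : B ≤ P1 ρ) : B →* M2 K where
  toFun n := !![ρ n 0 0, ρ n 0 1; ρ n 1 0, ρ n 1 1]
  map_one' := by simp [eq2]
  map_mul' a b := by simp [eq2, mul2, mul4, mem_P1.1 (hB b.2)]

theorem sq2 {X : M2 K} (e : X 0 0 + X 1 1 = 0) (r : ℕ) : X ^ (2 * r + 1) = X.det ^ r • X := by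
  have : X ^ 2 = X.det • 1 := by rw [sq, det_fin_two, eq2]; simp [mul2]; gc e
  rw [pow_succ, pow_mul, this, smul_pow, one_pow, smul_mul_assoc, one_mul]

theorem Bas0.hom1 (h : Bas0 ρ) {η η' : G} {μ ν : K} (ν0 : ν ≠ 0) {c φ : Fin 4 → K} (c1 : c 1 ≠ 0) (e0 : φ ⬝ᵥ c = 1)
    (e1 : ρ η = μ • 1 + ν • vecMulVec (Pi.single 0 1) (Pi.single 0 1)) (e2 : ρ η' = μ • 1 + ν • vecMulVec c φ) :
    η * η' = η' * η := by
  have hd : (!![1, c 0, 0, 0; 0, c 1, 0, 0; 0, c 2, 1, 0; 0, c 3, 0, 1] : M4 K).det ≠ 0 := by rw [det4]; simpa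
  have h' := h.cj (mkU _ hd)
  simp only [dotProduct, Fin.sum_univ_four] at e0
  have f1 : cjr (mkU _ hd) ρ η = !![μ + ν, ν * c 0, 0, 0; 0, μ, 0, 0; 0, 0, μ, 0; 0, 0, 0, μ] :=
    cjr_of (by rw [e1, mkU_val]; entw [vecMulVec_apply]; gc)
  have f2 : cjr (mkU _ hd) ρ η' = !![μ, 0, 0, 0; ν * φ 0, μ + ν, ν * φ 2, ν * φ 3; 0, 0, μ, 0; 0, 0, 0, μ] :=
    cjr_of (by rw [e2, mkU_val]; entw [vecMulVec_apply]; gc e0)
  generalize cjr (mkU _ hd) ρ = ρ' at *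
  let B : Subgroup G := mkSub (fun g => g ∈ P1 ρ' ∧ ρ' g 2 3 = 0 ∧ ρ' g 3 2 = 0 ∧ ρ' g 3 3 = ρ' g 2 2) ⟨one_mem _, by simp⟩
    fun a b ha hb => ⟨mul_mem ha.1 hb.1, by simp [mul4, mem_P1.1 ha.1, ha.2, hb.2]⟩
  have key := odd2 (topH ρ' B fun g hg => hg.1) (fun g e => by
    obtain ⟨_, k, ⟨r, rfl⟩, hk⟩ := exists_odd_pow g
    have e3 := sq2 e r
    rw [← map_pow] at e3
    have d0 := pow_ne_zero r (det_ne (topH ρ' B fun g hg => hg.1) g)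
    generalize (topH ρ' B (fun g hg => hg.1) g).det ^ r = δ at *
    generalize g ^ (2 * r + 1) = u at *
    obtain ⟨u, hu, u1, u2, u3⟩ := u
    have hk' : u ^ 2 ^ k = 1 := congrArg Subtype.val hk
    have hp : ∀ n : ℕ, ρ' (u ^ n) 2 2 = ρ' u 2 2 ^ n := fun n => by
      induction n with
      | zero => simp
      | succ n ih => rw [pow_succ', map_mul, mul4, ih]; simp [mem_P1.1 hu, u1, pow_succ']
    have u4 : ρ' u 2 2 = 1 := by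
      have := hp (2 ^ k)
      rw [hk', map_one, one_apply_eq] at this
      have h2 : (ρ' u 2 2 - 1) ^ 2 ^ k = 0 := by rw [sub_pow_char_pow, ← this]; simp
      exact sub_eq_zero.1 (pow_eq_zero_iff (by positivity) |>.1 h2)
    have u5 := h'.det u
    have hu' := mem_P1.1 hu
    rw [det4] at u5
    simp only [topH, eq2] at e3 e
    simp at e3 e
    have u6 : ρ' u 0 0 = ρ' u 1 1 := by gc e3 e
    have u7 : u * u = 1 := h'.ntA (b := ρ' (u * u) 1 2) (d := ρ' (u * u) 0 2) (e := ρ' (u * u) 1 3) (f := ρ' (u * u) 0 3)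
      (by rw [map_mul]; entw [hu', u1, u2, u3, u4]; simp only [hu', u1, u2, u3, u4] at u5; gc u5 u6)
      (by simp only [map_mul, mul4, hu', u1, u2, u3, u4] at u5 ⊢; gc u5 u6)
    have u8 := h'.nt2 u7 (by simp [hu', u1, u2, u3, u4])
    refine ⟨δ⁻¹, ?_⟩
    simp only [topH, eq2]
    simp
    gc u8 e3 d0) ⟨η, by simp [B, mem_P1, f1]⟩ ⟨η', by simp [B, mem_P1, f2]⟩
  simp [topH, eq2, mul2, f1, f2, -mul_eq_zero, -mul_eq_mul_left_iff, -mul_eq_mul_right_iff] at key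
  have k1 : c 0 = 0 := by gc key ν0
  have k2 : φ 0 = 0 := by gc key ν0
  refine h'.comm.2 ?_
  rw [f1, f2, k1, k2]
  ent
  gc

theorem PF.hom {z x y η : G} (p : PF ρ z x y) {μ ν : K} (ν0 : ν ≠ 0)
    (e1 : ρ η = μ • 1 + ν • vecMulVec (Pi.single 0 1) (Pi.single 0 1)) : False := by
  have η1 : η ≠ 1 := fun e => by
    rw [e, map_one] at e1
    entw [vecMulVec_apply] at e1
    gc e1 ν0
  have f : ∀ g, ρ (g * η * g⁻¹) = μ • 1 + ν • vecMulVec (ρ g *ᵥ Pi.single 0 1) (Pi.single 0 1 ᵥ* ρ g⁻¹) := fun g => by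
    rw [map_mul, map_mul, e1, mul_add, add_mul, mul_smul_comm, mul_smul_comm, smul_mul_assoc, smul_mul_assoc, mul_one,
      mul_inv4, mul_vecMulVec, vecMulVec_mul]
  have f0 : ∀ g, (Pi.single 0 1 ᵥ* ρ g⁻¹) ⬝ᵥ (ρ g *ᵥ Pi.single 0 1) = (1 : K) := fun g => by
    rw [← dotProduct_mulVec, mulVec_mulVec, inv_mul4]; simp
  have yη : y * η = η * y := p.comm.2 (by rw [e1, p.hy]; entw [vecMulVec_apply])
  have k1 : ∀ g, ρ g 1 0 ≠ 0 → g * η * g⁻¹ * η = η * (g * η * g⁻¹) := fun g hg =>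
    (p.hom1 ν0 (by simpa using hg) (f0 g) e1 (f g)).symm
  have k2 : ∀ g, y * g * η * (y * g)⁻¹ * η = η * (y * g * η * (y * g)⁻¹) → g * η * g⁻¹ * η = η * (g * η * g⁻¹) := fun g e => by
    have := mul_mem (mul_mem (inv_mem (mem_cen.2 yη)) (mem_cen.2 e)) (mem_cen.2 yη)
    exact mem_cen.1 (by simpa [mul_assoc] using this)
  refine simple_comm p.simple p.nab η1 η1 fun g => ?_
  by_cases g1 : ρ g 1 0 = 0
  swap; · exact k1 g g1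
  by_cases g3 : ρ g 3 0 = 0
  swap; · exact k2 g (k1 _ (by simpa [mul4, p.hy, my] using g3))
  by_cases g2 : ρ g 2 0 = 0
  swap; · exact k2 g (k2 _ (k1 _ (by simp only [map_mul, mul4, p.hy]; simpa [my] using g2)))
  have e3 := p.nt (g * η * g⁻¹ * η⁻¹) (Pi.single 0 ν)
    ((ρ g 0 0 • (Pi.single 0 1 ᵥ* ρ g⁻¹) + Pi.single 0 1) ᵥ* ρ η⁻¹) (by
      rw [← vecMulVec_mul, ← mul_inv4 (ρ := ρ) η, ← add_mul, map_mul, f, e1]
      congr 1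
      entw [vecMulVec_apply, g1, g2, g3]
      gc)
  rw [mul_inv_eq_one.1 e3]

variable (ρ) in
/-- block diagonal elements -/
def BD : Subgroup G := mkSub (fun g => g ∈ P1 ρ ∧ ρ g 0 2 = 0 ∧ ρ g 0 3 = 0 ∧ ρ g 1 2 = 0 ∧ ρ g 1 3 = 0) ⟨one_mem _, by simp⟩
  fun a b ha hb => ⟨mul_mem ha.1 hb.1, by simp [mul4, ha.2, hb.2]⟩

theorem mem_BD {g : G} : g ∈ BD ρ ↔ (ρ g 2 0 = 0 ∧ ρ g 2 1 = 0 ∧ ρ g 3 0 = 0 ∧ ρ g 3 1 = 0) ∧
    ρ g 0 2 = 0 ∧ ρ g 0 3 = 0 ∧ ρ g 1 2 = 0 ∧ ρ g 1 3 = 0 := Iff.rfl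

theorem nil2 {p q r s p' q' r' s' : K} (h1 : p * p + q * r = 1) (h2 : p * q + q * s = 0) (h3 : r * q + s * s = 1)
    (h1' : p' * p' + q' * r' = 1) (h3' : r' * q' + s' * s' = 1) (e : p * p' + q * r' = p' * p + q' * r) :
    (p + 1) * (p' + 1) + q * r' = 0 ∧ (p + 1) * q' + q * (s' + 1) = 0 ∧ r * (p' + 1) + (s + 1) * r' = 0 ∧
      r * q' + (s + 1) * (s' + 1) = 0 := by
  obtain rfl := Sz1.sq_inj (a := p) (b := s) (by gc h1 h3)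
  obtain rfl := Sz1.sq_inj (a := p') (b := s') (by gc h1' h3')
  refine ⟨Sz1.sq_inj ?_, Sz1.sq_inj ?_, Sz1.sq_inj ?_, Sz1.sq_inj ?_⟩ <;> gc h1 h1' e

theorem bd_ax {r s : G} (hr : r ∈ BD ρ) (hs : s ∈ BD ρ) (r2 : r * r = 1) (s2 : s * s = 1) (e : r * s = s * r) :
    (ρ r + 1) * (ρ s + 1) = 0 := by
  have e1 := congrArg ρ r2
  have e2 := congrArg ρ s2
  have e3 := congrArg ρ e
  rw [mem_BD] at hr hs
  simp only [map_mul, map_one] at e1 e2 e3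
  entw [hr] at e1
  entw [hs] at e2
  entw [hr, hs] at e3
  entw [hr, hs]
  have := nil2 e1.1.1 e1.1.2 e1.2.1.2 e2.1.1 e2.2.1.2 e3.1.1
  have := nil2 e1.2.2.1.1 e1.2.2.1.2 e1.2.2.2.2 e2.2.2.1.1 e2.2.2.2.2 e3.2.2.1.1
  tauto

theorem v4bd {T : Subgroup G} (ho : Odd T.index) (hT : ∀ s ∈ T, s * s = 1)
    (hJ : ∀ s ∈ T, ∀ t ∈ T, s ≠ 1 → t ≠ 1 → s ≠ t → ¬ Ax ρ s t) {h k : G} (hh : h ∈ BD ρ) (hk : k ∈ BD ρ)
    (e1 : ρ h 0 1 = 0) (e2 : ρ h 1 0 = 0) (e3 : ρ h 0 0 + ρ h 1 1 ≠ 0) (e4 : ρ k 0 1 ≠ 0) (e5 : ρ k 0 0 + ρ k 1 1 ≠ 0) : False := by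
  obtain ⟨N, hN, h2⟩ := odd_sub (G := BD ρ) fun h4 => by
    obtain ⟨R, hR⟩ := Sylow.exists_subgroup_card_pow_prime 2 (n := 2) h4
    obtain ⟨c, -, hc⟩ := conj_sub (T := T) (L := ⊤) (R := R.map (BD ρ).subtype) (by simpa using ho) le_top
      ((IsPGroup.of_card hR).map _)
    have := Fintype.ofFinite R
    obtain ⟨a, b, d, n1, n2, n3⟩ := (Fintype.two_lt_card_iff (α := R)).1 (by rw [← Nat.card_eq_fintype_card, hR]; norm_num)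
    have m : ∀ a : R, c⁻¹ * a.1.1 * c ∈ T := fun a => hc _ ⟨a, a.2, rfl⟩
    have sq : ∀ r ∈ R.map (BD ρ).subtype, r * r = 1 := cjs_sq hT c⁻¹ |> fun e r hr => e r (by simpa [mem_cjs] using hc r hr)
    have ax : ∀ a b : R, (ρ a.1.1 + 1) * (ρ b.1.1 + 1) = 0 := fun a b =>
      bd_ax a.1.2 b.1.2 (sq _ ⟨a, a.2, rfl⟩) (sq _ ⟨b, b.2, rfl⟩) (comm_of_sq sq ⟨a, a.2, rfl⟩ ⟨b, b.2, rfl⟩)
    have inj : ∀ a b : R, c⁻¹ * a.1.1 * c = c⁻¹ * b.1.1 * c → a = b := fun a b e => Subtype.ext (Subtype.ext (by simpa using e))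
    refine hJ _ (m (a⁻¹ * b)) _ (m (a⁻¹ * d)) (fun e => n1 ?_) (fun e => n2 ?_) (fun e => n3 ?_)
      (by simpa using Ax.conj ⟨ax (a⁻¹ * d) (a⁻¹ * b), ax _ _⟩ c⁻¹)
    · exact inv_mul_eq_one.1 (inj _ 1 (by simpa using e))
    · exact inv_mul_eq_one.1 (inj _ 1 (by simpa using e))
    · exact mul_left_cancel (inj _ _ e)
  have key := odd2 ((topH ρ (BD ρ) fun g hg => hg.1).comp N.subtype) (fun g e => by
    obtain ⟨r, hr⟩ := hN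
    have e3 := sq2 e r
    rw [← map_pow, ← hr, pow_card_eq_one', map_one] at e3
    have d0 := pow_ne_zero r (det_ne ((topH ρ (BD ρ) fun g hg => hg.1).comp N.subtype) g)
    exact ⟨_, by rw [e3, smul_smul, inv_mul_cancel₀ d0, one_smul]⟩) ⟨_, h2 ⟨h, hh⟩⟩ ⟨_, h2 ⟨k, hk⟩⟩
  simp [topH, eq2, mul2, mul4, mem_BD.1 hh, mem_BD.1 hk, e1, e2, -mul_eq_zero, -mul_eq_mul_left_iff, -mul_eq_mul_right_iff] at key
  have := key.1
  gc this e3 e4 e5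

/-- the block frame -/
def Pb (π θ : K) : M4 K := !![π, 0, π, 0; 0, θ + 1, 0, θ; θ + 1, 0, θ, 0; 0, π, 0, π]

theorem Pb_det {π : K} (π0 : π ≠ 0) (θ : K) : (Pb π θ).det ≠ 0 := by rw [det4]; simp [Pb]; gc π0

theorem bd_frame {y h : G} {a τ π θ : K} (π0 : π ≠ 0) (hθ : θ ^ 2 + θ + π ^ 2 = 0) (hy : ρ y = my) (e : ρ h = Hm a τ (τ * π) 0) :
    cjr (mkU _ (Pb_det π0 θ)) ρ h = !![a + τ * θ + τ, 0, 0, 0; 0, a + τ * θ, 0, 0; 0, 0, a + τ * θ, 0; 0, 0, 0, a + τ * θ + τ] ∧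
    cjr (mkU _ (Pb_det π0 θ)) ρ (y * h * y⁻¹) = !![a, τ * π, 0, 0; τ * π, a + τ, 0, 0; 0, 0, a, τ * π; 0, 0, τ * π, a + τ] := by
  refine ⟨cjr_of ?_, cjr_of ?_⟩
  · rw [e, mkU_val]; entw [Hm, Pb]; gc hθ
  · rw [cj_eq (Y := !![a, 0, 0, τ * π; 0, a + τ, τ * π, 0; 0, τ * π, a, 0; τ * π, 0, 0, a + τ]) (by rw [hy, e]; entw [Hm]), mkU_val]
    entw [Pb]; and_intros <;> ring

theorem exists_root.{u} {K : Type u} [Field K] [CharP K 2] [Finite K] (π : K) : ∃ (L : Type u) (_ : Field L) (_ : Finite L) (_ : CharP L 2) (φ : K →+* L) (θ : L),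
    θ ^ 2 + θ + φ π ^ 2 = 0 := by
  let f : Polynomial K := Polynomial.X ^ 2 + Polynomial.X + Polynomial.C (π ^ 2)
  have hf : f.degree = 2 := by simp only [f]; compute_degree!
  obtain ⟨θ, hθ⟩ := (Polynomial.SplittingField.splits f).exists_eval_eq_zero (by rw [Polynomial.degree_map, hf]; norm_num)
  exact ⟨f.SplittingField, inferInstance, Module.finite_of_finite K, charP_of_injective_algebraMap (algebraMap K _).injective 2,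
    algebraMap _ _, θ, by simpa [f] using hθ⟩

theorem VG.false {z x y g : G} {T : Subgroup G} {τ : K} (v : VG ρ z x y g T τ) : False := by
  have x2 : x * x = 1 := v.sq.2 (by rw [v.hx]; ent)
  have z2 : z * z = 1 := v.sq.2 (by rw [v.hz]; ent)
  have xz : x * z = z * x := v.comm.2 (by rw [v.hx, v.hz]; ent)
  have hz : (x * (g * x * g⁻¹)) ^ 2 * z = z * (x * (g * x * g⁻¹)) ^ 2 := mem_cen.1 (pow_mem (mul_mem (mem_cen.2 xz)
    (mul_mem (mul_mem (mem_cen.2 v.gz) (mem_cen.2 xz)) (inv_mem (mem_cen.2 v.gz)))) 2)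
  obtain ⟨a, b, c, e, e'⟩ := v.shape hz (inv_x x2) v.qd
  have τ0 := v.qd.1
  have p := v.toPF.norm (c / τ)
  have e1 := norm_h τ0 e
  generalize (x * (g * x * g⁻¹)) ^ 2 = h at *
  generalize cjr (Jg (c / τ)) ρ = ρ' at *
  generalize b + c = β at *
  by_cases β0 : β = 0
  · have e2 : ρ' (y * h * y⁻¹) = !![a, 0, 0, 0; 0, a + τ, 0, 0; 0, 0, a, 0; 0, 0, 0, a + τ] :=
      cj_eq (by rw [p.hy, e1]; entw [Hm, β0])
    have e3 : ρ' (y * (y * h * y⁻¹) * y⁻¹) = !![a, 0, 0, 0; 0, a + τ, 0, 0; 0, 0, a + τ, 0; 0, 0, 0, a] :=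
      cj_eq (by rw [p.hy, e2]; ent)
    refine p.hom (η := h * (y * h * y⁻¹) * (y * (y * h * y⁻¹) * y⁻¹)) (μ := a + τ) (ν := a ^ 3 + a + τ) (fun e => ?_) ?_
    · have : a = 1 := Sz1.sq_inj (Sz1.sq_inj (by gc e e' β0))
      gc this e τ0
    · rw [map_mul, map_mul, e1, e2, e3]; entw [Hm, β0, vecMulVec_apply]; gc e' β0
  obtain ⟨L, _, _, _, φ, θ, hθ⟩ := exists_root (β / τ)
  let ρ2 : G →* M4 L := (φ.mapMatrix (m := Fin 4)).toMonoidHom.comp ρ'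
  have r2 : ∀ g, ρ2 g = (ρ' g).map φ := fun _ => rfl
  have π0 : φ (β / τ) ≠ 0 := by simp [β0, τ0]
  obtain ⟨f1, f2⟩ := bd_frame (ρ := ρ2) (y := y) (h := h) (a := φ a) (τ := φ τ) π0 hθ (by rw [r2, p.hy]; ent)
    (by rw [r2, e1, ← map_mul, mul_div_cancel₀ _ τ0]; entw [Hm])
  have τ1 : φ τ ≠ 0 := by simpa
  refine v4bd (ρ := cjr (mkU _ (Pb_det π0 θ)) ρ2) v.odd (fun s hs => ?_) (fun s hs t ht s1 t1 st ax => ?_) (h := h) (k := y * h * y⁻¹)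
    (by rw [mem_BD, f1]; simp) (by rw [mem_BD, f2]; simp) (by rw [f1]; simp) (by rw [f1]; simp) (by rw [f1]; simp; gc τ1)
    (by rw [f2]; simpa [τ0] using β0) (by rw [f2]; simp; gc τ1)
  · rcases v.hT s hs with rfl | rfl | rfl | rfl
    exacts [mul_one _, z2, x2, by rw [mul_assoc, ← mul_assoc x, xz, mul_assoc, x2, mul_one, z2]]
  · have := congrFun (congrFun (Ax_cj.1 ax).1 0) 0
    rcases v.hT s hs with rfl | rfl | rfl | rfl <;> rcases v.hT t ht with rfl | rfl | rfl | rfl <;>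
      first | exact s1 rfl | exact t1 rfl | exact st rfl | simp [r2, p.hz, p.hx, mul4, mz, mx] at this

end Cfsg.Agent.H3.C2
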