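import Cfsg.Agent.H3.C2h
import Cfsg.Agent.H5.Odd

/-! The dihedral case: the torus has order three. -/

set_option autoImplicit false
set_option linter.unusedSectionVars false

namespace Cfsg.Agent.H3.C2

open Matrix H2.M4 H3.Sz3 H3.Sz1

variable {K : Type*} [Field K] [CharP K 2] [Finite K] {G : Type*} [Group G] [Finite G] {ρ : G →* M4 K}

/-- four-groups with one axis are of type `ω` -/
def Om (ρ : G →* M4 K) : Prop := ∀ s w, s ≠ 1 → s * s = 1 → w ≠ 1 → w ≠ s → Ax ρ s w →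
  ∃ R, (ρ s + 1) * R * (ρ s + 1) = ρ s + 1 ∧ (ρ w + 1) * R * (ρ w + 1) + (ρ w + 1) + (ρ s + 1) = 0

theorem Om.cj (h : Om ρ) (P : G4 K) : Om (cjr P ρ) := fun s w s1 s2 w1 ws ax => by
  obtain ⟨R, e1, e2⟩ := h s w s1 s2 w1 ws (Ax_cj.1 ax)
  refine ⟨(P⁻¹).val * R * P.val, ?_, ?_⟩
  · simp only [cjr_add, cj_mul, e1]
  · simp only [cjr_add, cj_mul, ← add_mul, ← mul_add, e2, mul_zero, zero_mul]

/-- transvection on the second block -/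
def Tw (ρ : G →* M4 K) (s : G) (w : K × K) : Prop := s * s = 1 ∧ s ∈ BD ρ ∧ ρ s 2 2 = 1 + w.1 * w.2 ∧ ρ s 2 3 = w.1 ^ 2 ∧
  ρ s 3 2 = w.2 ^ 2 ∧ ρ s 3 3 = 1 + w.1 * w.2

theorem Bas0.tr (h : Bas0 ρ) {s t : G} {w : K × K} {k : K} (w0 : w ≠ 0) (k1 : k ≠ 1) (hs : Tw ρ s w) (ht : Tw ρ t (k • w)) :
    s * t = t * s := by
  obtain ⟨a, b⟩ := w
  obtain ⟨s2, sB, e1⟩ := hs
  obtain ⟨t2, tB, e2⟩ := ht
  simp only [Prod.smul_mk, smul_eq_mul] at e1 e2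
  have gB := mul_mem sB tB
  have g2B := mem_BD.1 (mul_mem gB gB)
  have g1 : ρ (s * t) 2 2 = 1 + (1 + k ^ 2) * a * b ∧ ρ (s * t) 2 3 = (1 + k ^ 2) * a ^ 2 ∧ ρ (s * t) 3 2 = (1 + k ^ 2) * b ^ 2 ∧
      ρ (s * t) 3 3 = 1 + (1 + k ^ 2) * a * b := by
    simp only [map_mul, mul4, mem_BD.1 sB, e1, e2]; gc
  generalize hg : s * t = g at *
  have gB' := mem_BD.1 gB
  have g2 : ρ (g * g) 2 2 = 1 ∧ ρ (g * g) 2 3 = 0 ∧ ρ (g * g) 3 2 = 0 ∧ ρ (g * g) 3 3 = 1 := by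
    simp only [map_mul, mul4, gB', g1]; gc
  have g3 : ¬ Odd (orderOf g) := by
    rintro ⟨r, hr⟩
    have : ∀ r : ℕ, ρ (g ^ (2 * r + 1)) 2 3 = ρ g 2 3 ∧ ρ (g ^ (2 * r + 1)) 3 2 = ρ g 3 2 := fun r => by
      induction r with
      | zero => simp
      | succ r ih =>
        rw [show g ^ (2 * (r + 1) + 1) = g * g * g ^ (2 * r + 1) by rw [← pow_two, ← pow_add]; congr 1; ring, map_mul]
        simp only [mul4, g2, g2B, ih]; simp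
    have e := this r
    rw [← hr, pow_orderOf_eq_one, g1.2.1, g1.2.2.1] at e
    simp [-mul_eq_zero] at e
    have k2 : 1 + k ^ 2 ≠ 0 := fun e => k1 (sq_inj (by gc e))
    refine w0 (Prod.ext (pow_eq_zero_iff (n := 2) (by norm_num) |>.1 ?_) (pow_eq_zero_iff (n := 2) (by norm_num) |>.1 ?_)) <;>
      gc e k2
  obtain ⟨m, m1, m2⟩ := H5.Odd.exists_involution_pow g3
  obtain ⟨c, hc⟩ := h.ev g _ m1 m2 (Commute.self_pow g m).eq
  rw [show ρ g ^ 4 = ρ (g * g) * ρ (g * g) by simp [pow_succ, mul_assoc], show ρ g ^ 2 = ρ (g * g) by simp [pow_two]] at hc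
  have c0 : c = 0 := by
    have := congrFun (congrFun hc 2) 2
    simp only [Matrix.add_apply, Matrix.smul_apply, mul4, g2, g2B] at this
    simp at this
    gc this
  have g4 : g * g * (g * g) = 1 := h.sq.2 (by
    rw [c0, zero_smul] at hc
    rw [← add_zero (_ * _), ← add_self4 1, ← add_assoc, hc, zero_add])
  have g5 := h.nt2 g4 (by simp only [g2, g2B, and_self])
  have g6 : g * g = 1 := h.inj (by rw [map_one, eq4]; simp only [g2, g2B, g5]; simp)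
  rw [← hg] at g6 ⊢
  rw [eq_inv_of_mul_eq_one_left g6, _root_.mul_inv_rev, inv_eq_of_mul_eq_one_right s2, inv_eq_of_mul_eq_one_right t2]

theorem Bas0.tr' (h : Bas0 ρ) (o : Om ρ) {s t : G} {w : K × K} {k : K} (w0 : w ≠ 0) (k0 : k ≠ 0) (hs : Tw ρ s w)
    (ht : Tw ρ t (k • w)) : k ^ 3 = 1 := by
  by_cases k1 : k = 1
  · simp [k1]
  have e := h.tr w0 k1 hs ht
  obtain ⟨a, b⟩ := w
  have w0' : a ≠ 0 ∨ b ≠ 0 := by by_contra! e; exact w0 (by simp [e])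
  obtain ⟨s2, sB, e1⟩ := hs
  obtain ⟨t2, tB, e2⟩ := ht
  simp only [Prod.smul_mk, smul_eq_mul] at e1 e2
  have k2 : 1 + k ^ 2 ≠ 0 := fun e => k1 (sq_inj (by gc e))
  obtain ⟨R, f1, f2⟩ := o s t (by rintro rfl; simp [-mul_eq_zero] at e1; gc e1 w0') s2
    (by rintro rfl; simp [-mul_eq_zero] at e2; gc e2 w0' k0) (by rintro rfl; gc e1 e2 w0' k2)
    ⟨bd_ax tB sB t2 s2 e.symm, bd_ax sB tB s2 t2 e⟩
  have f3 := congrFun (congrFun f1 2) 3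
  have f4 := congrFun (congrFun f1 3) 2
  have f5 := congrFun (congrFun f2 2) 3
  have f6 := congrFun (congrFun f2 3) 2
  simp only [Matrix.add_apply, mul4, mem_BD.1 sB, mem_BD.1 tB, e1, e2] at f3 f4 f5 f6
  simp [-mul_eq_zero] at f3 f4 f5 f6
  have : k ^ 4 + k ^ 2 + 1 = 0 := by rcases w0' with w0' | w0'; gc f3 f5 w0'; gc f4 f6 w0'
  exact sq_inj (by gc this)

theorem Tw.cl : Cl (B2 (1 : K)) {w | ∃ s, Tw ρ s w} := by
  rintro ⟨a, b⟩ ⟨s, s2, sB, e1⟩ ⟨c, d⟩ ⟨t, t2, tB, e2⟩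
  refine ⟨t * s * t, by simpa [inv_eq_of_mul_eq_one_right t2] using conj_sq (g := t) s2, mul_mem (mul_mem tB sB) tB, ?_⟩
  simp only [map_mul, mul4, mem_BD.1 sB, mem_BD.1 tB, e1, e2, B2_apply, Prod.smul_mk, Prod.mk_add_mk, smul_eq_mul]
  gc

theorem Bas0.excl (h : Bas0 ρ) {v r k : G} {ω l m : K} (hω : ω ^ 2 + ω + 1 = 0) (lm : l * m = 1) (e : l + m = ω)
    (hv : ρ v = !![0, 1, 0, 0; 1, 0, 0, 0; 0, 0, 0, 1; 0, 0, 1, 0])
    (hr : ρ r = !![ω + 1, ω, 0, 0; ω, ω + 1, 0, 0; 0, 0, ω, ω + 1; 0, 0, ω + 1, ω])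
    (hk : ρ k = !![m, 0, 0, 0; 0, l, 0, 0; 0, 0, l, 0; 0, 0, 0, m]) : False := by
  have e1 : ρ (r * k * v) = !![ω * l, (ω + 1) * m, 0, 0; (ω + 1) * l, ω * m, 0, 0; 0, 0, (ω + 1) * m, ω * l;
      0, 0, ω * m, (ω + 1) * l] := by rw [map_mul, map_mul, hv, hr, hk]; ent
  generalize r * k * v = g at e1
  have e2 : ρ (g * g * g) = !![l + ω + 1, ω * m, 0, 0; ω * l, m + ω + 1, 0, 0; 0, 0, 1, 0; 0, 0, 0, 1] := by
    rw [map_mul, map_mul, e1]; ent; and_intros <;> gc hω lm e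
  generalize g * g * g = g at e2
  have gB : g ∈ BD ρ := by rw [mem_BD, e2]; simp
  have rB : r ∈ BD ρ := by rw [mem_BD, hr]; simp
  have r2 : r * r = 1 := h.sq.2 (by rw [hr]; ent; gc)
  have e3 := cj4 (ρ := ρ) g r
  have sB := mul_mem (mul_mem gB rB) (inv_mem gB)
  have s2 := conj_sq (g := g) r2
  generalize g * r * g⁻¹ = s at *
  rw [e2, hr] at e3
  entw [mem_BD.1 sB] at e3
  have e4 := h.comm.1 (h.tr (s := v) (t := s) (w := (1, 1)) (k := ω) (by simp) (by gc hω)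
    ⟨h.sq.2 (by rw [hv]; ent), by rw [mem_BD, hv]; simp, by rw [hv]; simp; gc⟩ ⟨s2, sB, by simp [e3.2.2]; gc hω⟩)
  rw [hv] at e4
  entw [mem_BD.1 sB] at e4
  obtain ⟨e5, e6, -⟩ := e3
  obtain ⟨e7, -⟩ := e4
  gc e5 e6 e7 hω lm e

theorem Bas0.d8bd (h : Bas0 ρ) (o : Om ρ) {v r k : G} {ω l m : K} (hω : ω ^ 2 + ω + 1 = 0) (lm : l * m = 1) (e : l + m ≠ 0)
    (hv : ρ v = !![0, 1, 0, 0; 1, 0, 0, 0; 0, 0, 0, 1; 0, 0, 1, 0])
    (hr : ρ r = !![ω + 1, ω, 0, 0; ω, ω + 1, 0, 0; 0, 0, ω, ω + 1; 0, 0, ω + 1, ω])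
    (hk : ρ k = !![m, 0, 0, 0; 0, l, 0, 0; 0, 0, l, 0; 0, 0, 0, m]) : l + m = 1 := by
  have hr' : ρ (v * r) = !![ω + 1 + 1, ω + 1, 0, 0; ω + 1, ω + 1 + 1, 0, 0; 0, 0, ω + 1, ω + 1 + 1; 0, 0, ω + 1 + 1, ω + 1] := by
    rw [map_mul, hv, hr]; ent; gc
  have hA : Alt (B2 (1 : K)) := ⟨fun p => by simp; gc⟩
  have hX := Tw.cl (ρ := ρ)
  set X := {w | ∃ s, Tw ρ s w} with eX
  have sm : ∀ (a : K), ∀ y ∈ X, ∀ z ∈ X, B2 1 y z ≠ 0 → a • y ∈ X → a • z ∈ X := by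
    intro a y hy z hz hyz hay
    obtain ⟨d, hd, e, hw⟩ := Sz1.swap hA hX hy hz hyz
    have := hX _ hay _ hw
    simp only [map_add, map_smul, hA.self, e, smul_eq_mul, LinearMap.smul_apply] at this
    convert this using 1
    clear * - hd
    vv
  obtain ⟨μ, hμ⟩ := exists_sq l
  have μ0 : μ ≠ 0 := by gc hμ lm
  have hy : ((1, 1) : K × K) ∈ X := ⟨v, h.sq.2 (by rw [hv]; ent), by rw [mem_BD, hv]; simp, by rw [hv]; simp; gc⟩
  have hy1 : ω • ((1, 1) : K × K) ∈ X := ⟨r, h.sq.2 (by rw [hr]; ent; gc), by rw [mem_BD, hr]; simp, by rw [hr]; simp; gc hω⟩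
  have hy2 : ω ^ 2 • ((1, 1) : K × K) ∈ X :=
    ⟨v * r, h.sq.2 (by rw [hr']; ent; gc), by rw [mem_BD, hr']; simp, by rw [hr']; simp; gc hω⟩
  have hs : ρ (k * v) = !![0, m, 0, 0; l, 0, 0, 0; 0, 0, 0, l; 0, 0, m, 0] := by rw [map_mul, hv, hk]; ent
  have hz : ((μ, μ⁻¹) : K × K) ∈ X :=
    ⟨k * v, h.sq.2 (by rw [hs]; ent; gc lm), by rw [mem_BD, hs]; simp, by rw [hs]; simp; gc hμ lm μ0⟩
  have eB : B2 1 ((1, 1) : K × K) (μ, μ⁻¹) ^ 2 = l + m := by simp; gc hμ lm μ0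
  have z0 : ((μ, μ⁻¹) : K × K) ≠ 0 := by simp [μ0]
  generalize ((μ, μ⁻¹) : K × K) = z at *
  generalize ((1, 1) : K × K) = y at *
  have e0 : B2 1 y z ≠ 0 := by gc eB e
  have h0 : ω ≠ 0 := by gc hω
  obtain ⟨d, hd, e', h2⟩ := Sz1.swap hA hX hy hz e0
  have h3 := Sz1.T0 hA hX hy (sm _ y hy z hz e0 hy2) (d := ω * d) (mul_ne_zero h0 hd) (by
    simp only [map_smul, smul_eq_mul, e']; ring)
  have h4 := sm _ y hy _ h3 (by
    simp only [map_add, map_smul, hA.self, e', smul_eq_mul]; gc h0 hd) hy1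
  have h5 : 1 + ω ≠ 0 := by gc hω
  have h6 := Sz1.T0 hA hX h2 h4 h5 (by
    simp only [map_add, map_smul, hA.self, smul_eq_mul, LinearMap.smul_apply, LinearMap.add_apply, hA.symm z y, e']
    gc h0 hd)
  have h7 : ((1 + ω) * d⁻¹) • z ∈ X := by
    convert h6 using 1
    clear * - h0 hd h5
    vv
  obtain ⟨s, hs⟩ := hz
  obtain ⟨t, ht⟩ := h7
  have h8 := h.tr' o z0 (by gc h5 hd) hs ht
  have h9 : (l + m + 1) * (l + m + ω) * (l + m + ω + 1) = 0 := by rw [← eB, e']; gc h8 hω hd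
  by_contra ne
  rcases mul_eq_zero.1 h9 with h9 | h9
  · exact h.excl hω lm (by gc h9 ne) hv hr hk
  · exact h.excl (ω := ω + 1) (by gc hω) lm (by gc h9) hv hr' hk

end Cfsg.Agent.H3.C2
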