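import Cfsg.Agent.H3.C2i

/-! The dihedral case. -/

set_option autoImplicit false
set_option linter.unusedSectionVars false

namespace Cfsg.Agent.H3.C2

open Matrix H2.M4 H3.Sz3

variable {K : Type*} [Field K] [CharP K 2] [Finite K] {G : Type*} [Group G] [Finite G] {ρ : G →* M4 K}

/-- the input of the recognition of `A₇` -/
structure A7I (ρ : G →* M4 K) (z x y u k : G) : Prop extends Bas ρ where
  hz : ρ z = mz
  hx : ρ x = mx
  hy : ρ y = my
  hu : ρ u = mu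
  hk : ρ k = mh
  hT : ∀ s, s * s = 1 → s ≠ 1 → ∃ g, g * s * g⁻¹ = z
  hC : ∀ g, g * z = z * g → g ∈ Subgroup.closure {z, x, u, k}

theorem real_of_form {F : M4 K} (F2 : F * F = 1) (h : ∀ g, (ρ g)ᵀ * F * ρ g = F) : Real ρ := fun g => by
  have : ρ g⁻¹ = F * (ρ g)ᵀ * F := by
    calc ρ g⁻¹ = F * ((ρ g)ᵀ * F * ρ g) * ρ g⁻¹ := by rw [h, F2, one_mul]
      _ = _ := by simp only [mul_assoc, mul_inv4, mul_one]
  rw [this, trace_mul_comm, ← mul_assoc, F2, one_mul, trace_transpose]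

namespace DG
variable {z x y u : G} {T : Subgroup G} (h : DG ρ z x y u T)
include h

/-- equations from matrices -/
local macro "mat" : tactic => `(tactic| (simp only [map_mul, map_one, h.hz, h.hx, h.hy, h.hu]; ent <;> and_intros <;> gc))

theorem norm (γ : K) : DG (cjr (Jg γ) ρ) z x y u T :=
  ⟨h.toPF.norm γ, cjr_of (by rw [h.hu, Jg, mkU_val]; ent; gc), h.odd, h.hT, h.mT,
    fun g e => (h.cz g e).imp_right fun ⟨τ, e⟩ => ⟨τ, e.cj _⟩, fun w e => h.hA w (Ax_cj.1 e), h.fu⟩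

theorem z2 : z * z = 1 := h.inj (by mat)
theorem x2 : x * x = 1 := h.inj (by mat)
theorem u2 : u * u = 1 := h.inj (by mat)
theorem xz : x * z = z * x := h.inj (by mat)
theorem uz : u * z = z * u := h.inj (by mat)
theorem xu : x * u * x⁻¹ = z * u := by rw [mul_inv_eq_iff_eq_mul]; exact h.inj (by mat)
theorem yz : y * z * y⁻¹ = x := by rw [mul_inv_eq_iff_eq_mul]; exact h.inj (by mat)
theorem yx : y * x * y⁻¹ = z * x := by rw [mul_inv_eq_iff_eq_mul]; exact h.inj (by mat)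
theorem z1 : z ≠ 1 := fun e => by have := h.hz; rw [e, map_one] at this; ent at this
theorem u1 : u ≠ 1 := fun e => by have := h.hu; rw [e, map_one] at this; ent at this
theorem uz1 : u ≠ z := fun e => by have := h.hu; rw [e, h.hz] at this; ent at this
theorem ax : Ax ρ z u := by constructor <;> mat

theorem cases {t : G} (ht : t ∈ T) : t = 1 ∨ t = z ∨ t = x ∨ t = z * x ∨ t = u ∨ t = z * u ∨ t = x * u ∨ t = z * x * u := by
  obtain ⟨q, rfl | rfl | rfl | rfl, rfl | rfl⟩ := h.hT t ht <;> simp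

theorem Tle {M : Subgroup G} (hz : z ∈ M) (hx : x ∈ M) (hu : u ∈ M) : T ≤ M := fun t ht => by
  rcases h.cases ht with rfl | rfl | rfl | rfl | rfl | rfl | rfl | rfl <;> simp [mul_mem, *]

theorem cjz {M : Subgroup G} (hz : z ∈ M) (hx : x ∈ M) (hu : u ∈ M) (hy : y ∈ M) {g : G} (hg : g ∈ M) (e : g * u * g⁻¹ = z)
    {s : G} (hs : s ∈ M) (s2 : s * s = 1) (s1 : s ≠ 1) : ∃ c ∈ M, c * s * c⁻¹ = z := by
  obtain ⟨a, ha, e1⟩ := conj_into (odd_rel (P := ⊤) (by simpa using h.odd) (h.Tle hz hx hu) le_top) hs (k := 1)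
    (by rw [pow_one, pow_two, s2])
  suffices ∃ c ∈ M, c * (a⁻¹ * s * a) * c⁻¹ = z by
    obtain ⟨c, hc, e⟩ := this
    exact ⟨c * a⁻¹, mul_mem hc (inv_mem ha), by rw [← e]; group⟩
  have e2 := congrArg ρ (conj_sq' (g := a) s2)
  rcases h.cases e1 with c | c | c | c | c | c | c | c <;> rw [c] at e2 ⊢
  · exact absurd c (by simpa using conj_ne (g := a⁻¹) s1)
  · exact ⟨1, one_mem _, by simp⟩
  · exact ⟨y⁻¹, inv_mem hy, by rw [← h.yz]; group⟩
  · exact ⟨y⁻¹ * y⁻¹, mul_mem (inv_mem hy) (inv_mem hy), by rw [← h.yx, ← h.yz]; group⟩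
  · exact ⟨g, hg, e⟩
  · exact ⟨g * x⁻¹, mul_mem hg (inv_mem hx), by rw [← h.xu, ← e]; group⟩
  all_goals simp only [map_mul, map_one, h.hz, h.hx, h.hu] at e2; ent at e2; exact absurd e2 (by gc)

theorem cj {s : G} (s2 : s * s = 1) (s1 : s ≠ 1) : ∃ c, c * s * c⁻¹ = z := by
  obtain ⟨g, e, -⟩ := h.fu
  obtain ⟨c, -, hc⟩ := h.cjz (M := ⊤) trivial trivial trivial trivial trivial e trivial s2 s1
  exact ⟨c, hc⟩

theorem om : Om ρ := fun s w s1 s2 w1 ws ax => by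
  obtain ⟨c, hc⟩ := h.cj s2 s1
  have e : ∀ s, ρ s + 1 = ρ c⁻¹ * (ρ (c * s * c⁻¹) + 1) * ρ c := fun s => by
    simp only [mul_add, add_mul, mul_one, inv_mul4, ← map_mul]; simp [mul_assoc]
  have e' : ∀ X Y : M4 K, ρ c⁻¹ * X * ρ c * (ρ c⁻¹ * Y * ρ c) = ρ c⁻¹ * (X * Y) * ρ c := fun X Y => by
    simp only [Matrix.mul_assoc]; rw [← Matrix.mul_assoc (ρ c), mul_inv4, Matrix.one_mul]
  refine ⟨ρ c⁻¹ * !![1, 0, 0, 0; 0, 0, 0, 0; 0, 0, 1, 0; 0, 0, 0, 0] * ρ c, ?_, ?_⟩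
  · rw [e s, e', e', hc]; congr 2; mat
  · rw [e s, e w, e', e', hc, ← add_mul, ← add_mul, ← mul_add, ← mul_add]
    rcases h.hA _ (hc ▸ ax.conj c) with c1 | c1 | c1 | c1
    · exact absurd c1 (conj_ne w1)
    · exact absurd (by simpa using c1.trans hc.symm) ws
    all_goals rw [c1]; convert zero_mul _; convert mul_zero _; mat

theorem sq_u {n : G} (e : n * z = z * n) : n ^ 2 * u = u * n ^ 2 := by
  have e1 : n * z * n⁻¹ = z := by rw [e]; simp
  rw [← mul_inv_eq_iff_eq_mul, show n ^ 2 * u * (n ^ 2)⁻¹ = n * (n * u * n⁻¹) * n⁻¹ by rw [pow_two]; group]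
  rcases h.hA _ (e1 ▸ h.ax.conj n) with c | c | c | c
  · exact absurd c (conj_ne h.u1)
  · exact absurd (by simpa using c.trans e1.symm) h.uz1
  · rw [c, c]
  · rw [c, ← conj_mul, c, e1, ← mul_assoc, h.z2, one_mul]

theorem tau {ω : K} (hω : ω ^ 2 + ω + 1 = 0) {g : G} (gz : g * z = z * g) {τ : K} (q : Qd ρ ((x * (g * x * g⁻¹)) ^ 2) τ) :
    ∃ k c, (k = (x * (g * x * g⁻¹)) ^ 2 ∨ k⁻¹ = (x * (g * x * g⁻¹)) ^ 2) ∧ ρ k = Hm 0 1 (1 + c) c := by
  have m : x * (g * x * g⁻¹) * z = z * (x * (g * x * g⁻¹)) := mem_cen.1 (mul_mem (mem_cen.2 h.xz)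
    (mul_mem (mul_mem (mem_cen.2 gz) (mem_cen.2 h.xz)) (inv_mem (mem_cen.2 gz))))
  obtain ⟨a, b, c, e, e'⟩ := h.shape (mem_cen.1 (pow_mem (mem_cen.2 m) 2)) (inv_x h.x2) q
  have e1 := h.comm.1 (h.sq_u m)
  have qi := q.inv
  have τ0 := q.1
  generalize (x * (g * x * g⁻¹)) ^ 2 = k at *
  rw [e, h.hu] at e1
  entw [Hm] at e1
  have e2 : b + c = τ * 1 := by gc e1
  have h' := h.norm (c / τ)
  have e3 := norm_h τ0 e
  generalize cjr (Jg (c / τ)) ρ = ρ' at *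
  obtain ⟨f1, -⟩ := bd_frame (π := 1) (θ := ω) one_ne_zero (by gc hω) h'.hy (e2 ▸ e3)
  have := (h'.toBas0.cj _).d8bd (h'.om.cj _) (v := z * x) (r := y * (y * u * y⁻¹) * y⁻¹) (k := k) (l := a + τ * ω)
    (m := a + τ * ω + τ) hω (by gc hω e' e2) (by gc τ0)
    (cjr_of (by rw [map_mul, h'.hz, h'.hx, mkU_val]; entw [Pb]))
    (cjr_of (by
      rw [cj_eq (Y := !![0, 1, 1, 1; 1, 1, 0, 1; 1, 0, 1, 1; 1, 1, 1, 0]) (by
        rw [cj_eq (Y := !![0, 1, 1, 1; 1, 1, 1, 0; 1, 1, 0, 1; 1, 0, 1, 1]) (by rw [h'.hy, h'.hu]; ent), h'.hy]; ent), mkU_val]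
      entw [Pb]; gc hω)) f1
  obtain rfl : τ = 1 := by gc this
  obtain rfl : b = 1 + c := by gc e2
  by_cases a0 : a = 0
  · exact ⟨k, c, Or.inl rfl, by rw [e, a0]⟩
  · exact ⟨k⁻¹, c, Or.inr (inv_inv k), by rw [qi, e]; entw [Hm]; gc a0 e'⟩

theorem a7 {ω : K} (hω : ω ^ 2 + ω + 1 = 0) {g : G} (gz : g * z = z * g) (gT : g ∉ T) : ∃ P k, A7I (cjr P ρ) z x y u k := by
  obtain ⟨τ, q⟩ := (h.cz g gz).resolve_left gT
  obtain ⟨k, c, -, e⟩ := h.tau hω gz q
  have h' := h.norm (c / 1)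
  have hk : cjr (Jg (c / 1)) ρ k = mh := by rw [norm_h one_ne_zero e]; entw [Hm]; gc
  refine ⟨_, k, h'.toBas, h'.hz, h'.hx, h'.hy, h'.hu, hk, fun s s2 s1 => h.cj s2 s1, fun g gz => ?_⟩
  clear h e q
  generalize cjr (Jg (c / 1)) ρ = ρ at *
  rename' h' => h
  have TM := h.Tle (M := Subgroup.closure {z, x, u, k}) (Subgroup.subset_closure (by simp))
    (Subgroup.subset_closure (by simp)) (Subgroup.subset_closure (by simp))
  have kM : k ∈ Subgroup.closure {z, x, u, k} := Subgroup.subset_closure (by simp)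
  rcases h.cz g gz with e | ⟨τ, q⟩
  · exact TM e
  obtain ⟨k', c, e1, e2⟩ := h.tau hω gz q
  have k3 : k * k * k = 1 := h.inj (by simp only [map_mul, map_one, hk]; ent; gc)
  have kz : k * z = z * k := h.inj (by simp only [map_mul, hk, h.hz]; ent)
  have xk : x * k * x * k = 1 := h.inj (by simp only [map_mul, map_one, hk, h.hx]; ent; gc)
  have e3 : ρ (k' * (k * k)) = !![1 + c, c, 0, 0; c, 1 + c, 0, 0; c, c, 1 + c, c; c, c, c, 1 + c] := by
    simp only [map_mul, hk, e2]; entw [Hm]; gc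
  obtain rfl : k' = k := by
    have c0 : c = 0 := by
      rcases h.hA (k' * (k * k)) (by constructor <;> rw [e3, h.hz] <;> ent <;> gc) with c1 | c1 | c1 | c1 <;>
        rw [c1] at e3 <;> simp only [map_mul, map_one, h.hz, h.hu] at e3 <;> ent at e3 <;> gc e3
    exact h.inj (by rw [e2, hk, c0]; entw [Hm])
  have key : ∀ j, j * j * j = 1 → x * j * x * j = 1 → j = (x * (g * x * g⁻¹)) ^ 2 → j * z = z * j → j * g ∈ T := by
    intro j j3 xj e jz
    refine (h.cz (j * g) (by rw [mul_assoc, gz, ← mul_assoc, jz, mul_assoc])).resolve_right fun ⟨τ, q⟩ => ?_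
    have e4 : x * (j * g * x * (j * g)⁻¹) = (x * j * x * j) * j⁻¹ * ((x * x)⁻¹ * x * (g * x * g⁻¹)) * j⁻¹ := by group
    rw [xj, h.x2, inv_one, one_mul, one_mul] at e4
    rw [e4] at q
    generalize x * (g * x * g⁻¹) = κ at q e
    have e5 : (j⁻¹ * κ * j⁻¹) ^ 2 = (j * j * j)⁻¹ := by rw [e]; group
    rw [e5, j3, inv_one] at q
    have := congrFun (congrFun q.2 0) 0
    simp [CharTwo.add_self_eq_zero] at this
    exact q.1 this.symm
  rcases e1 with e1 | e1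
  · simpa using mul_mem (inv_mem kM) (TM (key _ k3 xk e1 kz))
  · simpa using mul_mem kM (TM (key _ (by rw [← _root_.mul_inv_rev, ← _root_.mul_inv_rev, ← mul_assoc, k3, inv_one]) (by
      have e6 : k'⁻¹ = x * k' * x := (eq_inv_of_mul_eq_one_left xk).symm
      rw [e6, ← mul_assoc, ← mul_assoc, ← mul_assoc, ← mul_assoc, h.x2, one_mul, mul_assoc k', h.x2, mul_one, mul_assoc k',
        mul_assoc k', ← e6, mul_inv_cancel]) e1 (mem_cen.1 (inv_mem (mem_cen.2 kz)))))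

theorem top (hC : ∀ g, g * z = z * g → g ∈ T) {M : Subgroup G} (hz : z ∈ M) (hx : x ∈ M) (hu : u ∈ M) (hy : y ∈ M) {g : G}
    (hg : g ∈ M) (e : g * u * g⁻¹ = z) (n : G) : n ∈ M := by
  have hS : SE ⊤ M := ⟨le_top, fun n _ s hs s1 s2 hs' => by
    obtain ⟨c, hc, e1⟩ := h.cjz hz hx hu hy hg e hs s2 s1
    obtain ⟨c', hc', e2⟩ := h.cjz hz hx hu hy hg e hs' (conj_sq s2) (conj_ne s1)
    have := h.Tle hz hx hu (hC (c' * n * c⁻¹) (by
      calc _ = c' * n * c⁻¹ * (c * s * c⁻¹) := by rw [e1]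
        _ = c' * (n * s * n⁻¹) * c'⁻¹ * (c' * n * c⁻¹) := by group
        _ = _ := by rw [e2]))
    simpa [mul_assoc] using mul_mem (mul_mem (inv_mem hc') this) hc, fun s _ s1 s2 n _ e => by
    obtain ⟨c, hc⟩ := h.cj s2 s1
    have e1 : (c * n * c⁻¹) ^ 4 = 1 := by
      rcases h.cases (hC (c * n * c⁻¹) (by rw [← hc, conj_mul, conj_mul, e])) with c1 | c1 | c1 | c1 | c1 | c1 | c1 | c1 <;>
        rw [c1, show (4 : ℕ) = 1 + 1 + 1 + 1 from rfl, pow_succ, pow_succ, pow_succ, pow_one] <;> exact h.inj (by mat)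
    simpa using e1⟩
  by_contra hn
  obtain ⟨t, ht, t2, e1⟩ := hS.exists_t hz h.z1 h.z2 (Subgroup.mem_top n) hn
  have tn : t ∉ M := fun h' => hn (by simpa using mul_mem h' (inv_mem e1))
  obtain ⟨d, hd, hd', e2⟩ := hS.trans ht t2 tn hz h.z1 h.z2 hx (h.yz ▸ conj_ne h.z1) h.x2
  have key : ∀ s, s = u ∨ s = z * u → d * s * d⁻¹ = z := by
    intro s hs
    have s1 : s ≠ 1 ∧ s * s = 1 ∧ s * z = z * s ∧ s ∈ M ∧ x * s * x * s = z := by
      rcases hs with e | e <;> rw [e]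
      · exact ⟨h.u1, h.u2, h.uz, hu, h.inj (by mat)⟩
      · exact ⟨h.xu ▸ conj_ne h.u1, h.inj (by mat), h.inj (by mat), mul_mem hz hu, h.inj (by mat)⟩
    obtain ⟨d', hd1, hd2, e3⟩ := hS.trans ht t2 tn hz h.z1 h.z2 s1.2.2.2.1 s1.1 s1.2.1
    have c := hS.comm ht t2 tn hd hd' hd1 hd2
    have c1 : d * s * d⁻¹ * x = x * (d * s * d⁻¹) := by rw [← e2, conj_mul, conj_mul, s1.2.2.1]
    have e4 : d * s * d⁻¹ = d' * x * d'⁻¹ := by
      rw [← e2, ← e3]
      calc _ = (d * d') * z * (d * d')⁻¹ := by group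
        _ = _ := by rw [c]; group
    have c2 : d * s * d⁻¹ * s = s * (d * s * d⁻¹) := by rw [e4, ← e3, conj_mul, conj_mul, h.xz]
    have w1 := conj_ne (g := d) s1.1
    generalize d * s * d⁻¹ = w at *
    have c3 := hC w (by
      have := (((Commute.mul_right c1 c2).mul_right c1).mul_right c2).eq
      rwa [s1.2.2.2.2] at this)
    have c4 := h.comm.1 c1
    have c5 := h.comm.1 c2
    rcases h.cases c3 with e | e | e | e | e | e | e | e <;> first | exact e | exact absurd e w1 | skip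
    all_goals rcases hs with e' | e' <;> simp only [e, e', map_mul, h.hz, h.hx, h.hu] at c4 c5 <;> exfalso <;>
      first | (ent at c4; done) | (ent at c5; done) | (ent at c4; gc c4) | (ent at c5; gc c5)
  exact h.z1 (by simpa using (key _ (Or.inr rfl)).trans (key _ (Or.inl rfl)).symm)

theorem real (hC : ∀ g, g * z = z * g → g ∈ T) : Real ρ := by
  obtain ⟨g, g1, g2, g3⟩ : ∃ g, g * z * g⁻¹ = u ∧ g * u * g⁻¹ = z * u ∧ x * g * x * g = 1 := by
    obtain ⟨g, e1, e2⟩ := h.fu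
    have e : ∀ q, g * x * g⁻¹ * (g * q * g⁻¹) * (g * x * g⁻¹)⁻¹ = g * (x * q * x⁻¹) * g⁻¹ := fun q => by group
    have e' : ∀ a b q : G, a * b * q * (a * b)⁻¹ = a * (b * q * b⁻¹) * a⁻¹ := fun a b q => by group
    have xz : x * z * x⁻¹ = z := by rw [h.xz]; simp
    have xzu : x * (z * u) * x⁻¹ = u := by rw [← conj_mul, xz, h.xu, ← mul_assoc, h.z2, one_mul]
    have e3 := e z
    have e4 := e u
    have s2 := conj_sq (g := g) h.x2
    rw [xz] at e3
    rw [h.xu, ← conj_mul (a := z), e1] at e4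
    generalize g * x * g⁻¹ = s at *
    rcases e2 with e2 | e2 <;> rw [e2] at e3 e4
    · exact ⟨x * s, by rw [e', e4, h.uz, xzu], by rw [e', e3, h.xu], by simp [← mul_assoc, h.x2]; rw [mul_assoc s, h.x2]; simpa⟩
    · exact ⟨s * x, by rw [e', xz, e4, mul_assoc, h.uz, ← mul_assoc, h.z2, one_mul], by rw [e', h.xu, e3],
        by simp [mul_assoc, ← mul_assoc x x, h.x2, ← mul_assoc s s, s2]⟩
  have g4 : g * (z * u) * g⁻¹ = z := by rw [← conj_mul, g1, g2, ← mul_assoc, h.uz, mul_assoc, h.u2, mul_one]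
  have g5 : g * g * g = 1 := by
    have e : ∀ q, g * g * g * q = g * (g * (g * q * g⁻¹) * g⁻¹) * g⁻¹ * (g * g * g) := fun q => by group
    have e1 : g * (g * g * g) * g⁻¹ = g * g * g := by group
    have e2 := h.comm.1 (show g * g * g * u = u * (g * g * g) by rw [e, g2, g4, g1])
    rcases h.cases (hC (g * g * g) (by rw [e, g1, g2, g4])) with c | c | c | c | c | c | c | c <;> rw [c] at e1 e2
    · exact c
    · exact absurd (g1.symm.trans e1) h.uz1
    on_goal 3 => exact absurd (by simpa using g2.symm.trans e1) h.z1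
    on_goal 3 => exact absurd (by simpa using g4.symm.trans e1) h.u1
    all_goals simp only [map_mul, h.hz, h.hx, h.hu] at e2; exfalso; first | (ent at e2; gc e2) | ent at e2
  have g6 : g⁻¹ * u * g⁻¹⁻¹ = z := by rw [← g1]; group
  have m1 : ρ u * ρ g = ρ g * ρ z := by rw [← g1, cj4]
  have m2 : ρ (z * u) * ρ g = ρ g * ρ u := by rw [← g2, cj4]
  have m3 : ρ x * ρ g * ρ x = ρ g * ρ g := by
    rw [← map_mul, ← map_mul, ← map_mul, eq_inv_of_mul_eq_one_left g3, eq_inv_of_mul_eq_one_left g5]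
  have m4 := h.det g
  simp only [map_mul, h.hz, h.hx, h.hu] at m1 m2 m3
  rw [det4] at m4
  ent at m1
  ent at m2
  obtain ⟨α, β, p, q, r, s, eg⟩ : ∃ α β p q r s, ρ g = !![α + β + p, β + p, β + r, α + r; p, α + p, r, α + β + r;
      β + q, α + q, α + s, α + β + s; q, α + β + q, s, β + s] :=
    ⟨ρ g 2 2 + ρ g 3 2, ρ g 2 0 + ρ g 3 0, ρ g 1 0, ρ g 3 0, ρ g 1 2, ρ g 3 2, by ent; and_intros <;> gc m1 m2⟩
  rw [eg] at m3 m4
  clear m1 m2
  ent at m3
  simp at m4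
  have a1 : α ^ 2 + α * β + β ^ 2 = 1 := Sz1.sq_inj (by gc m4)
  have a2 : β ^ 2 = β := by gc m3
  have a3 : α ^ 2 = α := by gc m3 a2
  by_cases β0 : β = 0
  · exfalso
    have := h.top hC (M := mkSub (fun n => ![1, 1, 1, 1] ᵥ* ρ n = ![1, 1, 1, 1]) (by simp)
      (fun a b ha hb => by rw [map_mul, ← vecMul_vecMul, ha, hb])) (g := g⁻¹) ?_ ?_ ?_ ?_ (inv_mem ?_) g6
    · rcases h.irr (LinearMap.ker (dotProductBilin K K ![(1 : K), 1, 1, 1])) (fun n v hv => by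
        simp only [LinearMap.mem_ker, dotProductBilin_apply_apply] at hv ⊢
        rw [dotProduct_mulVec, this n, hv]) with e | e
      · have : ![(1 : K), 1, 0, 0] ∈ (⊥ : Submodule K (Fin 4 → K)) := e ▸ (by simp [CharTwo.add_self_eq_zero])
        simpa using congrFun this 0
      · have := e ▸ Submodule.mem_top (x := ![(1 : K), 0, 0, 0])
        simp [dotProductBilin_apply_apply] at this
    all_goals simp only [mem_mkSub, h.hz, h.hx, h.hy, h.hu, eg]; ext i; fin_cases i <;>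
      simp [vecMul, dotProduct, Fin.sum_univ_four, mz, mx, my, mu] <;> gc a1 a3 β0
  by_cases α0 : α = 0
  · have := h.top hC (M := mkSub (fun n => (ρ n)ᵀ * !![(0 : K), 1, 1, 1; 1, 0, 1, 1; 1, 1, 0, 1; 1, 1, 1, 0] * ρ n =
      !![(0 : K), 1, 1, 1; 1, 0, 1, 1; 1, 1, 0, 1; 1, 1, 1, 0]) (by simp)
      (fun a b ha hb => by rw [map_mul, transpose_mul, mul_assoc, mul_assoc, ← mul_assoc _ (ρ a), ← mul_assoc (ρ a)ᵀ,
        ← mul_assoc (ρ a)ᵀ, ha, ← mul_assoc, hb])) (g := g⁻¹) ?_ ?_ ?_ ?_ (inv_mem ?_) g6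
    · exact real_of_form (by ent; gc) this
    on_goal 5 =>
      obtain rfl : β = 1 := by gc a2 β0
      subst α0
      simp only [mem_mkSub, eg]; ent; and_intros <;> gc m3
    all_goals simp only [mem_mkSub, h.hz, h.hx, h.hy, h.hu]; ent <;> and_intros <;> gc
  · exfalso
    have := h.top hC (M := mkSub (fun n => ρ n *ᵥ ![1, 1, 1, 1] = ![1, 1, 1, 1]) (by simp)
      (fun a b ha hb => by rw [map_mul, ← mulVec_mulVec, hb, ha])) (g := g⁻¹) ?_ ?_ ?_ ?_ (inv_mem ?_) g6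
    · rcases h.irr (Submodule.span K {![(1 : K), 1, 1, 1]}) (fun n v hv => by
        obtain ⟨c, rfl⟩ := Submodule.mem_span_singleton.1 hv
        rw [mulVec_smul, this n]; exact hv) with e | e
      · simpa using congrFun (Submodule.span_singleton_eq_bot.1 e) 0
      · obtain ⟨c, hc⟩ := Submodule.mem_span_singleton.1 (e ▸ Submodule.mem_top : ![(1 : K), 0, 0, 0] ∈ _)
        have h0 := congrFun hc 0
        have h1 := congrFun hc 1
        simp at h0 h1
        exact one_ne_zero (h0.symm.trans h1)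
    all_goals simp only [mem_mkSub, h.hz, h.hx, h.hy, h.hu, eg]; ext i; fin_cases i <;>
      simp [mulVec, dotProduct, Fin.sum_univ_four, mz, mx, my, mu] <;> gc a2 a3 β0 α0

end DG

end Cfsg.Agent.H3.C2
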