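import Cfsg.Agent.H3.TenSU
import Cfsg.Agent.H9.FClass

/-!
Reflections in odd characteristic: irreducibility on the natural module and its symmetric square.
-/

set_option autoImplicit false
set_option linter.unusedSectionVars false

namespace Cfsg.Agent.H3.OrthLem

open Module Cfsg.Agent.H7 Cfsg.Agent.Form Cfsg.Agent.H3.RootGeo Cfsg.Agent.H3.TenSU
open Cfsg.Agent.H9.FClass (toQF exists_Q_ne_zero)

variable {F : Type*} [Field F] {U : Type*} [AddCommGroup U] [Module F U] {S : PQ (FP.orth F) U}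

/-- The reflection in a non-singular vector. -/
def rf (S : PQ (FP.orth F) U) {u : U} (hu : S.Q u ≠ 0) : U ≃ₗ[F] U := S.tau u _ (S.orth_tauOK hu)

@[simp] theorem rf_apply {u : U} (hu : S.Q u ≠ 0) (x : U) :
    rf S hu x = x - (S.B x u / S.Q u) • u := by
  simp [rf, sub_eq_add_neg, div_eq_inv_mul]

theorem rf_mem {u : U} (hu : S.Q u ≠ 0) : rf S hu ∈ S.isom := S.tau_mem _ _ _

theorem rf_self {u : U} (hu : S.Q u ≠ 0) : rf S hu u = -u := by
  rw [rf_apply, S.orth_B_self, mul_div_cancel_right₀ _ hu]; module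

theorem rf_rf {u : U} (hu : S.Q u ≠ 0) (x : U) : rf S hu (rf S hu x) = x := by
  rw [rf_apply hu x, map_sub, map_smul, rf_self, rf_apply]; module

@[simp] theorem rf_symm_apply {u : U} (hu : S.Q u ≠ 0) (x : U) :
    (rf S hu).symm x = x - (S.B x u / S.Q u) • u := by
  rw [LinearEquiv.symm_apply_eq, ← rf_apply hu, rf_rf]

theorem Q_ne_of_B {x : U} (h : S.B x x ≠ 0) : S.Q x ≠ 0 := fun e => h (by simp [S.orth_B_self, e])

theorem B_self_ne (h2 : (2 : F) ≠ 0) {x : U} (h : S.Q x ≠ 0) : S.B x x ≠ 0 := by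
  rw [S.orth_B_self]; exact mul_ne_zero h2 h

theorem exists_nonsing_notMem [FiniteDimensional F U] (h2 : (2 : F) ≠ 0) {H Y : Submodule F U} (hH : S.NondegOn H)
    (hY : ¬ H ≤ Y) : ∃ v ∈ H, S.Q v ≠ 0 ∧ v ∉ Y := by
  by_contra hc
  push Not at hc
  obtain ⟨x, hx, hxY⟩ := SetLike.not_le_iff_exists.1 hY
  obtain ⟨n, hn, hQ⟩ := exists_Q_ne_zero hH (by rintro rfl; exact hY bot_le)
  have key : ∀ t : F, S.Q (x + t • n) = 0 := fun t => by
    by_contra h
    exact hxY ((Submodule.add_mem_iff_left _ (Y.smul_mem t (hc n hn hQ))).1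
      (hc _ (add_mem hx (H.smul_mem t hn)) h))
  have k0 := key 0
  have k1 := key 1
  have k2 := key (-1)
  simp only [S.orth_Q_add, S.orth_Q_smul, PQ.B_smul_right, FP.orth_σ] at k0 k1 k2
  exact mul_ne_zero h2 hQ (by linear_combination k1 + k2 - 2 * k0)

/-- Reflections act irreducibly. -/
theorem irred [FiniteDimensional F U] (h2 : (2 : F) ≠ 0) {H Y : Submodule F U} (hH : S.NondegOn H)
    (hYH : Y ≤ H) (hY0 : Y ≠ ⊥) (hY : ∀ v ∈ H, S.Q v ≠ 0 → v ∈ Y ∨ v ∈ S.perp Y)
    (hdim : 3 ≤ finrank F H ∨ ∃ t : F, t ≠ 0 ∧ t ^ 2 ≠ 1) : H ≤ Y := by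
  by_contra hle
  obtain ⟨b, hb, hQb, hbY⟩ := exists_nonsing_notMem h2 hH hle
  obtain ⟨a, ha, hQa, haY⟩ := exists_nonsing_notMem h2 hH (Y := S.perp Y) fun h => by
    obtain ⟨y, hy, hy0⟩ := Submodule.exists_mem_ne_zero_of_ne_bot hY0
    exact hy0 (hH y (hYH hy) fun x hx => S.B_comm_zero (h hx y hy))
  have ha' := (hY a ha hQa).resolve_right haY
  have hb' := (hY b hb hQb).resolve_left hbY
  have hab : S.B a b = 0 := S.B_comm_zero (hb' a ha')
  have key : ∀ t : F, t ≠ 0 → S.Q a + t ^ 2 * S.Q b = 0 := fun t ht => by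
    by_contra h
    rcases hY (a + t • b) (add_mem ha (H.smul_mem t hb)) (by
      simpa [S.orth_Q_add, S.orth_Q_smul, hab] using h) with h | h
    · exact hbY ((Submodule.smul_mem_iff _ ht).1 ((Submodule.add_mem_iff_right _ ha').1 h))
    · exact haY ((Submodule.add_mem_iff_left _ (Submodule.smul_mem _ t hb')).1 h)
  rcases hdim with h3 | ⟨t, ht, ht1⟩
  · have h1 : S.NondegOn (F ∙ a ⊔ F ∙ b) := (S.nondegOn_span_singleton (B_self_ne h2 hQa)).sup
      (S.nondegOn_span_singleton (B_self_ne h2 hQb)) (by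
        rw [Submodule.span_singleton_le_iff_mem, S.mem_perp_span_singleton]; exact hb' a ha')
    obtain ⟨h4, h5⟩ := h1.inf_perp hH (by simp [ha, hb])
    obtain ⟨c, ⟨hc, hc'⟩, hQc⟩ := exists_Q_ne_zero h4 fun e => by
      rw [e, sup_bot_eq] at h5
      have := finrank_sup_span_le (F ∙ a) b
      have := finrank_span_singleton_le (F := F) a
      rw [← h5] at h3
      omega
    have hca : S.B c a = 0 := hc' a (Submodule.mem_sup_left (Submodule.mem_span_singleton_self _))
    have hcb : S.B c b = 0 := hc' b (Submodule.mem_sup_right (Submodule.mem_span_singleton_self _))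
    have h6 := hY (a + b + c) (add_mem (add_mem ha hb) hc) (by
      have := key 1 one_ne_zero
      simp only [S.orth_Q_add, hab, PQ.B_add_left, S.B_comm_zero hca, S.B_comm_zero hcb]
      intro e; exact hQc (by linear_combination e - this))
    rcases h6 with h6 | h6
    · rcases hY c hc hQc with h7 | h7
      · exact hbY (by simpa using sub_mem (sub_mem h6 h7) ha')
      · refine B_self_ne h2 hQb ?_
        simpa [hab, S.B_comm_zero hcb] using hb' _ (sub_mem h6 ha')
    · simpa [hb' a ha', hca, B_self_ne h2 hQa] using h6 a ha'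
  · refine mul_ne_zero (sub_ne_zero.2 ht1) hQb ?_
    linear_combination key t ht - key 1 one_ne_zero

theorem exists_sing [Finite F] [FiniteDimensional F U] (S : PQ (FP.orth F) U) {H : Submodule F U}
    (h : 3 ≤ finrank F H) : ∃ v ∈ H, v ≠ 0 ∧ S.Q v = 0 := H8.exists_sing_three (toQF S) h

theorem exists_isom_sing [FiniteDimensional F U] {P : FP F} {S : PQ P U} (hS : S.Nondeg) {x y : U}
    (hx : S.Sing x) (hy : S.Sing y) (h0 : x ≠ 0) (h0' : y ≠ 0) : ∃ g ∈ S.isom, g x = y := by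
  obtain ⟨g, hg, e⟩ := hS.witt_step ⊥ (u := x) (v := y) (by simpa) (by simpa) (by simp) (sub_mem hy hx)
  exact ⟨g, S.gen_le_isom _ hg, e⟩

/-- A self-adjoint map all of whose non-singular vectors are eigenvectors is a scalar. -/
theorem exists_not_eigen [FiniteDimensional F U] (h2 : (2 : F) ≠ 0) (hS : S.Nondeg)
    (h3 : 3 ≤ finrank F U) {X : End F U} (hX : ∀ a b, S.B (X a) b = S.B a (X b))
    (hns : ∀ c : F, X ≠ c • LinearMap.id) : ∃ u, S.Q u ≠ 0 ∧ X u ∉ F ∙ u := by
  by_contra hc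
  push Not at hc
  have hT := S.nondegOn_top.2 hS
  obtain ⟨u, -, hu⟩ := exists_Q_ne_zero hT (by rintro e; rw [← finrank_top, e] at h3; simp at h3)
  obtain ⟨c, e⟩ := Submodule.mem_span_singleton.1 (hc u hu)
  refine hns c (LinearMap.ext fun x => sub_eq_zero.1 ?_)
  refine irred h2 hT (Y := LinearMap.ker (X - c • LinearMap.id)) le_top (fun e0 => ?_)
    (fun v _ hv => ?_) (Or.inl (by rwa [finrank_top])) (Submodule.mem_top (x := x))
  · have : u ∈ LinearMap.ker (X - c • LinearMap.id) := by simp [e]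
    rw [e0] at this
    exact hu (by simp [(Submodule.mem_bot F).1 this, S.orth_Q_zero])
  · obtain ⟨d, e'⟩ := Submodule.mem_span_singleton.1 (hc v hv)
    by_cases hd : d = c
    · exact Or.inl (by simp [← e', hd])
    refine Or.inr fun y hy => ?_
    have := hX v y
    rw [← e', show X y = c • y by simpa [sub_eq_zero] using hy] at this
    simpa [hd] using this

/-- Extraction of a rank one element from an invariant space of self-adjoint maps. -/
theorem sym_extract [Finite F] [FiniteDimensional F U] (h2 : (2 : F) ≠ 0) (hS : S.Nondeg)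
    (h3 : 3 ≤ finrank F U) (hdim : 4 ≤ finrank F U ∨ ∃ t : F, t ≠ 0 ∧ t ^ 2 ≠ 1)
    (Z : Submodule F (End F U)) (conj : ∀ g ∈ S.isom, ∀ X ∈ Z, cj g X ∈ Z) {X : End F U}
    (hXZ : X ∈ Z) (hX : ∀ a b, S.B (X a) b = S.B a (X b)) (hns : ∀ c : F, X ≠ c • LinearMap.id)
    {z : U} (hz : S.Sing z) : rk S z z ∈ Z := by
  suffices H : ∃ z, z ≠ 0 ∧ S.Sing z ∧ rk S z z ∈ Z by
    obtain ⟨z₀, h0, hz₀, H⟩ := H
    by_cases h1 : z = 0
    · convert Z.zero_mem using 1; ext; simp [h1]
    obtain ⟨g, hg, rfl⟩ := exists_isom_sing hS hz₀ hz h0 h1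
    rw [← cj_rk hg]; exact conj g hg _ H
  have cj2 : ∀ {u y : U}, rk S u y + rk S y u ∈ Z → ∀ g ∈ S.isom,
      rk S (g u) (g y) + rk S (g y) (g u) ∈ Z := fun h g hg => by
    rw [← cj_rk hg, ← cj_rk hg, ← cj_add]; exact conj g hg _ h
  have k1 : ∀ {u y : U}, S.Q u ≠ 0 → y ≠ 0 → S.B y u = 0 → rk S u y + rk S y u ∈ Z →
      ∀ y, S.B y u = 0 → rk S u y + rk S y u ∈ Z := by
    intro u y hu hy0 hy h y' hy'
    let Y : Submodule F U :=
      { carrier := {y | S.B y u = 0 ∧ rk S u y + rk S y u ∈ Z}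
        add_mem' := fun h h' => ⟨by simp [h.1, h'.1], by
          convert Z.add_mem h.2 h'.2 using 1; ext; simp; module⟩
        zero_mem' := ⟨by simp, by convert Z.zero_mem using 1; ext; simp⟩
        smul_mem' := fun c _ h => ⟨by simp [h.1], by
          convert Z.smul_mem c h.2 using 1; ext; simp; module⟩ }
    refine (irred h2 ((S.nondegOn_span_singleton (B_self_ne h2 hu)).perp hS) (Y := Y)
      (fun x hx => S.mem_perp_span_singleton.2 hx.1) (fun e => hy0 ?_) (fun v hv hQ => ?_) ?_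
      (S.mem_perp_span_singleton.2 hy')).2
    · rw [← Submodule.mem_bot F, ← e]; exact ⟨hy, h⟩
    · rw [S.mem_perp_span_singleton] at hv
      refine or_iff_not_imp_right.2 fun hn => ?_
      obtain ⟨x, hx, hxv⟩ : ∃ x ∈ Y, S.B x v ≠ 0 := by
        by_contra hc; push Not at hc; exact hn (S.mem_perp'.2 hc)
      have h1 : rf S hQ x ∈ Y := ⟨by simp [hx.1, hv], by
        simpa [-rf_apply, show rf S hQ u = u by simp [S.B_comm_zero hv]] using cj2 hx.2 _ (rf_mem hQ)⟩
      exact (Y.smul_mem_iff (div_ne_zero hxv hQ)).1 (by simpa using Y.sub_mem hx h1)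
    · have := hS.finrank_perp (F ∙ u)
      have := finrank_span_singleton_le (F := F) u
      exact hdim.imp (fun _ => by omega) id
  have k2 : ∀ {u z : U}, S.Q u ≠ 0 → S.Q z = 0 → S.B z u = 0 → rk S u z + rk S z u ∈ Z →
      rk S z z ∈ Z := by
    intro u z hu hz hzu h
    have h1 : S.Q (u + z) ≠ 0 := by simpa [S.orth_Q_add, hz, S.B_comm_zero hzu] using hu
    have e1 : rf S h1 z = z := by simp [hzu, S.orth_B_self, hz]
    have e2 : rf S h1 u = -u - (2 : F) • z := by
      simp [S.orth_Q_add, hz, S.B_comm_zero hzu, S.orth_B_self, hu]; module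
    have h3 := cj2 h _ (rf_mem h1)
    rw [e1, e2] at h3
    refine (Z.smul_mem_iff (neg_ne_zero.2 (mul_ne_zero h2 h2))).1 ?_
    convert Z.add_mem h h3 using 1
    ext; simp; module
  obtain ⟨u, hu, hXu⟩ := exists_not_eigen h2 hS h3 hX hns
  have h4 := k1 (y := X u - (S.B (X u) u / S.B u u) • u) hu (fun e => hXu (by
      rw [sub_eq_zero.1 e]; exact Submodule.smul_mem _ _ (Submodule.mem_span_singleton_self _)))
    (by simp [B_self_ne h2 hu]) (by
      refine (Z.smul_mem_iff (inv_ne_zero hu)).1 ?_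
      convert Z.sub_mem hXZ (conj _ (rf_mem hu) X hXZ) using 1
      ext x
      simp [hX x u, S.orth_B_self]
      match_scalars <;> field_simp <;> ring)
  obtain ⟨z, -, hz0, hz⟩ := exists_sing S (H := ⊤) (by rwa [finrank_top])
  obtain ⟨y, hy, hy0⟩ := Submodule.exists_mem_ne_zero_of_ne_bot
    (p := S.perp (Submodule.span F {u, z})) fun e => by
      have := hS.finrank_perp (Submodule.span F {u, z})
      have := finrank_span_pair_le (F := F) u z
      rw [e, finrank_bot] at *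
      omega
  rw [S.mem_perp_span] at hy
  have hyu := hy u (by simp)
  by_cases hQ : S.Q y = 0
  · exact ⟨y, hy0, (S.orth_sing y).2 hQ, k2 hu hQ hyu (h4 y hyu)⟩
  · have hzy := S.B_comm_zero (hy z (by simp))
    exact ⟨z, hz0, (S.orth_sing z).2 hz, k2 hQ hz hzy (k1 hQ (by
      rintro rfl; exact hu S.orth_Q_zero) (S.B_comm_zero hyu) (add_comm (rk S u y) _ ▸ h4 y hyu) z hzy)⟩

end Cfsg.Agent.H3.OrthLem
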