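import Cfsg.Agent.H1.PS0

set_option autoImplicit false

/-! Package `Ia` for S0725: the blocks of the point stabilisers. -/

namespace Cfsg.Agent.H3.PSa
open MulAction Finset Cfsg.Agent.H1.PS

universe u

theorem blk_of {G : Type u} {α : Type u} [Group G] [MulAction G α] [Fintype α] [DecidableEq α] (c : α)
    (h2 : ∀ {a b c d : α}, a ≠ b → c ≠ d → ∃ g : G, g • a = c ∧ g • b = d)
    (B : Finset α) (hc : c ∉ B)
    (hB : ∀ h : G, h • c = c → ∀ u v, u ∈ B → h • u ∈ B → v ∈ B → h • v ∈ B)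
    (htwo : 2 ≤ #B) (w : α) (hw : w ∉ B) (hwc : w ≠ c) :
    ∃ (m : ℕ) (Bl : α → α → Finset α), Blk G m Bl := by
  classical
  obtain ⟨b0, hb0⟩ : B.Nonempty := card_pos.mp (by omega)
  have hcb : c ≠ b0 := fun h => hc (h ▸ hb0)
  let Bl : α → α → Finset α := fun x a => {y | ∃ g : G, g • c = x ∧ g⁻¹ • a ∈ B ∧ g⁻¹ • y ∈ B}
  have mem : ∀ x a y, y ∈ Bl x a ↔ ∃ g : G, g • c = x ∧ g⁻¹ • a ∈ B ∧ g⁻¹ • y ∈ B := by
    intro x a y; simp [Bl]
  have key : ∀ (x a : α) (g0 : G), g0 • c = x → g0⁻¹ • a ∈ B → ∀ y, y ∈ Bl x a ↔ g0⁻¹ • y ∈ B := by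
    intro x a g0 h0 ha y
    rw [mem]
    constructor
    · rintro ⟨g, hg, hga, hgy⟩
      have := hB (g0⁻¹ * g) (by rw [mul_smul, hg, ← h0, inv_smul_smul]) (g⁻¹ • a) (g⁻¹ • y) hga
        (by rw [mul_smul, smul_inv_smul]; exact ha) hgy
      rwa [mul_smul, smul_inv_smul] at this
    · intro hy; exact ⟨g0, h0, ha, hy⟩
  have ex : ∀ x a, x ≠ a → ∃ g : G, g • c = x ∧ g⁻¹ • a ∈ B := by
    intro x a hxa
    obtain ⟨g, hg, hg'⟩ := h2 hcb hxa
    exact ⟨g, hg, by rw [← hg', inv_smul_smul]; exact hb0⟩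
  have self : ∀ x a, x ≠ a → a ∈ Bl x a := by
    intro x a hxa
    obtain ⟨g, hg, hg'⟩ := ex x a hxa
    exact (mem _ _ _).2 ⟨g, hg, hg', hg'⟩
  have nmem : ∀ x a, x ∉ Bl x a := by
    intro x a h
    obtain ⟨g, hg, -, hx⟩ := (mem _ _ _).1 h
    rw [← hg, inv_smul_smul] at hx
    exact hc hx
  have hcard : ∀ x a, x ≠ a → #(Bl x a) = #B := by
    intro x a hxa
    obtain ⟨g, hg, hg'⟩ := ex x a hxa
    refine card_bij (fun y _ => g⁻¹ • y) (fun y hy => (key x a g hg hg' y).1 hy)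
      (fun y _ z _ h => MulAction.injective g⁻¹ h) (fun z hz => ⟨g • z, ?_, inv_smul_smul g z⟩)
    rw [key x a g hg hg', inv_smul_smul]; exact hz
  have same : ∀ x a y, y ∈ Bl x a → Bl x y = Bl x a := by
    intro x a y hy
    obtain ⟨g, hg, hga, hgy⟩ := (mem _ _ _).1 hy
    ext z
    rw [key x a g hg hga, key x y g hg hgy]
  have hsmul : ∀ (g : G) x a y, y ∈ Bl x a → g • y ∈ Bl (g • x) (g • a) := by
    intro g x a y hy
    obtain ⟨g0, hg, hga, hgy⟩ := (mem _ _ _).1 hy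
    refine (mem _ _ _).2 ⟨g * g0, by rw [mul_smul, hg], ?_, ?_⟩
    · rw [mul_inv_rev, mul_smul, inv_smul_smul]; exact hga
    · rw [mul_inv_rev, mul_smul, inv_smul_smul]; exact hgy
  have half : 2 * #B + 1 ≤ Fintype.card α := by
    have hd : Disjoint (Bl c w) (Bl c b0) := by
      rw [disjoint_left]
      intro y hy hy'
      have h1 : w ∈ Bl c b0 := by
        rw [← same _ _ _ hy', same _ _ _ hy]; exact self _ _ hwc.symm
      rw [key c b0 1 (one_smul _ _) (by simpa using hb0)] at h1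
      exact hw (by simpa using h1)
    have hcn : c ∉ (Bl c w ∪ Bl c b0) := by
      rw [mem_union]; rintro (h | h) <;> exact nmem _ _ h
    have := card_le_univ (insert c (Bl c w ∪ Bl c b0))
    rw [card_insert_of_notMem hcn, card_union_of_disjoint hd, hcard _ _ hwc.symm, hcard _ _ hcb] at this
    omega
  refine ⟨#B, Bl, htwo, half, self, fun x a _ => nmem x a, hcard, fun x a y _ => same x a y,
    fun g x a y _ => hsmul g x a y, ?_⟩
  intro a y hay
  have const : ∀ y', a ≠ y' → #{x | x ≠ a ∧ y' ∈ Bl x a} = #{x | x ≠ a ∧ y ∈ Bl x a} := by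
    intro y' hay'
    obtain ⟨g, hg, hg'⟩ := h2 hay' hay
    have hga : g⁻¹ • a = a := by rw [inv_smul_eq_iff, hg]
    refine card_bij (fun x _ => g • x) ?_ (fun x _ z _ h => MulAction.injective g h) ?_
    · intro x hx
      simp only [mem_filter, mem_univ, true_and] at hx ⊢
      refine ⟨fun h => hx.1 (MulAction.injective g (h.trans hg.symm)), ?_⟩
      have := hsmul g _ _ _ hx.2
      rwa [hg, hg'] at this
    · intro z hz
      simp only [mem_filter, mem_univ, true_and] at hz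
      refine ⟨g⁻¹ • z, ?_, smul_inv_smul g z⟩
      simp only [mem_filter, mem_univ, true_and]
      refine ⟨fun h => hz.1 (by rw [inv_smul_eq_iff, hg] at h; exact h), ?_⟩
      have := hsmul g⁻¹ _ _ _ hz.2
      rwa [hga, ← hg', inv_smul_smul] at this
  have dc : ∑ y' ∈ univ.erase a, #{x | x ≠ a ∧ y' ∈ Bl x a} = ∑ x ∈ univ.erase a, #((Bl x a).erase a) := by
    have e1 : ∀ y', #{x | x ≠ a ∧ y' ∈ Bl x a} = ∑ x ∈ univ.erase a, if y' ∈ Bl x a then 1 else 0 := by
      intro y'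
      rw [← card_filter]
      congr 1
      ext x; simp
    have e2 : ∀ x, #((Bl x a).erase a) = ∑ y' ∈ univ.erase a, if y' ∈ Bl x a then 1 else 0 := by
      intro x
      rw [← card_filter]
      congr 1
      ext y'; simp
    simp only [e1, e2]
    exact sum_comm
  have e3 : ∑ x ∈ univ.erase a, #((Bl x a).erase a) = ∑ _x ∈ univ.erase a, (#B - 1) :=
    sum_congr rfl (fun x hx => by
      rw [card_erase_of_mem (self _ _ (ne_of_mem_erase hx)), hcard _ _ (ne_of_mem_erase hx)])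
  rw [e3, sum_congr rfl (fun y' hy' => const y' (ne_of_mem_erase hy').symm),
    sum_const, sum_const, smul_eq_mul, smul_eq_mul] at dc
  have hpos : 0 < #(univ.erase a) := card_pos.mpr ⟨y, by simp [hay.symm]⟩
  exact Nat.eq_of_mul_eq_mul_left hpos dc

theorem ia : Ia.{u} := by
  intro G α _ _ _ _ c h2 hnp
  classical
  rw [is_two_pretransitive_iff] at h2
  have htr : IsPretransitive (stabilizer G c) (SubMulAction.ofStabilizer G c) := by
    constructor
    intro x y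
    have hx : c ≠ (x : α) := fun h => (SubMulAction.mem_ofStabilizer_iff G c).1 x.2 h.symm
    have hy : c ≠ (y : α) := fun h => (SubMulAction.mem_ofStabilizer_iff G c).1 y.2 h.symm
    obtain ⟨g, hg, hg'⟩ := h2 hx hy
    exact ⟨⟨g, hg⟩, Subtype.ext hg'⟩
  have : ∃ B : Set (SubMulAction.ofStabilizer G c), IsBlock (stabilizer G c) B ∧ ¬ IsTrivialBlock B := by
    by_contra hne
    push Not at hne
    exact hnp ⟨fun {B} hB => hne B hB⟩
  obtain ⟨B, hB, hnt⟩ := this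
  rw [IsTrivialBlock, not_or] at hnt
  obtain ⟨hns, hnu⟩ := hnt
  let B' : Finset α := {y | ∃ z ∈ B, (z : α) = y}
  have mem : ∀ y, y ∈ B' ↔ ∃ z ∈ B, (z : α) = y := by intro y; simp [B']
  obtain ⟨w, hw⟩ : ∃ w, w ∉ B := by
    by_contra h
    push Not at h
    exact hnu (Set.eq_univ_of_forall h)
  rw [Set.not_subsingleton_iff] at hns
  obtain ⟨b1, hb1, b2, hb2, hb⟩ := hns
  refine blk_of c h2 B' ?_ ?_ ?_ w ?_ ((SubMulAction.mem_ofStabilizer_iff G c).1 w.2)
  · rw [mem]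
    rintro ⟨z, -, hz⟩
    exact (SubMulAction.mem_ofStabilizer_iff G c).1 z.2 hz
  · intro h hh u v hu hhu hv
    obtain ⟨u', hu', rfl⟩ := (mem _).1 hu
    obtain ⟨v', hv', rfl⟩ := (mem _).1 hv
    obtain ⟨u'', hu'', he⟩ := (mem _).1 hhu
    let k : stabilizer G c := ⟨h, hh⟩
    have hk : k • u' = u'' := Subtype.ext he.symm
    have := hB.smul_eq_of_mem hu' (hk ▸ hu'' : k • u' ∈ B)
    refine (mem _).2 ⟨k • v', ?_, rfl⟩
    rw [← this]
    exact Set.smul_mem_smul_set hv'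
  · rw [Nat.succ_le_iff, one_lt_card]
    exact ⟨b1, (mem _).2 ⟨b1, hb1, rfl⟩, b2, (mem _).2 ⟨b2, hb2, rfl⟩, fun h => hb (Subtype.ext h)⟩
  · rw [mem]
    rintro ⟨z, hz, hzw⟩
    exact hw (Subtype.ext hzw ▸ hz)

end Cfsg.Agent.H3.PSa
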