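import Cfsg.Agent.H1.PS0
import Cfsg.Agent.S0713

set_option autoImplicit false

/-! Package `Jo` for S0725: Jordan's theorem bounds the degree of transitivity. -/

namespace Cfsg.Agent.H3.PSj
open MulAction Finset Cfsg.Agent.H1.PS

universe u

theorem jo : Jo.{u} := by
  intro α _ _ G t p ht htn hT hA hp hpn
  by_contra hlt
  push Not at hlt
  apply hA
  have hp2 := hp.two_le
  obtain ⟨T, -, hTc⟩ := exists_subset_card_eq (s := (univ : Finset α)) (n := p) (by rw [card_univ]; omega)
  let s : Set α := ((Tᶜ : Finset α) : Set α)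
  have hs : s.ncard = Fintype.card α - p := by
    rw [Set.ncard_coe_finset, card_compl, hTc]
  have h1 : IsMultiplyPretransitive G α (s.ncard + 1) :=
    isMultiplyPretransitive_of_le (n := t) (by omega) (by rw [Nat.card_eq_fintype_card]; exact htn)
  have h2 : IsMultiplyPretransitive G α 2 :=
    isMultiplyPretransitive_of_le (n := t) ht (by rw [Nat.card_eq_fintype_card]; exact htn)
  have h3 := SubMulAction.ofFixingSubgroup.isMultiplyPretransitive G (m := 1) s rfl
  rw [is_one_pretransitive_iff] at h3
  have hcard : Nat.card (SubMulAction.ofFixingSubgroup G s) = p := by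
    rw [← hTc, ← Fintype.card_coe T, ← Nat.card_eq_fintype_card]
    refine Nat.card_congr (Equiv.subtypeEquivRight ?_)
    intro x
    rw [SubMulAction.mem_ofFixingSubgroup_iff]
    simp [s]
  have hne : Nonempty (SubMulAction.ofFixingSubgroup G s) := by
    have : 0 < Nat.card (SubMulAction.ofFixingSubgroup G s) := by omega
    exact (Nat.card_pos_iff.mp this).1
  obtain ⟨x⟩ := hne
  have hdvd : p ∣ Nat.card (fixingSubgroup G s) := by
    rw [← hcard, ← index_stabilizer_of_transitive (fixingSubgroup G s) x]
    exact Subgroup.index_dvd_card _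
  haveI : Fact p.Prime := ⟨hp⟩
  obtain ⟨g, hg⟩ := exists_prime_orderOf_dvd_card' p hdvd
  have hord : orderOf ((g : G) : Equiv.Perm α) = p := by
    rw [Subgroup.orderOf_coe, Subgroup.orderOf_coe, hg]
  have hsup : ((g : G) : Equiv.Perm α).support ⊆ T := by
    intro y hy
    by_contra hyT
    have := (mem_fixingSubgroup_iff G).1 g.2 y (by simpa [s] using hyT)
    exact (Equiv.Perm.mem_support.1 hy) this
  have hle := card_le_card hsup
  have hcyc : ((g : G) : Equiv.Perm α).IsCycle :=
    Equiv.Perm.isCycle_of_prime_order (hord ▸ hp) (by rw [hord]; omega)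
  exact Cfsg.Agent.S0713.result G (isPreprimitive_of_is_two_pretransitive h2) hp (by omega) hpn hcyc
    (by rw [← hcyc.orderOf, hord]) (g : G).2

end Cfsg.Agent.H3.PSj
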