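import Cfsg.Agent.H1.PS0

set_option autoImplicit false

/-! Package `Ua` for S0725: the mean number of points separating two points. -/

namespace Cfsg.Agent.H3.PSu
open MulAction Finset Cfsg.Agent.H1.PS

universe u

theorem big {G : Type u} {α : Type u} [Group G] [MulAction G α] [Fintype α] [DecidableEq α]
    (hp : IsPreprimitive G α) (x y0 : α) (O : Finset α) (hO : ∀ b, b ∈ O ↔ ∃ g : G, g • x = x ∧ g • y0 = b)
    (hxy : x ≠ y0) (k : ℕ) (hk : 1 + #O + k = Fintype.card α) (hr : Fintype.card α < 2 * #O) (k1 : 1 ≤ k) :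
    #O ≤ k * (k - 1) := by
  classical
  let Y : α → α → Prop := fun a b => ∃ g : G, g • x = a ∧ g • y0 = b
  have Yinv : ∀ (g : G) a b, Y a b → Y (g • a) (g • b) := by
    rintro g a b ⟨h, rfl, rfl⟩
    exact ⟨g * h, mul_smul _ _ _, mul_smul _ _ _⟩
  have Yinv' : ∀ (g : G) a b, Y (g • a) (g • b) → Y a b := by
    intro g a b h
    simpa using Yinv g⁻¹ _ _ h
  have Yne : ∀ a b, Y a b → a ≠ b := by
    rintro a b ⟨h, rfl, rfl⟩ he
    exact hxy (MulAction.injective h he)
  have Yorb : ∀ a b c d, Y a b → Y c d → ∃ g : G, g • a = c ∧ g • b = d := by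
    rintro a b c d ⟨h, rfl, rfl⟩ ⟨h', rfl, rfl⟩
    exact ⟨h' * h⁻¹, by rw [mul_smul, inv_smul_smul], by rw [mul_smul, inv_smul_smul]⟩
  have hOx : ({b | Y x b} : Finset α) = O := by
    ext b; simp [hO, Y]
  have out : ∀ a, #{b | Y a b} = #O := by
    intro a
    obtain ⟨g, rfl⟩ := exists_smul_eq G x a
    rw [← hOx]
    symm
    refine card_bij (fun b _ => g • b) ?_ (fun _ _ _ _ h => MulAction.injective g h) ?_
    · intro b hb
      simp only [mem_filter, mem_univ, true_and] at hb ⊢
      exact Yinv g _ _ hb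
    · intro b hb
      simp only [mem_filter, mem_univ, true_and] at hb
      refine ⟨g⁻¹ • b, ?_, smul_inv_smul g b⟩
      simp only [mem_filter, mem_univ, true_and]
      exact Yinv' g _ _ (by rwa [smul_inv_smul])
  have inc : ∀ b, #{a | Y a b} = #{a | Y a x} := by
    intro b
    obtain ⟨g, rfl⟩ := exists_smul_eq G x b
    symm
    refine card_bij (fun b _ => g • b) ?_ (fun _ _ _ _ h => MulAction.injective g h) ?_
    · intro b hb
      simp only [mem_filter, mem_univ, true_and] at hb ⊢
      exact Yinv g _ _ hb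
    · intro b hb
      simp only [mem_filter, mem_univ, true_and] at hb
      refine ⟨g⁻¹ • b, ?_, smul_inv_smul g b⟩
      simp only [mem_filter, mem_univ, true_and]
      exact Yinv' g _ _ (by rwa [smul_inv_smul])
  have hin : #{a | Y a x} = #O := by
    have dc : ∑ b : α, #{a | Y a b} = ∑ a : α, #{b | Y a b} := by
      simp only [card_filter]
      exact sum_comm
    simp only [out, inc, sum_const, smul_eq_mul, card_univ] at dc
    exact Nat.eq_of_mul_eq_mul_left (by omega) dc
  have Ysymm : ∀ a b, Y a b → Y b a := by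
    have : ∃ y, Y x y ∧ Y y x := by
      by_contra hne
      push Not at hne
      have hd : Disjoint ({b | Y x b} : Finset α) ({a | Y a x} : Finset α) := by
        rw [disjoint_left]
        intro y hy hy'
        simp only [mem_filter, mem_univ, true_and] at hy hy'
        exact hne y hy hy'
      have := card_le_univ (({b | Y x b} : Finset α) ∪ ({a | Y a x} : Finset α))
      rw [card_union_of_disjoint hd, out, hin] at this
      omega
    obtain ⟨y, h1, h2⟩ := this
    intro a b hab
    obtain ⟨g, rfl, rfl⟩ := Yorb _ _ _ _ h1 hab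
    exact Yinv g _ _ h2
  let Z : α → α → Prop := fun a b => a ≠ b ∧ ¬ Y a b
  have Zinv : ∀ (g : G) a b, Z a b → Z (g • a) (g • b) := fun g a b h =>
    ⟨fun he => h.1 (MulAction.injective g he), fun hy => h.2 (Yinv' g _ _ hy)⟩
  have Zsymm : ∀ a b, Z a b → Z b a := fun a b h => ⟨h.1.symm, fun hy => h.2 (Ysymm _ _ hy)⟩
  have Zc : ∀ a, #{b | Z a b} = k := by
    intro a
    have h1 : ({b | Z a b} : Finset α) = (insert a ({b | Y a b} : Finset α))ᶜ := by
      ext b
      simp only [mem_filter, mem_univ, true_and, mem_compl, mem_insert, not_or, Z]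
      exact ⟨fun h => ⟨h.1.symm, h.2⟩, fun h => ⟨Ne.symm h.1, h.2⟩⟩
    rw [h1, card_compl, card_insert_of_notMem (by simpa using fun h => Yne _ _ h rfl), out]
    omega
  have hnt : ∃ a b c, Z a b ∧ Z b c ∧ Y a c := by
    by_contra hne
    push Not at hne
    let E : α → α → Prop := fun a b => ¬ Y a b
    have Etr : ∀ a b c, E a b → E b c → E a c := by
      intro a b c h1 h2
      by_cases hab : a = b
      · exact hab ▸ h2
      by_cases hbc : b = c
      · exact hbc ▸ h1
      exact hne a b c ⟨hab, h1⟩ ⟨hbc, h2⟩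
    have Esy : ∀ a b, E a b → E b a := fun a b h hy => h (Ysymm _ _ hy)
    have hB : IsBlock G {b | E x b} := by
      rw [isBlock_iff_smul_eq_of_mem]
      intro g a ha hga
      have h1 : E (g • x) (g • a) := fun hy => ha (Yinv' g _ _ hy)
      have h2 : E x (g • x) := Etr _ _ _ hga (Esy _ _ h1)
      ext y
      rw [Set.mem_smul_set_iff_inv_smul_mem]
      constructor
      · intro hy
        have : E (g • x) y := fun h => hy (Yinv' g _ _ (by rwa [smul_inv_smul]))
        exact Etr _ _ _ h2 this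
      · intro hy h
        have := Yinv g _ _ h
        rw [smul_inv_smul] at this
        exact Etr _ _ _ (Esy _ _ h2) hy this
    rcases hp.isTrivialBlock_of_isBlock hB with h | h
    · obtain ⟨b, hb⟩ : ({b | Z x b} : Finset α).Nonempty := card_pos.mp (by rw [Zc]; omega)
      simp only [mem_filter, mem_univ, true_and] at hb
      exact hb.1 (h (fun hy => Yne _ _ hy rfl) hb.2)
    · have : y0 ∈ {b | E x b} := h ▸ Set.mem_univ _
      exact this ⟨1, one_smul _ _, one_smul _ _⟩
  obtain ⟨a, b, c, hab, hbc, hac⟩ := hnt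
  have hsub : O ⊆ ({b | Z x b} : Finset α).biUnion fun b => ({y | Z b y} : Finset α).erase x := by
    intro y hy
    have hy' : Y x y := (hO y).1 hy
    obtain ⟨g, hg, hg'⟩ := Yorb _ _ _ _ hac hy'
    simp only [mem_biUnion, mem_filter, mem_univ, true_and, mem_erase]
    exact ⟨g • b, hg ▸ Zinv g _ _ hab, (Yne _ _ hy').symm, hg' ▸ Zinv g _ _ hbc⟩
  refine (card_le_card hsub).trans (card_biUnion_le.trans ?_)
  rw [sum_congr rfl (g := fun _ => k - 1) (fun b hb => by
    rw [card_erase_of_mem (by simpa using Zsymm _ _ (by simpa using hb)), Zc]), sum_const, Zc, smul_eq_mul]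

open Classical in
theorem nx {G : Type u} {α : Type u} [Group G] [MulAction G α] [Fintype α] [DecidableEq α]
    (hp : IsPreprimitive G α) (h2 : ¬ IsMultiplyPretransitive G α 2) (x : α) :
    ((Fintype.card α : ℚ) - 1) * A0 (Fintype.card α) ≤ ∑ a : α, (#{b | ¬ Rel G {x} a b} : ℚ) := by
  set n := Fintype.card α with hn
  have rel : ∀ a b, Rel G {x} a b ↔ ∃ g : G, g • x = x ∧ g • a = b := by
    intro a b; simp [H1.PS.Rel]
  let orb : α → Finset α := fun a => {b | Rel G {x} a b}
  have morb : ∀ a b, b ∈ orb a ↔ ∃ g : G, g • x = x ∧ g • a = b := by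
    intro a b; simp [orb, rel]
  have hc : ∀ a, (#{b | ¬ Rel G {x} a b} : ℚ) = n - #(orb a) := by
    intro a
    have := card_filter_add_card_filter_not (s := (univ : Finset α)) (fun b => Rel G {x} a b)
    rw [card_univ, ← hn] at this
    rw [← this]; push_cast; simp [orb]
  have ox : orb x = {x} := by
    ext b; rw [morb, mem_singleton]
    exact ⟨fun ⟨g, h1, h2⟩ => h2.symm.trans h1, fun h => ⟨1, one_smul _ _, by rw [one_smul, h]⟩⟩
  have n2 : 2 ≤ n := by
    by_contra hlt
    apply h2
    rw [is_two_pretransitive_iff]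
    intro a b c d hab _
    exact absurd (Fintype.card_le_one_iff.1 (by omega) a b) hab
  have n2q : (2 : ℚ) ≤ n := by exact_mod_cast n2
  simp only [hc]
  rw [← add_sum_erase _ _ (mem_univ x), ox, card_singleton]
  have hce : #(univ.erase x) = n - 1 := by rw [card_erase_of_mem (mem_univ x), card_univ]
  by_cases hall : ∀ a, 2 * #(orb a) ≤ n
  · have h1 : ∑ _a ∈ univ.erase x, ((n : ℚ) / 2) ≤ ∑ a ∈ univ.erase x, ((n : ℚ) - #(orb a)) := by
      refine sum_le_sum fun a _ => ?_
      have : (2 : ℚ) * #(orb a) ≤ n := by exact_mod_cast hall a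
      linarith
    rw [sum_const, hce, nsmul_eq_mul, Nat.cast_sub (by omega)] at h1
    have h3 : A0 n ≤ n / 2 + 1 := min_le_left _ _
    have h4 := mul_le_mul_of_nonneg_left h3 (show (0 : ℚ) ≤ n - 1 by linarith)
    push_cast at h1 ⊢
    linarith
  · push Not at hall
    obtain ⟨y0, hy0⟩ := hall
    have hxy : x ≠ y0 := by
      rintro rfl
      rw [ox, card_singleton] at hy0
      omega
    set O := orb y0 with hO
    have hxO : x ∉ O := by
      rw [morb]
      rintro ⟨g, h1, h2⟩
      exact hxy (MulAction.injective g (h1.trans h2.symm))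
    have hsub : O ⊆ univ.erase x := fun b hb => mem_erase.2 ⟨fun h => hxO (h ▸ hb), mem_univ _⟩
    set K := univ.erase x \ O with hK
    have hk : 1 + #O + #K = n := by
      have := card_sdiff_add_card_eq_card hsub
      rw [← hK, hce] at this
      omega
    have k1 : 1 ≤ #K := by
      by_contra hlt
      have hK0 : K = ∅ := card_eq_zero.1 (by omega)
      have hall : ∀ b, b ≠ x → ∃ g : G, g • x = x ∧ g • y0 = b := by
        intro b hb
        rw [← morb]
        by_contra hbO
        have : b ∈ K := mem_sdiff.2 ⟨mem_erase.2 ⟨hb, mem_univ _⟩, hbO⟩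
        rw [hK0] at this
        exact notMem_empty _ this
      have hY : ∀ a b, a ≠ b → ∃ g : G, g • x = a ∧ g • y0 = b := by
        intro a b hab
        obtain ⟨g, rfl⟩ := exists_smul_eq G x a
        obtain ⟨h, h1, h2⟩ := hall (g⁻¹ • b) (fun he => hab (by rw [← he, smul_inv_smul]))
        exact ⟨g * h, by rw [mul_smul, h1], by rw [mul_smul, h2, smul_inv_smul]⟩
      apply h2
      rw [is_two_pretransitive_iff]
      intro a b c d hab hcd
      obtain ⟨g, rfl, rfl⟩ := hY a b hab
      obtain ⟨h, rfl, rfl⟩ := hY c d hcd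
      exact ⟨h * g⁻¹, by rw [mul_smul, inv_smul_smul], by rw [mul_smul, inv_smul_smul]⟩
    have hb := big hp x y0 O (morb y0) hxy #K hk hy0 k1
    have hk0 : k0 n ≤ #K := by
      rw [k0, Nat.succ_le_iff, Nat.sqrt_lt]
      obtain ⟨j, hj⟩ := Nat.exists_eq_add_of_le' k1
      rw [hj] at hb hk ⊢
      simp only [Nat.add_sub_cancel] at hb
      have : n - 2 = #O + j := by omega
      rw [this]
      nlinarith
    have oO : ∀ a ∈ O, orb a = O := by
      intro a ha
      obtain ⟨g, h1, rfl⟩ := (morb _ _).1 ha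
      ext b
      rw [hO, morb, morb]
      constructor
      · rintro ⟨h, h3, rfl⟩
        exact ⟨h * g, by rw [mul_smul, h1, h3], mul_smul _ _ _⟩
      · rintro ⟨h, h3, rfl⟩
        exact ⟨h * g⁻¹, by rw [mul_smul, inv_smul_eq_iff.2 h1.symm, h3], by rw [mul_smul, inv_smul_smul]⟩
    have oK : ∀ a ∈ K, #(orb a) ≤ #K := by
      intro a ha
      refine card_le_card fun b hb => ?_
      obtain ⟨g, h1, rfl⟩ := (morb _ _).1 hb
      rw [hK, mem_sdiff, mem_erase] at ha ⊢
      refine ⟨⟨fun he => ha.1.1 (MulAction.injective g (he.trans h1.symm)), mem_univ _⟩, fun hga => ha.2 ?_⟩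
      rw [← oO _ hga, morb]
      exact ⟨g⁻¹, inv_smul_eq_iff.2 h1.symm, inv_smul_smul _ _⟩
    rw [← sum_sdiff hsub, ← hK]
    have s1 : ∑ a ∈ O, ((n : ℚ) - #(orb a)) = #O * ((n : ℚ) - #O) := by
      rw [sum_congr rfl (g := fun _ => (n : ℚ) - #O) (fun a ha => by rw [oO a ha]), sum_const, nsmul_eq_mul]
    have s2 : #K * ((n : ℚ) - #K) ≤ ∑ a ∈ K, ((n : ℚ) - #(orb a)) := by
      rw [← nsmul_eq_mul, ← sum_const]
      refine sum_le_sum fun a ha => ?_
      have : (#(orb a) : ℚ) ≤ #K := by exact_mod_cast oK a ha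
      linarith
    have h3 : A0 n ≤ 2 + 2 * k0 n * (n - 1 - k0 n) / (n - 1) := min_le_right _ _
    have h4 := mul_le_mul_of_nonneg_left h3 (show (0 : ℚ) ≤ n - 1 by linarith)
    have h5 : ((n : ℚ) - 1) * (2 + 2 * k0 n * (n - 1 - k0 n) / (n - 1)) =
        2 * (n - 1) + 2 * k0 n * (n - 1 - k0 n) := by
      have : (n : ℚ) - 1 ≠ 0 := by linarith
      field_simp
    have hkq : (1 : ℚ) + #O + #K = n := by exact_mod_cast hk
    have hk0q : (k0 n : ℚ) ≤ #K := by exact_mod_cast hk0
    have hrq : (n : ℚ) < 2 * #O := by exact_mod_cast hy0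
    have h6 : (0 : ℚ) ≤ (#K - k0 n) * (#O - k0 n) := mul_nonneg (by linarith) (by linarith)
    rw [s1]
    rw [h5] at h4
    refine h4.trans (le_trans ?_ (add_le_add le_rfl (add_le_add s2 le_rfl)))
    rw [← hkq]
    push_cast
    nlinarith

theorem ua : Ua.{u} := by
  intro G α _ _ _ _ hp h2
  classical
  have e1 : ∑ p ∈ (univ : Finset α).offDiag, (dd G p.1 p.2 : ℚ) = ∑ p : α × α, (dd G p.1 p.2 : ℚ) := by
    refine sum_subset (subset_univ _) fun p _ hp => ?_
    have : p.1 = p.2 := by simpa using hp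
    rw [Nat.cast_eq_zero, dd, card_eq_zero, filter_eq_empty_iff]
    intro x _ h
    exact h ⟨1, fun _ _ => one_smul _ _, by rw [one_smul, this]⟩
  have e2 : ∑ p : α × α, (dd G p.1 p.2 : ℚ) = ∑ x : α, ∑ a : α, (#{b | ¬ Rel G {x} a b} : ℚ) := by
    rw [Fintype.sum_prod_type]
    simp only [dd, card_filter]
    push_cast
    rw [sum_congr rfl fun a _ => sum_comm]
    rw [sum_comm]
  rw [e1, e2, mul_assoc, ← nsmul_eq_mul, ← card_univ, ← sum_const]
  refine sum_le_sum fun x _ => ?_
  rw [card_univ]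
  convert nx hp h2 x

end Cfsg.Agent.H3.PSu
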