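import Cfsg.Agent.H3.TwoNil
import Cfsg.Agent.H7.Classical

/-!
Two quadratic root groups acting on a vector space.
-/

set_option autoImplicit false
set_option linter.unusedSectionVars false

namespace Cfsg.Agent.H3.RootGeo

open Module Cfsg.Agent.H3.TwoNil Cfsg.Agent.Form

variable {F : Type*} [Field F] {V : Type*} [AddCommGroup V] [Module F V]

/-- The map `1 + c ν` for `ν` of square zero. -/
def rootE (ν : End F V) (hν : ∀ v, ν (ν v) = 0) (c : F) : V ≃ₗ[F] V :=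
  { (1 + c • ν : End F V) with
    invFun := fun v => v - c • ν v
    left_inv := fun v => by simp [hν]
    right_inv := fun v => by simp [hν] }

@[simp] theorem rootE_apply (ν : End F V) (hν : ∀ v, ν (ν v) = 0) (c : F) (v : V) :
    rootE ν hν c v = v + c • ν v := rfl

/-- The root group `{1 + c ν | c ∈ Λ}`. -/
def RG (ν : End F V) (hν : ∀ v, ν (ν v) = 0) (Λ : AddSubgroup F) : Subgroup (V ≃ₗ[F] V) where
  carrier := {g | ∃ c ∈ Λ, ∀ v, g v = v + c • ν v}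
  one_mem' := ⟨0, Λ.zero_mem, by simp⟩
  mul_mem' := by
    rintro g k ⟨c, hc, e⟩ ⟨d, hd, e'⟩
    exact ⟨c + d, Λ.add_mem hc hd, fun v => by simp [e, e', hν, add_smul]; abel⟩
  inv_mem' := by
    rintro g ⟨c, hc, e⟩
    refine ⟨-c, Λ.neg_mem hc, fun v => g.injective ?_⟩
    rw [e (v + _)]; simp [hν]

variable {μ ν : End F V} {hμ : ∀ v, μ (μ v) = 0} {hν : ∀ v, ν (ν v) = 0} {Λ : AddSubgroup F}

theorem mem_RG {g : V ≃ₗ[F] V} : g ∈ RG ν hν Λ ↔ ∃ c ∈ Λ, ∀ v, g v = v + c • ν v := Iff.rfl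

theorem rootE_mem {c : F} (hc : c ∈ Λ) : rootE ν hν c ∈ RG ν hν Λ := ⟨c, hc, fun _ => rfl⟩

/-- The root group is parametrised by `Λ`. -/
noncomputable def rgEquiv (hν : ∀ v, ν (ν v) = 0) (h0 : ν ≠ 0) (Λ : AddSubgroup F) : Λ ≃ RG ν hν Λ :=
  Equiv.ofBijective (fun c => ⟨rootE ν hν c, rootE_mem c.2⟩) ⟨fun c d e => by
    obtain ⟨v, hv⟩ : ∃ v, ν v ≠ 0 := by
      by_contra h; push Not at h; exact h0 (LinearMap.ext h)
    have := congrArg (fun g : RG ν hν Λ => (g : V ≃ₗ[F] V) v) e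
    simp only [rootE_apply, add_right_inj] at this
    exact Subtype.ext (smul_left_injective F hv this), by
    rintro ⟨g, c, hc, e⟩
    exact ⟨⟨c, hc⟩, Subtype.ext (LinearEquiv.ext fun v => (e v).symm)⟩⟩

/-- The group generated by two root groups. -/
def Gam (μ ν : End F V) (Λ : AddSubgroup F) : Subgroup (V ≃ₗ[F] V) :=
  Subgroup.closure {g | ∃ c ∈ Λ, (∀ v, g v = v + c • μ v) ∨ (∀ v, g v = v + c • ν v)}

theorem Gam_comm : Gam μ ν Λ = Gam ν μ Λ := by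
  simp only [Gam, or_comm]

theorem RG_le_Gam : RG ν hν Λ ≤ Gam μ ν Λ := fun _ ⟨c, hc, e⟩ =>
  Subgroup.subset_closure ⟨c, hc, Or.inr e⟩

theorem RG_le_Gam' : RG μ hμ Λ ≤ Gam μ ν Λ := fun _ ⟨c, hc, e⟩ =>
  Subgroup.subset_closure ⟨c, hc, Or.inl e⟩

theorem Gam_le {H : Subgroup (V ≃ₗ[F] V)} (h1 : RG μ hμ Λ ≤ H) (h2 : RG ν hν Λ ≤ H) :
    Gam μ ν Λ ≤ H := by
  rw [Gam, Subgroup.closure_le]
  rintro g ⟨c, hc, e | e⟩
  · exact h1 ⟨c, hc, e⟩
  · exact h2 ⟨c, hc, e⟩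

theorem Gam_sub_mem {δ : V ≃ₗ[F] V} (h : δ ∈ Gam μ ν Λ) (v : V) :
    δ v - v ∈ LinearMap.range μ ⊔ LinearMap.range ν := by
  induction h using Subgroup.closure_induction generalizing v with
  | mem g hg =>
    obtain ⟨c, -, e | e⟩ := hg
    · rw [e, add_sub_cancel_left]
      exact Submodule.mem_sup_left (Submodule.smul_mem _ _ ⟨v, rfl⟩)
    · rw [e, add_sub_cancel_left]
      exact Submodule.mem_sup_right (Submodule.smul_mem _ _ ⟨v, rfl⟩)
  | one => simp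
  | mul a b _ _ ha hb => simpa using add_mem (ha (b v)) (hb v)
  | inv a _ ha => simpa using neg_mem (ha (a.symm v))

theorem Gam_fix {δ : V ≃ₗ[F] V} (h : δ ∈ Gam μ ν Λ) {v : V} (h1 : μ v = 0) (h2 : ν v = 0) :
    δ v = v := by
  induction h using Subgroup.closure_induction with
  | mem g hg => obtain ⟨c, -, e | e⟩ := hg <;> simp [e, h1, h2]
  | one => simp
  | mul a b _ _ ha hb => simp [ha, hb]
  | inv a _ ha => rw [LinearEquiv.coe_inv, LinearEquiv.symm_apply_eq, ha]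

theorem Gam_nf (hμ : ∀ v, μ (μ v) = 0) (hν : ∀ v, ν (ν v) = 0) {δ : V ≃ₗ[F] V}
    (h : δ ∈ Gam μ ν Λ) : NF μ ν (δ : V →ₗ[F] V) (δ.symm : V →ₗ[F] V) :=
  cen_of_mem (LinearMap.ext hμ) (LinearMap.ext hν) (fun _ hg => hg.imp fun _ h => h.2) h

/-- `ν δ - δ⁻¹ ν` commutes with `μ` and `ν`. -/
theorem Gam_cen (hμ : ∀ v, μ (μ v) = 0) (hν : ∀ v, ν (ν v) = 0) {δ : V ≃ₗ[F] V}
    (h : δ ∈ Gam μ ν Λ) : (∀ v, μ (ν (δ v) - δ.symm (ν v)) = ν (δ (μ v)) - δ.symm (ν (μ v))) ∧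
      (∀ v, ν (ν (δ v) - δ.symm (ν v)) = ν (δ (ν v)) - δ.symm (ν (ν v))) := by
  have := (Gam_nf hμ hν h).cen_left (LinearMap.ext hμ) (LinearMap.ext hν)
  exact ⟨fun v => LinearMap.congr_fun this.1 v, fun v => LinearMap.congr_fun this.2 v⟩

theorem stab_of_conj {γ ρ : V ≃ₗ[F] V} (hρ : ρ ∈ RG ν hν Λ) (h1 : ρ ≠ 1)
    (h : ∀ v, γ (ρ v) - γ v ∈ LinearMap.range ν) (v : V) : γ (ν v) ∈ LinearMap.range ν := by
  obtain ⟨c, -, e⟩ := hρ
  have hc : c ≠ 0 := by rintro rfl; exact h1 (LinearEquiv.ext fun v => by simp [e])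
  have := h (c⁻¹ • v)
  simpa [e, smul_smul, hc] using this

theorem malnormal (hL : ∀ δ ∈ Gam μ ν Λ, (∀ v, δ (ν v) ∈ LinearMap.range ν) → δ ∈ RG ν hν Λ) :
    ∀ γ : Gam μ ν Λ, ∀ ρ ∈ (RG ν hν Λ).subgroupOf (Gam μ ν Λ), ρ ≠ 1 →
      γ * ρ * γ⁻¹ ∈ (RG ν hν Λ).subgroupOf (Gam μ ν Λ) → γ ∈ (RG ν hν Λ).subgroupOf (Gam μ ν Λ) := by
  intro γ ρ hρ h1 ⟨c, _, e⟩
  refine hL γ γ.2 (stab_of_conj (hν := hν) hρ (fun e => h1 (Subtype.ext e)) fun v => ?_)
  have := e ((γ : V ≃ₗ[F] V) v)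
  simp at this
  exact ⟨c • (γ : V ≃ₗ[F] V) v, by simp [this]⟩

theorem card_eq_zero [Finite F] (h : ∃ c ∈ Λ, c ≠ 0) : (Nat.card Λ : F) = 0 := by
  obtain ⟨c, hc, h0⟩ := h
  have := congrArg Subtype.val (card_nsmul_eq_zero' (G := Λ) (x := ⟨c, hc⟩))
  rw [AddSubgroup.coe_nsmul, nsmul_eq_mul] at this
  exact (mul_eq_zero.1 this).resolve_right h0

theorem sum_pow_eq_zero [Finite F] {a : F} (ha : a ≠ 0) (hΛ : ∀ c ∈ Λ, a * c ∈ Λ) {n : ℕ}
    (hn : a ^ n ≠ 1) : ∑ᶠ c : Λ, (c : F) ^ n = 0 := by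
  have := Fintype.ofFinite Λ
  let f : Λ → Λ := fun c => ⟨a * c, hΛ c c.2⟩
  have hf : Function.Bijective f := Finite.injective_iff_bijective.1 fun c d e =>
    Subtype.ext (mul_left_cancel₀ ha (congrArg Subtype.val e))
  have h1 := hf.sum_comp (fun c : Λ => (c : F) ^ n)
  simp only [f, mul_pow, ← Finset.mul_sum] at h1
  rw [finsum_eq_sum_of_fintype]
  have : (a ^ n - 1) * ∑ c : Λ, (c : F) ^ n = 0 := by rw [sub_mul, h1]; simp
  exact (mul_eq_zero.1 this).resolve_left (sub_ne_zero.2 hn)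

/-- The equivalence between `Λ` and the root group inside `Gam`. -/
noncomputable def rgEquiv' (μ : End F V) (hν : ∀ v, ν (ν v) = 0) (h0 : ν ≠ 0) (Λ : AddSubgroup F) :
    Λ ≃ (RG ν hν Λ).subgroupOf (Gam μ ν Λ) :=
  (rgEquiv hν h0 Λ).trans (Subgroup.subgroupOfEquivOfLe (RG_le_Gam (μ := μ))).symm.toEquiv

theorem rgEquiv'_coe (h0 : ν ≠ 0) (c : Λ) :
    (((rgEquiv' μ hν h0 Λ c : (RG ν hν Λ).subgroupOf (Gam μ ν Λ)) : Gam μ ν Λ) : V ≃ₗ[F] V) =
      rootE ν hν c := rfl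

variable [Finite F] [FiniteDimensional F V]

theorem finite_GL : Finite (V ≃ₗ[F] V) := by
  have : Finite V := Module.finite_of_finite F
  exact Finite.of_injective (fun g : V ≃ₗ[F] V => (g : V → V)) DFunLike.coe_injective

/-- The Frobenius ending. -/
theorem frob_end (h0 : ν ≠ 0) (hex : ∃ c ∈ Λ, c ≠ 0) {a : F} (ha : a ≠ 0) (ha1 : a ≠ 1)
    (hΛ : ∀ c ∈ Λ, a * c ∈ Λ)
    (hL : ∀ δ ∈ Gam μ ν Λ, (∀ v, δ (ν v) ∈ LinearMap.range ν) → δ ∈ RG ν hν Λ) :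
    Gam μ ν Λ ≤ RG ν hν Λ := by
  have := finite_GL (F := F) (V := V)
  have := Fintype.ofFinite Λ
  let π : Gam μ ν Λ →* End F V :=
    LinearEquiv.automorphismGroup.toLinearMapMonoidHom.comp (Gam μ ν Λ).subtype
  have hc := card_eq_zero hex
  have := frob_inj π (fun a b e => Subtype.ext (LinearEquiv.toLinearMap_injective e)) _
    (malnormal hL) (by
      rw [← finsum_comp_equiv (rgEquiv' μ hν h0 Λ), finsum_eq_sum_of_fintype]
      have e : ∀ c : Λ, π (rgEquiv' μ hν h0 Λ c) = 1 + (c : F) • ν := fun c => rfl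
      have h1 := sum_pow_eq_zero ha hΛ (n := 1) (by simpa using ha1)
      rw [finsum_eq_sum_of_fintype] at h1
      simp only [pow_one] at h1
      simp only [e, Finset.sum_add_distrib, ← Finset.sum_smul, h1, Finset.sum_const, Finset.card_univ]
      rw [← Nat.card_eq_fintype_card, ← Nat.cast_smul_eq_nsmul F, hc]; simp) (by
      rw [← Nat.card_congr (rgEquiv' μ hν h0 Λ), ← map_natCast (algebraMap F (End F V)), hc, map_zero])
  exact Subgroup.subgroupOf_eq_top.1 this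

/-- The Sylow ending. -/
theorem sylow_end (hμ : ∀ v, μ (μ v) = 0) (h0 : ν ≠ 0) (hex : ∃ c ∈ Λ, c ≠ 0)
    (hL : ∀ δ ∈ Gam μ ν Λ, (∀ v, δ (ν v) ∈ LinearMap.range ν) → δ ∈ RG ν hν Λ) :
    ∃ s ∈ Gam μ ν Λ, ∀ v, s (μ v) ∈ LinearMap.range ν := by
  have := finite_GL (F := F) (V := V)
  obtain ⟨p, hp⟩ := CharP.exists F
  have : Fact p.Prime := ⟨CharP.char_is_prime F p⟩
  have hP : ∀ {ν : End F V} (hν : ∀ v, ν (ν v) = 0), IsPGroup p (RG ν hν Λ) := by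
    rintro ν hν ⟨g, c, hc, e⟩
    refine ⟨1, Subtype.ext (LinearEquiv.ext fun v => ?_)⟩
    have : ∀ n : ℕ, (g ^ n) v = v + ((n : F) * c) • ν v := fun n => by
      induction n with
      | zero => simp
      | succ n ih => rw [pow_succ', LinearEquiv.mul_apply, ih, e]; simp [hν, add_mul, add_smul]; abel
    simp [this]
  obtain ⟨c, hc, hc0⟩ := hex
  obtain ⟨s, hs⟩ := sylow_conj (p := p) (R := (RG ν hν Λ).subgroupOf (Gam μ ν Λ))
    (R' := (RG μ hμ Λ).subgroupOf (Gam μ ν Λ)) (hP hν).comap_subtype (hP hμ).comap_subtype (by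
      intro e
      have h1 : (⟨rootE ν hν c, RG_le_Gam (rootE_mem hc)⟩ : Gam μ ν Λ) ∈
          (RG ν hν Λ).subgroupOf (Gam μ ν Λ) := rootE_mem (hν := hν) hc
      rw [e, Subgroup.mem_bot, Subtype.ext_iff] at h1
      refine h0 (LinearMap.ext fun v => ?_)
      simpa [hc0] using LinearEquiv.congr_fun h1 v) (malnormal hL)
  refine ⟨s, s.2, fun v => ?_⟩
  obtain ⟨d, -, e⟩ := hs ⟨rootE μ hμ c, RG_le_Gam' (rootE_mem hc)⟩ (rootE_mem (hν := hμ) hc)
  have := e ((s : V ≃ₗ[F] V) (c⁻¹ • v))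
  simp [smul_smul, hc0] at this
  rw [this]; exact Submodule.smul_mem _ _ ⟨_, rfl⟩

/-- The Frobenius ending in the adjoint representation. -/
theorem frob_adj (hμ : ∀ v, μ (μ v) = 0) (h2 : (2 : F) ≠ 0) (hex : ∃ c ∈ Λ, c ≠ 0) {a : F}
    (ha : a ≠ 0) (ha1 : a ^ 2 ≠ 1) (hΛ : ∀ c ∈ Λ, a * c ∈ Λ)
    (hL : ∀ δ ∈ Gam μ ν Λ, (∀ v, δ (ν v) ∈ LinearMap.range ν) → ∃ ρ ∈ RG ν hν Λ, ∃ k : V ≃ₗ[F] V,
      δ = k * ρ ∧ k * k = 1 ∧ (∀ v, k (μ v) = μ (k v)) ∧ (∀ v, k (ν v) = ν (k v))) (v : V) :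
    μ (ν v) = ν (μ v) := by
  by_contra hne
  have h0 : ν ≠ 0 := by rintro rfl; simp at hne
  have := finite_GL (F := F) (V := V)
  have := Fintype.ofFinite Λ
  let E : Subalgebra F (End F V) :=
    Subalgebra.centralizer F (Subalgebra.centralizer F {μ, ν} : Set (End F V))
  have hμE : μ ∈ E := fun k hk => (hk μ (by simp)).symm
  have hνE : ν ∈ E := fun k hk => (hk ν (by simp)).symm
  have hE : ∀ γ ∈ Gam μ ν Λ, (γ : V →ₗ[F] V) ∈ E := by
    intro γ hγ k hk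
    have h1 : ∀ v, k (μ v) = μ (k v) := fun v => LinearMap.congr_fun (hμE k hk) v
    have h2 : ∀ v, k (ν v) = ν (k v) := fun v => LinearMap.congr_fun (hνE k hk) v
    ext v
    change k (γ v) = γ (k v)
    induction hγ using Subgroup.closure_induction generalizing v with
    | mem g hg => obtain ⟨c, -, e | e⟩ := hg <;> simp [e, h1, h2]
    | one => simp
    | mul a b _ _ ha hb => simp [ha, hb]
    | inv a _ ha => rw [LinearEquiv.coe_inv, LinearEquiv.eq_symm_apply, ← ha]; simp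
  let π : Gam μ ν Λ →* End F E :=
    { toFun := fun γ =>
        { toFun := fun X => ⟨((γ : V ≃ₗ[F] V) : V →ₗ[F] V) * X * ((γ : V ≃ₗ[F] V).symm : V →ₗ[F] V),
            E.mul_mem (E.mul_mem (hE _ γ.2) X.2) (hE _ (γ⁻¹).2)⟩
          map_add' := fun X Y => Subtype.ext (by simp [mul_add, add_mul])
          map_smul' := fun c X => Subtype.ext (by simp) }
      map_one' := by ext X v; rfl
      map_mul' := fun a b => by ext X v; rfl }
  have hπ : ∀ (γ : Gam μ ν Λ) (X : E) (v : V),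
      (π γ X : End F V) v = (γ : V ≃ₗ[F] V) ((X : End F V) ((γ : V ≃ₗ[F] V).symm v)) :=
    fun _ _ _ => rfl
  have hπν : ∀ γ : Gam μ ν Λ, ∀ ρ ∈ (RG ν hν Λ).subgroupOf (Gam μ ν Λ), π γ = π ρ →
      ∀ v, (γ : V ≃ₗ[F] V) (ν v) = ν ((γ : V ≃ₗ[F] V) v) := by
    intro γ ρ hρ e v
    have h1 := hπ γ ⟨ν, hνE⟩ ((γ : V ≃ₗ[F] V) v)
    obtain ⟨c, -, e'⟩ := (RG ν hν Λ).inv_mem hρ
    obtain ⟨d, -, e''⟩ := hρ
    rw [e, hπ] at h1
    simp only [Subgroup.subtype_apply, LinearEquiv.coe_inv] at e' e''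
    simpa [e', e'', hν] using h1.symm
  have hc := card_eq_zero hex
  obtain ⟨c, hcΛ, hc0⟩ := hex
  have key := frob (A := End F E) π ((RG ν hν Λ).subgroupOf (Gam μ ν Λ))
  obtain ⟨r, hr, e⟩ := key (by
      rintro ρ ⟨c, hc, e⟩ h1
      have h3 := hπ ρ ⟨μ, hμE⟩ ((ρ : V ≃ₗ[F] V) v)
      simp only [Subgroup.subtype_apply] at e
      rw [h1, LinearEquiv.symm_apply_apply] at h3
      simp [e] at h3
      have hc0 : c = 0 := by
        by_contra hc0; exact hne (smul_right_injective V hc0 h3)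
      exact Subtype.ext (LinearEquiv.ext fun v => by simp [e, hc0])) (by
      intro γ ρ hρ hρ1 ρ' hρ' e
      have h1 := hπν _ _ hρ' e
      obtain ⟨r, hr, k, e1, e2, -, e4⟩ := hL _ (γ * ρ * γ⁻¹).2 (fun v => ⟨_, (h1 v).symm⟩)
      have hkr : r * k = k * r := by
        obtain ⟨d, -, ed⟩ := hr
        ext v; simp [ed, e4]
      have h3 : ((γ * (ρ * ρ) * γ⁻¹ : Gam μ ν Λ) : V ≃ₗ[F] V) = r * r := by
        rw [show γ * (ρ * ρ) * γ⁻¹ = (γ * ρ * γ⁻¹) * (γ * ρ * γ⁻¹) by group, Subgroup.coe_mul, e1,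
          mul_assoc, ← mul_assoc r, hkr, mul_assoc, ← mul_assoc, e2, one_mul]
      obtain ⟨d, -, ed⟩ := (RG ν hν Λ).mul_mem hr hr
      rw [← h3] at ed
      obtain ⟨r', hr', k', e1', -, e3', e4'⟩ := hL γ γ.2
        (stab_of_conj (hν := hν) ((RG ν hν Λ).mul_mem hρ hρ) (by
          obtain ⟨c, -, ec⟩ := hρ
          simp only [Subgroup.subtype_apply] at ec
          intro e
          apply hρ1
          refine Subtype.ext (LinearEquiv.ext fun v => ?_)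
          have := LinearEquiv.congr_fun e v
          simp [ec, hν, add_assoc, ← two_smul F, h2] at this
          simp [ec, this]) (fun v => by
          have := ed ((γ : V ≃ₗ[F] V) v)
          simp at this
          exact ⟨d • (γ : V ≃ₗ[F] V) v, by simp [this]⟩))
      refine ⟨⟨r', RG_le_Gam hr'⟩, hr', ?_⟩
      ext X v
      have hk : (k' : V →ₗ[F] V) ∈ Subalgebra.centralizer F ({μ, ν} : Set (End F V)) := by
        rintro _ (rfl | rfl)
        · ext v; exact (e3' v).symm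
        · ext v; exact (e4' v).symm
      have hX : ∀ Y : E, ∀ v, k' ((Y : End F V) v) = (Y : End F V) (k' v) := fun Y v =>
        LinearMap.congr_fun (Y.2 _ hk) v
      have := hX (π ⟨r', RG_le_Gam hr'⟩ X) (k'.symm v)
      rw [hπ, e1', LinearEquiv.apply_symm_apply] at *
      exact this) (by
      rw [← finsum_comp_equiv (rgEquiv' μ hν h0 Λ), finsum_eq_sum_of_fintype]
      have h1 := sum_pow_eq_zero ha hΛ (n := 1) (by rintro h; simp at h; simp [h] at ha1)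
      have h3 := sum_pow_eq_zero ha hΛ ha1
      rw [finsum_eq_sum_of_fintype] at h1 h3
      simp only [pow_one] at h1
      ext X v
      have e : ∀ c : Λ, (π (rgEquiv' μ hν h0 Λ c) X : End F V) v = (X : End F V) v +
          (c : F) • (ν ((X : End F V) v) - (X : End F V) (ν v)) -
          (c : F) ^ 2 • ν ((X : End F V) (ν v)) := fun c => by
        change rootE ν hν c ((X : End F V) (v - (c : F) • ν v)) = _
        simp only [rootE_apply, map_sub, map_smul]; module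
      simp only [LinearMap.sum_apply, AddSubmonoidClass.coe_finsetSum, e, Finset.sum_sub_distrib,
        Finset.sum_add_distrib, ← Finset.sum_smul, h1, h3, Finset.sum_const, Finset.card_univ]
      rw [← Nat.card_eq_fintype_card, ← Nat.cast_smul_eq_nsmul F, hc]; simp) (by
      rw [← Nat.card_congr (rgEquiv' μ hν h0 Λ), ← map_natCast (algebraMap F (End F E)), hc, map_zero])
    ⟨rootE μ hμ c, RG_le_Gam' (rootE_mem hcΛ)⟩
  have := hπν _ _ hr e v
  simp at this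
  exact hne (smul_right_injective V hc0 this)

section Ext
omit [Finite F]
variable {M T : Subgroup (V ≃ₗ[F] V)} {B : Submodule F V} {g : V ≃ₗ[F] V}

/-- `g ∈ M \ T` maximises the dimension of `g B ∩ B`. -/
structure Ext (M T : Subgroup (V ≃ₗ[F] V)) (B : Submodule F V) (g : V ≃ₗ[F] V) : Prop where
  mem : g ∈ M
  not_mem : g ∉ T
  max : ∀ k ∈ M, k ∉ T → finrank F (B.map (k : V →ₗ[F] V) ⊓ B : Submodule F V) ≤
    finrank F (B.map (g : V →ₗ[F] V) ⊓ B : Submodule F V)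

theorem exists_ext (h : ¬ M ≤ T) (B : Submodule F V) : ∃ g, Ext M T B g := by
  obtain ⟨g₀, h1, h2⟩ := SetLike.not_le_iff_exists.1 h
  obtain ⟨g, hg, hmax⟩ := Set.Finite.exists_maximalFor'
    (fun g : V ≃ₗ[F] V => finrank F (B.map (g : V →ₗ[F] V) ⊓ B : Submodule F V)) {g | g ∈ M ∧ g ∉ T}
    ((Set.finite_Iic (finrank F V)).subset (by
      rintro _ ⟨g, -, rfl⟩; exact Submodule.finrank_le _)) ⟨g₀, h1, h2⟩
  exact ⟨g, hg.1, hg.2, fun k h1 h2 => (le_total _ _).elim id (hmax ⟨h1, h2⟩)⟩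

theorem finrank_map_inf (k : V ≃ₗ[F] V) (A B : Submodule F V) :
    finrank F (A.map (k : V →ₗ[F] V) ⊓ B.map (k : V →ₗ[F] V) : Submodule F V) =
      finrank F (A ⊓ B : Submodule F V) := by
  rw [← Submodule.map_inf _ k.injective, LinearEquiv.finrank_map_eq]

theorem map_map (a b : V ≃ₗ[F] V) (A : Submodule F V) :
    (A.map (b : V →ₗ[F] V)).map (a : V →ₗ[F] V) = A.map ((a * b : V ≃ₗ[F] V) : V →ₗ[F] V) := by
  rw [← Submodule.map_comp]; rfl

theorem Ext.le (h : Ext M T B g) {k : V ≃ₗ[F] V} (hk : k ∈ M) (hkT : g⁻¹ * k * g ∉ T) :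
    finrank F ((B.map (g : V →ₗ[F] V)).map (k : V →ₗ[F] V) ⊓ B.map (g : V →ₗ[F] V) : Submodule F V) ≤
      finrank F (B.map (g : V →ₗ[F] V) ⊓ B : Submodule F V) := by
  have := h.max _ (M.mul_mem (M.mul_mem (M.inv_mem h.mem) hk) h.mem) hkT
  rw [← finrank_map_inf g, map_map, show g * (g⁻¹ * k * g) = k * g by group, ← map_map] at this
  exact this

theorem mem_of_finrank_le {D E : Submodule F V} (hDE : D ≤ E) (h : finrank F E ≤ finrank F D) {x : V}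
    (hx : x ∈ E) : x ∈ D := by
  rwa [Submodule.eq_of_le_of_finrank_le hDE h]

theorem Ext.key (h : Ext M T B g) {k : V ≃ₗ[F] V} (hk : k ∈ M) (hkT : k ∉ T)
    (hD : ∀ x ∈ B.map (g : V →ₗ[F] V), x ∈ B → k x = x) {b : V} (hb : b ∈ B) (hkb : k b ∈ B) :
    b ∈ B.map (g : V →ₗ[F] V) := by
  have := mem_of_finrank_le (D := B.map (g : V →ₗ[F] V) ⊓ B) (E := B.map (k : V →ₗ[F] V) ⊓ B)
    (fun x hx => ⟨⟨x, hx.2, hD x hx.1 hx.2⟩, hx.2⟩) (h.max k hk hkT) (x := k b) ⟨⟨b, hb, rfl⟩, hkb⟩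
  have e : k b = b := k.injective (hD _ this.1 this.2)
  exact e ▸ this.1

theorem Ext.key' (h : Ext M T B g) {k : V ≃ₗ[F] V} (hk : k ∈ M) (hkT : g⁻¹ * k * g ∉ T)
    (hD : ∀ x ∈ B.map (g : V →ₗ[F] V), x ∈ B → k x = x) {a : V} (ha : a ∈ B.map (g : V →ₗ[F] V))
    (hka : k a ∈ B.map (g : V →ₗ[F] V)) : a ∈ B := by
  have := mem_of_finrank_le (D := B.map (g : V →ₗ[F] V) ⊓ B)
    (E := (B.map (g : V →ₗ[F] V)).map (k : V →ₗ[F] V) ⊓ B.map (g : V →ₗ[F] V))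
    (fun x hx => ⟨⟨x, hx.1, hD x hx.1 hx.2⟩, hx.1⟩) (h.le hk hkT) (x := k a) ⟨⟨a, ha, rfl⟩, hka⟩
  have e : k a = a := k.injective (hD _ this.1 this.2)
  exact e ▸ this.2

end Ext

section Sim
omit [Finite F] [FiniteDimensional F V]
variable {P : FP F}

/-- Similarities of the sesquilinear form. -/
def sim (S : PQ P V) : Subgroup (V ≃ₗ[F] V) where
  carrier := {g | ∃ m : F, m ≠ 0 ∧ ∀ x y, S.B (g x) (g y) = m * S.B x y}
  one_mem' := ⟨1, one_ne_zero, by simp⟩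
  mul_mem' := by
    rintro g k ⟨m, hm, e⟩ ⟨n, hn, e'⟩
    exact ⟨m * n, mul_ne_zero hm hn, fun x y => by simp [e, e', mul_assoc]⟩
  inv_mem' := by
    rintro g ⟨m, hm, e⟩
    refine ⟨m⁻¹, inv_ne_zero hm, fun x y => ?_⟩
    have := e (g.symm x) (g.symm y)
    simp only [LinearEquiv.apply_symm_apply] at this
    rw [this]; field_simp; rfl

/-- Isometries of the sesquilinear form. -/
def bis (S : PQ P V) : Subgroup (V ≃ₗ[F] V) where
  carrier := {g | ∀ x y, S.B (g x) (g y) = S.B x y}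
  one_mem' := fun _ _ => rfl
  mul_mem' := fun {g k} e e' x y => by simp [e _ _, e' _ _]
  inv_mem' := fun {g} e x y => by
    have := e (g.symm x) (g.symm y)
    simpa using this.symm

variable {S : PQ P V}

theorem bis_le_sim : bis S ≤ sim S := fun _ h => ⟨1, one_ne_zero, fun x y => by rw [h x y, one_mul]⟩

theorem isom_le_bis : S.isom ≤ bis S := fun _ h => h.1

theorem conj_mem_bis {g k : V ≃ₗ[F] V} (hg : g ∈ sim S) (hk : k ∈ bis S) : g * k * g⁻¹ ∈ bis S := by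
  obtain ⟨m, hm, e⟩ := hg
  intro x y
  have := e (g.symm x) (g.symm y)
  simp only [LinearEquiv.apply_symm_apply] at this
  simp [e, hk _ _, this]

theorem sim_perp {g : V ≃ₗ[F] V} (hg : g ∈ sim S) {x y : V} : S.B (g x) (g y) = 0 ↔ S.B x y = 0 := by
  obtain ⟨m, hm, e⟩ := hg
  simp [e, hm]

/-- conjugate of an endomorphism -/
def cj (g : V ≃ₗ[F] V) (ν : End F V) : End F V := (g : V →ₗ[F] V) ∘ₗ ν ∘ₗ (g.symm : V →ₗ[F] V)

@[simp] theorem cj_apply (g : V ≃ₗ[F] V) (ν : End F V) (v : V) : cj g ν v = g (ν (g.symm v)) := rfl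

theorem cj_sq (g : V ≃ₗ[F] V) (hν : ∀ v, ν (ν v) = 0) (v : V) : cj g ν (cj g ν v) = 0 := by simp [hν]

theorem range_cj (g : V ≃ₗ[F] V) (ν : End F V) :
    LinearMap.range (cj g ν) = (LinearMap.range ν).map (g : V →ₗ[F] V) := by
  rw [cj, LinearMap.range_comp, LinearMap.range_comp, LinearEquiv.range, Submodule.map_top]

theorem conj_mem_RG {g k : V ≃ₗ[F] V} (hk : k ∈ RG ν hν Λ) :
    g * k * g⁻¹ ∈ RG (cj g ν) (cj_sq g hν) Λ := by
  obtain ⟨c, hc, e⟩ := hk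
  exact ⟨c, hc, fun v => by simp [e]⟩

theorem RG_cj_le {g : V ≃ₗ[F] V} {H : Subgroup (V ≃ₗ[F] V)}
    (h : ∀ k ∈ RG ν hν Λ, g * k * g⁻¹ ∈ H) : RG (cj g ν) (cj_sq g hν) Λ ≤ H := by
  rintro k ⟨c, hc, e⟩
  convert h _ (rootE_mem hc) using 1
  ext v; simp [e]

end Sim

end Cfsg.Agent.H3.RootGeo
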