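import Cfsg.Agent.H3.S7a

/-! Overgroups of the normaliser of the extraspecial group of order `343`: basic tools. -/

set_option autoImplicit false
set_option linter.unusedSectionVars false
set_option linter.unusedSimpArgs false

namespace Cfsg.Agent.H3.S7

open Matrix Subgroup Finset MulAction Cfsg.Agent.H4 Cfsg.Agent.H4.Mob Cfsg.Agent.H4.MobCard Cfsg.Agent.H4.Dick H8.L5g
  H1.Root
open scoped Cfsg.Agent.H4.Bar

theorem lift {G G' : Type*} [Group G] [Finite G] [Group G'] (φ : G →* G') {a : G} {r : ℕ} [Fact r.Prime]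
    (ha : a ^ r = 1) (hn : ∀ n : G, (∃ k, n ^ r ^ k = 1) → φ n ∈ zpowers (φ a) → Commute (n * a * n⁻¹) a → Commute n a)
    {x : G} (hx : ∃ k, x ^ r ^ k = 1) (hg : φ x ∈ zpowers (φ a)) : ∃ k, φ k = 1 ∧ Commute (k * x * k⁻¹) a := by
  let G1 := (zpowers (φ a)).comap φ
  let a' : G1 := ⟨a, mem_zpowers _⟩
  have pg : ∀ y : G1, (∃ k, y.1 ^ r ^ k = 1) → ∃ P : Sylow r G1, y ∈ P := fun y ⟨k, hk⟩ => by
    obtain ⟨P, hP⟩ := IsPGroup.exists_le_sylow (P := zpowers y) (p := r) (by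
      rintro ⟨_, n, rfl⟩
      exact ⟨k, Subtype.ext (show (y ^ n) ^ r ^ k = 1 by
        rw [← zpow_natCast, zpow_comm, zpow_natCast, show y ^ r ^ k = 1 from Subtype.ext hk, _root_.one_zpow])⟩)
    exact ⟨P, hP (mem_zpowers y)⟩
  obtain ⟨P, hP⟩ := pg a' ⟨1, by simpa using ha⟩
  obtain ⟨Q, hQ⟩ := pg ⟨x, hg⟩ hx
  have hc : (centralizer {a'}).subgroupOf P.1 = ⊤ := by
    have := P.2.isNilpotent
    refine normalizerCondition_iff_only_full_group_self_normalizing.1 Group.normalizerCondition_of_isNilpotent _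
      (le_antisymm (fun n h => ?_) le_normalizer)
    obtain ⟨k, hk⟩ := P.2 n
    have := (mem_normalizer_iff.1 h ⟨a', hP⟩).1 (mem_centralizer_singleton_iff.2 rfl)
    exact mem_centralizer_singleton_iff.2 (Subtype.ext (hn n ⟨k, congrArg (·.1.1) hk⟩ n.1.2
      (congrArg Subtype.val (mem_centralizer_singleton_iff.1 this))))
  obtain ⟨y, rfl⟩ := exists_smul_eq G1 Q P
  obtain ⟨j, hj⟩ := y.2
  have h1 := mem_centralizer_singleton_iff.1 (hc.ge (mem_top ⟨_, smul_mem_pointwise_smul _ (MulAut.conj y) _ hQ⟩))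
  refine ⟨(a ^ j)⁻¹ * y, by simp [← hj], ?_⟩
  have h2 : Commute (y * x * y⁻¹ : G) a := congrArg Subtype.val h1
  have h3 := ((Commute.refl a).zpow_left j)
  simpa [mul_assoc] using (h3.inv_left.mul_left h2).mul_left h3

variable {F : Type*} [Field F] [Fintype F]

/-- the standing hypothesis -/
structure Hyp (o : Om7 F) (p : ℕ) (M : Subgroup (G7 F)) : Prop where
  prime : p.Prime
  char : CharP F p
  card : Fintype.card F = p ∨ (Fintype.card F = p ^ 3 ∧ (p % 7 = 2 ∨ p % 7 = 4))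
  det : ∀ g ∈ M, g.val.det = 1
  nrm : ∀ g ∈ Geo.subgroupNormalizer o.R, g.val.det = 1 → g ∈ M

/-- containing the special linear group -/
abbrev Big (M : Subgroup (G7 F)) : Prop := Geo.specialLinear I F ≤ M

/-- diagonal elements -/
def Dg (M : Subgroup (G7 F)) (d : I → F) : Prop := ∃ g ∈ M, g.val = diagonal d

/-- the centraliser of `u` -/
def Cu (o : Om7 F) (M : Subgroup (G7 F)) : Subgroup (G7 F) := M ⊓ centralizer {o.u}

variable {o : Om7 F} {p : ℕ} {M : Subgroup (G7 F)}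

theorem mem_Cu {g : G7 F} : g ∈ Cu o M ↔ g ∈ M ∧ ∀ i j, j ≠ i → j ≠ -i → g.val i j = 0 := by
  rw [Cu, Subgroup.mem_inf, mem_centralizer_singleton_iff, o.comm_u]

theorem ne_neg {x : I} (hx : x ≠ 0) : x ≠ -x := by revert x; decide

/-- the block of `x, -x` -/
def rb (o : Om7 F) (M : Subgroup (G7 F)) {x : I} (hx : x ≠ 0) : Cu o M →* GL (Fin 2) F :=
  MonoidHom.toHomUnits
    { toFun g := !![g.1.val x x, g.1.val x (-x); g.1.val (-x) x, g.1.val (-x) (-x)]
      map_one' := by simp [ne_neg hx, (ne_neg hx).symm, one_fin_two]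
      map_mul' g k := by
        have : ∀ i j, (i = x ∨ i = -x) → (g.1.val * k.1.val) i j = g.1.val i x * k.1.val x j + g.1.val i (-x) * k.1.val (-x) j :=
          fun i j h => by
            rw [mul_apply]
            refine sum_eq_add _ _ (ne_neg hx) (fun l _ hl => ?_) (by simp) (by simp)
            rw [(mem_Cu.1 g.2).2 i l, zero_mul] <;> rcases h with rfl | rfl <;> simp [hl.1, hl.2]
        simp [this] }

theorem rb_val {x : I} (hx : x ≠ 0) (g : Cu o M) :
    (rb o M hx g).val = !![g.1.val x x, g.1.val x (-x); g.1.val (-x) x, g.1.val (-x) (-x)] := rfl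

/-- the projective action on a block -/
abbrev pb (o : Om7 F) (M : Subgroup (G7 F)) {x : I} (hx : x ≠ 0) : Cu o M →* PG F := ProjGenLinGroup.mk.comp (rb o M hx)

theorem Dg.mul {d d' : I → F} (h : Dg M d) (h' : Dg M d') : Dg M fun x => d x * d' x := by
  obtain ⟨g, h1, h2⟩ := h
  obtain ⟨k, h3, h4⟩ := h'
  exact ⟨_, mul_mem h1 h3, by rw [Units.val_mul, h2, h4, diagonal_mul_diagonal]⟩

theorem Dg.ne {d : I → F} (h : Dg M d) (x : I) : d x ≠ 0 := by
  obtain ⟨g, -, h⟩ := h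
  exact prod_ne_zero_iff.1 (det_diagonal (d := d) ▸ h ▸ GeneralLinearGroup.det_ne_zero g) x (mem_univ _)

theorem Dg.pow {d : I → F} (h : Dg M d) (n : ℕ) : Dg M fun x => d x ^ n := by
  obtain ⟨g, h1, h2⟩ := h
  exact ⟨_, pow_mem h1 n, by rw [Units.val_pow_eq_pow_val, h2, diagonal_pow]; rfl⟩

namespace Hyp
variable (H : Hyp o p M)
include H

theorem a : o.a ∈ M := H.nrm _ (le_normalizer o.a_mem) o.det_a
theorem b : b F ∈ M := H.nrm _ (le_normalizer o.b_mem) det_b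
theorem u : o.u ∈ M := H.nrm _ o.u_nrm o.det_u
theorem f : o.f ∈ M := H.nrm _ o.f_nrm o.det_f
theorem z : z F ∈ M := o.ff ▸ mul_mem H.f H.f
theorem af (k t : I) (hk : k ≠ 0) : af F k t hk ∈ M := H.nrm _ (o.af_nrm k t hk) (det_af k t hk)

theorem shift (k t : I) (hk : k ≠ 0) {g : G7 F} (hg : g ∈ M) :
    ∃ g' ∈ M, ∀ i j, g'.val i j = g.val (k * i + t) (k * j + t) :=
  ⟨_, mul_mem (mul_mem (inv_mem (H.af k t hk)) hg) (H.af k t hk), fun i j => by
    rw [← conj_af k t hk]; simp [mul_assoc, -Units.val_mul]⟩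

theorem sub (E : Subfield F) : E = ⊤ ∨ (Nat.card E = p ∧ (p % 7 = 2 ∨ p % 7 = 4)) := by
  have := H.char
  have := Fact.mk H.prime
  have := Fintype.ofFinite E
  obtain ⟨n, -, hn⟩ := FiniteField.card E p
  have e := Module.card_eq_pow_finrank (K := E) (V := F)
  refine or_iff_not_imp_left.2 fun h => ?_
  have h1 : Module.finrank E F ≠ 1 := fun e1 => h (eq_top_iff.2 fun x _ => by
    obtain ⟨c, hc⟩ := (finrank_eq_one_iff_of_nonzero' (1 : F) one_ne_zero).1 e1 x
    exact hc ▸ E.mul_mem c.2 E.one_mem)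
  rw [hn, ← pow_mul] at e
  rcases H.card with k | ⟨k, k2⟩
  · exact (h1 (Nat.eq_one_of_mul_eq_one_left (Nat.pow_right_injective H.prime.two_le
      (e.symm.trans (k.trans (pow_one p).symm))))).elim
  · have := Nat.pow_right_injective H.prime.two_le (e.symm.trans k)
    rw [Nat.card_eq_fintype_card, hn, ((Nat.prime_three.eq_one_or_self_of_dvd _ ⟨_, this.symm⟩).resolve_right
      fun e => h1 (by rw [e] at this; omega)), pow_one]
    exact ⟨rfl, k2⟩

theorem sub_top (S : Subring F) {k : I} (hk : k ≠ 0) (h : o.e k ∈ S) (x : F) : x ∈ S := by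
  let E : Subfield F := { S with
    inv_mem' := fun x hx => by
      by_cases x0 : x = 0
      · simpa [x0] using S.zero_mem
      · rw [show x⁻¹ = x ^ (Fintype.card F - 2) from inv_eq_of_mul_eq_one_left (by
          rw [← pow_succ, ← FiniteField.pow_card_sub_one_eq_one x x0]
          congr 1; have := Fintype.one_lt_card (α := F); omega)]
        exact S.pow_mem hx _ }
  rcases H.sub E with e | ⟨e, e2⟩
  · exact (e.ge trivial : x ∈ E)
  have := Fintype.ofFinite E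
  have := congrArg Subtype.val (FiniteField.pow_card (⟨_, h⟩ : E))
  rw [← Nat.card_eq_fintype_card, e, SubmonoidClass.coe_pow, o.e_pow, o.e_inj, ← ZMod.natCast_mod] at this
  rcases e2 with e2 | e2 <;> rw [e2] at this <;> exact absurd this (by clear * - hk; revert k; decide)

theorem root {i j : I} (hij : i ≠ j) {c : F} (hc : c ≠ 0) {g : G7 F} (hg : g ∈ M) (e : g.val = 1 + single i j c) :
    Big M := by
  let Ro : I → I → F → Prop := fun i j c => ∃ g ∈ M, g.val = 1 + single i j c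
  have h0 : Ro i j 0 := ⟨1, one_mem _, by simp⟩
  have h1 : ∀ {c d}, Ro i j c → Ro i j d → Ro i j (c + d) := fun ⟨g, g1, g2⟩ ⟨k, k1, k2⟩ =>
    ⟨_, mul_mem g1 k1, by simp [g2, k2, mul_add, add_mul, hij.symm, single_add]; abel⟩
  have h2 : ∀ {c}, Ro i j c → Ro i j (-c) := fun ⟨g, g1, g2⟩ =>
    ⟨_, inv_mem g1, Units.inv_eq_of_mul_eq_one_right (by
      simp [g2, mul_add, add_mul, hij.symm, add_assoc, ← single_add])⟩
  let S : Subring F :=
    { carrier := {x | ∀ c, Ro i j c → Ro i j (x * c)}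
      mul_mem' := fun h h' c hc => mul_assoc _ _ c ▸ h _ (h' c hc)
      one_mem' := fun c hc => by simpa
      add_mem' := fun h h' c hc => add_mul _ _ c ▸ h1 (h c hc) (h' c hc)
      zero_mem' := fun c _ => by simpa
      neg_mem' := fun h c hc => neg_mul _ c ▸ h2 (h c hc) }
  have h3 := fun x => H.sub_top S (sub_ne_zero.2 hij) (fun c ⟨g, g1, g2⟩ => ⟨_, mul_mem (mul_mem H.a g1) (inv_mem H.a), by
    ext x y
    refine (conj_mo (σ := 1) g.val x y).trans ?_
    by_cases h : i = x ∧ j = y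
    · simp [g2, ← h.1, ← h.2, hij, sub_eq_add_neg, o.e_add, o.e_neg]; ring
    · by_cases h' : x = y <;> simp [g2, h, one_apply, o.e_ne, single_apply, if_neg h] <;> simp [h', o.e_ne]⟩) (x / c) c ⟨g, hg, e⟩
  intro x hx
  obtain ⟨y, hy, e⟩ := mem_of_rt_all (K := M.map (H7.toLE (F := F)).toMonoidHom) (fun k l hkl a => by
    obtain ⟨g, g1, g2⟩ := h3 a
    obtain ⟨m, n1, t, rfl, rfl⟩ : ∃ m ≠ 0, ∃ t, i = m * k + t ∧ j = m * l + t := by
      clear * - hij hkl; revert i j k l; decide +kernel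
    obtain ⟨g', g3, g4⟩ := H.shift _ t n1 g1
    have e3 : g'.val = 1 + single k l a := by
      ext x y
      simp only [g4, g2, Matrix.add_apply, one_apply, single_apply, add_left_inj, mul_right_inj' n1, div_mul_cancel₀ _ hc]
    exact ⟨_, ⟨g', g3, rfl⟩, fun v => by
      change g'.val *ᵥ v = _
      rw [e3, add_mulVec, one_mulVec, single_mulVec]
      ext m; by_cases hm : m = k <;> simp [hm]⟩) _ ((H7.mem_SL_iff x).1 hx)
  exact H7.toLE.injective e ▸ hy

theorem d7 {N : Subgroup (PG F)} {r s : F} {h} (h1 : mob r 0 0 s h ∈ N) (h7 : r ^ 7 = s ^ 7) (hr : r ≠ s)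
    {a b c d : F} {h'} (h2 : mob a b c d h' ∈ N) (hb : b ≠ 0) (hc : c ≠ 0) (ha : a ≠ 0 ∨ d ≠ 0) : LS F ≤ N := by
  have x1 : mob r 0 0 s h ≠ 1 := fun e => hr (mob_eq_one.1 e).2.2
  have x7 : mob r 0 0 s h ^ 7 = 1 := by
    simp only [pow_succ, pow_zero, one_mul, mob_mul, mob_eq_one]
    exact ⟨by ring, by ring, by linear_combination h7⟩
  have key : ∀ n : ℕ, n.Coprime 7 → mob r 0 0 s h ^ n ≠ 1 := fun n hn e => x1 (by
    have := pow_gcd_eq_one.2 ⟨e, x7⟩
    rwa [hn, pow_one] at this)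
  have key' : ∀ n : ℕ, n.Coprime 7 → (⟨_, h1⟩ : N) ^ n ≠ 1 := fun n hn e => key n hn (congrArg Subtype.val e)
  rcases dickson N with ⟨y, hy⟩ | ⟨y, y', hyy, hy⟩ | ⟨-, -, ⟨⟨e⟩⟩ | ⟨⟨e⟩⟩⟩ | ⟨-, -, -, ⟨e⟩⟩ | ⟨g, E, -, h3, h4⟩
  · rcases P1_cases y with rfl | ⟨t, rfl⟩
    · exact (hc (mob_smul_inf_eq_inf.1 (hy h2))).elim
    · have e1 := mob_smul_pt_eq_pt.1 (hy h1)
      obtain rfl : t = 0 := by
        by_contra t0
        exact hr (mul_right_cancel₀ t0 (by linear_combination e1))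
      exact (hb (by simpa using mob_smul_pt_eq_pt.1 (hy h2))).elim
  · have e1 := Bar.mul_self_mem_Tor (hy h1)
    have e2 : mob r 0 0 s h * mob r 0 0 s h ≠ 1 := sq (mob r 0 0 s h) ▸ key 2 (by norm_num)
    have e3 : ∀ w : P1 (Bar.Kb F), (mob r 0 0 s h * mob r 0 0 s h) • w = w → w = Mob.inf ∨ w = pt 0 := fun w hw =>
      Bar.fix_eq' e2 (by simp [eq_comm]) (by rw [mob_mul, Bar.inf_inf]; simp) (by rw [mob_mul, Bar.pt_pt]; simp) hw
    have f1 : mob a b c d h' • (Mob.inf : P1 (Bar.Kb F)) ≠ Mob.inf := fun e => hc (Bar.inf_inf.1 e)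
    have f2 : mob a b c d h' • (pt 0 : P1 (Bar.Kb F)) ≠ pt 0 := fun e => hb (by simpa using Bar.pt_pt.1 e)
    have f3 : mob a b c d h' • (Mob.inf : P1 (Bar.Kb F)) = pt 0 → mob a b c d h' • (pt 0 : P1 (Bar.Kb F)) ≠ Mob.inf :=
      fun e e' => ha.elim (fun k => k (by simpa using Bar.inf_pt.1 e)) fun k => k (by simpa using Bar.pt_inf.1 e')
    exfalso
    rcases e3 y e1.1 with rfl | rfl <;> rcases e3 y' e1.2 with rfl | rfl
    exacts [hyy.ne rfl, (hy h2).elim (fun e => f1 e.1) fun e => f3 e.1 e.2,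
      (hy h2).elim (fun e => f2 e.1) fun e => f3 e.2 e.1, hyy.ne rfl]
  · rcases Small.A4_pow (e ⟨_, h1⟩) with k | k <;> rw [← map_pow, map_eq_one_iff _ e.injective] at k <;>
      exact (key' _ (by norm_num) k).elim
  · rcases Small.S4_pow (e ⟨_, h1⟩) with k | k <;> rw [← map_pow, map_eq_one_iff _ e.injective] at k <;>
      exact (key' _ (by norm_num) k).elim
  · exact (key' 30 (by norm_num) (a5_thirty e _)).elim
  rcases H.sub E with rfl | ⟨e, e2⟩
  · rwa [PSsub_top, Pair.le_cj_iff, Pair.cj_normal] at h3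
  obtain ⟨y, hy⟩ := h4 (Pair.mem_cj.2 (show g⁻¹ * (g * mob r 0 0 s h * g⁻¹) * g ∈ N by simpa [mul_assoc] using h1))
  have := congrArg (ProjGenLinGroup.map E.subtype) (pow_card_eq_one' (x := y))
  rw [map_pow, hy, conj_pow, map_one, conj_eq_one_iff, card_PG, e] at this
  refine (key _ ((Nat.Prime.coprime_iff_not_dvd (by norm_num)).2 fun h => ?_).symm this).elim
  have := H.prime.pos
  simp only [(show Nat.Prime 7 by norm_num).dvd_mul] at h
  omega

theorem aC : o.a ∈ Cu o M := mem_Cu.2 ⟨H.a, fun i j h _ => by simp [o.a_val, h.symm]⟩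
theorem zC : S7.z F ∈ Cu o M := ⟨H.z, mem_centralizer_singleton_iff.2 o.zu⟩

theorem blk {x : I} (hx : x ≠ 0) {g : G7 F} (hg : g ∈ Cu o M) (h1 : g.val x (-x) ≠ 0) (h2 : g.val (-x) x ≠ 0)
    (h3 : g.val x x ≠ 0 ∨ g.val (-x) (-x) ≠ 0) {y : I} (hy : y ≠ 0) : LS F ≤ (pb o M hy).range := by
  have n := div_ne_zero hx hy
  obtain ⟨k, k1, k2⟩ := H.shift _ 0 n hg.1
  have k3 : k ∈ Cu o M := mem_Cu.2 ⟨k1, fun i j a b => by
    rw [k2, (mem_Cu.1 hg).2] <;> simp only [add_zero, ← mul_neg, ne_eq, mul_right_inj' n, a, b, not_false_eq_true]⟩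
  have e : x / y * y = x := div_mul_cancel₀ x hy
  refine H.d7 (r := o.e y) (s := o.e (-y)) (h := by simp [o.e_ne]) ⟨⟨_, H.aC⟩, (mk_eq_mob _).trans (mob_congr ?_ ?_ ?_ ?_)⟩
    (by rw [o.e7, o.e7]) (o.e_inj.not.2 (ne_neg hy)) ⟨⟨k, k3⟩, mk_eq_mob _⟩ ?_ ?_ ?_
  all_goals simp [rb_val, o.a_val, ne_neg hy, (ne_neg hy).symm, k2, e, h1, h2, h3]

theorem RF {x : I} (hx : x ≠ 0) (h : LS F ≤ (pb o M hx).range) {d : I → F} (hd : Dg M d)
    (h1 : ∀ y, y ≠ x → y ≠ -x → d y = d (-y)) (h2 : d x ≠ d (-x)) : Big M := by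
  obtain ⟨g, hg⟩ := h (tr_mem_LS 1)
  obtain ⟨c, c0, e⟩ := of_tr hg
  have n := hd.ne
  obtain ⟨r, r1, r2⟩ := hd
  refine H.root (ne_neg hx) (c := d x / d (-x) - 1) (sub_ne_zero.2 ((div_eq_one_iff_eq (n _)).not.2 h2))
    (mul_mem (mul_mem (mul_mem r1 g.2.1) (inv_mem r1)) (inv_mem g.2.1)) ?_
  rw [Units.val_mul, Units.mul_inv_eq_iff_eq_mul, Units.val_mul, Units.mul_inv_eq_iff_eq_mul, Units.val_mul, r2]
  have e' := fun i j => congrFun (congrFun e i) j
  simp [rb_val] at e'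
  have z := (mem_Cu.1 g.2).2
  ext i j
  rw [add_mul, one_mul, mul_diagonal, diagonal_mul, Matrix.add_apply]
  have n1 := ne_neg hx
  by_cases hi : i = x
  · subst hi
    rw [single_mul_apply_same]
    by_cases a : j = i
    · simp [a, e', mul_comm]
    by_cases b : j = -i
    · simp [b, e']; field_simp [n]; ring
    simp [z i j a b, z (-i) j b (by simpa)]
  rw [single_mul_apply_of_ne _ _ _ _ _ hi, add_zero, mul_comm]
  by_cases a : j = i
  · rw [a]
  by_cases b : j = -i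
  · by_cases hi' : i = -x
    · simp [b, hi', e']
    · rw [b, h1 i hi hi']
  simp [z i j a b]

theorem dshift {d : I → F} (hd : Dg M d) (k t : I) (hk : k ≠ 0) : Dg M fun x => d (k * x + t) := by
  obtain ⟨g, g1, g2⟩ := hd
  obtain ⟨k, k1, k2⟩ := H.shift k t hk g1
  exact ⟨k, k1, by ext i j; simp [k2, g2, diagonal_apply, hk]⟩

theorem dprod {d : I → F} (hd : Dg M d) : ∏ x, d x = 1 := by
  obtain ⟨g, g1, g2⟩ := hd
  rw [← det_diagonal, ← g2, H.det g g1]

theorem avg {d : I → F} (hd : Dg M d) (x : I) : Dg M fun y => if y = 0 then d x ^ 6 else (d x)⁻¹ := by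
  have := prod_induction (s := univ.erase (0 : I)) (fun k y => d (k * y + x)) (Dg M) (fun _ _ => Dg.mul)
    ⟨1, one_mem _, by simp [Pi.one_def]⟩ fun k hk => H.dshift hd k x (ne_of_mem_erase hk)
  convert this with y
  rw [Finset.prod_apply]
  split_ifs with h
  · simp [h]
  refine inv_eq_of_mul_eq_one_right ?_
  rw [← H.dprod hd, ← (Equiv.prod_comp ((Equiv.mulRight₀ y h).trans (Equiv.addRight x)) d), ← mul_prod_erase _ _ (mem_univ 0)]
  simp

end Hyp

end Cfsg.Agent.H3.S7
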