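import Cfsg.Agent.H3.S7b
import Cfsg.Agent.H5.MH13
import Cfsg.Agent.H5.MH9
import Cfsg.Agent.MH.Main
import Cfsg.Agent.H7.Tensor
import Cfsg.Agent.H5.ZStar

/-! Overgroups of the normaliser of the extraspecial group of order `343`: the centraliser of the involution. -/

set_option autoImplicit false
set_option linter.unusedSectionVars false
set_option linter.unusedSimpArgs false

namespace Cfsg.Agent.H3.S7

open Matrix Subgroup Finset Cfsg.Agent.H5 Cfsg.Agent.Asch H8.L5g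
open scoped commutatorElement

universe v
variable {F : Type v} [Field F] [Fintype F]

/-- the centraliser of `z` -/
def Cz (M : Subgroup (G7 F)) : Subgroup (G7 F) := M ⊓ centralizer {z F}

theorem mem_Cz {M : Subgroup (G7 F)} {g : G7 F} : g ∈ Cz M ↔ g ∈ M ∧ g * z F = z F * g :=
  and_congr_right' mem_centralizer_singleton_iff

theorem Cz.neg {M : Subgroup (G7 F)} (g : Cz M) (i j : I) : g.1.val (-i) j = g.1.val i (-j) := by
  simpa using comm_z.1 (mem_Cz.1 g.2).2 i (-j)

/-- the squares -/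
def ξ : Fin 3 → I := ![1, 2, 4]
/-- zero and the squares -/
def η : Fin 4 → I := Fin.cons 0 ξ

theorem ξ_ne (i : Fin 3) : ξ i ≠ 0 := by revert i; decide
theorem ξ_inj {i j : Fin 3} : ξ i = ξ j ↔ i = j := by revert i j; decide
theorem ξ_neg (i j : Fin 3) : ξ i ≠ -ξ j := by revert i j; decide
theorem ξ_cases (x : I) : x = 0 ∨ ∃ i, x = ξ i ∨ x = -ξ i := by revert x; decide
theorem η_inj {i j : Fin 4} : η i = η j ↔ i = j := by revert i j; decide
theorem η_neg (i : Fin 4) {j : Fin 4} (h : j ≠ 0) : η i ≠ -η j := by revert i j; decide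

theorem sum_I (φ : I → F) : ∑ x, φ x = φ 0 + ∑ i, (φ (ξ i) + φ (-ξ i)) := by
  rw [Fin.sum_univ_three]
  refine (Fin.sum_univ_seven φ).trans ?_
  change φ 0 + φ 1 + φ 2 + φ 3 + φ 4 + φ 5 + φ 6 = φ 0 + (φ 1 + φ 6 + (φ 2 + φ 5) + (φ 4 + φ 3))
  ring

variable (M : Subgroup (G7 F))

/-- action on odd functions -/
def rp : Cz M →* GL (Fin 3) F :=
  MonoidHom.toHomUnits
    { toFun g := of fun i j => g.1.val (ξ i) (ξ j) - g.1.val (ξ i) (-ξ j)
      map_one' := by ext i j; simp [one_apply, ξ_inj, ξ_neg]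
      map_mul' g k := by
        ext i j
        have := Cz.neg k 0 (ξ j)
        simp only [Subgroup.coe_mul, Units.val_mul, mul_apply, of_apply, sum_I, Cz.neg k, neg_neg, Fin.sum_univ_three, neg_zero] at *
        rw [this]; ring }

/-- action on even functions -/
def r4 : Cz M →* GL (Fin 4) F :=
  MonoidHom.toHomUnits
    { toFun g := of fun i j => if j = 0 then g.1.val (η i) 0 else g.1.val (η i) (η j) + g.1.val (η i) (-η j)
      map_one' := by
        ext i j
        by_cases h : j = 0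
        · simp [one_apply, h, ← η_inj]; rfl
        · simp [one_apply, h, η_inj, η_neg]
      map_mul' g k := by
        ext i j
        simp only [Subgroup.coe_mul, Units.val_mul, mul_apply, of_apply, sum_I, Cz.neg k, neg_neg, Fin.sum_univ_succ (n := 3),
          Fin.succ_ne_zero, if_true, if_false, neg_zero, show η 0 = 0 from rfl, show ∀ i, η (.succ i) = ξ i from fun _ => rfl,
          Fin.sum_univ_three]
        split_ifs <;> ring }

variable {M}

theorem rp_apply (g : Cz M) (i j : Fin 3) : (rp M g).val i j = g.1.val (ξ i) (ξ j) - g.1.val (ξ i) (-ξ j) := rfl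
theorem r4_apply (g : Cz M) (i j : Fin 4) :
    (r4 M g).val i j = if j = 0 then g.1.val (η i) 0 else g.1.val (η i) (η j) + g.1.val (η i) (-η j) := rfl

theorem inj (h2 : (2 : F) ≠ 0) {g k : Cz M} (h3 : rp M g = rp M k) (h4 : r4 M g = r4 M k) : g = k := by
  have e3 := fun i j => congrArg (·.val i j) h3
  have e4 := fun i j => congrArg (·.val i j) h4
  simp only [rp_apply, r4_apply] at e3 e4
  have a : ∀ i j, g.1.val (η i) j = k.1.val (η i) j := fun i j => by
    obtain rfl | ⟨j, h⟩ := ξ_cases j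
    · simpa using e4 i 0
    have e : g.1.val (η i) (ξ j) + g.1.val (η i) (-ξ j) = k.1.val (η i) (ξ j) + k.1.val (η i) (-ξ j) := e4 i j.succ
    have e' : g.1.val (η i) (ξ j) - g.1.val (η i) (-ξ j) = k.1.val (η i) (ξ j) - k.1.val (η i) (-ξ j) := by
      induction i using Fin.cases with
      | zero => simp [← Cz.neg, show η 0 = 0 from rfl]
      | succ i => exact e3 i j
    rcases h with rfl | rfl <;> refine mul_left_cancel₀ h2 ?_
    · linear_combination e + e'
    · linear_combination e - e'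
  refine Subtype.ext (Units.ext (ext fun i j => ?_))
  obtain rfl | ⟨i, rfl | rfl⟩ := ξ_cases i
  exacts [a 0 j, a i.succ j, by rw [Cz.neg, Cz.neg]; exact a i.succ _]

variable {o : Om7 F} {p : ℕ}

namespace Hyp
variable (H : Hyp o p M)
include H

/-- `u` in the centraliser -/
def uC : Cz M := ⟨_, mem_Cz.2 ⟨H.u, o.zu.symm⟩⟩
/-- `f` in the centraliser -/
def fC : Cz M := ⟨_, mem_Cz.2 ⟨H.f, o.fz⟩⟩
/-- `z` in the centraliser -/
def zZ : Cz M := ⟨_, mem_Cz.2 ⟨H.z, rfl⟩⟩

theorem up : (rp M H.uC).val = diagonal fun i => o.e (4 * ξ i ^ 2) := by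
  ext i j; simp [rp_apply, uC, o.u_val, diagonal_apply, ξ_inj, ξ_neg]
theorem u4 : (r4 M H.uC).val = diagonal fun i => o.e (4 * η i ^ 2) := by
  ext i j
  by_cases h : j = 0
  · simp [r4_apply, uC, o.u_val, diagonal_apply, h, ← η_inj]; rfl
  · simp [r4_apply, uC, o.u_val, diagonal_apply, h, η_inj, η_neg]
theorem zp : rp M H.zZ = 1 := Units.ext (by
  ext i j; simp [rp_apply, zZ, S7.z, mo_apply, one_apply, ξ_inj, ξ_neg, neg_ite])
theorem fp_ne (i j : Fin 3) : (rp M H.fC).val i j ≠ 0 := by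
  rw [rp_apply, fC, o.f_apply, o.f_apply, ← mul_sub]
  refine mul_ne_zero (div_ne_zero o.G0 o.h7) (sub_ne_zero.2 (o.e_inj.not.2 ?_))
  clear * -; revert i j; decide
theorem f4_ne (h2 : (2 : F) ≠ 0) (i j : Fin 4) : (r4 M H.fC).val i j ≠ 0 := by
  rw [r4_apply]
  split_ifs
  · exact o.f_ne _ _
  rw [fC, o.f_apply, o.f_apply, ← mul_add]
  refine mul_ne_zero (div_ne_zero o.G0 o.h7) fun e => h2 ?_
  have := congrArg (· ^ 7) (eq_neg_of_add_eq_zero_left e)
  simp only [neg_pow (o.e _), o.e7] at this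
  linear_combination this
theorem ffC : H.fC * H.fC = H.zZ := Subtype.ext o.ff
theorem uC7 : H.uC ^ 7 = 1 := Subtype.ext o.u7
theorem up7 : rp M H.uC ^ 7 = 1 := by rw [← map_pow, uC7, map_one]
theorem fp2 : rp M H.fC ^ 2 = 1 := by rw [sq, ← map_mul, ffC, zp]
theorem fu3 : (rp M H.fC * rp M H.uC) ^ 3 = 1 := by
  rw [← map_mul, ← map_pow, show (H.fC * H.uC) ^ 3 = 1 from Subtype.ext o.fu3, map_one]

/-- the group of order `168` on the odd functions -/
def S : Subgroup (GL (Fin 3) F) := closure {rp M H.uC, rp M H.fC}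

theorem uS : rp M H.uC ∈ H.S := subset_closure (by simp)
theorem fS : rp M H.fC ∈ H.S := subset_closure (by simp)
theorem S_le : H.S ≤ (rp M).range := (closure_le _).2 (by rintro _ (rfl | rfl) <;> exact ⟨_, rfl⟩)

theorem S_perfect : ⁅H.S, H.S⁆ = H.S := by
  let φ := Abelianization.of (G := H.S)
  have e1 : φ ⟨_, H.uS⟩ ^ 7 = 1 := by rw [← map_pow, show (⟨_, H.uS⟩ : H.S) ^ 7 = 1 from Subtype.ext H.up7, map_one]
  have e2 : φ ⟨_, H.fS⟩ ^ 2 = 1 := by rw [← map_pow, show (⟨_, H.fS⟩ : H.S) ^ 2 = 1 from Subtype.ext H.fp2, map_one]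
  have e3 : (φ ⟨_, H.fS⟩ * φ ⟨_, H.uS⟩) ^ 3 = 1 := by
    rw [← map_mul, ← map_pow, show ((⟨_, H.fS⟩ : H.S) * ⟨_, H.uS⟩) ^ 3 = 1 from Subtype.ext H.fu3, map_one]
  have e4 : φ ⟨_, H.uS⟩ = 1 := by
    have := congrArg (· ^ 2) e3
    simp only [mul_pow, pow_right_comm (φ ⟨_, H.fS⟩) 3, e2, one_pow, one_mul, ← pow_mul (φ ⟨_, H.uS⟩)] at this
    simpa using pow_gcd_eq_one.2 ⟨this, e1⟩
  rw [e4, mul_one, pow_succ, e2, one_mul] at e3
  have key : ∀ x : H.S, φ x = 1 → x.1 ∈ ⁅H.S, H.S⁆ := fun x hx => by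
    rw [← map_subtype_commutator]
    exact ⟨x, Abelianization.ker_of H.S ▸ hx, rfl⟩
  refine le_antisymm (commutator_le.2 fun a ha b hb => ?_) ((closure_le _).2 ?_)
  · exact mul_mem (mul_mem (mul_mem ha hb) (inv_mem ha)) (inv_mem hb)
  · rintro _ (rfl | rfl)
    exacts [key _ e4, key _ e3]

theorem S_full : Full (Geo.matrixSet H.S) := by
  rw [← alg_eq_top_iff, eq_top_iff]
  have m : ∀ c : F, (rp M H.uC).val - c • 1 ∈ alg F H.S := fun c =>
    sub_mem (mem_alg H.uS) (Subalgebra.smul_mem _ (one_mem _) c)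
  have h1 : ∀ i : Fin 3, single i i 1 ∈ alg F H.S := fun i => by
    have n : ∀ i j : Fin 3, j ≠ 0 → o.e (4 * ξ i ^ 2) - o.e (4 * ξ (i + j) ^ 2) ≠ 0 := fun i j h =>
      sub_ne_zero.2 (o.e_inj.not.2 (by clear * - h; revert i j; decide))
    convert Subalgebra.smul_mem _ (mul_mem (m (o.e (4 * ξ (i + 1) ^ 2))) (m (o.e (4 * ξ (i + 2) ^ 2))))
      ((o.e (4 * ξ i ^ 2) - o.e (4 * ξ (i + 1) ^ 2)) * (o.e (4 * ξ i ^ 2) - o.e (4 * ξ (i + 2) ^ 2)))⁻¹
    rw [up, smul_one_eq_diagonal, smul_one_eq_diagonal, diagonal_sub, diagonal_sub, diagonal_mul_diagonal, ← diagonal_smul,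
      ← diagonal_single]
    congr 1; ext k
    obtain rfl | rfl | rfl : k = i ∨ k = i + 1 ∨ k = i + 2 := by clear * -; revert i k; decide
    · simpa using (inv_mul_cancel₀ (mul_ne_zero (n k 1 (by simp)) (n k 2 (by simp)))).symm
    · simp
    · simp
  intro X _
  rw [matrix_eq_sum_single X]
  refine sum_mem fun i _ => sum_mem fun j _ => ?_
  have := mul_mem (mul_mem (h1 i) (mem_alg H.fS)) (h1 j)
  rw [single_mul_mul_single] at this
  simpa [H.fp_ne i j] using Subalgebra.smul_mem _ this (X i j * ((rp M H.fC).val i j)⁻¹)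

end Hyp

end Cfsg.Agent.H3.S7
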