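import Cfsg.Agent.H3.S7c

/-! Overgroups of the normaliser of the extraspecial group of order `343`: the final step. -/

set_option autoImplicit false
set_option linter.unusedSectionVars false
set_option linter.unusedSimpArgs false

namespace Cfsg.Agent.H3.S7

open Matrix Subgroup Finset Cfsg.Agent.H5 Cfsg.Agent.Asch H8.L5g
open scoped commutatorElement

universe v
variable {F : Type v} [Field F] [Fintype F] {M : Subgroup (G7 F)} {o : Om7 F} {p : ℕ}

theorem Cm.uniq {x y : G7 F} {c d : F} (h : Cm x y c) (h' : Cm x y d) : c = d :=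
  smul_left_injective F (y * x).ne_zero ((Eq.symm h).trans h')

theorem perf_sup {G : Type*} [Group G] {S : Subgroup G} (h : ⁅S, S⁆ = S) (φ : G →* G) :
    ⁅S ⊔ S.map φ, S ⊔ S.map φ⁆ = S ⊔ S.map φ :=
  le_antisymm (commutator_le.2 fun _ ha _ hb => mul_mem (mul_mem (mul_mem ha hb) (inv_mem ha)) (inv_mem hb)) (sup_le (h.ge.trans (commutator_mono le_sup_left le_sup_left))
    ((map_mono h.ge).trans ((map_commutator S S φ).le.trans (commutator_mono le_sup_right le_sup_right))))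

theorem cm_of_sc {s y : G7 F} {c : F} (h : (s * y * s⁻¹ * y⁻¹).val = c • 1) : Cm s y c := by
  simpa [Cm, mul_assoc] using congrArg (· * y.val * s.val) h

theorem i7 {G : Type*} [Group G] {x : G} (h : x ^ 7 = 1) : x ^ 6 = x⁻¹ :=
  eq_inv_of_mul_eq_one_left ((pow_succ x 6).symm.trans h)

theorem z_not : ¬ IsSc (z F).val := fun ⟨c, h⟩ => by
  simpa [z, mo_apply, one_apply, show (1 : I) ≠ -1 by decide] using congrFun (congrFun h 1) (-1)

theorem Om7.inv_triv (o : Om7 F) {s : G7 F} (h : s * s = 1) (hd : s.val.det = 1) {c d : F} (h1 : Cm s o.a c)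
    (h2 : Cm s (b F) d) : s = 1 := by
  have key : ∀ {y c}, Cm s y c → c = 1 := fun {y c} k => by
    have := (h ▸ k.mul k).uniq (show Cm 1 y 1 by simp [Cm])
    have := k.seven
    grind
  obtain rfl := key h1
  obtain rfl := key h2
  have e := o.sc_of h1 h2
  generalize s.val 0 0 = c at e
  have e1 := congrArg (·.val 0 0) h
  rw [e] at hd
  simp [e] at e1 hd
  exact Units.ext (by rw [e, show c = 1 by grind]; simp)

namespace Hyp
variable (H : Hyp o p M)
include H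

theorem pr_u : MH.pr (rp M H.uC) ≠ 1 := fun e => by
  obtain ⟨c, e⟩ := MH.pr_eq_one'.1 e
  have e1 := congrFun (congrFun e 0) 0
  have e2 := congrFun (congrFun e 1) 1
  simp only [up, diagonal_apply_eq, Matrix.smul_apply, one_apply_eq] at e1 e2
  exact absurd (o.e_inj.1 (e1.trans e2.symm)) (by decide)

theorem concl {L : Subgroup (GL (Fin 3) F)} (hp : ⁅L, L⁆ = L) (h : H.S ≤ L) : Nat.card (MH.PQ L) = 168 ∨
    ∃ (E : Subfield F) (P : GL (Fin 3) F), 3 ≤ Nat.card E ∧ ∀ g, g ∈ L ↔ g.val.det = 1 ∧ Over E (cj P⁻¹ g.val) := by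
  have := H.char
  rcases MH.mainF Cfsg.Agent.MH.main hp (H.S_full.mono (Set.image_mono h)) with h1 |
    ⟨E, q, Q, h3, hE, -⟩ | ⟨-, B, -, h2, h1⟩ | h1 | ⟨⟨e⟩⟩ | ⟨h5, -⟩
  · exact .inr h1
  · have : q ^ 2 = p ^ 1 ∨ q ^ 2 = p ^ 3 := by
      rw [← hE, pow_one]
      rcases H.sub E with rfl | h
      · rw [Nat.card_congr Subfield.topEquiv.toEquiv, Nat.card_eq_fintype_card]
        exact H.card.imp_right And.left
      · exact .inl h.1
    rcases this with e | e <;> have := congrArg (·.factorization p) e <;>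
      simp [Nat.factorization_pow, H.prime.factorization_self] at this <;> omega
  · have e := MH.T_inv_of_symm h2 (h1 _ (h H.uS))
    rw [H5.MH.T, H5.MH.T, show (rp M H.uC)⁻¹.val = diagonal fun i => o.e (-(4 * ξ i ^ 2)) from
      Units.inv_eq_of_mul_eq_one_right (by simp [up, o.e_neg, o.e_ne]), up, trace_diagonal, trace_diagonal,
      Fin.sum_univ_three, Fin.sum_univ_three] at e
    change o.ω ^ 3 + o.ω ^ 5 + o.ω ^ 6 = o.ω ^ 4 + o.ω ^ 2 + o.ω ^ 1 at e
    exact (o.G0 (by rw [o.G_eq]; linear_combination o.phi - e)).elim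
  · exact .inl h1
  · have h1 := pow_card_eq_one' (x := (⟨_, MH.mem_bar (h H.uS)⟩ : MH.bar L))
    rw [MH.card_bar, Nat.card_congr e.toEquiv, nat_card_alternatingGroup] at h1
    have u7 : (⟨_, MH.mem_bar (h H.uS)⟩ : MH.bar L) ^ 7 = 1 := Subtype.ext (by simp [← map_pow, H.uC7])
    exact (H.pr_u (by simpa [Nat.factorial] using pow_gcd_eq_one.2 ⟨h1, u7⟩)).elim
  · obtain rfl : p = 5 := (Nat.prime_dvd_prime_iff_eq H.prime Nat.prime_five).1
      ((CharP.cast_eq_zero_iff F p 5).1 (by exact_mod_cast h5))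
    have := o.prim.dvd_of_pow_eq_one _ (FiniteField.pow_card_sub_one_eq_one _ (o.prim.ne_zero (by norm_num)))
    have := H.card
    omega

theorem mh : (Nat.card (MH.PQ H.S) = 168 ∧ ∀ g : Cz M, MH.pr (rp M g) ∈ MH.bar H.S) ∨
    ∃ (L : Subgroup (GL (Fin 3) F)) (E : Subfield F) (P : GL (Fin 3) F), L ≤ (rp M).range ∧ rp M H.uC ∈ L ∧
      3 ≤ Nat.card E ∧ ∀ g, g ∈ L ↔ g.val.det = 1 ∧ Over E (cj P⁻¹ g.val) := by
  refine or_iff_not_imp_right.2 fun hn => ?_
  have key : ∀ L ≤ (rp M).range, ⁅L, L⁆ = L → H.S ≤ L → Nat.card (MH.PQ L) = 168 := fun L h1 h2 h3 =>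
    (H.concl h2 h3).resolve_right fun ⟨E, P, h⟩ => hn ⟨L, E, P, h1, h3 H.uS, h⟩
  have c := key _ H.S_le H.S_perfect le_rfl
  refine ⟨c, fun g => ?_⟩
  have c' := key (H.S ⊔ H.S.map (MulAut.conj (rp M g)).toMonoidHom) (sup_le H.S_le (by
    rintro _ ⟨s, hs, rfl⟩
    exact mul_mem (mul_mem ⟨g, rfl⟩ (H.S_le hs)) (inv_mem ⟨g, rfl⟩))) (perf_sup H.S_perfect _) le_sup_left
  obtain ⟨π⟩ := MH.exists_pi8 H.S_perfect c
  refine MH.norm8 H.S_perfect H.S_full π o.h7 ?_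
  rintro _ ⟨s, hs, rfl⟩
  rw [eq_of_le_of_card_ge (H := MH.bar H.S) (K := MH.bar _) (map_mono le_sup_left)
    (by rw [MH.card_bar, MH.card_bar, c, c'])]
  exact ⟨_, mem_sup_right ⟨s, hs, rfl⟩, by simp⟩

theorem isol (hC : Cz M ≤ Geo.subgroupNormalizer o.R) {t : G7 F} (ht : t ∈ Cz M) (h : t * t = 1) :
    t = 1 ∨ t = S7.z F := by
  have key : ∀ t ∈ Cz M, t * t = 1 → ∃ x, Cm (t * o.a * t⁻¹) (S7.b F) (o.e x) ∧ x ^ 2 = 1 ∧ (x = 1 → t = 1) := by
    intro t ht h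
    have n := fun r => (mem_normalizer_iff.1 (hC ht) r).1
    have back : ∀ {x y c}, Cm (t * x * t⁻¹) y c → Cm x (t * y * t⁻¹) c := fun {x y c} k => by
      have := k.conj t
      rwa [show t * (t * x * t⁻¹) * t⁻¹ = (t * t) * x * (t * t)⁻¹ by group, h, one_mul, inv_one, mul_one] at this
    have self : ∀ r ∈ o.R, Cm (t * r * t⁻¹) r 1 := fun r hr => by
      obtain ⟨c, k⟩ := o.cm_R (n r hr) hr
      have e := (back k).uniq k.symm
      have := k.seven
      rwa [show c = 1 by grind] at k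
    obtain ⟨d, k⟩ := o.cm_R (n _ o.a_mem) o.b_mem
    obtain ⟨x, rfl⟩ := o.exists_e k.seven
    have e := o.sc_of (y := t * o.a * t⁻¹ * o.a ^ (6 * x.val)) (by
      simpa using (self _ o.a_mem).mul ((Cm.refl _).pow _)) (by
        convert k.mul (o.ab.pow (6 * x.val))
        rw [← o.e_nat, ← o.e_add, ← o.e_zero, o.e_inj]; simp; linear_combination (-x) * z7)
    have e2 := ((o.ab.conj t).mul ((back k).pow (6 * x.val))).uniq (d := 1) (by rw [Cm, e]; simp)
    rw [o.e_pow, ← o.e_one, ← o.e_add, ← o.e_zero, o.e_inj] at e2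
    refine ⟨x, k, by simp at e2; linear_combination x ^ 2 * z7 - e2, ?_⟩
    rintro rfl
    have e3 := o.sc_of (y := t * S7.b F * t⁻¹ * S7.b F ^ 6) (by
      convert (back k).symm.mul (o.ab.symm.pow 6)
      rw [o.e_one, ← pow_succ', inv_pow, o.w7, inv_one]) (by simpa using (self _ o.b_mem).mul ((Cm.refl _).pow 6))
    exact o.inv_triv h (H.det t ht.1) (cm_of_sc (i7 o.a7 ▸ e)) (cm_of_sc (i7 (b7 (F := F)) ▸ e3))
  obtain ⟨x, k, x2, e⟩ := key t ht h
  obtain rfl | rfl : x = 1 ∨ x = -1 := by clear * - x2; revert x; decide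
  · exact .inl (e rfl)
  obtain ⟨y, k', -, e'⟩ := key (t * S7.z F) (mul_mem ht H.zZ.2) (by
    rw [mul_assoc, ← mul_assoc (S7.z F), ← (mem_Cz.1 ht).2, mul_assoc, zz, mul_one, h])
  refine .inr ((eq_inv_of_mul_eq_one_left (e' (o.e_inj.1 (k'.uniq ?_)))).trans (inv_eq_of_mul_eq_one_left zz))
  convert k.pow 6 using 1
  · rw [conj_pow, i7 o.a7, mul_assoc t, eq_inv_mul_iff_mul_eq.2 ((mul_assoc _ _ _).symm.trans o.za)]; group
  · rw [o.e_pow]; rfl

variable (h1 : Nat.card (MH.PQ H.S) = 168) (h2 : ∀ g : Cz M, MH.pr (rp M g) ∈ MH.bar H.S)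
  (h3 : ∀ k : Cz M, IsSc (rp M k).val → ∃ c : F, k.1.val = c • 1 ∨ k.1.val = c • (S7.z F).val)

include h2 h3 in
theorem Cz_le : Cz M ≤ Geo.subgroupNormalizer o.R := fun g hg => by
  have zN : S7.z F ∈ Geo.subgroupNormalizer o.R := o.ff ▸ mul_mem o.f_nrm o.f_nrm
  have sc : ∀ x ∈ M, ∀ c : F, x.val = c • 1 → x ∈ o.R := fun x hx c e =>
    o.sc_mem e (by simpa [e] using H.det x hx)
  obtain ⟨s, hs, e⟩ := h2 ⟨g, hg⟩
  have : H.S ≤ ((Geo.subgroupNormalizer o.R).comap (Cz M).subtype).map (rp M) :=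
    (closure_le _).2 (Set.insert_subset (mem_map_of_mem (x := H.uC) _ o.u_nrm)
      (Set.singleton_subset_iff.2 (mem_map_of_mem (x := H.fC) _ o.f_nrm)))
  obtain ⟨t, ht, rfl⟩ := this hs
  obtain ⟨k, hk⟩ : ∃ k : Cz M, ⟨g, hg⟩ = k * t := ⟨_, (inv_mul_cancel_right _ _).symm⟩
  rw [hk, map_mul, map_mul, eq_comm, mul_eq_right] at e
  rw [show g = k * t from congrArg Subtype.val hk]
  refine mul_mem ?_ ht
  obtain ⟨c, e | e⟩ := h3 k (MH.pr_eq_one'.1 e)
  · exact le_normalizer (sc _ k.2.1 c e)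
  · refine (mul_mem_cancel_right zN).1 (le_normalizer (sc _ (mul_mem k.2.1 H.z) c ?_))
    rw [Units.val_mul, e, smul_mul_assoc, ← Units.val_mul, zz, Units.val_one]

include h1 h2 h3 in
theorem odd_sc {O : Subgroup (Cz M)} (hO : O.Normal) {n : ℕ} (ho : Odd n) (odd : ∀ x ∈ O, x ^ n = 1) {x : Cz M}
    (hx : x ∈ O) : IsSc x.1.val := by
  have := MH.perfect_bar H.S_perfect
  obtain ⟨e⟩ := MH.iso_PSL2 (G := MH.bar H.S) (by rwa [MH.card_bar])
  have := ProjectiveSpecialLinearGroup.rank_two_simple (F := ZMod 7) (by simp)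
  have := e.isSimpleGroup
  let π : Cz M →* MH.bar H.S := (MH.pr.comp (rp M)).codRestrict _ h2
  rcases (hO.map π (by
    rintro ⟨_, s, hs, rfl⟩
    obtain ⟨t, rfl⟩ := H.S_le hs
    exact ⟨t, rfl⟩)).eq_bot_or_eq_top with k | k
  swap
  · obtain ⟨w, w1, w2⟩ := k.ge (mem_top (π H.fC))
    have e1 : π w ^ 2 = 1 := w2 ▸ Subtype.ext (by
      change MH.pr (rp M H.fC) ^ 2 = 1
      rw [← map_pow, H.fp2, map_one])
    have := pow_gcd_eq_one.2 ⟨(map_pow π w _).symm.trans (by rw [odd w w1, map_one]), e1⟩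
    rw [ho.coprime_two_right, pow_one, w2] at this
    obtain ⟨c, e⟩ := MH.pr_eq_one'.1 (congrArg Subtype.val this)
    exact (H.fp_ne 0 1 (by simp [show (rp M H.fC).val = _ from e])).elim
  obtain ⟨c, k | k⟩ := h3 x (MH.pr_eq_one'.1 (congrArg Subtype.val ((eq_bot_iff_forall _).1 k _ ⟨x, hx, rfl⟩)))
  · exact ⟨c, k⟩
  obtain ⟨n, rfl⟩ := ho
  have := congrArg (·.1.val 1 1) (odd x hx)
  simp only [Subgroup.coe_pow, Units.val_pow_eq_pow_val, k, _root_.smul_pow] at this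
  rw [← Units.val_pow_eq_pow_val, pow_succ (S7.z F), pow_mul (S7.z F), sq, zz] at this
  simp [S7.z, mo_apply, show (1 : I) ≠ -1 by decide] at this

include h1 h2 h3 in
theorem finish : M ≤ Geo.subgroupNormalizer o.R := fun m hm => by
  let z' : M := ⟨_, H.z⟩
  have z2 : z' * z' = 1 := Subtype.ext zz
  obtain ⟨O, hO, ho, h⟩ := ZStar.zstar' z2 (odd_of_isol z2 fun t ht hc => by
    obtain ⟨g, rfl⟩ := isConj_iff.1 ht
    refine Subtype.ext ((H.isol (H.Cz_le h2 h3) (mem_Cz.2 ⟨Subtype.prop _, congrArg Subtype.val hc⟩) (congrArg Subtype.val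
      (show g * z' * g⁻¹ * (g * z' * g⁻¹) = 1 by rw [conj_mul, z2]; simp))).resolve_left fun e => z_not (F := F) ⟨1, ?_⟩)
    rw [show S7.z F = 1 from conj_eq_one_iff.1 e]; simp)
  have h7 : ∀ x : M, x ^ 7 = 1 → x * z' * x = z' → x ∈ O := fun x x7 e => by
    have := pow_mem (h _ _ (isConj_iff.2 ⟨x, rfl⟩) (IsConj.refl z')) 4
    rwa [show x * z' * x⁻¹ * z' = x ^ 2 by
      rw [mul_assoc, ← eq_inv_mul_iff_mul_eq.2 (mul_assoc x z' x ▸ e), mul_assoc, ← mul_assoc z', z2, one_mul, sq], ← pow_mul,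
      pow_succ _ 7, x7, one_mul] at this
  have ha := h7 ⟨_, H.a⟩ (Subtype.ext o.a7) (Subtype.ext o.za)
  have hb := h7 ⟨_, H.b⟩ (Subtype.ext b7) (Subtype.ext zb)
  have key := fun x hx y hy => comm_mod (Z := (Geo.scalars I F).subgroupOf M) ho (fun x hx =>
    mem_center_iff.2 fun y => Subtype.ext (Units.ext (((mem_scalars_iff _).1 hx).comm _).symm)) z2
    (fun x hx => hO.conj_mem x hx _) (fun x hx hc => (mem_scalars_iff _).2 (H.odd_sc h1 h2 h3
      (hO.comap (inclusion (inf_le_left : Cz M ≤ M))) ho (fun x hx => Subtype.ext (congrArg (·.1.1)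
        (pow_card_eq_one' (x := (⟨_, hx⟩ : O))))) (x := ⟨x, mem_Cz.2 ⟨x.2, (congrArg Subtype.val
          (mul_inv_eq_iff_eq_mul.1 hc)).symm⟩⟩) hx)) (o := x) (o' := y) hx hy
  have fin : ∀ x ∈ O, x.1 ∈ o.R := fun x hx => by
    obtain ⟨c, c1, c2⟩ := key x hx _ ha
    obtain ⟨d, d1, d2⟩ := key x hx _ hb
    obtain ⟨c', c1⟩ := (mem_scalars_iff _).1 c1
    obtain ⟨d', d1⟩ := (mem_scalars_iff _).1 d1
    exact o.mem_R (c := c') (d := d') (by simpa [Cm, show c.1.val = _ from c1] using congrArg (·.1.val) c2)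
      (by simpa [Cm, show d.1.val = _ from d1] using congrArg (·.1.val) d2) (H.det _ x.2)
  exact o.nrm (fin _ (hO.conj_mem _ ha ⟨m, hm⟩)) (fin _ (hO.conj_mem _ hb ⟨m, hm⟩))

end Hyp

end Cfsg.Agent.H3.S7
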