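import Cfsg.Agent.H3.S7d
import Cfsg.Agent.H1.S7k
import Cfsg.Agent.H1.S7n
import Cfsg.Agent.H4.S7p
import Cfsg.Agent.H7.S7g

/-! Overgroups of the normaliser of the extraspecial group of order `343`: odd characteristic. -/

set_option autoImplicit false
set_option linter.unusedSectionVars false
set_option linter.unusedSimpArgs false

namespace Cfsg.Agent.H3.S7

open Matrix Subgroup Finset Cfsg.Agent.H5 Cfsg.Agent.Asch

universe v
variable {F : Type v} [Field F] [Fintype F] {M : Subgroup (G7 F)} {o : Om7 F} {p : ℕ}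

theorem Cz.diag (g : Cz M) {P : F → F → Prop} (h : ∀ i, P (g.1.val (ξ i) (ξ i)) (g.1.val (ξ i) (-ξ i))) {x : I}
    (hx : x ≠ 0) : P (g.1.val x x) (g.1.val x (-x)) := by
  obtain rfl | ⟨i, rfl | rfl⟩ := ξ_cases x
  exacts [(hx rfl).elim, h i, by simpa [Cz.neg] using h i]

namespace Hyp
variable (H : Hyp o p M) (h2 : (2 : F) ≠ 0) (hB : ¬ Big M)
include H h2 hB

theorem refl7 (n : ℕ) {c ρ : F} (hd : Dg M fun y => if y = 0 then c * ρ else c) (h : ρ ^ 7 ^ n = 1) : ρ = 1 := by
  induction n generalizing c ρ with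
  | zero => simpa using h
  | succ n ih =>
    exact by_contra fun h1 => hB (H.plane (by exact_mod_cast H.hp h2 6 (by simp) (by simp)) hd (ih (c := c ^ 7)
      (by simpa [mul_pow] using hd.pow 7) (by rwa [← pow_mul, ← pow_succ'])) h1)

theorem sev (k : Cz M) (hk : IsSc (rp M k).val) (h7 : ∃ n, k ^ 7 ^ n = 1) : IsSc k.1.val := by
  obtain ⟨g, -, hg⟩ := lift (MH.pr.comp (rp M)) H.uC7 (fun n h1 ⟨j, h3⟩ h4 => inj h2 (by
      obtain ⟨c, e⟩ := MH.pr_eq_iff.1 (h3.symm.trans (map_zpow (MH.pr (K := F)) (rp M H.uC) j).symm)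
      have := congrArg Units.val ((Commute.refl (rp M H.uC)).zpow_left j).eq
      exact Units.ext (by
        simp only [map_mul, Units.val_mul, show (rp M n).val = _ from e, smul_mul_assoc, mul_smul_comm] at this ⊢
        rw [this])) (by
      rw [map_mul, map_mul]
      exact mono7 (by simp) (fun i j e => by
        have := o.e_inj.1 e
        clear * - this; revert i j; decide) H.u4 (by simpa using h4.map (r4 M))
        (h1.imp fun n h => by rw [← map_pow, h, map_one]))) h7 (by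
    rw [show MH.pr.comp (rp M) k = 1 from MH.pr_eq_one'.2 hk]; exact one_mem _)
  obtain ⟨n, h7⟩ := h7
  obtain ⟨μ, hk⟩ := hk
  suffices (g * k * g⁻¹).1.val = μ • 1 from ⟨μ, by simpa [mul_assoc] using congrArg (g.1⁻¹.val * · * g.1.val) this⟩
  replace hk : (rp M (g * k * g⁻¹)).val = μ • 1 := by simp [hk]
  replace h7 : (g * k * g⁻¹) ^ 7 ^ n = 1 := by rw [conj_pow, h7]; simp
  generalize g * k * g⁻¹ = k at *
  have k2 : k.1 ∈ Cu o M := ⟨k.2.1, mem_centralizer_singleton_iff.2 (congrArg Subtype.val hg)⟩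
  have k3 : Commute (k.1 * k.1) o.a := o.comm_a.2 fun i j e => by
    by_cases e' : j = -i
    swap
    · exact (mem_Cu.1 (mul_mem k2 k2)).2 i j (Ne.symm e) e'
    subst e'
    have i0 : i ≠ 0 := by rintro rfl; exact e rfl
    have e1 := congrArg (·.val 0 1) ((rb o M i0).map_mul ⟨_, k2⟩ ⟨_, k2⟩)
    have e2 := H.gam h2 hB k2 (mem_Cz.1 k.2).2 i0
    have e3 := Cz.neg k i (-i)
    simp [rb_val] at e1 e3
    rw [Units.val_mul, e1, e3]
    linear_combination 2 * e2
  obtain ⟨m, hm⟩ := (show Odd 7 by decide).pow (n := n)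
  have k4 := o.comm_a.1 (show Commute k.1 o.a by
    have := k3.pow_left (m + 1)
    rwa [← sq, ← pow_mul, show 2 * (m + 1) = 7 ^ n + 1 by omega, pow_succ, show k.1 ^ 7 ^ n = 1 from congrArg Subtype.val h7,
      one_mul] at this)
  have k5 : ∀ x ≠ 0, k.1.val x x = μ := fun x hx => by
    have := Cz.diag k (P := fun a b => a - b = μ) (fun i => by simpa [rp_apply] using congrFun (congrFun hk i) i) hx
    rwa [k4 _ _ (ne_neg hx), sub_zero] at this
  have μ0 := MH.ne_zero_of_eq_smul hk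
  have k6 : k.1.val = diagonal fun y => if y = 0 then μ * (k.1.val 0 0 / μ) else μ := by
    ext i j
    by_cases e : i = j
    · subst e
      by_cases e : i = 0
      · simp [e]; field_simp
      · simp [e, k5 i e]
    · simp [e, k4 i j e]
  have e := fun x => congrArg (·.1.val x x) h7
  simp only [Subgroup.coe_pow, Units.val_pow_eq_pow_val] at e
  rw [k6, diagonal_pow] at e
  have e0 := e 0
  have e1 := e 1
  simp [mul_pow] at e0 e1
  rw [k6, H.refl7 h2 hB n ⟨_, k.2.1, k6⟩ (by simpa [e1] using e0)]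
  simp [smul_one_eq_diagonal]

theorem ker (k : Cz M) (hk : IsSc (rp M k).val) : ∃ c : F, k.1.val = c • 1 ∨ k.1.val = c • (S7.z F).val := by
  have hn : ∀ t : Cz M, ∀ x ∈ (MH.pr.comp (rp M)).ker.map (r4 M), r4 M t * x * (r4 M t)⁻¹ ∈
      (MH.pr.comp (rp M)).ker.map (r4 M) := fun t x ⟨y, hy, e⟩ =>
    ⟨t * y * t⁻¹, (MonoidHom.normal_ker _).conj_mem y hy t, by simp [e]⟩
  obtain ⟨c, hc⟩ := kl (by simp) (H.hp h2) o.prim (d := fun i => 4 * η i ^ 2) (by decide) H.u4 (H.f4_ne h2) (hn _) (hn _)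
    (by
      rintro _ ⟨y, hy, rfl⟩ ⟨j, hj⟩
      obtain ⟨a, m, h1, h3⟩ := Nat.exists_eq_pow_mul_and_not_dvd (orderOf_pos y).ne' 7 (by simp)
      obtain ⟨c, e⟩ := H.sev h2 hB (y ^ m) (MH.pr_eq_one'.1 (pow_mem hy m)) ⟨a, by
        rw [← pow_mul, mul_comm, ← h3, pow_orderOf_eq_one]⟩
      obtain ⟨l, hl⟩ := exists_pow_eq_self_of_coprime (x := r4 M y) (n := m)
        ((((Nat.Prime.coprime_iff_not_dvd (by norm_num)).2 h1).symm.pow_right j).of_dvd_right (orderOf_dvd_of_pow_eq_one hj))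
      refine ⟨c ^ l, ?_⟩
      rw [← hl, ← map_pow, Units.val_pow_eq_pow_val, show (r4 M (y ^ m)).val = c • (r4 M 1).val by
        ext i j; simp only [r4_apply, e, Matrix.smul_apply]; split_ifs <;> simp [mul_add]]
      simp [_root_.smul_pow]) (x := r4 M k) ⟨k, MH.pr_eq_one'.2 hk, rfl⟩
  have k2 : k.1 ∈ Cu o M := ⟨k.2.1, mem_centralizer_singleton_iff.2 (congrArg Subtype.val (inj h2 (g := k * H.uC)
    (k := H.uC * k) (Units.ext (by simpa using hk.comm _)) (Units.ext (by simp [hc]))))⟩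
  obtain ⟨μ, hk⟩ := hk
  have e0 : k.1.val 0 0 = c := (congrFun (congrFun hc 0) 0).trans (by simp)
  have e := fun x => Cz.diag k (P := fun a b => a - b = μ ∧ a + b = c) (fun i => ⟨by
    simpa [rp_apply] using congrFun (congrFun hk i) i, 
      (congrFun (congrFun hc i.succ) i.succ).trans (by simp)⟩) (x := x)
  have z := (mem_Cu.1 k2).2
  have e1 := e 1 one_ne_zero
  refine ⟨μ, (mul_eq_zero.1 (H.gam h2 hB k2 (mem_Cz.1 k.2).2 one_ne_zero)).symm.imp (fun h => ?_) fun h => ?_⟩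
  all_goals
    ext i j
    simp only [Matrix.smul_apply, S7.z, mo_apply, one_apply, Equiv.neg_apply, smul_eq_mul]
    by_cases a : j = i
    · subst a
      by_cases i0 : j = 0
      · simp [i0, e0]; grind
      · have := e j i0
        simp [ne_neg i0]; grind
    by_cases b : j = -i
    · subst b
      have := e i (by rintro rfl; exact a rfl)
      simp [Ne.symm a]; grind
    simp [z i j a b, Ne.symm a, eq_neg_iff_add_eq_zero, show ¬ i + j = 0 from fun h => b (eq_neg_of_add_eq_zero_right h)]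

omit hB in
theorem odd : Big M ∨ M ≤ Geo.subgroupNormalizer o.R := by
  refine or_iff_not_imp_left.2 fun hB => ?_
  rcases H.mh with ⟨h1, h3⟩ | ⟨L, E, P, h1, h3, -, h4⟩
  · exact H.finish h1 h3 (H.ker h2 hB)
  · exact (H.noSL h2 (H.big h2) (fun g hg hz x hx => H.gam h2 hB hg hz hx) (H.ker h2 hB) h1 h3 h4).elim

end Hyp

end Cfsg.Agent.H3.S7
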