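import Mathlib
import Cfsg.Prelude.Def_LieRecognition
import Cfsg.Agent.H1.Basic

/-! The Sylow 2-subgroup of `SU₃(q)`, `q` even: the abstract model. -/

set_option autoImplicit false

namespace Cfsg.Agent.H3.SU3Syl

open Matrix

/-- Data: a field of characteristic two with an involutory automorphism `σ` and `ω + σ ω = 1`. -/
structure Dat (F : Type*) [Field F] where
  σ : F →+* F
  ω : F
  two : (2 : F) = 0
  inv : ∀ x, σ (σ x) = x
  tr : σ ω = 1 + ω

variable {F : Type*} [Field F] (D : Dat F)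

/-- pairs `(a,b)` with `b + σ b = a σ a` -/
@[ext] structure Hs (D : Dat F) where
  a : F
  b : F
  h : D.σ b = b + a * D.σ a

namespace Hs

variable {D}

def mul (x y : Hs D) : Hs D :=
  ⟨x.a + y.a, x.b + y.b + x.a * D.σ y.a, by
    have h2 := D.two
    simp only [map_add, map_mul, D.inv, x.h, y.h]
    grind⟩

def one : Hs D := ⟨0, 0, by simp⟩

def inv (x : Hs D) : Hs D :=
  ⟨x.a, x.b + x.a * D.σ x.a, by
    have h2 := D.two
    simp only [map_add, map_mul, D.inv, x.h]
    grind⟩

instance instGroupHs : Group (Hs D) where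
  mul := mul
  one := one
  inv := inv
  mul_assoc x y z := by
    apply Hs.ext
    · show x.a + y.a + z.a = x.a + (y.a + z.a); ring
    · show x.b + y.b + x.a * D.σ y.a + z.b + (x.a + y.a) * D.σ z.a =
        x.b + (y.b + z.b + y.a * D.σ z.a) + x.a * D.σ (y.a + z.a)
      rw [map_add]; ring
  one_mul x := by
    apply Hs.ext
    · show 0 + x.a = x.a; ring
    · show 0 + x.b + 0 * D.σ x.a = x.b; ring
  mul_one x := by
    apply Hs.ext
    · show x.a + 0 = x.a; ring
    · show x.b + 0 + x.a * D.σ 0 = x.b; simp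
  inv_mul_cancel x := by
    have h2 := D.two
    apply Hs.ext
    · show x.a + x.a = 0; grind
    · show x.b + x.a * D.σ x.a + x.b + x.a * D.σ x.a = 0; grind

@[simp] theorem mul_a (x y : Hs D) : (x * y).a = x.a + y.a := rfl
@[simp] theorem mul_b (x y : Hs D) : (x * y).b = x.b + y.b + x.a * D.σ y.a := rfl
@[simp] theorem one_a : (1 : Hs D).a = 0 := rfl
@[simp] theorem one_b : (1 : Hs D).b = 0 := rfl

/-- an element with given first coordinate -/
def sec (a : F) : Hs D :=
  ⟨a, a * D.σ a * D.ω, by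
    simp only [map_mul, D.inv, D.tr]; ring⟩

theorem sq_eq_one_iff (x : Hs D) : x * x = 1 ↔ x.a = 0 := by
  have h2 := D.two
  constructor
  · intro h
    have hb := congrArg Hs.b h
    simp only [mul_b, one_b] at hb
    have : x.a * D.σ x.a = 0 := by grind
    rcases mul_eq_zero.1 this with h | h
    · exact h
    · simpa using h
  · intro h
    apply Hs.ext
    · simp [h]
    · simp only [mul_b, h, one_b]; grind

theorem pow_four (x : Hs D) : x ^ 2 ^ 2 = 1 := by
  have h2 := D.two
  have : x ^ 2 ^ 2 = (x * x) * (x * x) := by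
    rw [show (2 : ℕ) ^ 2 = 1 + 1 + 1 + 1 by norm_num]; simp only [pow_add, pow_one, mul_assoc]
  rw [this, sq_eq_one_iff]
  simp only [mul_a]; grind

theorem isPGroup : IsPGroup 2 (Hs D) := fun x => ⟨2, pow_four x⟩

theorem mem_center (x : Hs D) : x ∈ Subgroup.center (Hs D) ↔ x.a = 0 := by
  have h2 := D.two
  rw [Subgroup.mem_center_iff]
  constructor
  · intro h
    have h1 := congrArg Hs.b (h (sec 1))
    have h3 := congrArg Hs.b (h (sec D.ω))
    simp only [mul_b, sec, map_one, D.tr] at h1 h3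
    grind
  · intro h y
    apply Hs.ext
    · simp [h]
    · simp [h]; ring

/-- the fixed field -/
def Fix (D : Dat F) : Subfield F := RingHom.eqLocusField D.σ (RingHom.id F)

theorem mem_Fix (x : F) : x ∈ Fix D ↔ D.σ x = x := Iff.rfl

/-- parametrisation -/
def equivProd : Hs D ≃ F × Fix D where
  toFun x := (x.a, ⟨x.b + x.a * D.σ x.a * D.ω, by
    have h2 := D.two
    rw [mem_Fix]
    simp only [map_add, map_mul, D.inv, D.tr, x.h]; grind⟩)
  invFun p := ⟨p.1, p.2.1 + p.1 * D.σ p.1 * D.ω, by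
    have := (mem_Fix _).1 p.2.2
    simp only [map_add, map_mul, D.inv, D.tr, this]; ring⟩
  left_inv x := by
    have h2 := D.two
    apply Hs.ext
    · rfl
    · simp only; grind
  right_inv p := by
    have h2 := D.two
    apply Prod.ext
    · rfl
    · apply Subtype.ext; simp only; grind

def equivCenter : Subgroup.center (Hs D) ≃ Fix D where
  toFun x := ⟨x.1.b, by
    have := (mem_center _).1 x.2
    rw [mem_Fix, x.1.h, this]; ring⟩
  invFun c := ⟨⟨0, c.1, by rw [(mem_Fix _).1 c.2]; ring⟩, (mem_center _).2 rfl⟩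
  left_inv x := by
    apply Subtype.ext
    apply Hs.ext
    · exact ((mem_center _).1 x.2).symm
    · rfl
  right_inv c := rfl

/-- scaling endomorphism -/
def sc (k : Fix D) : Hs D →* Hs D where
  toFun x := ⟨k.1 * x.a, k.1 ^ 2 * x.b, by
    simp only [map_mul, map_pow, (mem_Fix _).1 k.2, x.h]; ring⟩
  map_one' := by apply Hs.ext <;> simp
  map_mul' x y := by
    apply Hs.ext
    · simp only [mul_a]; ring
    · simp only [mul_b, map_mul, (mem_Fix _).1 k.2]; ring

theorem sc_a (k : Fix D) (x : Hs D) : (sc k x).a = k.1 * x.a := rfl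
theorem sc_b (k : Fix D) (x : Hs D) : (sc k x).b = k.1 ^ 2 * x.b := rfl

theorem sc_mul (k l : Fix D) (x : Hs D) : sc (k * l) x = sc k (sc l x) := by
  apply Hs.ext
  · simp only [sc_a, Subfield.coe_mul]; ring
  · simp only [sc_b, Subfield.coe_mul]; ring

theorem sc_one (x : Hs D) : sc 1 x = x := by
  apply Hs.ext
  · simp [sc_a]
  · simp [sc_b]

/-- the torus acting -/
def tor : (Fix D)ˣ →* MulAut (Hs D) where
  toFun k := { toFun := sc k.1
               invFun := sc k⁻¹.1
               left_inv := fun x => by rw [← sc_mul, Units.inv_mul, sc_one]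
               right_inv := fun x => by rw [← sc_mul, Units.mul_inv, sc_one]
               map_mul' := map_mul _ }
  map_one' := by ext1 x; exact sc_one x
  map_mul' k l := by ext1 x; exact sc_mul _ _ x

theorem tor_apply (k : (Fix D)ˣ) (x : Hs D) : tor k x = sc k.1 x := rfl

theorem isSuzuki [Finite F] (h3 : 3 ≤ Nat.card (Fix D)) : IsSuzukiTwoGroup (Hs D) := by
  have h2 := D.two
  have hfin : Finite (Hs D) := Finite.of_equiv _ equivProd.symm
  refine ⟨hfin, isPGroup, ?_, ?_, tor.range, ?_, ?_⟩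
  · by_contra hc
    push Not at hc
    have : (sec 1 : Hs D) ∈ Subgroup.center (Hs D) := Subgroup.mem_center_iff.2 fun y => hc _ _
    rw [mem_center] at this
    exact one_ne_zero this
  · have := Fintype.ofFinite (Fix D)
    rw [Nat.card_eq_fintype_card] at h3
    classical
    obtain ⟨c, hc⟩ : ∃ c : Fix D, c ∉ ({0, 1} : Finset (Fix D)) := by
      by_contra hc
      push Not at hc
      have h1 : (Finset.univ : Finset (Fix D)) ⊆ {0, 1} := fun c _ => hc c
      have h4 := Finset.card_le_card h1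
      have h5 : ({0, 1} : Finset (Fix D)).card ≤ 2 := Finset.card_le_two
      rw [Finset.card_univ] at h4
      omega
    simp only [Finset.mem_insert, Finset.mem_singleton, not_or] at hc
    refine ⟨(equivCenter.symm c).1, (equivCenter.symm 1).1, ?_, ?_, ?_, ?_, ?_⟩
    · intro h
      exact hc.2 (equivCenter.symm.injective (Subtype.ext h))
    · intro h
      exact hc.1 (Subtype.ext (congrArg Hs.b h))
    · rw [sq_eq_one_iff]; rfl
    · intro h
      exact one_ne_zero (α := F) (congrArg Hs.b h)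
    · rw [sq_eq_one_iff]; rfl
  · exact isCyclic_of_surjective tor.rangeRestrict tor.rangeRestrict_surjective
  · intro x y hx1 hx hy1 hy
    rw [sq_eq_one_iff] at hx hy
    have hxb : x.b ≠ 0 := fun h => hx1 (Hs.ext hx h)
    have hyb : y.b ≠ 0 := fun h => hy1 (Hs.ext hy h)
    have hxs : D.σ x.b = x.b := by rw [x.h, hx]; ring
    have hys : D.σ y.b = y.b := by rw [y.h, hy]; ring
    have hc : CharP F 2 := by
      have : ringChar F = 2 := CharP.ringChar_of_prime_eq_zero Nat.prime_two (by exact_mod_cast h2)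
      exact this ▸ ringChar.charP F
    obtain ⟨k, hk⟩ : ∃ k : F, k ^ 2 = y.b / x.b := by
      obtain ⟨k, hk⟩ := (Finite.injective_iff_surjective.1 (frobenius F 2).injective) (y.b / x.b)
      exact ⟨k, hk⟩
    have hkF : D.σ k = k := by
      have h1 : (D.σ k) ^ 2 = k ^ 2 := by rw [← map_pow, hk, map_div₀, hxs, hys]
      have h4 : (D.σ k + k) ^ 2 = 0 := by grind
      have h5 : D.σ k + k = 0 := by simpa using h4
      grind
    have hk0 : k ≠ 0 := by
      rintro rfl
      exact div_ne_zero hyb hxb (by rw [← hk]; ring)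
    let u : (Fix D)ˣ := Units.mk0 ⟨k, hkF⟩ (fun h => hk0 (congrArg Subtype.val h))
    refine ⟨⟨tor u, u, rfl⟩, ?_, ?_⟩
    · apply Hs.ext
      · show k * x.a = y.a
        rw [hx, hy, mul_zero]
      · show k ^ 2 * x.b = y.b
        rw [hk]; field_simp
    · rintro ⟨_, v, rfl⟩ hv
      have hb := congrArg Hs.b hv
      change (v.1.1 : F) ^ 2 * x.b = y.b at hb
      have h1 : (v.1.1 : F) ^ 2 = k ^ 2 := by rw [hk, ← hb]; field_simp
      have h4 : ((v.1.1 : F) + k) ^ 2 = 0 := by grind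
      have h5 : (v.1.1 : F) + k = 0 := by simpa using h4
      have h6 : v = u := by
        apply Units.ext; apply Subtype.ext
        show (v.1.1 : F) = k
        grind
      subst h6; rfl

end Hs

theorem isSuzuki_of_equiv {A B : Type*} [Group A] [Group B] (e : A ≃* B) (h : IsSuzukiTwoGroup A) :
    IsSuzukiTwoGroup B := by
  obtain ⟨hf, hp, ⟨x, y, hxy⟩, ⟨u, v, huv, hu1, hu, hv1, hv⟩, K, hK, hreg⟩ := h
  refine ⟨Finite.of_equiv _ e.toEquiv, hp.of_equiv e, ⟨e x, e y, ?_⟩, ⟨e u, e v, ?_, ?_, ?_, ?_, ?_⟩,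
    K.map (MulAut.congr e).toMonoidHom, ?_, ?_⟩
  · rw [← map_mul, ← map_mul]; exact fun h => hxy (e.injective h)
  · exact fun h => huv (e.injective h)
  · simpa using hu1
  · rw [← map_mul, hu, map_one]
  · simpa using hv1
  · rw [← map_mul, hv, map_one]
  · exact isCyclic_of_surjective _ ((MulAut.congr e).subgroupMap K).surjective
  · intro a b ha1 ha hb1 hb
    obtain ⟨k, hk, huniq⟩ := hreg (e.symm a) (e.symm b) (by simpa using ha1)
      (by rw [← map_mul, ha, map_one]) (by simpa using hb1) (by rw [← map_mul, hb, map_one])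
    refine ⟨⟨MulAut.congr e k, k, k.2, rfl⟩, ?_, ?_⟩
    · simp [MulAut.congr_apply, hk]
    · rintro ⟨_, l, hl, rfl⟩ h
      have : (⟨l, hl⟩ : K) = k := by
        apply huniq
        simp only
        apply e.injective
        simpa [MulAut.congr_apply] using h
      subst this; rfl

/-! ### The matrices -/

/-- the hermitian form -/
def hf (u v : Fin 3 → F) : F := u 0 * D.σ (v 0) + u 1 * D.σ (v 1) + u 2 * D.σ (v 2)

/-- the hermitian form in hyperbolic coordinates -/
def hJ (u v : Fin 3 → F) : F := u 0 * D.σ (v 2) + u 1 * D.σ (v 1) + u 2 * D.σ (v 0)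

def P : Matrix (Fin 3) (Fin 3) F := !![1, 0, D.ω; 1, 0, 1 + D.ω; 0, 1, 0]
def P' : Matrix (Fin 3) (Fin 3) F := !![1 + D.ω, D.ω, 0; 0, 0, 1; 1, 1, 0]

theorem P_P' : P D * P' D = 1 := by
  have h2 := D.two
  ext i j
  fin_cases i <;> fin_cases j <;> simp [P, P', Matrix.mul_apply, Fin.sum_univ_three] <;> grind

theorem P'_P : P' D * P D = 1 := mul_eq_one_comm.1 (P_P' D)

theorem hf_P (x y : Fin 3 → F) : hf D (P D *ᵥ x) (P D *ᵥ y) = hJ D x y := by
  have h2 := D.two
  simp [hf, hJ, P, Matrix.mulVec, dotProduct, Fin.sum_univ_three, D.tr]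
  grind

theorem hJ_P' (x y : Fin 3 → F) : hJ D (P' D *ᵥ x) (P' D *ᵥ y) = hf D x y := by
  rw [← hf_P, Matrix.mulVec_mulVec, Matrix.mulVec_mulVec, P_P', Matrix.one_mulVec, Matrix.one_mulVec]

def U (x : Hs D) : Matrix (Fin 3) (Fin 3) F := !![1, x.a, x.b; 0, 1, D.σ x.a; 0, 0, 1]

theorem U_mul (x y : Hs D) : U D (x * y) = U D x * U D y := by
  ext i j
  fin_cases i <;> fin_cases j <;> simp [U, Matrix.mul_apply, Fin.sum_univ_three] <;> ring

theorem U_one : U D 1 = 1 := by
  ext i j
  fin_cases i <;> fin_cases j <;> simp [U]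

theorem U_det (x : Hs D) : (U D x).det = 1 := by
  simp [U, Matrix.det_fin_three]

theorem hJ_U (x : Hs D) (u v : Fin 3 → F) : hJ D (U D x *ᵥ u) (U D x *ᵥ v) = hJ D u v := by
  have h2 := D.two
  simp [hJ, U, Matrix.mulVec, dotProduct, Fin.sum_univ_three, D.inv, x.h]
  grind

def M (x : Hs D) : Matrix (Fin 3) (Fin 3) F := P D * U D x * P' D

theorem M_mul (x y : Hs D) : M D (x * y) = M D x * M D y := by
  simp only [M, U_mul, Matrix.mul_assoc]
  rw [← Matrix.mul_assoc (P' D) (P D), P'_P, Matrix.one_mul]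

theorem M_one : M D 1 = 1 := by simp [M, U_one, P_P']

theorem M_det (x : Hs D) : (M D x).det = 1 := by
  have := congrArg Matrix.det (P_P' D)
  rw [Matrix.det_mul, Matrix.det_one] at this
  rw [M, Matrix.det_mul, Matrix.det_mul, U_det, mul_one, this]

theorem hf_M (x : Hs D) (u v : Fin 3 → F) : hf D (M D x *ᵥ u) (M D x *ᵥ v) = hf D u v := by
  simp only [M, ← Matrix.mulVec_mulVec]
  rw [hf_P, hJ_U, hJ_P']

/-- the stabiliser of the isotropic vector -/
theorem exists_M (g : Matrix (Fin 3) (Fin 3) F) (hd : g.det = 1)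
    (hg : ∀ u v, hf D (g *ᵥ u) (g *ᵥ v) = hf D u v) (he : g *ᵥ ![1, 1, 0] = ![1, 1, 0]) :
    ∃ x, g = M D x := by
  have h2 := D.two
  set k := P' D * g * P D with hk
  have hkJ : ∀ u v, hJ D (k *ᵥ u) (k *ᵥ v) = hJ D u v := by
    intro u v
    simp only [hk, ← Matrix.mulVec_mulVec]
    rw [hJ_P', hg, hf_P]
  have hkd : k.det = 1 := by
    have := congrArg Matrix.det (P'_P D)
    rw [Matrix.det_mul, Matrix.det_one] at this
    rw [hk, Matrix.det_mul, Matrix.det_mul, hd, mul_one, this]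
  have hke : k *ᵥ ![1, 0, 0] = ![1, 0, 0] := by
    have e1 : P D *ᵥ ![1, 0, 0] = ![1, 1, 0] := by
      ext i; fin_cases i <;> simp [P, Matrix.mulVec, dotProduct, Fin.sum_univ_three]
    rw [hk, ← Matrix.mulVec_mulVec, ← Matrix.mulVec_mulVec, e1, he, ← e1, Matrix.mulVec_mulVec,
      P'_P, Matrix.one_mulVec]
  have k00 := congrFun hke 0
  have k10 := congrFun hke 1
  have k20 := congrFun hke 2
  have a1 := hkJ ![1, 0, 0] ![0, 1, 0]
  have a2 := hkJ ![1, 0, 0] ![0, 0, 1]
  have a3 := hkJ ![0, 1, 0] ![0, 0, 1]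
  have a4 := hkJ ![0, 0, 1] ![0, 0, 1]
  simp [Matrix.mulVec, dotProduct, Fin.sum_univ_three] at k00 k10 k20
  simp [hJ, Matrix.mulVec, dotProduct, Fin.sum_univ_three, k00, k10, k20] at a1 a2 a3 a4
  have k22 : k 2 2 = 1 := by rw [← D.inv (k 2 2), a2, map_one]
  have k11 : k 1 1 = 1 := by
    rw [Matrix.det_fin_three, k00, k10, k20, a1, k22] at hkd
    simpa using hkd
  rw [a1, k22, k11] at a3
  rw [k22] at a4
  simp only [map_one, mul_one, one_mul, zero_mul, add_zero] at a3 a4
  have k12 : k 1 2 = D.σ (k 0 1) := by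
    rw [← D.inv (k 1 2)]; congr 1; grind
  refine ⟨⟨k 0 1, k 0 2, ?_⟩, ?_⟩
  · rw [k12, D.inv] at a4; grind
  · have : U D ⟨k 0 1, k 0 2, by rw [k12, D.inv] at a4; grind⟩ = k := by
      ext i j
      fin_cases i <;> fin_cases j <;> simp [U, k00, k10, k20, a1, k11, k22, k12]
    rw [M, this, hk]
    simp only [Matrix.mul_assoc, P_P', Matrix.mul_one]
    rw [← Matrix.mul_assoc, P_P', Matrix.one_mul]

theorem M_e (x : Hs D) : M D x *ᵥ ![1, 1, 0] = ![1, 1, 0] := by
  have e1 : P D *ᵥ ![1, 0, 0] = ![1, 1, 0] := by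
    ext i; fin_cases i <;> simp [P, Matrix.mulVec, dotProduct, Fin.sum_univ_three]
  have e2 : U D x *ᵥ ![1, 0, 0] = ![1, 0, 0] := by
    ext i; fin_cases i <;> simp [U, Matrix.mulVec, dotProduct, Fin.sum_univ_three]
  rw [M, ← e1, Matrix.mulVec_mulVec, Matrix.mul_assoc, P'_P, Matrix.mul_one,
    ← Matrix.mulVec_mulVec, e2]

theorem fix_iff (x : Hs D) (v : Fin 3 → F) (h : M D x *ᵥ v = v) :
    U D x *ᵥ (P' D *ᵥ v) = P' D *ᵥ v := by
  have := congrArg (fun w => P' D *ᵥ w) h
  simp only [M, Matrix.mulVec_mulVec, ← Matrix.mul_assoc, P'_P, Matrix.one_mul] at this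
  rw [Matrix.mulVec_mulVec]; exact this

/-- common fixed vectors -/
theorem fix_all (v : Fin 3 → F) (h : ∀ x, M D x *ᵥ v = v) : ∃ c : F, v = c • ![1, 1, 0] := by
  have h1 := fix_iff D _ _ (h (Hs.sec 1))
  have h2 := fix_iff D _ _ (h ⟨0, 1, by simp⟩)
  set y := P' D *ᵥ v with hy
  have a := congrFun h2 0
  have b := congrFun h1 0
  simp [U, Matrix.mulVec, dotProduct, Fin.sum_univ_three, Hs.sec, add_assoc] at a b
  rw [a] at b
  simp at b
  refine ⟨y 0, ?_⟩
  have : v = P D *ᵥ y := by rw [hy, Matrix.mulVec_mulVec, P_P', Matrix.one_mulVec]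
  rw [this]
  ext i; fin_cases i <;> simp [P, Matrix.mulVec, dotProduct, Fin.sum_univ_three, a, b]

theorem eq_one_of_fix (x : Hs D) (h : M D x *ᵥ ![1, 0, 1] = ![1, 0, 1]) : x = 1 := by
  have h1 := fix_iff D _ _ h
  have a := congrFun h1 0
  have b := congrFun h1 1
  simp [U, P', Matrix.mulVec, dotProduct, Fin.sum_univ_three, add_assoc] at a b
  rw [b] at a
  exact Hs.ext b (by simpa using a)

end Cfsg.Agent.H3.SU3Syl
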