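import Cfsg.Agent.H8.L5d

/-! Orbitals of a group with a semiregular abelian self-centralising subgroup. -/

set_option autoImplicit false
set_option linter.unusedSectionVars false

namespace Cfsg.Agent.H3.SgC

open Cfsg MulAction Subgroup Finset Cfsg.Agent.H5.Zas1 Cfsg.Agent.H5.Char
  Cfsg.Agent.H4.CAG Cfsg.Agent.H2.Tr Cfsg.Agent.H8.L5c
open scoped ComplexConjugate Classical

variable {G Ω : Type*} [Group G] [Fintype G] [MulAction G Ω] [Fintype Ω] {X : Subgroup G}

attribute [local instance] ftSub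

/-- invariant relation -/
def Iv (G : Type*) {Ω : Type*} [Group G] [MulAction G Ω] (R : Ω → Ω → Prop) : Prop :=
  ∀ (g : G) x y, R x y → R (g • x) (g • y)

theorem Iv.iff {R : Ω → Ω → Prop} (h : Iv G R) (g : G) (x y : Ω) : R (g • x) (g • y) ↔ R x y :=
  ⟨fun e => by simpa using h g⁻¹ _ _ e, h g x y⟩

/-- the number of points related to their image -/
noncomputable def tau (R : Ω → Ω → Prop) (g : G) : ℕ := (univ.filter fun w => R w (g • w)).card

/-- the matrix of a class sum -/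
noncomputable def cc (x : G) (p : Ω × Ω) : ℕ := (univ.filter fun g : G => (g * x * g⁻¹) • p.1 = p.2).card

theorem tau_conj {R : Ω → Ω → Prop} (h : Iv G R) (g x : G) : tau R (g * x * g⁻¹) = tau R x :=
  card_nbij' (fun w => g⁻¹ • w) (fun w => g • w)
    (fun w hw => by simpa [mul_smul] using h g⁻¹ _ _ (mem_filter.1 hw).2)
    (fun w hw => by simpa [mul_smul] using h g _ _ (mem_filter.1 hw).2) (fun w _ => by simp) (fun w _ => by simp)

theorem sum_cc {R : Ω → Ω → Prop} (h : Iv G R) (x : G) :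
    ∑ p ∈ univ.filter fun p : Ω × Ω => R p.1 p.2, cc x p = Nat.card G * tau R x := by
  simp only [cc, card_filter, sum_filter]
  calc _ = ∑ p : Ω × Ω, ∑ g : G, if (g * x * g⁻¹) • p.1 = p.2 then (if R p.1 p.2 then 1 else 0) else 0 :=
        sum_congr rfl fun p _ => by split_ifs <;> simp
    _ = ∑ g : G, tau R (g * x * g⁻¹) := by
        rw [sum_comm]; exact sum_congr rfl fun g _ => by simp [Fintype.sum_prod_type, tau, card_filter, -sum_boole]
    _ = _ := by simp [tau_conj h]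

theorem corr {m : Irr G → ℕ} (hm : Ch (fun g : G => (Nat.card (fixedBy Ω g) : ℂ)) m) (x y : G) :
    ∑ p : Ω × Ω, (cc x p : ℂ) * cc y p = (Nat.card G : ℂ) ^ 2 * ∑ χ, m χ * (χ.1 x * χ.1 y⁻¹ / χ.1 1) := by
  calc _ = ∑ g : G, ∑ h : G, (Nat.card (fixedBy Ω (h * y⁻¹ * h⁻¹ * (g * x * g⁻¹))) : ℂ) := by
        simp only [cc, card_filter, Nat.cast_sum, sum_mul_sum]
        rw [sum_comm]
        refine sum_congr rfl fun g _ => ?_
        rw [sum_comm]
        refine sum_congr rfl fun h _ => ?_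
        rw [H1.PermChar.card_fixedBy_eq, card_filter, Nat.cast_sum, Fintype.sum_prod_type]
        refine sum_congr rfl fun w _ => ?_
        rw [sum_eq_single ((g * x * g⁻¹) • w) (fun b _ hb => by simp [hb.symm]) (by simp),
          show h * y⁻¹ * h⁻¹ = (h * y * h⁻¹)⁻¹ by group, mul_smul (h * y * h⁻¹)⁻¹, inv_smul_eq_iff]
        simp [eq_comm]
    _ = ∑ g : G, ∑ χ : Irr G, m χ * (Nat.card G * (χ.1 x * χ.1 y⁻¹ / χ.1 1)) := by
        refine sum_congr rfl fun g _ => ?_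
        simp only [hm _]
        rw [sum_comm]
        exact sum_congr rfl fun χ _ => by rw [← mul_sum, sum_conj_mul, cl χ]; ring
    _ = _ := by
        rw [sum_const, card_univ, ← Nat.card_eq_fintype_card, nsmul_eq_mul, mul_sum, mul_sum]
        exact sum_congr rfl fun χ _ => by ring

/-- the hypotheses of the character theoretic part -/
structure Hy (Ω : Type*) [MulAction G Ω] (X : Subgroup G) (j : ℕ) : Prop where
  ca : CA X
  gen : ∀ K : Subgroup G, K.Normal → X ≤ K → K = ⊤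
  free : ∀ x ∈ X, ∀ ω : Ω, x • ω = ω → x = 1
  card : Nat.card Ω = j * Nat.card X
  w1 : 1 < wt X
  w2 : wt X * (j + 1) + 1 < Nat.card X
  w3 : wt X * wt X + 1 < Nat.card X

variable {j : ℕ} (H : Hy Ω X j)
include H

theorem Hy.setup : ∃ m : Irr G → ℕ, Ch (fun g : G => (Nat.card (fixedBy Ω g) : ℂ)) m ∧
    (∀ ψ : Irr X, ∑ φ, m φ * mult φ ψ = j) ∧ ∀ χ, m χ ≠ 0 → Flat X χ := by
  obtain ⟨n, hn⟩ := ch_rep (permRep ℂ G Ω)
  rw [H1.PermChar.perm_char] at hn
  have p2 : ∀ ψ : Irr X, ∑ φ, n φ * mult φ ψ = j := fun ψ => by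
    have e := (hn.res X).inner ψ
    simp only [classInner] at e
    rw [sum_eq_single 1 (fun x _ hx => by
      have : IsEmpty (fixedBy Ω (x : G)) := ⟨fun ω => hx (Subtype.ext (H.free x x.2 ω ω.2))⟩
      simp) (by simp)] at e
    have e1 : Nat.card (fixedBy Ω ((1 : X) : G)) = Nat.card Ω := by
      rw [OneMemClass.coe_one, fixedBy_one_eq_univ, Nat.card_univ]
    rw [e1, H.ca.deg_one, H.card] at e
    have e2 : (Nat.card X : ℂ) ≠ 0 := card_ne
    have e3 : ((∑ φ, n φ * mult φ ψ : ℕ) : ℂ) = j := by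
      rw [← e]; simp only [Nat.card_eq_fintype_card] at e2 ⊢; push_cast; field_simp; simp
    exact_mod_cast e3
  exact ⟨n, hn, p2, fun χ => all_flat H.ca H.gen p2 H.w1 H.w2 H.w3⟩

theorem Hy.ex_irr : ∃ ψ : Irr X, ψ ≠ triv X := by
  obtain ⟨x, hx, x1⟩ : ∃ x ∈ X, x ≠ 1 := by
    by_contra! hc
    have := H.w3
    rw [(eq_bot_iff_forall _).2 hc, card_bot] at this
    omega
  exact exists_ne_triv H.ca hx x1

theorem Hy.tau_const {R : Ω → Ω → Prop} (hR : Iv G R) {x y : G} (hx : x ∈ X) (x1 : x ≠ 1) (hy : y ∈ X)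
    (y1 : y ≠ 1) : tau R x = tau R y := by
  obtain ⟨m, hm, -, hF⟩ := H.setup
  obtain ⟨ψ₀, h0⟩ := H.ex_irr
  have key : ∀ χ, m χ ≠ 0 → ∀ z ∈ X, z ≠ 1 → χ.1 z = mult χ (triv X) - mult χ ψ₀ := fun χ hχ z hz z1 => by
    have e := column (1 : X) ⟨z, hz⟩
    rw [if_neg (by simpa [Subtype.ext_iff] using z1.symm)] at e
    simp only [H.ca.deg_one, map_one, one_mul] at e
    rw [res_expand χ ⟨z, hz⟩, ← sub_zero (∑ _, _), ← mul_zero (mult χ ψ₀ : ℂ), ← e, mul_sum, ← sum_sub_distrib,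
      sum_eq_single (triv X) (fun ψ _ hψ => by rw [hF χ hχ ψ ψ₀ hψ h0, sub_self]) (by simp)]
    simp [triv_apply]
  have k2 : ∀ a ∈ X, a ≠ 1 → ∀ b ∈ X, b ≠ 1 → ∑ p : Ω × Ω, (cc a p : ℤ) * cc b p = ∑ p : Ω × Ω, (cc x p : ℤ) * cc x p :=
    fun a ha a1 b hb b1 => by
      have : ∑ p : Ω × Ω, (cc a p : ℂ) * cc b p = ∑ p : Ω × Ω, (cc x p : ℂ) * cc x p := by
        rw [corr hm, corr hm]
        congr 1
        refine sum_congr rfl fun χ _ => ?_
        by_cases e : m χ = 0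
        · simp [e]
        rw [key χ e a ha a1, key χ e x hx x1, key χ e _ (inv_mem hb) (inv_ne_one.2 b1),
          key χ e _ (inv_mem hx) (inv_ne_one.2 x1)]
      exact_mod_cast this
  have k3 : ∑ p : Ω × Ω, ((cc x p : ℤ) - cc y p) ^ 2 = 0 := by
    have : ∀ p : Ω × Ω, ((cc x p : ℤ) - cc y p) ^ 2 = cc x p * cc x p + cc y p * cc y p - 2 * (cc x p * cc y p) :=
      fun p => by ring
    simp only [this, sum_sub_distrib, sum_add_distrib, ← mul_sum, k2 x hx x1 y hy y1, k2 y hy y1 y hy y1]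
    ring
  have k4 : ∀ p : Ω × Ω, cc x p = cc y p := fun p => by
    have := (sum_eq_zero_iff_of_nonneg fun _ _ => sq_nonneg _).1 k3 p (mem_univ p)
    have := pow_eq_zero_iff two_ne_zero |>.1 this
    omega
  refine Nat.eq_of_mul_eq_mul_left (Nat.card_pos (α := G)) ?_
  rw [← sum_cc hR, ← sum_cc hR]
  exact sum_congr rfl fun p _ => k4 p

theorem Hy.norm_bound [IsPretransitive G Ω] [Nonempty Ω] {R : Ω → Ω → Prop} (hR : Iv G R)
    (h0 : ∀ x ∈ X, ∀ w, ¬ R w (x • w)) :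
    (univ.filter fun p : Ω × Ω => R p.1 p.2).card * (Nat.card X - 1) ≤ Nat.card Ω ^ 2 * (j - 1) ^ 2 := by
  obtain ⟨m, hm, p2, hF⟩ := H.setup
  obtain ⟨ψ₀, hψ⟩ := H.ex_irr
  have p1 : m (triv G) = 1 := by
    exact_mod_cast (hm.inner (triv G)).symm.trans (H1.PermChar.classInner_perm_one (G := G) (Ω := Ω))
  have ht : 1 < Nat.card X := by have := H.w3; omega
  let e : Ω × Ω → ℕ := fun p => ∑ x : X, cc (x : G) p
  have s1 : ∀ χ : Irr G, ∑ x : X, χ.1 x = Nat.card X * mult χ (triv X) := fun χ => by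
    rw [← mult_eq, classInner, mul_inv_cancel_left₀ card_ne]; simp [triv_apply]
  have s2 : ∀ χ : Irr G, ∑ x : X, χ.1 (x : G)⁻¹ = Nat.card X * mult χ (triv X) := fun χ =>
    (Fintype.sum_equiv (Equiv.inv X) _ _ fun _ => rfl).trans (s1 χ)
  have e2 : ∑ p, (e p : ℝ) ^ 2 = ((Nat.card G : ℝ) * Nat.card X) ^ 2 *
      ∑ χ, (m χ * mult χ (triv X) * mult χ (triv X) : ℕ) / (deg χ : ℝ) := by
    have : ∑ p, (e p : ℂ) ^ 2 = ((Nat.card G : ℂ) * Nat.card X) ^ 2 *
        ∑ χ, (m χ * mult χ (triv X) * mult χ (triv X) : ℕ) / (deg χ : ℂ) := by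
      calc _ = ∑ p, ∑ x : X, ∑ y : X, (cc (x : G) p : ℂ) * cc (y : G) p :=
            sum_congr rfl fun p _ => by simp only [e, Nat.cast_sum]; rw [sq, sum_mul_sum]
        _ = ∑ x : X, ∑ y : X, ∑ χ, (Nat.card G : ℂ) ^ 2 * (m χ * (χ.1 x * χ.1 (y : G)⁻¹ / χ.1 1)) := by
            rw [sum_comm]; refine sum_congr rfl fun x _ => ?_
            rw [sum_comm]; exact sum_congr rfl fun y _ => by rw [corr hm, mul_sum]
        _ = ∑ χ, ∑ x : X, ∑ y : X, (Nat.card G : ℂ) ^ 2 * (m χ * (χ.1 x * χ.1 (y : G)⁻¹ / χ.1 1)) := by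
            rw [sum_congr rfl fun x _ => sum_comm, sum_comm]
        _ = _ := by
            rw [mul_sum]
            refine sum_congr rfl fun χ _ => ?_
            simp only [← mul_sum, ← sum_div, ← sum_mul, s1, s2, deg_eq]
            push_cast; ring
    apply Complex.ofReal_injective
    push_cast at this ⊢
    exact this
  have e1 : ∑ p, (e p : ℝ) = Nat.card G * Nat.card X * Nat.card Ω := by
    have := fun x : G => sum_cc (R := fun _ _ : Ω => True) (fun _ _ _ _ => trivial) x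
    simp only [filter_true, tau, card_univ] at this
    rw [← Nat.cast_sum, sum_comm]
    simp [this]; ring
  have e3 : ∑ χ, (m χ * mult χ (triv X) * mult χ (triv X) : ℕ) / (deg χ : ℝ) ≤
      1 + ((j - 1) ^ 2 : ℕ) / ((Nat.card X - 1 : ℕ) : ℝ) := by
    have a1 := p2 (triv X)
    rw [← add_sum_erase _ _ (mem_univ (triv G)), p1, mult_triv, if_pos rfl] at a1 ⊢
    have d1 : (deg (triv G) : ℂ) = 1 := (deg_eq _).symm
    have d2 : (deg (triv G) : ℝ) = 1 := by exact_mod_cast d1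
    rw [d2, show j - 1 = ∑ χ ∈ univ.erase (triv G), m χ * mult χ (triv X) by omega, sq, sum_mul, Nat.cast_sum, sum_div]
    refine add_le_add (by simp) (sum_le_sum fun χ hχ => ?_)
    by_cases e : m χ = 0
    · simp [e]
    have a2 := (hF χ e).deg_eq H.ca hψ
    have a3 := Nat.mul_le_mul_right (Nat.card X - 1)
      (Nat.one_le_iff_ne_zero.2 fun h => ne_of_mem_erase hχ ((hF χ e).eq_triv H.ca H.gen hψ h))
    have a4 := single_le_sum (f := fun χ => m χ * mult χ (triv X)) (fun _ _ => Nat.zero_le _) hχ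
    have a5 := Nat.mul_le_mul_right (mult χ (triv X)) (Nat.one_le_iff_ne_zero.2 e)
    gcongr
    · exact_mod_cast (by omega : 0 < Nat.card X - 1)
    · omega
    · omega
  have e4 : ((univ.filter fun p : Ω × Ω => R p.1 p.2).card : ℝ) * (Nat.card G * Nat.card X) ^ 2 ≤
      ∑ p, ((Nat.card Ω : ℝ) * e p - Nat.card G * Nat.card X) ^ 2 := by
    rw [← nsmul_eq_mul, ← sum_const]
    refine (sum_congr rfl fun p hp => ?_).le.trans (sum_le_univ_sum_of_nonneg fun _ => sq_nonneg _)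
    have : e p = 0 := sum_eq_zero fun x _ => card_eq_zero.2 (filter_eq_empty_iff.2 fun g _ e =>
      h0 x x.2 (g⁻¹ • p.1) (by simpa [← e, mul_smul] using hR g⁻¹ _ _ (mem_filter.1 hp).2))
    simp [this]
  simp only [sub_sq, mul_pow (Nat.card Ω : ℝ), sum_add_distrib, sum_sub_distrib, ← mul_sum, ← sum_mul, e1, e2, sum_const,
    card_univ, ← Nat.card_eq_fintype_card, Nat.card_prod, nsmul_eq_mul, Nat.cast_mul (Nat.card Ω)] at e4
  have g0 : (0 : ℝ) < (Nat.card G * Nat.card X) ^ 2 := by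
    have := Nat.card_pos (α := G); have := Nat.card_pos (α := X); positivity
  have g1 : (0 : ℝ) < (Nat.card X - 1 : ℕ) := by exact_mod_cast (by omega : 0 < Nat.card X - 1)
  have e5 : ((univ.filter fun p : Ω × Ω => R p.1 p.2).card : ℝ) ≤
      Nat.card Ω ^ 2 * (((j - 1) ^ 2 : ℕ) / ((Nat.card X - 1 : ℕ) : ℝ)) := by
    refine le_of_mul_le_mul_right (e4.trans ?_) g0
    have := mul_le_mul_of_nonneg_left e3 (show 0 ≤ (Nat.card Ω : ℝ) ^ 2 * (Nat.card G * Nat.card X) ^ 2 by positivity)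
    linarith
  rw [← mul_div_assoc, le_div_iff₀ g1] at e5
  exact_mod_cast e5

end Cfsg.Agent.H3.SgC
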