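import Cfsg.Agent.H3.SgCa

/-! The `n`-local count. -/

set_option autoImplicit false
set_option linter.unusedSectionVars false

namespace Cfsg.Agent.H3.SgC

open Cfsg MulAction Subgroup Finset
open scoped Classical

variable {K Ω : Type*} [Group K] [Fintype K] [MulAction K Ω] [Fintype Ω] {n : ℕ}

theorem dvd_sum_orb (K : Type*) [Group K] [MulAction K Ω] (F : Ω → ℤ) (m : ℕ)
    (h : ∀ w, F w ≠ 0 → m ∣ Nat.card (orbit K w) ∧ ∀ g : K, F (g • w) = F w) : (m : ℤ) ∣ ∑ w, F w := by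
  rw [← sum_fiberwise univ (Quotient.mk (orbitRel K Ω))]
  refine dvd_sum fun o _ => ?_
  by_cases h0 : ∀ w ∈ univ.filter fun w => Quotient.mk (orbitRel K Ω) w = o, F w = 0
  · rw [sum_eq_zero h0]; exact dvd_zero _
  push Not at h0
  obtain ⟨w, hw, h1⟩ := h0
  obtain rfl := (mem_filter.1 hw).2
  have e : (univ.filter fun v => Quotient.mk (orbitRel K Ω) v = Quotient.mk (orbitRel K Ω) w) =
      (orbit K w).toFinset := by
    ext v; simp [Quotient.eq, orbitRel_apply]
  rw [e, sum_congr rfl (g := fun _ => F w) fun v hv => by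
    obtain ⟨g, rfl⟩ := Set.mem_toFinset.1 hv; exact (h w h1).2 g, sum_const, nsmul_eq_mul,
    ← Nat.card_eq_card_toFinset]
  exact (Int.natCast_dvd_natCast.2 (h w h1).1).mul_right _

variable (hn : n.Prime) (hK : IsPGroup n K)
include hn hK

theorem dvd_orb {g : K} {w : Ω} (h : g • w ≠ w) : n ∣ Nat.card (orbit K w) := by
  haveI := Fact.mk hn
  obtain ⟨a, ha⟩ := hK.card_orbit w
  refine ha ▸ dvd_pow_self n ?_
  rintro rfl
  exact h (congrArg Subtype.val ((Nat.card_eq_one_iff_unique.1 ha).1.elim ⟨_, mem_orbit w g⟩ ⟨_, mem_orbit_self w⟩))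

theorem orb_le {w : Ω} (h : ¬ n ^ 2 ∣ Nat.card (orbit K w)) : Nat.card (orbit K w) ≤ n := by
  haveI := Fact.mk hn
  obtain ⟨a, ha⟩ := hK.card_orbit w
  rw [ha] at h ⊢
  exact (Nat.pow_le_pow_right hn.pos (show a ≤ 1 from not_lt.1 fun e => h (pow_dvd_pow n e))).trans_eq (pow_one n)

theorem mod_fix (g : K) (S : Finset Ω) (hS : ∀ s ∈ S, g • s ∈ S) : n ∣ (S.filter fun s => g • s ≠ s).card := by
  have := dvd_sum_orb (zpowers g) (fun w => if w ∈ S ∧ g • w ≠ w then 1 else 0) n fun w hw => by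
    have hw' : w ∈ S ∧ g • w ≠ w := by by_contra e; exact hw (if_neg e)
    refine ⟨dvd_orb hn (hK.to_subgroup _) (g := ⟨g, mem_zpowers g⟩) hw'.2, fun ⟨h, hh⟩ => ?_⟩
    obtain ⟨i, rfl⟩ := mem_powers_iff_mem_zpowers.2 hh
    have a1 : ∀ i : ℕ, g ^ i • w ∈ S := fun i => by
      induction i with
      | zero => simpa using hw'.1
      | succ i ih => rw [pow_succ', mul_smul]; exact hS _ ih
    exact (if_pos ⟨a1 i, fun e => hw'.2 (smul_left_cancel (g ^ i) (by
      rw [← mul_smul, ← pow_succ, pow_succ', mul_smul]; exact e))⟩).trans (if_pos hw').symm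
  rw [sum_boole, show (univ.filter fun w => w ∈ S ∧ g • w ≠ w) = S.filter fun s => g • s ≠ s by ext; simp] at this
  exact_mod_cast this

theorem nsq_aux {R : Ω → Ω → Prop} (hR : Iv K R) (irr : ∀ w, ¬ R w w) {k : ℕ}
    (val : ∀ w, (univ.filter (R w)).card = k) (φ : K) (hφ : φ ^ n = 1) (hΦ : (fixedBy Ω φ).ncard = n)
    (hN : (n : ℤ) ^ 2 ∣ Nat.card Ω - n) (hs : ∀ (g : K) (u : Ω), φ • u = u → φ • g • u = g • u)
    (hc : ∀ g : K, (∀ w : Ω, φ • w = w → g • w = w) → g * φ = φ * g) (hmv : ∃ (g : K) (w : Ω), φ • w = w ∧ g • w ≠ w)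
    (hfix : ∀ (g : K) (u : Ω), φ • u = u → (∀ w : Ω, φ • w = w → ∃ j : ℕ, g ^ j • u = w) → (fixedBy Ω g).ncard ≤ n) :
    n ^ 2 ∣ ∑ i ∈ range n, tau R (φ ^ i) := by
  let D := fixingSubgroup K (fixedBy Ω φ)
  have mD : ∀ {g}, g ∈ D ↔ ∀ w : Ω, φ • w = w → g • w = w := mem_fixingSubgroup_iff K
  have nD : D.Normal := ⟨fun d hd g => mD.2 fun w hw => by
    rw [mul_smul, mul_smul, mD.1 hd _ (hs _ _ hw), smul_inv_smul]⟩
  have oD : ∀ (g : K) (w v : Ω), v ∈ orbit D w → g • v ∈ orbit D (g • w) := by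
    rintro g w _ ⟨d, rfl⟩
    exact ⟨⟨_, nD.conj_mem _ d.2 g⟩, by simp [Subgroup.smul_def, mul_smul]⟩
  have cD : ∀ (g : K) (w : Ω), Nat.card (orbit D w) ≤ Nat.card (orbit D (g • w)) := fun g w =>
    Nat.card_le_card_of_injective (fun v => ⟨g • v.1, oD g w _ v.2⟩) fun _ _ e =>
      Subtype.ext (smul_left_cancel g (congrArg Subtype.val e))
  have cD' : ∀ (g : K) (w : Ω), Nat.card (orbit D (g • w)) = Nat.card (orbit D w) := fun g w =>
    le_antisymm (by simpa using cD g⁻¹ (g • w)) (cD g w)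
  have sΦ : ∀ (g : K) (w : Ω), φ • g • w = g • w ↔ φ • w = w := fun g w =>
    ⟨fun e => by simpa using hs g⁻¹ _ e, hs g w⟩
  have pf : ∀ (w : Ω) (i : ℕ), φ • w = w → φ ^ i • w = w := fun w i e => pow_mem (mem_stabilizer_iff.2 e) i
  let hh : Ω → ℕ := fun w => ((range n).filter fun i => R w (φ ^ i • w)).card
  have A0 : ∀ w : Ω, φ • w ≠ w → Set.InjOn (fun i : ℕ => φ ^ i • w) (range n) := fun w hw => by
    have : ∀ i j, i < j → j < n → φ ^ i • w ≠ φ ^ j • w := fun i j hij hj e => by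
      obtain ⟨c, rfl⟩ := Nat.exists_eq_add_of_lt hij
      rw [add_assoc, pow_add, mul_smul, smul_left_cancel_iff] at e
      refine hw (mem_stabilizer_iff.1 (zpowers_le.2 (mem_stabilizer_iff.2 e.symm) (mem_zpowers_pow_iff.2 ?_)))
      exact (((Nat.coprime_of_lt_prime (by omega) (by omega) hn).symm).coprime_dvd_right (orderOf_dvd_of_pow_eq_one hφ))
    intro i hi j hj e
    rcases lt_trichotomy i j with h | h | h
    exacts [(this i j h (by simpa using hj) e).elim, h, (this j i h (by simpa using hi) e.symm).elim]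
  have A1 : ∀ w : Ω, φ • w ≠ w → ¬ n ^ 2 ∣ Nat.card (orbit D w) → (orbit D w).toFinset.card = n ∧
      hh w = ((orbit D w).toFinset.filter (R w)).card := fun w hw hP => by
    have e : (range n).image (fun i : ℕ => φ ^ i • w) = (orbit D w).toFinset := eq_of_subset_of_card_le
      (fun v hv => by
        obtain ⟨i, -, rfl⟩ := mem_image.1 hv
        exact Set.mem_toFinset.2 ⟨⟨φ ^ i, pow_mem (mD.2 fun _ e => e) i⟩, rfl⟩)
      (by rw [card_image_of_injOn (A0 w hw), card_range, ← Nat.card_eq_card_toFinset]; exact orb_le hn (hK.to_subgroup _) hP)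
    rw [← e, card_image_of_injOn (A0 w hw), card_range, filter_image,
      card_image_of_injOn ((A0 w hw).mono (coe_subset.2 (filter_subset _ _)))]
    exact ⟨rfl, rfl⟩
  let F : Ω → ℤ := fun w => hh w - if φ • w = w then (0 : ℤ) else ((k % n : ℕ) : ℤ)
  have d1 := dvd_sum_orb D (fun w => if n ^ 2 ∣ Nat.card (orbit D w) then F w else 0) (n ^ 2) fun w hw => by
    have hP : n ^ 2 ∣ Nat.card (orbit D w) := by by_contra e; exact hw (if_neg e)
    refine ⟨hP, fun ⟨d, hd⟩ => ?_⟩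
    have : ∀ i : ℕ, φ ^ i • d • w = d • φ ^ i • w := fun i => by
      rw [← mul_smul, ← mul_smul, ((show Commute d φ from hc d (mD.1 hd)).pow_right i).eq]
    simp only [Subgroup.mk_smul, cD', F, hh, sΦ, this, hR.iff]
  have d2 := dvd_sum_orb K (fun w => if n ^ 2 ∣ Nat.card (orbit D w) then 0 else F w) (n ^ 2) fun w hw => by
    have hP : ¬ n ^ 2 ∣ Nat.card (orbit D w) := fun e => hw (if_pos e)
    rw [if_neg hP] at hw
    have w1 : φ • w ≠ w := fun e => hw (by simp [F, hh, e, pf w _ e, irr])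
    obtain ⟨b1, b2⟩ := A1 w w1 hP
    refine ⟨by_contra fun hQ => hw ?_, fun g => ?_⟩
    · have e : (orbit D w).toFinset = (orbit K w).toFinset := eq_of_subset_of_card_le
        (Set.toFinset_subset_toFinset.2 (orbit_subgroup_subset _ _))
        (by rw [b1, ← Nat.card_eq_card_toFinset]; exact orb_le hn hK hQ)
      obtain ⟨g, g1, u, u1, u2⟩ : ∃ g : K, g • w = w ∧ ∃ u : Ω, φ • u = u ∧ g • u ≠ u := by
        by_contra! hh
        obtain ⟨g, u, u1, u2⟩ := hmv
        obtain ⟨d, hd⟩ := Set.mem_toFinset.1 (e ▸ Set.mem_toFinset.2 (mem_orbit w g))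
        have := hh ((d : K)⁻¹ * g) (by rw [mul_smul, inv_smul_eq_iff]; exact hd.symm) u u1
        rw [mul_smul, inv_smul_eq_iff, mD.1 d.2 u u1] at this
        exact u2 this
      have c1 : orbit (zpowers g) u = fixedBy Ω φ := Set.eq_of_subset_of_ncard_le
        (by rintro _ ⟨a, rfl⟩; exact hs a u u1) (hΦ ▸ Nat.le_of_dvd (@Nat.card_pos _ ⟨⟨u, mem_orbit_self u⟩⟩ _)
          (dvd_orb hn (hK.to_subgroup _) (g := ⟨g, mem_zpowers g⟩) u2))
      have c2 := hfix g u u1 fun v hv => by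
        obtain ⟨a, ha⟩ : v ∈ orbit (zpowers g) u := c1 ▸ hv
        obtain ⟨j, hj⟩ := mem_powers_iff_mem_zpowers.2 a.2
        exact ⟨j, by rw [← ha]; exact congrArg (· • u) hj⟩
      have c3 := mod_fix hn hK g (orbit K w).toFinset fun s hs =>
        Set.mem_toFinset.2 (mapsTo_smul_orbit g w (Set.mem_toFinset.1 hs))
      have c4 := Nat.eq_zero_of_dvd_of_lt c3 (by
        rw [← b1, e]
        exact card_lt_card (filter_ssubset.2 ⟨w, Set.mem_toFinset.2 (mem_orbit_self w), not_not.2 g1⟩))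
      have c5 : (orbit D w).toFinset = (fixedBy Ω g).toFinset := eq_of_subset_of_card_le
        (fun v hv => Set.mem_toFinset.2 (not_not.1 (filter_eq_empty_iff.1 (card_eq_zero.1 c4) (e ▸ hv))))
        (by rw [b1, ← Set.ncard_eq_toFinset_card']; exact c2)
      have c6 := mod_fix hn hK g (univ.filter (R w)) fun s hs => by simpa [g1] using hR g _ _ (mem_filter.1 hs).2
      have c7 := card_filter_add_card_filter_not (s := univ.filter (R w)) fun s => g • s ≠ s
      have c8 : hh w = ((univ.filter (R w)).filter fun s => ¬ g • s ≠ s).card := by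
        rw [b2, c5]; congr 1; ext; simp [and_comm]
      have c9 : hh w < n := (card_lt_card (filter_ssubset.2 ⟨0, mem_range.2 hn.pos, by simp [irr]⟩)).trans_eq (card_range n)
      obtain ⟨c, hc⟩ := c6
      rw [val, hc, ← c8] at c7
      simp only [F, if_neg w1, ← c7, Nat.mul_add_mod, Nat.mod_eq_of_lt c9, sub_self]
    · have w2 : φ • g • w ≠ g • w := fun e => w1 ((sΦ g w).1 e)
      simp only [cD', if_neg hP, F, if_neg w1, if_neg w2, b2, (A1 _ w2 (cD' g w ▸ hP)).2]
      congr 2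
      exact card_nbij' (fun v => g⁻¹ • v) (fun v => g • v)
        (fun v hv => by
          simp only [coe_filter, Set.mem_toFinset, Set.mem_ofPred_eq] at hv ⊢
          exact ⟨by simpa using oD g⁻¹ _ _ hv.1, by simpa using hR g⁻¹ _ _ hv.2⟩)
        (fun v hv => by
          simp only [coe_filter, Set.mem_toFinset, Set.mem_ofPred_eq] at hv ⊢
          exact ⟨oD g _ _ hv.1, hR g _ _ hv.2⟩) (fun v _ => by simp) (fun v _ => by simp)
  have d3 := d1.add d2
  rw [← sum_add_distrib, sum_congr rfl (g := F) fun w _ => by split_ifs <;> simp] at d3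
  have e1 : ∑ i ∈ range n, tau R (φ ^ i) = ∑ w, hh w := by
    simp only [tau, hh, card_filter]; exact sum_comm
  have e2 : (univ.filter fun w : Ω => φ • w = w).card = n := by
    rw [← hΦ, Set.ncard_eq_toFinset_card']; congr 1; ext; simp
  have e3 := card_filter_add_card_filter_not (s := univ) fun w : Ω => φ • w = w
  rw [e2, card_univ, ← Nat.card_eq_fintype_card] at e3
  simp only [F, sum_sub_distrib, sum_ite, sum_const_zero, zero_add, sum_const, nsmul_eq_mul] at d3
  rw [← e3, Nat.cast_add, add_sub_cancel_left] at hN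
  rw [Nat.cast_pow] at d3
  have := d3.add (hN.mul_right (k % n : ℕ))
  rw [sub_add_cancel, ← Nat.cast_sum, ← e1] at this
  exact_mod_cast this

end Cfsg.Agent.H3.SgC
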