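import Cfsg.Agent.H3.SgCb

/-! Double transitivity: the abstract part. -/

set_option autoImplicit false
set_option linter.unusedSectionVars false

namespace Cfsg.Agent.H3.SgC

open Cfsg MulAction Subgroup Finset Cfsg.Agent.H5.Zas1 Cfsg.Agent.H4.CAG Cfsg.Agent.H4.Util
open scoped Classical Pointwise

variable {G Ω : Type*} [Group G] [Fintype G] [MulAction G Ω] [Fintype Ω] {X : Subgroup G} {n d q : ℕ}

attribute [local instance] ftSub

theorem frob (h : CA X) (hn : ∃ g, g ∉ Nm X) (hs : ∀ x ∈ X, ∀ ω : Ω, x • ω = ω → x = 1)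
    (hΩ : Nat.card Ω = d * Nat.card X) (hd : 0 < d)
    (hx : ∀ g : G, g ≠ 1 → Nat.card (fixedBy Ω g) + d ≤ Nat.card X) : wt X ≠ 1 := fun hw => by
  have hX : Nm X = X := by
    have := card_Nm X
    rw [hw, mul_one] at this
    exact (eq_of_le_of_card_ge le_normalizer this.le).symm
  have key : ∀ (g a : G), g • (a : G ⧸ Nm X) = a → a⁻¹ * g * a ∈ X := fun g a e => by
    rw [← hX, ← fix_iff, mul_smul, mul_smul, inv_smul_eq_iff]
    simpa using e
  obtain ⟨K, hK, hK1, hK2⟩ := H4.Frobenius.exists_kernel (B := G) (X := G ⧸ Nm X)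
    (fun x y => exists_smul_eq G x y) (fun g x y hxy e1 e2 => by
      obtain ⟨a, rfl⟩ := QuotientGroup.mk_surjective x
      have := free h (key g a e1) (ω := a⁻¹ • y) (fun e => hxy (by
        rw [inv_smul_eq_iff] at e; simpa using e.symm)) (by simp [mul_smul, e2])
      rwa [mul_assoc, inv_mul_eq_one, eq_comm, mul_eq_right] at this)
  have c1 : Nat.card K = Nat.card (G ⧸ Nm X) := by
    refine Nat.card_congr (Equiv.ofBijective (fun k : K => (k : G) • ((1 : G) : G ⧸ Nm X)) ⟨?_, ?_⟩)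
    · intro k k' e
      have := (hK1 _).1 (K.mul_mem (K.inv_mem k'.2) k.2)
      rcases this with e1 | e1
      · exact Subtype.ext (inv_mul_eq_one.1 e1).symm
      · exact (e1 ((1 : G) : G ⧸ Nm X) (by rw [mul_smul, inv_smul_eq_iff]; exact e)).elim
    · intro y
      obtain ⟨g, hg, e⟩ := hK2 ((1 : G) : G ⧸ Nm X) y
      exact ⟨⟨g, hg⟩, e⟩
  have c2 : Nat.card X * Nat.card K = Nat.card G := by
    rw [c1, ← (Nm X).card_mul_index, hX]; rfl
  have c4 : ∀ ω : Ω, Nat.card K ≤ d * ∑ y : K, if (y : G) • ω = ω then 1 else 0 := fun ω => by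
    have e1 : stabilizer G ω ≤ K := fun g hg => (hK1 g).2 (by
      by_contra hc
      push Not at hc
      obtain ⟨g1, x, e⟩ := hc
      obtain ⟨a, rfl⟩ := QuotientGroup.mk_surjective x
      have := hs _ (key g a e) (a⁻¹ • ω) (by simp [mul_smul, mem_stabilizer_iff.1 hg])
      rw [mul_assoc, inv_mul_eq_one, eq_comm, mul_eq_right] at this
      exact g1 this)
    have e2 := (stabilizer G ω).card_mul_index
    have e3 := Nat.mul_le_mul_left (Nat.card (stabilizer G ω)) (Set.ncard_le_card (orbit G ω))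
    rw [← index_stabilizer, e2, ← c2, hΩ, ← mul_assoc, mul_comm _ (Nat.card X)] at e3
    refine (Nat.le_of_mul_le_mul_left e3 Nat.card_pos).trans ((mul_comm _ _).le.trans (Nat.mul_le_mul_left _ ?_))
    rw [← card_filter, ← Nat.card_congr (subgroupOfEquivOfLe e1).toEquiv, Nat.card_eq_fintype_card, Fintype.card_subtype]
    exact le_of_eq (by congr 1)
  obtain ⟨k, hk⟩ := card_dvd_of_free' X ({((1 : G) : G ⧸ Nm X)}ᶜ : Set (G ⧸ Nm X))
    (fun g hg ω hω e => hω (smul_left_cancel g (e.trans (fix_iff.2 (le_normalizer hg)).symm)))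
    fun g hg ω hω e => free h hg hω e
  rw [Set.ncard_compl, Set.ncard_singleton, ← c1] at hk
  have c6 : 1 < Nat.card K := by
    obtain ⟨g, hg⟩ := hn
    rw [c1, Finite.one_lt_card_iff_nontrivial]
    exact ⟨g, (1 : G), fun e => hg (ne_iff.1 e)⟩
  have c7 := sum_le_sum (s := univ) fun ω _ => c4 ω
  rw [← mul_sum, sum_comm, sum_const, card_univ, ← Nat.card_eq_fintype_card, hΩ, smul_eq_mul, mul_assoc,
    ← add_sum_erase _ _ (mem_univ 1)] at c7
  have c8 := sum_le_sum (s := univ.erase (1 : K)) fun y hy => hx y fun e => ne_of_mem_erase hy (Subtype.ext e)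
  simp only [H1.PermChar.card_fixedBy_eq, card_filter, sum_add_distrib, sum_const, card_erase_of_mem (mem_univ _),
    card_univ, ← Nat.card_eq_fintype_card, smul_eq_mul] at c8
  have c9 := Nat.le_of_mul_le_mul_left c7 hd
  simp only [OneMemClass.coe_one, one_smul, if_true, sum_const, card_univ, ← Nat.card_eq_fintype_card, hΩ,
    smul_eq_mul, mul_one] at c9
  obtain ⟨s, hs⟩ : ∃ s, Nat.card K = s + 1 := ⟨_, (Nat.sub_add_cancel c6.le).symm⟩
  rw [hs, Nat.add_sub_cancel] at hk c8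
  have : 1 ≤ k := Nat.pos_of_ne_zero (by rintro rfl; omega)
  have := Nat.mul_le_mul_right d (hk ▸ Nat.mul_le_mul_left (Nat.card X) this)
  have := Nat.card_pos (α := X)
  rw [hs] at c9
  nlinarith

theorem tau_phi (h : CA X) {R : Ω → Ω → Prop} (hR : Iv G R) {φ : G} (hN : φ ∈ Nm X) (hX : φ ∉ X)
    (hcl : ∀ w : Ω, ∃ x ∈ X, φ • w = x • w) : Nat.card X * tau R φ = ∑ x : X, tau R (x : G) := by
  let c : X → X := fun x => ⟨x * (φ * (x : G)⁻¹ * φ⁻¹), mul_mem x.2 (conj_mem hN (inv_mem x.2))⟩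
  have hc : Function.Bijective c := Finite.injective_iff_bijective.1 fun x y e => by
    by_contra hxy
    refine hX (h.mem (x := (y : G)⁻¹ * x) (mul_mem (inv_mem y.2) x.2) (fun e => hxy (Subtype.ext (inv_mul_eq_one.1 e).symm)) ?_)
    have e1 : (x : G) * (φ * (x : G)⁻¹ * φ⁻¹) = y * (φ * (y : G)⁻¹ * φ⁻¹) := congrArg Subtype.val e
    calc φ * ((y : G)⁻¹ * x) = (y : G)⁻¹ * (y * (φ * (y : G)⁻¹ * φ⁻¹)) * φ * x := by group
      _ = _ := by rw [← e1]; group
  calc _ = ∑ x : X, tau R (c x * φ) := by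
        simp only [c, mul_assoc, inv_mul_cancel, mul_one]
        simp only [← mul_assoc, tau_conj hR]
        simp
    _ = ∑ x : X, tau R (x * φ) := hc.sum_comp fun x : X => tau R (x * φ)
    _ = _ := by
        simp only [tau, card_filter]
        rw [sum_comm, sum_comm (s := (univ : Finset X))]
        refine sum_congr rfl fun w _ => ?_
        obtain ⟨x, hx, e⟩ := hcl w
        exact Fintype.sum_equiv (Equiv.mulRight (⟨x, hx⟩ : X)) _ _ fun y => by simp [mul_smul, e]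

theorem tau_pos {R : Ω → Ω → Prop} {g : G} : 0 < tau R g ↔ ∃ w, R w (g • w) := by
  simp [tau, card_pos, filter_nonempty_iff]

theorem tau_zero {R : Ω → Ω → Prop} {g : G} (h : ∀ w, ¬ R w (g • w)) : tau R g = 0 :=
  Nat.eq_zero_of_not_pos fun e => (tau_pos.1 e).elim h

theorem iv_orb (a b : Ω) : Iv G fun u v => ∃ g : G, g • a = u ∧ g • b = v := by
  rintro g _ _ ⟨h, rfl, rfl⟩; exact ⟨g * h, mul_smul .., mul_smul ..⟩

theorem Hy.two_one (H : Hy Ω X 1) (a b u v : Ω) (hab : a ≠ b) (huv : u ≠ v) : ∃ g : G, g • a = u ∧ g • b = v := by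
  have tr : ∀ a b : Ω, ∃ x ∈ X, x • a = b := fun a b => by
    obtain ⟨x, hx⟩ := ((Nat.bijective_iff_injective_and_card fun x : X => (x : G) • a).2 ⟨fun x y e => Subtype.ext
      (inv_mul_eq_one.1 (H.free _ (mul_mem (inv_mem y.2) x.2) a (by rw [mul_smul, inv_smul_eq_iff]; exact e))).symm,
      by rw [H.card, one_mul]⟩).2 b
    exact ⟨x, x.2, hx⟩
  obtain ⟨x, hx, rfl⟩ := tr a b
  obtain ⟨y, hy, rfl⟩ := tr u v
  have := H.tau_const (iv_orb a (x • a)) hx (by rintro rfl; simp at hab) hy (by rintro rfl; simp at huv)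
  obtain ⟨w, hw⟩ := tau_pos.1 ((tau_pos.2 ⟨a, 1, by simp⟩).trans_eq this)
  obtain ⟨z, hz, rfl⟩ := tr w u
  simpa only [← mul_smul, H.ca.comm hz hy] using iv_orb a (x • a) z _ _ hw

theorem fin_arith {N γ Q m s : ℕ} (h0 : s + 2 ≤ N) (h1 : N * N ≤ γ * Q + N) (h2 : γ * (s + 1) ≤ N ^ 2 * m)
    (h3 : Q * m ≤ s) : False := by
  have b4 := Nat.mul_le_mul_right (s + 1) h1
  have b5 := Nat.mul_le_mul_left Q h2
  have b6 := Nat.mul_le_mul_left (N ^ 2) h3
  have b7 := Nat.mul_le_mul_left N h0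
  nlinarith

theorem Hy.two_n (H : Hy Ω X n) [IsPretransitive G Ω] (hn : n.Prime) {φ : G} (hN : φ ∈ Nm X) (hX : φ ∉ X)
    (hφ : φ ^ n = 1) (hcl : ∀ w : Ω, ∃ x ∈ X, φ • w = x • w) (t1 : n ∣ Nat.card X - 1) (t2 : ¬ n ^ 2 ∣ Nat.card X - 1)
    (hc : ∀ g : G, (∀ w : Ω, φ • w = w → g • w = w) → g * φ = φ * g)
    (hF : ∃ w : Ω, φ • w = w ∧ ∀ w' : Ω, φ • w' = w' → ∃ g : G, (∀ u : Ω, φ • u = u → φ • g • u = g • u) ∧ g • w = w')
    (hfix : ∀ (g : G) (u : Ω), (∀ u : Ω, φ • u = u → φ • g • u = g • u) → φ • u = u →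
      (∀ w : Ω, φ • w = w → ∃ j : ℕ, g ^ j • u = w) → (fixedBy Ω g).ncard ≤ n)
    (L : Ω → Ω → Finset Ω) (L1 : ∀ x y, x ∈ L x y ∧ y ∈ L x y)
    (L2 : ∀ (g : G) x y z, z ∈ L x y → g • z ∈ L (g • x) (g • y))
    (L3 : ∀ x y a b, x ≠ y → a ∈ L x y → b ∈ L x y → a ≠ b → L a b = L x y)
    (L4 : ∀ x y, x ≠ y → (L x y).card = q + 1) (hq : n ≤ q) (hsz : q * (q + 1) * (n - 1) ^ 2 + 2 ≤ Nat.card X)
    (a b u v : Ω) (hab : a ≠ b) (huv : u ≠ v) : ∃ g : G, g • a = u ∧ g • b = v := by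
  haveI := Fact.mk hn
  have ht : 1 < Nat.card X := by omega
  have hΦ : (fixedBy Ω φ).ncard = n := by
    have := tau_phi H.ca (R := Eq) (fun _ _ _ e => e ▸ rfl) hN hX hcl
    rw [sum_eq_single (1 : X) (fun x _ hx => tau_zero fun w e =>
      hx (Subtype.ext (H.free x x.2 w e.symm))) (by simp)] at this
    simp only [tau, OneMemClass.coe_one, one_smul, filter_true, card_univ, ← Nat.card_eq_fintype_card, H.card,
      mul_comm n] at this
    rw [← Nat.eq_of_mul_eq_mul_left (by omega) this, Set.ncard_eq_toFinset_card']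
    congr 1; ext; simp [eq_comm]
  have nsq : ∀ R : Ω → Ω → Prop, Iv G R → (∀ w, ¬ R w w) → n ^ 2 ∣ ∑ i ∈ range n, tau R (φ ^ i) := fun R hR irr => by
    let S := stabilizer G (fixedBy Ω φ)
    have mS : ∀ {g}, g ∈ S ↔ ∀ u : Ω, φ • u = u → φ • g • u = g • u := by
      intro g
      rw [mem_stabilizer_set_iff_smul_set_subset (Set.toFinite _), Set.smul_set_subset_iff]; rfl
    have φS : φ ∈ S := mS.2 fun u e => by rw [e, e]
    obtain ⟨P, hP⟩ := IsPGroup.exists_le_sylow (p := n) (P := zpowers (⟨φ, φS⟩ : S)) (IsPGroup.of_card (n := 1) (by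
      rw [Nat.card_zpowers, ← orderOf_coe, pow_one]
      exact orderOf_eq_prime hφ (by rintro rfl; exact hX X.one_mem)))
    obtain ⟨w, w1, w2⟩ := hF
    refine nsq_aux hn P.isPGroup' (fun g => hR g) irr (fun x => H1.PermChar.card_filter_rel R hR.iff w x)
      ⟨⟨φ, φS⟩, hP (mem_zpowers _)⟩ (Subtype.ext (Subtype.ext hφ)) hΦ ?_ (fun g => mS.1 g.1.2)
      (fun g e => Subtype.ext (Subtype.ext (hc g e))) ?_ fun g u => hfix g u (mS.1 g.1.2)
    · obtain ⟨c, hc⟩ := t1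
      exact ⟨c, by rw [H.card, show Nat.card X = n * c + 1 by omega]; push_cast; ring⟩
    · by_contra! hh
      refine P.not_dvd_index (Dvd.dvd.trans ?_ (index_dvd_of_le (K := stabilizer S w) fun g hg => hh ⟨g, hg⟩ w w1))
      rw [index_stabilizer, show orbit S w = fixedBy Ω φ from Set.ext fun x => ⟨?_, fun e => ?_⟩, hΦ]
      · rintro ⟨g, rfl⟩; exact mS.1 g.2 w w1
      · obtain ⟨g, g1, g2⟩ := w2 x e
        exact ⟨⟨g, mS.2 g1⟩, g2⟩
  have line : ∀ x y, x ≠ y → ∃ c ∈ L x y, ∃ z ∈ X, z ≠ 1 ∧ z • c ∈ L x y := fun x y hxy => by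
    by_contra! hh
    have := Nat.card_le_card_of_injective (fun p : L x y × X => (p.2 : G) • (p.1 : Ω)) fun p p' e => by
      have e1 : ((p'.2 : G)⁻¹ * p.2) • (p.1 : Ω) = p'.1 := by rw [mul_smul, inv_smul_eq_iff]; exact e
      have e2 : (p'.2 : G)⁻¹ * p.2 = 1 := by_contra fun e2 => hh _ p.1.2 _ (mul_mem (inv_mem p'.2.2) p.2.2) e2 (e1 ▸ p'.1.2)
      exact Prod.ext (Subtype.ext (by rw [← e1, e2, one_smul])) (Subtype.ext (inv_mul_eq_one.1 e2).symm)
    rw [Nat.card_prod, H.card, Nat.card_eq_fintype_card (α := L x y), Fintype.card_coe, L4 x y hxy] at this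
    have := Nat.le_of_mul_le_mul_right this (by omega)
    omega
  obtain ⟨c, -, x0, hx0, x1, -⟩ := line a b hab
  let Δ : Ω → Ω → Prop := fun u v => ∃ g : G, g • c = u ∧ g • x0 • c = v
  have iΔ : Iv G Δ := iv_orb c (x0 • c)
  have irr : ∀ w, ¬ Δ w w := by
    rintro w ⟨g, e1, e2⟩; exact x1 (H.free _ hx0 c (smul_left_cancel g (e2.trans e1.symm)))
  have all : ∀ x ∈ X, x ≠ 1 → ∀ w, Δ w (x • w) := fun x hx h1 w => by
    have a1 : ∀ i ∈ (range n).erase 0, Nat.card X * tau Δ (φ ^ i) = (Nat.card X - 1) * tau Δ x := fun i hi => by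
      obtain ⟨i0, i1⟩ := mem_erase.1 hi
      rw [tau_phi H.ca iΔ (pow_mem hN i) (fun e => hX (zpowers_le.2 e (mem_zpowers_pow_iff.2
        ((Nat.coprime_of_lt_prime i0 (mem_range.1 i1) hn).symm.coprime_dvd_right (orderOf_dvd_of_pow_eq_one hφ))))) fun w => ?_,
        ← add_sum_erase _ _ (mem_univ 1), sum_congr rfl fun y hy => H.tau_const iΔ y.2
          (fun e => ne_of_mem_erase hy (Subtype.ext e)) hx h1]
      · simp [tau, irr]
      clear hi i0 i1
      induction i with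
      | zero => exact ⟨1, X.one_mem, by rw [pow_zero]⟩
      | succ i ih =>
        obtain ⟨y, hy, e⟩ := ih
        obtain ⟨z, hz, e'⟩ := hcl (y • w)
        exact ⟨z * y, mul_mem hz hy, by rw [pow_succ', mul_smul, e, e', mul_smul]⟩
    have a2 : 1 ∈ (range n).erase 0 := by simpa using hn.one_lt
    obtain ⟨f, hf⟩ : Nat.card X ∣ tau Δ x := (show (Nat.card X).Coprime (Nat.card X - 1) by
      simpa using (Nat.coprime_self_sub_right ht.le).2 (Nat.coprime_one_right _)).dvd_of_dvd_mul_left ⟨_, (a1 1 a2).symm⟩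
    have a3 := nsq Δ iΔ irr
    rw [← add_sum_erase _ _ (mem_range.2 hn.pos), sum_congr rfl (g := fun _ => (Nat.card X - 1) * f) fun i hi =>
      Nat.eq_of_mul_eq_mul_left (show 0 < Nat.card X by omega) (by rw [a1 i hi, hf]; ring)] at a3
    simp only [tau, pow_zero, one_smul, irr, filter_false, card_empty, zero_add, sum_const, smul_eq_mul,
      card_erase_of_mem (mem_range.2 hn.pos), card_range] at a3
    obtain ⟨e, he⟩ := t1
    rw [he, sq, Nat.mul_dvd_mul_iff_left hn.pos] at t2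
    rw [he, sq, mul_assoc, mul_left_comm, Nat.mul_dvd_mul_iff_left hn.pos] at a3
    have a4 : n ∣ f := ((hn.dvd_mul.1 ((hn.dvd_mul.1 a3).resolve_left
      (Nat.not_dvd_of_pos_of_lt (by have := hn.one_lt; omega) (by have := hn.pos; omega)))).resolve_left t2)
    have a5 : 0 < tau Δ x := (tau_pos.2 ⟨c, 1, by simp⟩).trans_eq (H.tau_const iΔ hx0 x1 hx h1)
    have a6 := Nat.mul_le_mul_left (Nat.card X) (Nat.le_of_dvd (Nat.pos_of_ne_zero (by rintro rfl; omega)) a4)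
    rw [← hf, mul_comm, ← H.card, Nat.card_eq_fintype_card] at a6
    simpa using eq_univ_iff_forall.1 (eq_univ_of_card _ (le_antisymm (card_le_univ _) a6)) w
  suffices ∀ u v, u ≠ v → Δ u v by
    obtain ⟨g, rfl, rfl⟩ := this a b hab
    obtain ⟨h, rfl, rfl⟩ := this u v huv
    exact ⟨h * g⁻¹, by simp [mul_smul], by simp [mul_smul]⟩
  by_contra! hh
  obtain ⟨a', b', ab, hΓ⟩ := hh
  let Γ : Ω → Ω → Prop := fun u v => u ≠ v ∧ ¬ Δ u v
  have iΓ : Iv G Γ := fun g x y e => ⟨fun e' => e.1 (smul_left_cancel g e'), fun e' => e.2 ((iΔ.iff g x y).1 e')⟩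
  haveI : Nonempty Ω := ⟨a⟩
  have b1 := H.norm_bound iΓ fun x hx w e => e.2 (all x hx (by rintro rfl; simp [Γ] at e) w)
  have b2 : (univ : Finset Ω).offDiag ⊆
      (univ.filter fun p : Ω × Ω => Γ p.1 p.2).biUnion fun p => (L p.1 p.2).offDiag := fun p hp => by
    have hp' := (mem_offDiag.1 hp).2.2
    obtain ⟨c1, d1, z1, e1, f1, g1⟩ := line a' b' ab
    obtain ⟨c2, d2, z2, e2, f2, g2⟩ := line _ _ hp'
    obtain ⟨h1, i1, j1⟩ := all z1 e1 f1 c1
    obtain ⟨h2, i2, j2⟩ := all z2 e2 f2 c2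
    have k1 := L3 _ _ _ _ ab d1 g1 fun e => f1 (H.free _ e1 _ e.symm)
    have k2 := L3 _ _ _ _ hp' d2 g2 fun e => f2 (H.free _ e2 _ e.symm)
    have k3 : ∀ y ∈ L a' b', (h2 * h1⁻¹) • y ∈ L p.1 p.2 := fun y hy => by
      have := L2 (h2 * h1⁻¹) _ _ y (k1 ▸ hy)
      rwa [← j1, ← i1, mul_smul, mul_smul h2, inv_smul_smul, inv_smul_smul, i2, j2, k2] at this
    have k4 := iΓ (h2 * h1⁻¹) _ _ ⟨ab, hΓ⟩
    refine mem_biUnion.2 ⟨(_, _), mem_filter.2 ⟨mem_univ _, k4⟩, ?_⟩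
    rw [L3 _ _ _ _ hp' (k3 _ (L1 _ _).1) (k3 _ (L1 _ _).2) k4.1]
    exact mem_offDiag.2 ⟨(L1 _ _).1, (L1 _ _).2, hp'⟩
  have b3 := (card_le_card b2).trans (card_biUnion_le.trans (sum_le_card_nsmul _ _ (q * (q + 1)) fun p hp => by
    rw [offDiag_card, L4 _ _ (mem_filter.1 hp).2.1]; exact Nat.sub_le_of_le_add (by ring_nf; rfl)))
  rw [offDiag_card, card_univ, ← Nat.card_eq_fintype_card, smul_eq_mul, H.card] at b3
  rw [H.card] at b1
  obtain ⟨s, hs⟩ : ∃ s, Nat.card X = s + 2 := ⟨Nat.card X - 2, by omega⟩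
  rw [hs] at b1 b3 hsz
  exact fin_arith (Nat.le_mul_of_pos_left _ hn.pos) (Nat.sub_le_iff_le_add.1 b3) (by rw [show s + 2 - 1 = s + 1 from rfl] at b1; convert b1) (Nat.le_of_add_le_add_right hsz)

end Cfsg.Agent.H3.SgC
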