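import Cfsg.Agent.H9.Sg1

/-! Projective geometry and arithmetic for overgroups of Singer cycles. -/

set_option autoImplicit false
set_option linter.unusedSectionVars false

namespace Cfsg.Agent.H3.SgC

open Module MulAction Projectivization Finset Submodule Cfsg.Agent.H8.L5f
open scoped LinearAlgebra.Projectivization Classical

variable {F V : Type*} [Field F] [Fintype F] [AddCommGroup V] [Module F V] [Finite V] {n : ℕ}

theorem fix_rep {g : V ≃ₗ[F] V} {x : ℙ F V} : g • x = x ↔ ∃ c : F, g x.rep = c • x.rep := by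
  conv_lhs => rw [← x.mk_rep]
  exact smul_mk_eq g _ _

theorem rep_mem {U : Submodule F V} {v : V} (hv : v ≠ 0) : (mk F v hv).rep ∈ U ↔ v ∈ U := by
  obtain ⟨a, ha⟩ := exists_smul_eq_mk_rep F v hv
  rw [← ha, Units.smul_def, U.smul_mem_iff a.ne_zero]

theorem eq_of_rep {x y : ℙ F V} {c : F} (h : x.rep = c • y.rep) : x = y := by
  rw [← x.mk_rep, ← y.mk_rep]; exact (mk_eq_mk_iff' F _ _ _ _).2 ⟨c, h.symm⟩

theorem card_pts (U : Submodule F V) :
    Nat.card {x : ℙ F V // x.rep ∈ U} = ∑ i ∈ range (finrank F U), Fintype.card F ^ i := by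
  rw [← Nat.card_eq_fintype_card, ← card_of_finrank F U rfl]
  have h : ∀ y : ℙ F U, (map U.subtype U.injective_subtype y).rep ∈ U := fun y => by
    induction y using Projectivization.ind with
    | h v hv => exact (rep_mem _).2 v.2
  exact (Nat.card_congr (Equiv.ofBijective (fun y : ℙ F U => (⟨_, h y⟩ : {x : ℙ F V // x.rep ∈ U}))
    ⟨fun y y' e => map_injective U.subtype U.injective_subtype (Subtype.mk.inj e), fun ⟨x, hx⟩ =>
      ⟨mk F ⟨x.rep, hx⟩ (fun e => x.rep_nonzero (congrArg Subtype.val e)), Subtype.ext x.mk_rep⟩⟩)).symm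

theorem fix_bound (hV : finrank F V = n) {g : V ≃ₗ[F] V} (hg : pp F V g ≠ 1) :
    Nat.card (fixedBy (ℙ F V) g) ≤ ∑ i ∈ range (n - 1), Fintype.card F ^ i + 1 := by
  haveI : Finite (ℙ F V) := (finite_iff_of_finite F V).2 inferInstance
  rcases isEmpty_or_nonempty (fixedBy (ℙ F V) g) with h | ⟨⟨x0, h0⟩⟩
  · simp
  obtain ⟨κ, hκ⟩ := fix_rep.1 h0
  let U := Module.End.eigenspace (g : V →ₗ[F] V) κ
  have mU : ∀ {v}, v ∈ U ↔ g v = κ • v := Module.End.mem_eigenspace_iff
  haveI : Finite (V ⧸ U) := Finite.of_surjective _ U.mkQ_surjective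
  haveI : Finite (ℙ F (V ⧸ U)) := (finite_iff_of_finite F _).2 inferInstance
  have h1 := Nat.card_le_card_of_injective (β := {x : ℙ F V // x.rep ∈ U} ⊕ ℙ F (V ⧸ U))
    (fun x : fixedBy (ℙ F V) g => if h : x.1.rep ∈ U then .inl ⟨x, h⟩ else
      .inr (mk F (U.mkQ x.1.rep) fun e => h ((Quotient.mk_eq_zero U).1 e))) fun x y e => by
      by_cases hx : x.1.rep ∈ U <;> by_cases hy : y.1.rep ∈ U <;> simp only [hx, hy, dite_true, dite_false] at e
      · exact Subtype.ext (Subtype.mk.inj (Sum.inl.inj e))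
      · cases e
      · cases e
      obtain ⟨c, hc⟩ := (mk_eq_mk_iff' F _ _ _ _).1 (Sum.inr_injective e)
      obtain ⟨a, ha⟩ := fix_rep.1 x.2
      obtain ⟨b, hb⟩ := fix_rep.1 y.2
      have hu : x.1.rep - c • y.1.rep ∈ U := (Submodule.Quotient.eq U).1 hc.symm
      have e1 := mU.1 hu
      rw [map_sub, map_smul, ha, hb] at e1
      have a1 : a ≠ κ := fun e => hx (mU.2 (e ▸ ha))
      refine Subtype.ext (eq_of_rep (c := (a - κ)⁻¹ * (c * (b - κ))) ?_)
      rw [mul_smul, eq_inv_smul_iff₀ (sub_ne_zero.2 a1)]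
      linear_combination (norm := module) e1
  have h2 := U.finrank_quotient_add_finrank
  have h3 : 0 < finrank F U := finrank_pos_iff.2 ⟨⟨_, mU.2 hκ⟩, 0, fun e => x0.rep_nonzero (congrArg Subtype.val e)⟩
  have h4 : finrank F U < finrank F V := finrank_lt fun e => hg (pp_eq_one.2 ⟨κ, fun v => mU.1 (e ▸ mem_top)⟩)
  obtain ⟨b, hb⟩ : ∃ b, finrank F (V ⧸ U) = b + 1 := ⟨_, (Nat.sub_add_cancel (by omega)).symm⟩
  rw [Nat.card_sum, card_pts, card_of_finrank F _ hb, sum_range_succ', pow_zero, ← add_assoc,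
    Nat.card_eq_fintype_card (α := F)] at h1
  rw [show n - 1 = finrank F U + b by omega, sum_range_add]
  exact h1.trans (Nat.add_le_add_right (Nat.add_le_add_left
    (sum_le_sum fun i _ => Nat.pow_le_pow_right Fintype.card_pos (by omega)) _) _)

/-- the line through two points -/
noncomputable def ln [Fintype (ℙ F V)] (x y : ℙ F V) : Finset (ℙ F V) :=
  univ.filter fun z => z.rep ∈ span F {x.rep, y.rep}

section
variable [Fintype (ℙ F V)] {x y : ℙ F V}

theorem mem_ln {z : ℙ F V} : z ∈ ln x y ↔ z.rep ∈ span F {x.rep, y.rep} := by simp [ln]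

theorem rk_ln (h : x ≠ y) : finrank F (span F {x.rep, y.rep}) = 2 := by
  have := finrank_span_eq_card (linearIndependent_pair_iff_ne.2 h)
  rwa [Matrix.range_cons_cons_empty] at this

theorem ln1 : x ∈ ln x y ∧ y ∈ ln x y := ⟨mem_ln.2 (subset_span (by simp)), mem_ln.2 (subset_span (by simp))⟩

theorem ln2 (g : V ≃ₗ[F] V) {z : ℙ F V} (h : z ∈ ln x y) : g • z ∈ ln (g • x) (g • y) := by
  obtain ⟨a, b, e⟩ := mem_span_pair.1 (mem_ln.1 h)
  have k : ∀ (w : ℙ F V) (U : Submodule F V), (g • w).rep ∈ U ↔ g w.rep ∈ U := fun w U => by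
    conv_lhs => rw [← w.mk_rep, smul_mk, rep_mem]
    rfl
  rw [mem_ln, k, ← e, map_add, map_smul, map_smul]
  exact add_mem (smul_mem _ _ ((k _ _).1 (subset_span (by simp)))) (smul_mem _ _ ((k _ _).1 (subset_span (by simp))))

theorem ln3 {a b : ℙ F V} (h : x ≠ y) (ha : a ∈ ln x y) (hb : b ∈ ln x y) (hab : a ≠ b) : ln a b = ln x y := by
  rw [ln, eq_of_le_of_finrank_eq (span_le.2 (Set.pair_subset (mem_ln.1 ha) (mem_ln.1 hb)))
    ((rk_ln hab).trans (rk_ln h).symm)]; rfl

theorem ln4 (h : x ≠ y) : (ln x y).card = Fintype.card F + 1 := by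
  rw [ln, ← Fintype.card_subtype, ← Nat.card_eq_fintype_card, card_pts, rk_ln h]
  simp [sum_range_succ, add_comm]
end

section frame
variable (e : Basis (Fin n) F V) {g : V ≃ₗ[F] V}

theorem mono_coef (h : ∀ i, ∃ (j : Fin n) (c : F), g (e i) = c • e j) {a b : Fin n} {c : F} (hab : g (e a) = c • e b)
    (v : V) : e.repr (g v) b = c * e.repr v a := by
  conv_lhs => rw [← e.sum_repr v, map_sum, map_sum, Finsupp.finsetSum_apply]
  rw [sum_eq_single a (fun i _ hi => ?_) (by simp)]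
  · simp [hab, mul_comm]
  obtain ⟨j, d, hj⟩ := h i
  by_cases hb : j = b
  · subst hb
    have : c • e i = d • e a := g.injective (by rw [map_smul, map_smul, hj, hab, smul_comm])
    have := congrArg (e.repr · a) this
    simp only [map_smul, Basis.repr_self, Finsupp.smul_apply, Finsupp.single_apply, hi, if_false, if_true] at this
    simp [hj, show d = 0 by simpa using this.symm]
  · simp [hj, hb]

theorem fix_le (h : ∀ i, ∃ (j : Fin n) (c : F), g (e i) = c • e j) {a : Fin n}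
    (ha : ∀ b, ∃ (k : ℕ) (c : F), (g ^ k) (e a) = c • e b) : (fixedBy (ℙ F V) g).ncard ≤ n := by
  have hk : ∀ (k : ℕ) i, ∃ (j : Fin n) (c : F), (g ^ k) (e i) = c • e j := fun k => by
    induction k with
    | zero => exact fun i => ⟨i, 1, by simp⟩
    | succ k ih =>
      intro i
      obtain ⟨j, c, e1⟩ := h i
      obtain ⟨j', c', e2⟩ := ih j
      exact ⟨j', c * c', by rw [pow_succ, LinearEquiv.mul_apply, e1, map_smul, e2, mul_smul]⟩
  have key : ∀ (v : V) (l : F), g v = l • v → e.repr v a = 0 → v = 0 := fun v l hv h0 => by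
    have a1 : ∀ k : ℕ, (g ^ k) v = l ^ k • v := fun k => by
      induction k with
      | zero => simp
      | succ k ih => rw [pow_succ, LinearEquiv.mul_apply, hv, map_smul, ih, smul_smul, pow_succ']
    by_contra v0
    have l0 : l ≠ 0 := by rintro rfl; exact v0 (by simpa using hv)
    refine v0 (e.ext_elem fun b => ?_)
    obtain ⟨k, c, hc⟩ := ha b
    simpa [a1, h0, l0] using mono_coef e (hk k) hc v
  choose l hl using fun x : fixedBy (ℙ F V) g => fix_rep.1 x.2
  haveI : Finite (ℙ F V) := (finite_iff_of_finite F V).2 inferInstance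
  haveI := Fintype.ofFinite (fixedBy (ℙ F V) g)
  have := (Module.End.eigenvectors_linearIndependent' (g : V →ₗ[F] V) l (fun x y exy => by
    have a1 := key (e.repr y.1.rep a • x.1.rep - e.repr x.1.rep a • y.1.rep) (l y)
      (by rw [map_sub, map_smul, map_smul, hl, hl, exy]; module) (by simp [mul_comm])
    have a2 : e.repr y.1.rep a ≠ 0 := fun h0 => y.1.rep_nonzero (key _ _ (hl y) h0)
    exact Subtype.ext (eq_of_rep (c := (e.repr y.1.rep a)⁻¹ * e.repr x.1.rep a)
      (by rw [mul_smul, eq_inv_smul_iff₀ a2, ← sub_eq_zero, a1]))) (fun x => x.1.rep)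
    fun x => ⟨Module.End.mem_eigenspace_iff.2 (hl x), x.1.rep_nonzero⟩).fintype_card_le_finrank
  rwa [finrank_eq_card_basis e, Fintype.card_fin, ← Nat.card_eq_fintype_card] at this

theorem frame_iff {l : Fin n → F} (hl : l.Injective) (h : ∀ i, g (e i) = l i • e i) {x : ℙ F V} :
    g • x = x ↔ ∃ i, x = mk F (e i) (e.ne_zero i) := by
  refine ⟨fun hx => ?_, by rintro ⟨i, rfl⟩; exact (smul_mk_eq g _ _).2 ⟨_, h i⟩⟩
  obtain ⟨c, hc⟩ := fix_rep.1 hx
  have a1 : ∀ i, e.repr x.rep i ≠ 0 → l i = c := fun i hi => by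
    have := mono_coef e (fun i => ⟨i, _, h i⟩) (h i) x.rep
    simpa [hc, hi] using this.symm
  obtain ⟨i, hi⟩ : ∃ i, e.repr x.rep i ≠ 0 := by
    by_contra! hh; exact x.rep_nonzero (e.ext_elem (by simpa using hh))
  refine ⟨i, x.mk_rep ▸ (mk_eq_mk_iff' F _ _ _ _).2 ⟨e.repr x.rep i, ?_⟩⟩
  conv_rhs => rw [← e.sum_repr x.rep]
  symm
  refine Fintype.sum_eq_single i fun j hj => ?_
  rw [show e.repr x.rep j = 0 from by_contra fun h0 => hj (hl ((a1 j h0).trans (a1 i hi).symm)), zero_smul]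

end frame

theorem geom3 (x : ℤ) (m : ℕ) :
    x ^ 3 ∣ 6 * ∑ i ∈ range m, (1 + x) ^ i - (6 * m + 3 * m * (m - 1) * x + m * (m - 1) * (m - 2) * x ^ 2) := by
  induction m with
  | zero => simp
  | succ m ih =>
    obtain ⟨c, hc⟩ := ih
    exact ⟨(1 + x) * c + m * (m - 1) * (m - 2), by rw [geom_sum_succ]; push_cast; linear_combination (1 + x) * hc⟩

theorem lte3 (hn : n.Prime) (h5 : 5 ≤ n) {u : ℕ} : ∃ s, ∑ i ∈ range n, (1 + n * u) ^ i = n * (n * s + 1) ∧
    (n ∣ s → n ∣ u) := by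
  obtain ⟨c, hc⟩ := geom3 (n * u) n
  have hp := Nat.prime_iff_prime_int.1 hn
  have h6 : IsCoprime ((n : ℤ) ^ 2) 6 := by
    refine IsCoprime.pow_left (Nat.isCoprime_iff_coprime.2 ((Nat.coprime_mul_iff_right (n := 2) (m := 3)).2 ⟨?_, ?_⟩)) <;>
      exact (Nat.coprime_primes hn (by norm_num)).2 (by omega)
  obtain ⟨s, hs⟩ : (n : ℤ) ^ 2 ∣ ∑ i ∈ range n, (1 + n * u : ℤ) ^ i - n := h6.dvd_of_dvd_mul_left
    ⟨3 * (n - 1) * u + n * (n - 1) * (n - 2) * u ^ 2 + n * u ^ 3 * c, by linear_combination hc⟩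
  have h1 : (n : ℤ) ≤ ∑ i ∈ range n, (1 + n * u : ℤ) ^ i := by
    simpa using card_nsmul_le_sum (range n) (fun i => (1 + n * u : ℤ) ^ i) 1 fun i _ => one_le_pow₀ (by
      have : (0 : ℤ) ≤ n * u := by positivity
      omega)
  have n0 : (0 : ℤ) < n ^ 2 := by have := hn.pos; positivity
  lift s to ℕ using (by nlinarith)
  refine ⟨s, by zify; linear_combination hs, fun ⟨k, hk⟩ => ?_⟩
  have h2 : (n : ℤ) ∣ 3 * (n - 1) * u := ⟨6 * k - (n - 1) * (n - 2) * u ^ 2 - u ^ 3 * c,
    mul_left_cancel₀ n0.ne' (by rw [hk] at hs; push_cast at hs; linear_combination 6 * hs - hc)⟩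
  rcases hp.dvd_or_dvd h2 with h | h
  · rcases hp.dvd_or_dvd h with h | h <;> have := Int.le_of_dvd (by omega) h <;> omega
  · exact_mod_cast h

end Cfsg.Agent.H3.SgC
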