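import Cfsg.Agent.H3.SgCc
import Cfsg.Agent.H3.SgCd
import Cfsg.Agent.Sg.F

/-! Overgroups of a Singer cycle of `SL_n(q)`, `n` prime, are semilinear or doubly transitive on points. -/

set_option autoImplicit false
set_option linter.unusedSectionVars false

namespace Cfsg.Agent.H3.SgC

open Module MulAction Projectivization Finset Cfsg.Agent.H8.L5f Cfsg.Agent.H9.Sin Cfsg.Agent.H1.C3a
  Cfsg.Agent.H4.CAG
open scoped LinearAlgebra.Projectivization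

variable {F E V : Type*} [Field F] [Field E] [Algebra F E] [AddCommGroup V] [Module F V] [Module E V]
  [IsScalarTower F E V] [FiniteDimensional E V] [Fintype F] [Finite E] {n : ℕ} {X₀ : Subgroup Eˣ}
  {M : Subgroup (V ≃ₗ[F] V)}

theorem exists_frame (h : Sg X₀ M) (hE : finrank F E = n) (h2 : n ≠ 2) {ζ : F} (hζ : IsPrimitiveRoot ζ n)
    {g : V ≃ₗ[F] V} (hg : Semi E g) (hl : ∀ k : Eˣ, g ≠ mu F V k) (hd : LinearEquiv.det g = 1) :
    ∃ (a : Eˣ) (φ : V ≃ₗ[F] V) (e : Basis (Fin n) F V), Algebra.norm F (a : E) = 1 ∧ g = mu F V a * φ ∧ φ ^ n = 1 ∧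
      (∀ j, φ (e j) = ζ ^ (j : ℕ) • e j) ∧ ∀ v, v ≠ 0 → ∃ k : Eˣ, Algebra.norm F (k : E) = 1 ∧ φ v = (k : E) • v := by
  have hn : n.Prime := hE ▸ h.prime
  haveI := h.nontriv
  haveI : FiniteDimensional F E := Module.finite_of_finrank_pos h.prime.pos
  obtain ⟨v0, hv0⟩ := exists_ne (0 : V)
  have sp := (finrank_eq_one_iff_of_nonzero' v0 hv0).1 h.one
  obtain ⟨α, hα⟩ := h.exists_aut hg
  have ho : orderOf α = n := ((Nat.dvd_prime hn).1 (by
    rw [← hE, ← IsGalois.card_aut_eq_finrank]; exact orderOf_dvd_natCard α)).resolve_left fun e => by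
      obtain ⟨k, hk⟩ := h.lin (g := g) fun k v => by rw [hα, orderOf_eq_one_iff.1 e]; rfl
      exact hl k hk
  obtain ⟨a, ha⟩ := sp (g v0)
  have a0 : a ≠ 0 := by rintro rfl; exact hv0 (by simpa using ha.symm)
  set φ := (mu F V (Units.mk0 a a0))⁻¹ * g with hφ
  have f1 : ∀ k : E, φ (k • v0) = α k • v0 := fun k => by
    rw [hφ, ← map_inv, LinearEquiv.mul_apply, hα, ← ha, mu_apply, smul_comm, smul_smul (_ : E) a]; simp [a0]
  have f2 : ∀ (i : ℕ) (k : E), (φ ^ i) (k • v0) = (α ^ i) k • v0 := fun i => by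
    induction i with
    | zero => simp
    | succ i ih => intro k; rw [pow_succ, pow_succ, LinearEquiv.mul_apply, f1, ih]; rfl
  have f3 : ∀ j : Fin n, ∃ v, Module.End.HasEigenvector (φ : V →ₗ[F] V) (ζ ^ (j : ℕ)) v := fun j => by
    obtain ⟨ε, h1, h0⟩ := (Module.End.hasEigenvalue_iff_isRoot (f := α.toLinearMap) (μ := ζ ^ (j : ℕ)).2 (by
      rw [minpoly_algEquiv_toLinearMap α (isOfFinOrder_of_finite α), ho]
      simp only [Polynomial.IsRoot, Polynomial.eval_sub, Polynomial.eval_pow, Polynomial.eval_X, Polynomial.eval_C]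
      rw [← pow_mul, mul_comm, pow_mul, hζ.pow_eq_one, one_pow, sub_self])).exists_hasEigenvector
    exact ⟨ε • v0, Module.End.mem_eigenspace_iff.2 (by
      rw [← smul_assoc, ← Module.End.mem_eigenspace_iff.1 h1]; exact f1 ε), smul_ne_zero h0 hv0⟩
  choose v hv using f3
  haveI : Nonempty (Fin n) := ⟨⟨0, hn.pos⟩⟩
  let e := basisOfLinearIndependentOfCardEqFinrank (Module.End.eigenvectors_linearIndependent' _ _
    (fun i j e => Fin.ext (hζ.pow_inj i.2 j.2 e)) v hv) (by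
      rw [← Module.finrank_mul_finrank F E V, hE, h.one]; simp)
  have f4 : ∀ j, φ (e j) = ζ ^ (j : ℕ) • e j := fun j => by simpa [e] using (hv j).apply_eq_smul
  refine ⟨Units.mk0 a a0, φ, e, ?_, by rw [hφ, mul_inv_cancel_left], ?_, f4, fun v hv => ?_⟩
  · have d1 : (LinearEquiv.det φ : F) = 1 := by
      classical
      rw [LinearEquiv.coe_det, ← LinearMap.det_toMatrix e, show LinearMap.toMatrix e e φ =
        Matrix.diagonal fun j : Fin n => ζ ^ (j : ℕ) from Matrix.ext fun i j => by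
          by_cases hij : i = j <;> simp [LinearMap.toMatrix_apply, f4, Finsupp.single_apply, hij, eq_comm],
        Matrix.det_diagonal, prod_pow_eq_pow_sum, Fin.sum_univ_eq_sum_range fun i => i, hζ.pow_eq_one_iff_dvd]
      exact ((Nat.coprime_primes hn Nat.prime_two).2 h2).dvd_of_dvd_mul_right ⟨_, sum_range_id_mul_two n⟩
    rwa [hφ, map_mul, hd, mul_one, map_inv, Units.val_inv_eq_inv_val, inv_eq_one, det_mu h.one] at d1
  · ext w
    obtain ⟨k, rfl⟩ := sp w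
    rw [f2, ← ho, pow_orderOf_eq_one]; rfl
  · obtain ⟨k, rfl⟩ := sp v
    have k0 : k ≠ 0 := left_ne_zero_of_smul hv
    refine ⟨Units.mk0 (α k * k⁻¹) (by simp [k0]), ?_, by rw [f1, smul_smul]; simp [k0]⟩
    rw [Units.val_mk0, map_mul, Algebra.norm_eq_of_algEquiv, ← map_mul, mul_inv_cancel₀ k0, map_one]

theorem sq_lt (h : 7 ≤ n) : n * n + 1 < 2 ^ (n - 1) := by
  induction n, h using Nat.le_induction with
  | base => norm_num
  | succ n h ih =>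
    obtain ⟨m, rfl⟩ : ∃ m, n = m + 1 := ⟨n - 1, by omega⟩
    simp only [Nat.add_sub_cancel, pow_succ] at ih ⊢
    nlinarith

theorem two_trans (hn : n.Prime) (h7 : 7 ≤ n) (hE : finrank F E = n) (hV : finrank E V = 1)
    (hν : ¬ n ^ 2 ∣ Fintype.card F - 1)
    (hP : ∀ M : Subgroup (V ≃ₗ[F] V), (∀ k : Eˣ, Algebra.norm F (k : E) = 1 → mu F V k ∈ M) →
      (∃ g ∈ M, ¬ Semi E g) → ∀ v w : V, v ≠ 0 → w ≠ 0 → ∃ g ∈ M, g v = w)
    (hdet : ∀ g ∈ M, LinearEquiv.det g = 1) (hM : ∀ k : Eˣ, Algebra.norm F (k : E) = 1 → mu F V k ∈ M)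
    (hS : ∃ g ∈ M, ¬ Semi E g) (x y x' y' : ℙ F V) (hxy : x ≠ y) (hxy' : x' ≠ y') :
    ∃ g ∈ M, g • x = x' ∧ g • y = y' := by
  classical
  haveI : FiniteDimensional F E := Module.finite_of_finrank_pos (hE ▸ hn.pos)
  haveI : Finite V := Module.finite_of_finite E
  haveI : Finite (ℙ F V) := (finite_iff_of_finite F V).2 inferInstance
  haveI := Fintype.ofFinite (ℙ F V)
  haveI : Finite (V ≃ₗ[F] V) := DFunLike.finite _
  have hVn : finrank F V = n := by rw [← Module.finrank_mul_finrank F E V, hE, hV, mul_one]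
  obtain ⟨q, hq⟩ : ∃ q, Fintype.card F = q := ⟨_, rfl⟩
  have q2 : 2 ≤ q := hq ▸ Fintype.one_lt_card
  obtain ⟨θ, hθ⟩ : ∃ θ, ∑ i ∈ range n, q ^ i = θ := ⟨_, rfl⟩
  obtain ⟨θ', hθ'⟩ : ∃ θ, ∑ i ∈ range (n - 1), q ^ i = θ := ⟨_, rfl⟩
  have cΩ : Nat.card (ℙ F V) = θ := by rw [card_of_finrank F V hVn, Nat.card_eq_fintype_card, hq, hθ]
  have nm : ∀ k : E, Algebra.norm F k = 1 ↔ k ^ θ = 1 := fun k => by
    rw [← hθ, ← hq, ← hE, ← Nat.card_eq_fintype_card, ← FiniteField.algebraMap_norm_eq_pow_sum,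
      map_eq_one_iff _ (algebraMap F E).injective]
  have pw : ∀ c : F, c ^ θ = c ^ n := fun c => by
    simp [← hθ, ← hq, ← prod_pow_eq_pow_sum, FiniteField.pow_card_pow]
  have t1 : θ = θ' + q ^ (n - 1) := by rw [← hθ, ← hθ', ← sum_range_succ, Nat.sub_add_cancel hn.pos]
  have t2 : θ = q * θ' + 1 := by rw [← hθ, ← hθ', ← geom_sum_succ, Nat.sub_add_cancel hn.pos]
  have t3 : q ^ 5 ≤ θ' := hθ' ▸ single_le_sum (f := fun i => q ^ i) (fun _ _ => Nat.zero_le _) (mem_range.2 (by omega))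
  have core : ∀ d t, θ = d * t → (∀ c : F, c ^ t = 1 → c = 1) →
      (∀ k : Eˣ, k ^ θ = 1 → ∃ x : Eˣ, x ^ t = 1 ∧ ∃ c : F, (k : E) = c • (x : E)) → θ' + 1 + d ≤ t →
      n * (d + 1) + 1 < t → n * n + 1 < t → ∃ (X₀ : Subgroup Eˣ) (K : Subgroup (V ≃ₗ[F] V)) (_ : Fintype (PG K)),
        K ≤ M ∧ Sg X₀ K ∧ Sg X₀ M ∧ Nat.card (XX X₀ K) = t ∧ (∃ g ∈ K, ¬ Semi E g) ∧ Hy (ℙ F V) (XX X₀ K) d :=
    fun d t e c1 c2 s1 s2 s3 => by
      have cX : Nat.card (powMonoidHom t : Eˣ →* Eˣ).ker = t := by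
        rw [IsCyclic.card_powMonoidHom_ker, Nat.gcd_eq_right]
        rw [Nat.card_units, Module.natCard_eq_pow_finrank (K := F) (V := E), hE, Nat.card_eq_fintype_card, hq,
          ← Nat.div_mul_cancel (Nat.sub_one_dvd_pow_sub_one q n), ← Nat.geomSum_eq q2, hθ, e]
        exact (dvd_mul_left t d).mul_right _
      have h : Sg (powMonoidHom t : Eˣ →* Eˣ).ker M := ⟨hE ▸ hn, hV, fun e => by rw [e, Subgroup.card_bot] at cX; omega,
        cX.symm ▸ c1, fun k hk => hM k ((nm k).2 (by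
          rw [e, mul_comm, pow_mul, ← Units.val_pow_eq_pow_val, show k ^ t = 1 from hk]; simp)),
        fun k hk => c2 k (Units.ext ((nm k).1 (by rw [← det_mu (F := F) hV, hdet _ hk]; rfl)))⟩
      obtain ⟨K, k1, k2, ⟨g, hg, hg'⟩, k4⟩ := h.exists_min hS
      have k5 := k2.card_XX.trans cX
      have k6 : Nat.card (ℙ F V) = d * Nat.card (XX (powMonoidHom t : Eˣ →* Eˣ).ker K) := by rw [k5, cΩ, e]
      have k7 := Nat.le_of_dvd (hE ▸ hn.pos) k2.wt_dvd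
      haveI := Fintype.ofFinite (PG K)
      have k8 := frob k2.ca ⟨_, fun e => hg' (k2.mem_Nm (g := ⟨g, hg⟩).1 e)⟩ (fun _ => k2.free) k6
        (Nat.pos_of_ne_zero (by rintro rfl; omega)) fun g g1 => by
          obtain ⟨g, rfl⟩ := pr_surj K g
          have := fix_bound hVn (g := g.1) fun e => g1 (Subtype.ext e)
          rw [hq, hθ'] at this
          rw [k5]
          exact (Nat.add_le_add_right this d).trans s1
      rw [hE] at k7
      exact ⟨_, K, inferInstance, k1, k2, h, k5, ⟨g, hg, hg'⟩, k2.ca, k4, fun _ => k2.free, k6,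
        by have := wt_pos (XX (powMonoidHom t : Eˣ →* Eˣ).ker K); omega,
        k5.symm ▸ (Nat.add_le_add_right (Nat.mul_le_mul_right _ k7) 1).trans_lt s2,
        k5.symm ▸ (Nat.add_le_add_right (Nat.mul_le_mul k7 k7) 1).trans_lt s3⟩
  by_cases hd : n ∣ q - 1
  swap
  · have s1 := (sq_lt h7).trans_le (Nat.pow_le_pow_left q2 (n - 1))
    obtain ⟨X₀, K, _, k1, -, -, -, -, H⟩ := core 1 θ (one_mul _).symm (fun c hc =>
      (pow_eq_one_iff_of_coprime (hn.coprime_iff_not_dvd.2 hd)).1 ⟨pw c ▸ hc, hq ▸ FiniteField.pow_card_sub_one_eq_one c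
        (by rintro rfl; rw [pw, zero_pow hn.ne_zero] at hc; exact zero_ne_one hc)⟩)
      (fun k hk => ⟨k, hk, 1, (one_smul _ _).symm⟩) (by nlinarith) (by nlinarith) (by omega)
    obtain ⟨⟨_, g, hg, rfl⟩, e⟩ := H.two_one x y x' y' hxy hxy'
    exact ⟨g, k1 hg, e⟩
  obtain ⟨u, hu⟩ := id hd
  obtain ⟨s, hs, hsu⟩ := lte3 hn (by omega) (u := u)
  rw [show 1 + n * u = q by omega, hθ] at hs
  have qn : n + 1 ≤ q := by have := Nat.le_of_dvd (by omega) hd; omega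
  haveI := Fact.mk hn
  haveI : NeZero n := ⟨hn.ne_zero⟩
  obtain ⟨ζ, hζ⟩ : ∃ ζ : F, IsPrimitiveRoot ζ n := by
    obtain ⟨z, hz⟩ := exists_prime_orderOf_dvd_card' (G := Fˣ) n (by rwa [Nat.card_units, Nat.card_eq_fintype_card, hq])
    exact ⟨z, IsPrimitiveRoot.coe_units_iff.2 (hz ▸ IsPrimitiveRoot.orderOf z)⟩
  have s0 : q * (q + 1) * q ^ 2 + 2 ≤ θ' := le_trans (by
    have : 2 * q ^ 4 ≤ q ^ 5 := by rw [pow_succ' q 4]; exact Nat.mul_le_mul_right _ q2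
    have : 2 * q ^ 3 ≤ q ^ 4 := by rw [pow_succ' q 3]; exact Nat.mul_le_mul_right _ q2
    have : 2 ^ 3 ≤ q ^ 3 := Nat.pow_le_pow_left q2 3
    nlinarith) t3
  have s1 : n * (n + 1) + 2 ≤ θ' := le_trans (by
    have := Nat.mul_le_mul (show n ≤ q by omega) (show n + 1 ≤ q + 1 by omega)
    have := Nat.le_mul_of_pos_right (q * (q + 1)) (show 0 < q ^ 2 by positivity)
    omega) s0
  have s2 : θ' + 1 + n ≤ n * s + 1 := Nat.le_of_mul_le_mul_left (by nlinarith) hn.pos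
  obtain ⟨X₀, K, _, k1, k2, h, k5, ⟨g0, hg0, hg0'⟩, H⟩ := core n (n * s + 1) hs (fun c hc => by
      have := pw c
      rw [hs, mul_comm, pow_mul, hc, one_pow] at this
      rwa [pow_succ, pow_mul, ← this, one_pow, one_mul] at hc)
    (fun k hk => by
      obtain ⟨i, -, hi⟩ := (hζ.map_of_injective (algebraMap F E).injective).eq_pow_of_pow_eq_one
        (ξ := (k : E) ^ (n * s + 1)) (by rw [← pow_mul, mul_comm, ← hs, ← Units.val_pow_eq_pow_val, hk]; rfl)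
      refine ⟨(k ^ (n * s))⁻¹, by rw [inv_pow, ← pow_mul, mul_right_comm, ← hs, pow_mul, hk]; simp, ζ ^ i, ?_⟩
      rw [Algebra.smul_def, map_pow, hi, pow_succ']; simp) s2 (by omega) (by nlinarith)
  let M' := (PG K).comap (pp F V) ⊓ M
  have mX : ∀ k : Eˣ, Algebra.norm F (k : E) = 1 → ∃ z ∈ XX X₀ K, (z : Equiv.Perm (ℙ F V)) = pp F V (mu F V k) :=
    fun k hk => by
      obtain ⟨z, hz, c, hc⟩ := h.cen k (hM k hk)
      exact ⟨_, k2.mem_XX (g := ⟨_, k2.le z hz⟩).2 ⟨z, rfl⟩,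
        (pp_eq.2 ⟨c, fun v => by rw [mu_apply, mu_apply, hc, smul_assoc]⟩).symm⟩
  have mT : ∀ k : Eˣ, Algebra.norm F (k : E) = 1 → mu F V k ∈ M' := fun k hk => by
    obtain ⟨z, -, e⟩ := mX k hk
    exact ⟨show pp F V _ ∈ PG K from e ▸ z.2, hM k hk⟩
  have mK : K ≤ M' := fun g hg => ⟨⟨g, hg, rfl⟩, k1 hg⟩
  have tr := hP M' mT ⟨g0, mK hg0, hg0'⟩
  haveI : IsPretransitive (PG K) (ℙ F V) := ⟨fun a b => by
    obtain ⟨g, hg, e⟩ := tr _ _ a.rep_nonzero b.rep_nonzero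
    refine ⟨⟨_, hg.1⟩, ?_⟩
    rw [← a.mk_rep, ← b.mk_rep]
    exact (smul_mk_eq g _ _).2 ⟨1, by rw [e, one_smul]⟩⟩
  obtain ⟨z, z1, z2⟩ : ∃ z ∈ Nm (XX X₀ K), z ∉ XX X₀ K := by
    by_contra! hh
    exact H.w1.ne' (Subgroup.relIndex_eq_one.2 hh)
  obtain ⟨g, rfl⟩ := pr_surj K z
  obtain ⟨a, φ, e, a1, a2, a3, a4, a5⟩ := exists_frame k2 hE (by omega) hζ (k2.mem_Nm.1 z1)
    (fun k e => z2 (k2.mem_XX.2 ⟨k, e⟩)) (hdet _ (k1 g.2))
  have mφ : φ ∈ M' := by simpa [a2] using M'.mul_mem (M'.inv_mem (mT a a1)) (mK g.2)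
  obtain ⟨za, za1, za2⟩ := mX a a1
  have eφ : pr K g = za * ⟨pp F V φ, mφ.1⟩ := Subtype.ext (by
    rw [Subgroup.coe_mul, za2, ← map_mul, ← a2]; rfl)
  have li : Function.Injective fun j : Fin n => ζ ^ (j : ℕ) := fun i j e => Fin.ext (hζ.pow_inj i.2 j.2 e)
  have fr : ∀ {w : ℙ F V}, φ • w = w ↔ ∃ i, w = mk F (e i) (e.ne_zero i) := frame_iff e li a4
  have mono : ∀ g : V ≃ₗ[F] V, (∀ u : ℙ F V, φ • u = u → φ • g • u = g • u) ↔
      ∀ i, ∃ (j : Fin n) (c : F), g (e i) = c • e j := fun g =>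
    ⟨fun hh i => (fr.1 (hh _ (fr.2 ⟨i, rfl⟩))).imp fun j hj => (smul_mk_eq g _ _).1 hj, fun hh u hu => by
      obtain ⟨i, rfl⟩ := fr.1 hu
      obtain ⟨j, hj⟩ := hh i
      exact fr.2 ⟨j, (smul_mk_eq g _ _).2 hj⟩⟩
  obtain ⟨⟨_, g, hg, rfl⟩, e⟩ := H.two_n hn (φ := ⟨pp F V φ, mφ.1⟩) (q := q)
    ((Subgroup.mul_mem_cancel_left _ (Subgroup.le_normalizer za1)).1 (eφ ▸ z1))
    (fun hh => z2 (eφ ▸ mul_mem za1 hh)) (Subtype.ext (by rw [Subgroup.coe_pow, ← map_pow, a3, map_one]; rfl))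
    (fun w => by
      obtain ⟨k, k1, k2⟩ := a5 _ w.rep_nonzero
      obtain ⟨z, z1, z2⟩ := mX k k1
      refine ⟨z, z1, ?_⟩
      show φ • w = (z : Equiv.Perm (ℙ F V)) w
      rw [z2, ← w.mk_rep]
      exact (mk_eq_mk_iff' F _ _ _ _).2 ⟨1, (one_smul _ _).trans k2.symm⟩)
    (by rw [k5]; simp) (by
      rw [k5, Nat.add_sub_cancel, sq, Nat.mul_dvd_mul_iff_left hn.pos]
      exact fun hh => hν (by rw [hq, hu, sq]; exact Nat.mul_dvd_mul_left n (hsu hh)))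
    (fun ⟨_, g, hg, rfl⟩ hh => Subtype.ext (by
      show pp F V g * pp F V φ = pp F V φ * pp F V g
      rw [← map_mul, ← map_mul, Sg.Dg_comm (b := e) (fun i => (smul_mk_eq g _ _).1 (hh _ (fr.2 ⟨i, rfl⟩)))
        fun i => ⟨_, a4 i⟩]))
    (by
      obtain ⟨Q, R, hF⟩ := Sg.exists_Fr hn (Fintype.card_fin n) (by rw [cΩ, hs]; exact dvd_mul_right _ _) tr mφ a4 li
        (k := 1) (by rwa [pow_one]) 0
      obtain ⟨σ, σ1, σ2⟩ := hF.ne
      obtain ⟨τ, τ1, ⟨k, τ2⟩, τ3⟩ := hF.mono σ σ1 σ2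
      refine ⟨_, fr.2 ⟨0, rfl⟩, fun w hw => ?_⟩
      obtain ⟨j, rfl⟩ := fr.1 hw
      obtain ⟨m, rfl⟩ := Sg.cyc hn (S := Set.univ) (by simp) (Set.mapsTo_univ _ _) (Set.mem_univ 0) (τ2 0) (τ3 0)
        (Set.mem_univ j)
      exact ⟨⟨_, (pow_mem (hF.le σ1) m).1⟩, (mono _).2 fun i => ⟨_, τ1.pow m i⟩, (smul_mk_eq _ _ _).2 (τ1.pow m 0)⟩)
    (fun ⟨_, g, hg, rfl⟩ w h1 h2 h3 => by
      obtain ⟨i, rfl⟩ := fr.1 h2
      refine fix_le e ((mono g).1 h1) (a := i) fun b => (h3 _ (fr.2 ⟨b, rfl⟩)).imp fun j hj =>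
        (smul_mk_eq _ (e.ne_zero i) (e.ne_zero b)).1 ?_
      rw [← hj, Subgroup.smul_def, Subgroup.coe_pow, ← map_pow]; rfl)
    ln (fun _ _ => ln1) (fun ⟨_, g, hg, rfl⟩ _ _ _ => ln2 g) (fun _ _ _ _ => ln3) (fun _ _ h => hq ▸ ln4 h)
    (by omega) (by
      have := Nat.mul_le_mul_left (q * (q + 1)) (Nat.pow_le_pow_left (show n - 1 ≤ q by omega) 2)
      omega) x y x' y' hxy hxy'
  exact ⟨g, k1 hg, e⟩

end Cfsg.Agent.H3.SgC
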