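import Cfsg.Agent.H3.Sz9

/-! Simple irreducible subgroups of `Sp₄(2^n)`: the Suzuki groups. -/

set_option autoImplicit false
set_option linter.unusedSectionVars false

namespace Cfsg.Agent.H3.Sz4

open Matrix hiding J
open Cfsg.Lie Cfsg.Agent.H3.Sz1 Cfsg.Agent.H3.Sz3

variable {F : Type*} [Field F] [CharP F 2] [Finite F] {P : Subgroup (G F)}

theorem FixQ.cj {k : G F} (h : FixQ (cj k P)) : FixQ P := by
  obtain ⟨Q, hQ, h⟩ := h
  refine ⟨fun v => Q (m k *ᵥ v), ⟨fun u v => ?_, fun a v => ?_⟩, fun g hg v => ?_⟩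
  · rw [Matrix.mulVec_add, hQ.add, B_m]
  · rw [Matrix.mulVec_smul, hQ.smul]
  · have := h _ (cj_mem hg) (m k *ᵥ v)
    rwa [mv_mul, mv_inv, mv_mul] at this

theorem cj_γ (k : G F) : (cj k P).map γ = cj (γ k) (P.map γ) := by
  ext x
  obtain ⟨x, rfl⟩ := γ_surj x
  rw [mem_γ, mem_cj, mem_cj, ← mem_γ]; simp

theorem Simp.dual (h : Simp P) : Simp (P.map γ) := by
  intro N hN hn
  rcases h (N.comap γ) (fun x hx => mem_γ.1 (hN hx))
    (fun g hg x hx => by simpa using hn _ (mem_γ.2 hg) _ hx) with e | e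
  · left; rw [← Subgroup.map_comap_eq_self_of_surjective γ_surj N, e, Subgroup.map_bot]
  · right; rw [← Subgroup.map_comap_eq_self_of_surjective γ_surj N, e]

theorem SubF.dual (h : SubF (P.map γ)) : SubF P := by
  obtain ⟨K, hK, k, h⟩ := h
  obtain ⟨k, rfl⟩ := γ_surj k
  refine ⟨K, hK, k, fun g hg i j => mem_of_sq K ?_⟩
  have h1 := h _ (mem_γ.2 hg)
  rw [← map_inv, ← map_mul, ← map_mul] at h1
  rw [← γγ, γ_app]
  exact sub_mem (mul_mem (h1 ..) (h1 ..)) (mul_mem (h1 ..) (h1 ..))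

theorem b1_of (h : ∀ v ≠ 0, tv v ∉ P) (k : G F) (s : F) (hs : s ≠ 0) : k * u 0 0 0 s * k⁻¹ ∉ P := by
  obtain ⟨r, rfl⟩ := exists_sq s
  rw [← tv_e0, tv_conj]
  refine h _ fun e => hs ?_
  have := mv_inv k (Pi.single 0 r)
  rw [e, Matrix.mulVec_zero] at this
  have := congrFun this 0
  simp at this
  simp [← this]

theorem main (h4 : 4 ≤ Nat.card F) (hs : Simp P) (hP : ⁅P, P⁆ = P) (hp : NPt P) (hl : NLn P)
    (hc : ∀ A : Matrix (Fin 4) (Fin 4) F, (∀ g ∈ P, A * m g = m g * A) → ∃ c : F, A = c • 1)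
    (hQ : ¬ FixQ P) (hK : ¬ SubF P) (ht : P ≠ ⊤) : IsSzP P := by
  have hQ' := not_fixQ_γ hP hc
  have b1 := b1_of fun v hv => no_tv h4 hs hp hQ hK ht hv
  have a2 : ∀ (k : G F) (b : F), b ≠ 0 → k * u 0 0 b 0 * k⁻¹ ∉ P := by
    intro k b hb hm
    refine b1_of (fun v hv => no_tv h4 hs.dual hl.dual hQ' (fun h => hK h.dual) (fun e => ht ?_) hv)
      (γ k) (b ^ 2) (pow_ne_zero 2 hb) (by simpa [γ_u] using mem_γ.2 hm)
    rw [eq_top_iff]
    intro x _
    exact mem_γ.1 (e ▸ Subgroup.mem_top _)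
  obtain ⟨T⟩ : Nonempty (Sylow 2 P) := inferInstance
  have hT : Odd (((T : Subgroup P).map P.subtype).relIndex P) := by
    rw [Subgroup.relIndex, Subgroup.subgroupOf, Subgroup.comap_map_eq_self_of_injective P.subtype_injective,
      ← Nat.not_even_iff_odd, even_iff_two_dvd]
    exact T.not_dvd_index
  by_cases hT0 : (T : Subgroup P) = ⊥
  · refine absurd (fixQ_of hT isQ0 fun g hg _ v => ?_) hQ
    rw [hT0, Subgroup.map_bot, Subgroup.mem_bot] at hg
    simp [hg, m_one]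
  have : Nontrivial T := (Subgroup.nontrivial_iff_ne_bot _).2 hT0
  have := T.isPGroup'.center_nontrivial
  obtain ⟨z, hz1, hz2⟩ : ∃ z : Subgroup.center T, z ≠ 1 ∧ z * z = 1 := by
    obtain ⟨z, hz⟩ := exists_prime_orderOf_dvd_card' (G := Subgroup.center T) 2
      ((T.isPGroup'.to_subgroup _).nontrivial_iff_card.1 this |>.elim fun n hn =>
        hn.2 ▸ dvd_pow_self 2 hn.1.ne')
    exact ⟨z, by rintro rfl; simp at hz, by have := pow_orderOf_eq_one z; rwa [hz, sq] at this⟩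
  have z1 : z.1.1.1 ≠ 1 := fun e => hz1 (Subtype.ext (Subtype.ext (Subtype.ext e)))
  have z2 : z.1.1.1 * z.1.1.1 = 1 := congrArg (fun x : Subgroup.center T => x.1.1.1) hz2
  have zc : ∀ x ∈ (T : Subgroup P).map P.subtype, x * z.1.1.1 = z.1.1.1 * x := by
    rintro _ ⟨x, hx, rfl⟩
    exact congrArg (fun x : T => x.1.1) (Subgroup.mem_center_iff.1 z.2 ⟨x, hx⟩)
  have zP : z.1.1.1 ∈ P := z.1.1.2
  generalize z.1.1.1 = y at z1 z2 zc zP
  obtain ⟨k₁, -, hk₁⟩ := conj_into (T := U F) (L := ⊤) (by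
    rw [Subgroup.relIndex_top_right, ← Nat.not_even_iff_odd, even_iff_two_dvd]
    exact (sylU F).not_dvd_index) (Subgroup.mem_top y) (k := 1) (by simpa [sq])
  obtain ⟨k₂, b, s, e⟩ := inv_conj hk₁ (by
    calc _ = k₁⁻¹ * (y * y) * k₁ := by group
      _ = 1 := by rw [z2]; group)
  obtain ⟨k, e⟩ : ∃ k : G F, k * y * k⁻¹ = u 0 0 b s := ⟨k₂ * k₁⁻¹, by rw [← e]; group⟩
  have e' : y = k⁻¹ * u 0 0 b s * k⁻¹⁻¹ := by rw [← e]; group
  have hne : ¬ (b = 0 ∧ s = 0) := by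
    rintro ⟨rfl, rfl⟩; exact z1 (by rw [e', u_zero]; group)
  have b0 : b ≠ 0 := by rintro rfl; exact b1 _ s (by simpa using hne) (e' ▸ zP)
  have s0 : s ≠ 0 := by rintro rfl; exact a2 _ b b0 (e' ▸ zP)
  have hsyl : Odd ((cj k P ⊓ U F).relIndex (cj k P)) := by
    have h1 : cj k ((T : Subgroup P).map P.subtype) ≤ cj k P ⊓ U F := by
      rintro _ ⟨x, hx, rfl⟩
      refine ⟨cj_mem (Subgroup.map_subtype_le _ hx), cent b0 s0 ?_⟩
      rw [← e]
      exact (conj_mul.trans (by rw [zc x hx])).trans conj_mul.symm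
    refine Odd.of_dvd_nat ?_ (Subgroup.relIndex_dvd_of_le_left _ h1)
    rwa [cj, cj, Subgroup.relIndex_map_map_of_injective _ _ (MulAut.conj k).injective]
  have h : Hyp (cj k P) :=
    ⟨perf_map hP _, fun k' s hs hm => b1 (k⁻¹ * k') s hs (by simpa [mul_assoc] using mem_cj.1 hm),
      fun k' s hs hm => a2 (k⁻¹ * k') s hs (by simpa [mul_assoc] using mem_cj.1 hm),
      hp.cj k, hl.cj k, hsyl⟩
  have hz : u 0 0 b s ∈ cj k P := e ▸ cj_mem zP
  refine IsSzP.of_cj (k := k) ?_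
  replace hQ : ¬ FixQ (cj k P) := fun h => hQ h.cj
  replace hQ' : ¬ FixQ ((cj k P).map γ) := fun h => hQ' (FixQ.cj (cj_γ k ▸ h))
  replace hK : ¬ SubF (cj k P) := fun h => hK h.cj
  generalize cj k P = P at h hz hQ hQ' hK
  by_cases nb : ∀ c b s, u 0 c b s ∈ P → c = 0
  · by_cases na : ∀ a b s, u a 0 b s ∈ P → a = 0
    · exact h.central nb na hz b0 hQ hK
    · push Not at na
      obtain ⟨a, b', s', h1, h2⟩ := na
      exact absurd (h.caseI nb hz b0 h1 h2) hQ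
  · push Not at nb
    obtain ⟨c, b', s', h1, h2⟩ := nb
    by_cases na : ∀ a b s, u a 0 b s ∈ P → a = 0
    · refine absurd (h.dual.caseI (b₁ := s) (s₁ := b ^ 2) (fun c b s hm => ?_)
        (by simpa [γ_u] using mem_γ.2 hz) s0 (a₂ := c) (b₂ := s') (s₂ := b' ^ 2 + c * s')
        (by simpa [γ_u] using mem_γ.2 h1) h2) hQ'
      obtain ⟨x, hx, e⟩ := hm
      obtain ⟨a₁, c₁, b₁, s₁, rfl⟩ := γ_U_iff.1 (e ▸ u_mem 0 c b s)
      rw [γ_u, u_inj] at e
      obtain ⟨rfl, rfl, -⟩ := e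
      simp [na _ _ _ hx]
    · push Not at na
      obtain ⟨a, b'', s'', h3, h5⟩ := na
      exact absurd (III.subF h4 ⟨h, h3, h5, h1, h2⟩) hK

theorem npt_of_irr (h : ∀ W : Submodule F (Fin 4 → F), (∀ g ∈ P, ∀ w ∈ W, m g *ᵥ w ∈ W) → W = ⊥ ∨ W = ⊤) :
    NPt P ∧ NLn P := by
  have key : ∀ (k : G F) (W : Submodule F (Fin 4 → F)), Pi.single 0 1 ∈ W → Pi.single 3 1 ∉ W →
      (∀ g ∈ P, ∀ w ∈ W, m (k⁻¹ * g * k) *ᵥ w ∈ W) → False := by
    intro k W h0 h3 hW
    rcases h (W.comap (Matrix.toLin' (m k⁻¹))) (fun g hg w hw => by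
      have := hW g hg _ hw
      rwa [Matrix.toLin'_apply, mv_mul, mv_inv', mv_mul] at this) with e | e
    · have : m k *ᵥ Pi.single 0 1 ∈ W.comap (Matrix.toLin' (m k⁻¹)) := by
        rwa [Submodule.mem_comap, Matrix.toLin'_apply, mv_inv]
      rw [e, Submodule.mem_bot] at this
      have h1 := mv_inv k (Pi.single 0 1)
      rw [this, Matrix.mulVec_zero] at h1
      simpa using congrFun h1 0
    · have : m k *ᵥ Pi.single 3 1 ∈ W.comap (Matrix.toLin' (m k⁻¹)) := e ▸ Submodule.mem_top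
      rw [Submodule.mem_comap, Matrix.toLin'_apply, mv_inv] at this
      exact h3 this
  constructor
  · intro k hk
    refine key k
      { carrier := {v | v 1 = 0 ∧ v 2 = 0 ∧ v 3 = 0}
        add_mem' := fun ha hb => by simp [ha.1, ha.2.1, ha.2.2, hb.1, hb.2.1, hb.2.2]
        zero_mem' := by simp
        smul_mem' := fun c v ha => by simp [ha.1, ha.2.1, ha.2.2] } (by simp) (by simp) ?_
    rintro g hg w ⟨h1, h2, h3⟩
    obtain ⟨k1, k2, k3⟩ := hk g hg
    exact ⟨by simp [mv, *], by simp [mv, *], by simp [mv, *]⟩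
  · intro k hk
    refine key k
      { carrier := {v | v 2 = 0 ∧ v 3 = 0}
        add_mem' := fun ha hb => by simp [ha.1, ha.2, hb.1, hb.2]
        zero_mem' := by simp
        smul_mem' := fun c v ha => by simp [ha.1, ha.2] } (by simp) (by simp) ?_
    rintro g hg w ⟨h2, h3⟩
    obtain ⟨k1, k2, k3, k4⟩ := hk g hg
    exact ⟨by simp [mv, *], by simp [mv, *]⟩

theorem tits {F : Type*} [Field F] [Fintype F] [CharP F 2] (h4 : 4 ≤ Fintype.card F) {θ : F →+* F}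
    (h : ∀ x, θ (θ x) = x ^ 2) :
    ∃ m : ℕ, 1 ≤ m ∧ Fintype.card F = 2 ^ (2 * m + 1) ∧ ∀ x, θ x = x ^ 2 ^ (m + 1) := by
  let _ : Algebra (ZMod 2) F := ZMod.algebra F 2
  let θ₁ : F →ₐ[ZMod 2] F :=
    { θ with commutes' := fun r => DFunLike.congr_fun (RingHom.ext_zmod (θ.comp (algebraMap _ _)) (algebraMap _ _)) r }
  let θ' : F ≃ₐ[ZMod 2] F := AlgEquiv.ofBijective θ₁ (Finite.injective_iff_bijective.1 θ.injective)
  obtain ⟨j, hj⟩ := (FiniteField.bijective_frobeniusAlgEquivOfAlgebraic_pow (ZMod 2) F).2 θ'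
  have ho := FiniteField.orderOf_frobeniusAlgEquivOfAlgebraic (ZMod 2) F
  have hc : Fintype.card F = 2 ^ Module.finrank (ZMod 2) F := by
    rw [Module.card_eq_pow_finrank (K := ZMod 2), ZMod.card]
  have hφ : ∀ (k : ℕ) (x : F), (FiniteField.frobeniusAlgEquivOfAlgebraic (ZMod 2) F ^ k) x = x ^ 2 ^ k := by
    intro k x
    rw [AlgEquiv.coe_pow, FiniteField.coe_frobeniusAlgEquivOfAlgebraic_iterate, ZMod.card]
  generalize FiniteField.frobeniusAlgEquivOfAlgebraic (ZMod 2) F = φ at hj ho hφ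
  generalize Module.finrank (ZMod 2) F = n at j hj ho hc
  have h1 : φ ^ (2 * j.1) = φ ^ 1 := by
    rw [two_mul, pow_add]
    simp only at hj
    rw [hj]
    ext x
    rw [hφ]
    exact h x
  rw [pow_eq_pow_iff_modEq, ho] at h1
  have hn : Odd n := by
    rw [← Nat.not_even_iff_odd, even_iff_two_dvd]
    intro h2
    have := h1.of_dvd h2
    simp [Nat.ModEq] at this
  obtain ⟨m, rfl⟩ := hn
  refine ⟨m, ?_, hc, fun x => ?_⟩
  · rcases m with _ | m
    · simp at hc; omega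
    · omega
  · have h2 : φ ^ j.1 = φ ^ (m + 1) := by
      rw [pow_eq_pow_iff_modEq, ho]
      refine Nat.ModEq.cancel_left_of_coprime (c := 2) (by simp) (h1.trans ?_)
      rw [show 2 * (m + 1) = 1 + (2 * m + 1) by ring]
      simp [Nat.ModEq]
    rw [← hφ, ← h2]
    simp only at hj
    rw [hj]
    rfl

end Cfsg.Agent.H3.Sz4
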