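import Cfsg.Agent.H3.Sz1

/-! Closed irreducible sets of transvection vectors in dimension four. -/

set_option autoImplicit false

namespace Cfsg.Agent.H3.Sz1

variable {F : Type*} [Field F] [CharP F 2] {V : Type*} [AddCommGroup V] [Module F V]
variable {B : V →ₗ[F] V →ₗ[F] F} {X : Set V} [Finite F]

omit [Finite F] in
theorem rec4 {τ δ e0 e1 e2 e3 : F} (t0 : τ ≠ 0) (t1 : τ ≠ 1) (d0 : δ ≠ 0)
    (r2 : e2 + δ = τ * (e1 + δ) + (e0 + δ)) (r3 : e3 + δ = τ * (e2 + δ) + (e1 + δ))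
    (h01 : e0 + e1 = δ ∨ e0 = 0 ∧ e1 = 0) (h02 : e0 + e2 = δ ∨ e0 = 0 ∧ e2 = 0)
    (h12 : e1 + e2 = δ ∨ e1 = 0 ∧ e2 = 0) (h13 : e1 + e3 = δ ∨ e1 = 0 ∧ e3 = 0)
    (h23 : e2 + e3 = δ ∨ e2 = 0 ∧ e3 = 0) : False := by
  grind

omit [Finite F] in
theorem Dat.exists_out (h : Dat B X) (hd : 2 < Module.finrank F V) {x y : V} (hx : x ∈ X) (hy : y ∈ X)
    (e : B x y ≠ 0) : ∃ z ∈ X, ∃ w ∈ X, ¬ (B x z = 0 ∧ B y z = 0) ∧ ¬ (B x w = 0 ∧ B y w = 0) ∧
      B x y * B z w + B x z * B y w + B y z * B x w ≠ 0 := by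
  by_contra hc
  have hsp := h.span_top (C := {z | z ∈ X ∧ ¬ (B x z = 0 ∧ B y z = 0)})
    ⟨y, ⟨hy, fun h' => e h'.1⟩, fun e => h.zero (e ▸ hy)⟩ (by
      intro v hv
      by_cases e1 : B x v = 0 ∧ B y v = 0
      swap
      · exact Or.inl (Submodule.subset_span ⟨hv, e1⟩)
      by_contra hn
      push Not at hn
      obtain ⟨h1, m, ⟨hm, hm'⟩, h2⟩ := hn
      apply h1
      rw [h.alt.symm] at h2
      have : v = (B m v)⁻¹ • (m + (m + B m v • v)) := by vv
      rw [this]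
      refine Submodule.smul_mem _ _ (add_mem (Submodule.subset_span ⟨hm, hm'⟩)
        (Submodule.subset_span ⟨h.cl m hm v hv, ?_⟩))
      simpa [e1.1, e1.2] using hm')
  have h1 : ∀ z ∈ {z | z ∈ X ∧ ¬ (B x z = 0 ∧ B y z = 0)}, z ∈ Submodule.span F {x, y} := by
    intro z hz
    have := h.zero_of hsp (v := B x y • z + B x z • y + B y z • x) (by
      intro m hm
      by_contra hn
      refine hc ⟨z, hz.1, m, hm.1, hz.2, hm.2, ?_⟩
      simpa using hn)
    rw [Submodule.mem_span_pair]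
    refine ⟨(B x y)⁻¹ * B y z, (B x y)⁻¹ * B x z, ?_⟩
    have e2 : z = (B x y)⁻¹ • (B x y • z + B x z • y + B y z • x) +
        (((B x y)⁻¹ * B y z) • x + ((B x y)⁻¹ * B x z) • y) := by
      generalize B x z = s; generalize B y z = t; clear * - e; vv
    rw [this, smul_zero, zero_add] at e2
    exact e2.symm
  have h2 : (⊤ : Submodule F V) ≤ Submodule.span F {x, y} := hsp ▸ Submodule.span_le.2 h1
  have h3 : Submodule.span F {x, y} = ⊤ := top_le_iff.1 h2
  classical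
  have h4 := finrank_span_finset_le_card (R := F) ({x, y} : Finset V)
  have h5 : ({x, y} : Finset V).card ≤ 2 := Finset.card_le_two
  rw [Set.finrank, Finset.coe_pair, h3, finrank_top] at h4
  omega

theorem Dat.noA (h : Dat B X) (hd : 2 < Module.finrank F V)
    (hn : ∀ x ∈ X, ∀ y ∈ X, ∀ z ∈ X, B x y ≠ 0 → ¬ (B x z = 0 ∧ B y z = 0) → N3 B x y z = 0) :
    ∀ x ∈ X, ∀ y ∈ X, B x y = 0 ∨ B x y = 1 := by
  intro x hx y hy
  by_contra hc
  push Not at hc
  obtain ⟨e, e1⟩ := hc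
  obtain ⟨z, hz, w, hw, hz', hw', hδ⟩ := h.exists_out hd hx hy e
  have nz := hn x hx y hy z hz e hz'
  have nw := hn x hx y hy w hw e hw'
  unfold N3 at nz nw
  obtain ⟨g, hg⟩ : ∃ g, B x y = g := ⟨_, rfl⟩
  have hyx : B y x = g := (h.alt.symm y x).trans hg
  obtain ⟨z', hz0⟩ : ∃ z' : V, z' = z + (B y z / g) • x + (B x z / g) • y := ⟨_, rfl⟩
  rw [hg] at e e1 nz nw hδ
  have xz : B x z' = 0 := by simp [hz0, h.alt.self, hg]; grind
  have yz : B y z' = 0 := by simp [hz0, h.alt.self, hyx]; grind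
  have zx : B z' x = 0 := (h.alt.symm _ _).trans xz
  have zy : B z' y = 0 := (h.alt.symm _ _).trans yz
  obtain ⟨s, hs⟩ : ∃ g, B x w = g := ⟨_, rfl⟩
  obtain ⟨t, ht⟩ : ∃ g, B y w = g := ⟨_, rfl⟩
  obtain ⟨δ, hδ'⟩ : ∃ g, B z' w = g := ⟨_, rfl⟩
  have d0 : δ ≠ 0 := by
    rw [← hδ', hz0]
    simp only [map_add, map_smul, LinearMap.add_apply, LinearMap.smul_apply, smul_eq_mul]
    clear * - hδ e; grind
  rw [hs, ht] at nw
  have step : ∀ a b : F, a • x + b • y + z' ∈ X →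
      (a + g * b + g ^ 2 * a) • x + (b + g * a) • y + z' ∈ X := by
    intro a b hab
    have := h.cl _ (h.cl _ hab y hy) x hx
    simp only [map_add, map_smul, h.alt.self, smul_eq_mul, LinearMap.smul_apply,
      LinearMap.add_apply, hg, hyx, zx, zy] at this
    convert this using 1
    clear * -; vv
  have pair : ∀ a b a' b' : F, a • x + b • y + z' ∈ X → a' • x + b' • y + z' ∈ X →
      a ^ 2 + b ^ 2 + a * b * g = 1 → a' ^ 2 + b' ^ 2 + a' * b' * g = 1 → a * b' + b * a' ≠ 0 →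
      (a * s + b * t + δ) + (a' * s + b' * t + δ) = δ ∨
        (a * s + b * t + δ = 0 ∧ a' * s + b' * t + δ = 0) := by
    intro a b a' b' h1 h2 q1 q2 hne
    by_contra hc
    rw [not_or] at hc
    have := hn _ h1 _ h2 w hw (by
      simp only [map_add, map_smul, h.alt.self, smul_eq_mul, LinearMap.smul_apply,
        LinearMap.add_apply, hg, hyx, zx, zy, xz, yz]
      clear * - hne e; grind) (by
      simpa only [map_add, map_smul, smul_eq_mul, LinearMap.smul_apply,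
        LinearMap.add_apply, hs, ht, hδ'] using hc.2)
    simp only [N3, map_add, map_smul, h.alt.self, smul_eq_mul, LinearMap.smul_apply,
      LinearMap.add_apply, hg, hyx, zx, zy, xz, yz, hs, ht, hδ'] at this
    apply hc.1
    have k : g ^ 2 * (g * (a * b' + b * a') * δ *
        ((a * s + b * t + δ) + (a' * s + b' * t + δ) + δ)) = 0 := by
      clear * - this q1 q2 nw; grind
    simp only [mul_eq_zero, e, hne, d0, false_or, pow_eq_zero_iff two_ne_zero] at k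
    clear * - k; grind
  obtain ⟨a, ha⟩ : ∃ a, B y z / g = a := ⟨_, rfl⟩
  obtain ⟨b, hb⟩ : ∃ a, B x z / g = a := ⟨_, rfl⟩
  have q0 : a ^ 2 + b ^ 2 + a * b * g = 1 := by rw [← ha, ← hb]; clear * - nz e; grind
  have m0 : a • x + b • y + z' ∈ X := by
    convert hz using 1
    rw [hz0, ha, hb]; clear * -; vv
  have m1 := step _ _ m0
  have m2 := step _ _ m1
  have m3 := step _ _ m2
  have g1 : g ^ 2 ≠ 1 := fun h' => e1 (sq_inj (by rw [h']; ring))
  refine rec4 (τ := g ^ 2) (pow_ne_zero 2 e) g1 d0 ?_ ?_ (pair _ _ _ _ m0 m1 q0 ?_ ?_)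
    (pair _ _ _ _ m0 m2 q0 ?_ ?_) (pair _ _ _ _ m1 m2 ?_ ?_ ?_) (pair _ _ _ _ m1 m3 ?_ ?_ ?_)
    (pair _ _ _ _ m2 m3 ?_ ?_ ?_)
  all_goals clear * - q0 e; grind

/-- the norm one vectors of a big plane -/
def InS (B : V →ₗ[F] V →ₗ[F] F) (x y c : V) (K : Subfield F) (s : V) : Prop :=
  ∃ a ∈ K, ∃ b ∈ K, ∃ l : F, ¬ (a = 0 ∧ b = 0) ∧ a ^ 2 + b ^ 2 + a * b * B x y + l ^ 2 = 1 ∧
    s = a • x + b • y + l • c

theorem BP.conic (hB : Alt B) {x y c : V} {K : Subfield F} (hb : BP B X x y c K) {g : F} (hg : g ∈ K)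
    (g0 : g ≠ 0) {s : V} (hs : InS B x y c K s) : ∃ s', ∀ m ∈ K,
      InS B x y c K (s' + (m ^ 2 / g) • (s + c) + m • c) ∧
        B s (s' + (m ^ 2 / g) • (s + c) + m • c) = g := by
  obtain ⟨a, ha, b, hb', l, hab, hl, rfl⟩ := hs
  have e := hb.ne
  have hK := hb.mem
  have xc := hb.xc
  have yc := hb.yc
  have cx : B c x = 0 := (hB.symm _ _).trans xc
  have cy : B c y = 0 := (hB.symm _ _).trans yc
  obtain ⟨γ, hγ⟩ : ∃ g, B x y = g := ⟨_, rfl⟩
  have hyx : B y x = γ := (hB.symm y x).trans hγ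
  rw [hγ] at e hK hl
  obtain ⟨a', ha', b', hb'', h1⟩ : ∃ a' ∈ K, ∃ b' ∈ K, γ * (a * b' + b * a') = g := by
    by_cases a0 : a = 0
    · have b0 : b ≠ 0 := fun b0 => hab ⟨a0, b0⟩
      exact ⟨g / (γ * b), div_mem hg (mul_mem hK hb'), 0, zero_mem _, by field_simp; ring⟩
    · exact ⟨0, zero_mem _, g / (γ * a), div_mem hg (mul_mem hK ha), by field_simp; ring⟩
  obtain ⟨l', hl'⟩ := exists_sq (1 + a' ^ 2 + b' ^ 2 + a' * b' * γ)
  refine ⟨a' • x + b' • y + l' • c, fun m hm => ⟨⟨a' + m ^ 2 / g * a,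
    add_mem ha' (mul_mem (div_mem (pow_mem hm 2) hg) ha), b' + m ^ 2 / g * b,
    add_mem hb'' (mul_mem (div_mem (pow_mem hm 2) hg) hb'), l' + m ^ 2 / g * (l + 1) + m, ?_, ?_, ?_⟩, ?_⟩⟩
  · clear * - h1 g0; grind
  · rw [hγ]
    have : m ^ 2 / g * g = m ^ 2 := by field_simp
    generalize m ^ 2 / g = t at this
    clear * - h1 hl hl' this; grind
  · clear * -; vv
  · simp only [map_add, map_smul, hB.self, smul_eq_mul, LinearMap.smul_apply,
      LinearMap.add_apply, hγ, hyx, xc, yc, cx, cy]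
    clear * - h1; grind

theorem field_lem {K : Subfield F} {g ρ a : F} (hg : g ∈ K) (g0 : g ≠ 0) (ha : a ∈ K) (a0 : a ≠ 0)
    (a1 : a ≠ 1) (Φ : Set F) (h : ∀ σ ∈ Φ, σ ∉ K → ∃ T₀, ∀ m ∈ K, T₀ + m ^ 2 / g * (σ + ρ) + m * ρ ∈ Φ ∧
      (T₀ + m ^ 2 / g * (σ + ρ) + m * ρ) ^ 2 + σ ^ 2 + g ^ 2 +
        (T₀ + m ^ 2 / g * (σ + ρ) + m * ρ) * σ * g = 0) : ∀ σ ∈ Φ, σ ∈ K := by
  have h1a : 1 + a ∈ K := add_mem (one_mem _) ha
  have hd : ∀ σ T₀ : F, (∀ m ∈ K, (T₀ + m ^ 2 / g * (σ + ρ) + m * ρ) ^ 2 + σ ^ 2 + g ^ 2 +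
        (T₀ + m ^ 2 / g * (σ + ρ) + m * ρ) * σ * g = 0) → ∀ m ∈ K,
      m ^ 2 / g * (σ + ρ) + m * ρ = 0 ∨ m ^ 2 / g * (σ + ρ) + m * ρ = g * σ := by
    intro σ T₀ hT m hm
    have e1 := hT m hm
    have e0 := hT 0 (zero_mem _)
    rw [add_assoc T₀] at e1
    generalize m ^ 2 / g * (σ + ρ) + m * ρ = d at e1
    clear * - e1 e0; grind
  have hρ : ∀ σ ∈ Φ, σ ∉ K → ∃ k ∈ K, σ = k * ρ := by
    intro σ hσ hn
    obtain ⟨T₀, hT⟩ := h σ hσ hn
    have hd' := hd σ T₀ fun m hm => (hT m hm).2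
    have : ∃ m ∈ K, m ≠ 0 ∧ m ^ 2 / g * (σ + ρ) + m * ρ = 0 := by
      rcases hd' 1 (one_mem _) with e1 | e1
      · exact ⟨1, one_mem _, one_ne_zero, e1⟩
      rcases hd' a ha with e2 | e2
      · exact ⟨a, ha, a0, e2⟩
      exact ⟨1 + a, h1a, by clear * - a1; grind, by clear * - e1 e2; grind⟩
    obtain ⟨m, hm, m0, e⟩ := this
    exact ⟨(g + m) / m, div_mem (add_mem hg hm) hm, by clear * - e m0 g0; grind⟩
  intro σ hσ
  by_contra hn
  obtain ⟨T₀, hT⟩ := h σ hσ hn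
  have hd' := hd σ T₀ fun m hm => (hT m hm).2
  obtain ⟨k, hk, e⟩ := hρ σ hσ hn
  have s0 : σ ≠ 0 := fun e => hn (e ▸ zero_mem _)
  have k0 : k ≠ 0 := by rintro rfl; exact s0 (by rw [e]; ring)
  obtain ⟨m, hm, e1⟩ : ∃ m ∈ K, m ^ 2 / g * (σ + ρ) + m * ρ = g * σ := by
    rcases hd' 1 (one_mem _) with e1 | e1
    swap
    · exact ⟨1, one_mem _, e1⟩
    rcases hd' a ha with e2 | e2
    swap
    · exact ⟨a, ha, e2⟩
    exfalso; clear * - e1 e2 a0 a1 g0 s0; grind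
  have t0 := hT 0 (zero_mem _)
  have t1 := (hT m hm).1
  rw [add_assoc T₀, e1] at t1
  simp only [ne_eq, OfNat.ofNat_ne_zero, not_false_eq_true, zero_pow, zero_div, zero_mul,
    add_zero] at t0
  have fin : ∀ τ ∈ K, T₀ ≠ τ * ρ := by
    intro τ hτ e2
    apply hn
    apply mem_of_sq
    have h3 : σ ^ 2 * ((τ / k) ^ 2 + 1 + τ / k * g) = g ^ 2 := by
      have := t0.2; clear * - this e e2 k0; grind
    have h4 : (τ / k) ^ 2 + 1 + τ / k * g ≠ 0 := by
      intro h4; rw [h4, mul_zero] at h3; exact pow_ne_zero 2 g0 h3.symm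
    rw [eq_div_of_mul_eq h4 h3]
    exact div_mem (pow_mem hg 2) (add_mem (add_mem (pow_mem (div_mem hτ hk) 2) (one_mem _))
      (mul_mem (div_mem hτ hk) hg))
  by_cases c0 : T₀ ∈ K
  · by_cases c1 : T₀ + g * σ ∈ K
    · apply hn
      have : σ = (T₀ + g * σ + T₀) / g := by clear * - g0; grind
      rw [this]; exact div_mem (add_mem c1 c0) hg
    · obtain ⟨τ, hτ, e2⟩ := hρ _ t1 c1
      exact fin (τ + g * k) (add_mem hτ (mul_mem hg hk)) (by clear * - e2 e; grind)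
  · obtain ⟨τ, hτ, e2⟩ := hρ _ t0.1 c0
    exact fin τ hτ e2

theorem Dat.maxstep (h : Dat B X) {x y c : V} {K : Subfield F} (hb : BP B X x y c K)
    (hmax : ∀ x' y' c' K', BP B X x' y' c' K' → Nat.card K' ≤ Nat.card K) :
    ∀ u ∈ X, ∀ v ∈ X, B u v ∈ K := by
  obtain ⟨g', hg'⟩ := IsCyclic.exists_monoid_generator (α := Kˣ)
  have hg : ((g' : K) : F) ∈ K := g'.1.2
  have g0 : ((g' : K) : F) ≠ 0 := by simp
  have hgen : ∀ K' : Subfield F, ((g' : K) : F) ∈ K' → K ≤ K' := by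
    intro K' h' k hk
    by_cases k0 : k = 0
    · rw [k0]; exact zero_mem _
    obtain ⟨n, hn⟩ := hg' (Units.mk0 ⟨k, hk⟩ (fun e => k0 (congrArg Subtype.val e)))
    have : k = ((g' : K) : F) ^ n := by
      have := congrArg (fun u : Kˣ => ((u : K) : F)) hn
      simpa using this.symm
    rw [this]; exact pow_mem h' n
  generalize ((g' : K) : F) = g at hg g0 hgen
  have hS : ∀ s, InS B x y c K s → s ∈ X := by
    rintro s ⟨a, ha, b, hb', l, hab, hl, rfl⟩
    exact hb.all a ha b hb' l hab hl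
  obtain ⟨a, ha, a0, a1⟩ := hb.big
  have hxS : InS B x y c K x := ⟨1, one_mem _, 0, zero_mem _, 0, by simp, by simp, by simp⟩
  have h1 : ∀ u ∈ X, B x u ∈ K := by
    intro u hu
    refine field_lem (ρ := B c u) hg g0 ha a0 a1 {σ | ∃ s, InS B x y c K s ∧ σ = B s u} ?_ _
      ⟨x, hxS, rfl⟩
    rintro _ ⟨s, hs, rfl⟩ hn
    obtain ⟨s', hs'⟩ := hb.conic h.alt hg g0 hs
    refine ⟨B s' u, fun m hm => ?_⟩
    obtain ⟨h2, h3⟩ := hs' m hm
    have e : B s' u + m ^ 2 / g * (B s u + B c u) + m * B c u =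
        B (s' + (m ^ 2 / g) • (s + c) + m • c) u := by simp [mul_add]
    rw [e]
    refine ⟨⟨_, h2, rfl⟩, ?_⟩
    by_contra hN
    obtain ⟨c', K', hb', h4, -⟩ := triple h.alt h.cl (hS _ hs) (hS _ h2) hu (by rwa [h3])
      (fun h' => hn (h'.1 ▸ zero_mem _)) (by rwa [N3, h3])
    have h5 : K ≤ K' := hgen K' (h3 ▸ hb'.mem)
    have h6 : K = K' := by
      apply SetLike.coe_injective
      exact Set.eq_of_subset_of_ncard_le h5 (hmax _ _ _ _ hb') (Set.toFinite _)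
    exact hn (h6 ▸ h4)
  refine h.nice.conn (fun u => ∀ v ∈ X, B u v ∈ K) ?_ x (hS x hxS) h1
  intro u hu u' hu' e hG v hv
  obtain ⟨d, d0, hd, hw⟩ := swap h.alt h.cl hu hu' e
  have := hG _ (h.cl v hv _ hw)
  simp only [map_add, map_smul, h.alt.self, smul_eq_mul, hd, h.alt.symm v, LinearMap.smul_apply,
    LinearMap.add_apply] at this
  convert this using 1
  clear * - d0; grind

/-- quadratic forms with polar form `B` -/
structure IsQ (B : V →ₗ[F] V →ₗ[F] F) (Q : V → F) : Prop where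
  add : ∀ u v, Q (u + v) = Q u + Q v + B u v
  smul : ∀ (a : F) v, Q (a • v) = a ^ 2 * Q v

theorem IsQ.all_mem (h : Dat B X) {Q : V → F} (hQ : IsQ B Q) {x y c u : V} (xc : B x c = 0)
    (yc : B y c = 0) (e : B x y ≠ 0) (hc : c ∈ X) (hu : u ∈ X) (qc : Q c = 1) (qu : Q u = 1)
    (uc : B u c ≠ 0) (hg : ∀ s, B s c = 0 → Q s = 1 → s ∈ X) {a : F} (a0 : a ≠ 0) (a1 : a ≠ 1) :
    ∀ v, Q v = 1 → v ∈ X := by
  let G : V → Prop := fun r => r ∈ X ∧ Q r = 1 ∧ ∀ s, B s r = 0 → Q s = 1 → s ∈ X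
  have prop : ∀ r r', G r → r' ∈ X → Q r' = 1 → B r r' ≠ 0 → G r' := by
    rintro r r' ⟨h1, h2, h3⟩ h1' h2' e'
    refine ⟨h1', h2', fun s hs qs => ?_⟩
    obtain ⟨d, d0, hd, hw⟩ := swap h.alt h.cl h1 h1' e'
    have h4 := h3 (s + B s (d⁻¹ • (r + r')) • d⁻¹ • (r + r')) (by
      simp only [map_add, map_smul, h.alt.self, smul_eq_mul, hd, LinearMap.smul_apply,
        LinearMap.add_apply, hs, h.alt.symm r' r]
      clear * - d0; grind) (by
      simp only [hQ.add, hQ.smul, map_add, map_smul, smul_eq_mul, hd, hs, qs, h2, h2']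
      clear * - d0; grind)
    have h5 := h.cl _ h4 _ hw
    simp only [map_add, map_smul, h.alt.self, smul_eq_mul, hd, LinearMap.smul_apply,
      LinearMap.add_apply, hs, h.alt.symm r' r] at h5
    convert h5 using 1
    clear * - d0; vv
  have gc : G c := ⟨hc, qc, hg⟩
  have gu : G u := prop c u gc hu qu (by rwa [h.alt.symm])
  have cu : B c u = B u c := h.alt.symm _ _
  have gs : ∀ s, B s c = 0 → Q s = 1 → G s := by
    intro s hs qs
    have hsX := hg s hs qs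
    by_cases e1 : B u s = 0
    swap
    · exact prop u s gu hsX qs e1
    obtain ⟨k₀, -, hk₀⟩ := h.ex (v := s) fun e => h.zero (e ▸ hsX)
    obtain ⟨k, kc, ku, ks⟩ : ∃ k, B k c = 0 ∧ B k u = 0 ∧ B k s ≠ 0 ∧ Q k ≠ 1 := by
      have cs : B c s = 0 := (h.alt.symm _ _).trans hs
      obtain ⟨k, hk⟩ : ∃ k, k = k₀ + (B k₀ u / B u c) • c + (B k₀ c / B u c) • u := ⟨_, rfl⟩
      have k1 : B k c = 0 := by simp [hk, h.alt.self]; clear * - uc; grind
      have k2 : B k u = 0 := by simp [hk, h.alt.self, cu]; clear * - uc; grind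
      have k3 : B k s ≠ 0 := by simpa [hk, cs, e1] using hk₀
      by_cases qk : Q k = 1
      · refine ⟨a • k, by simp [k1], by simp [k2], by simp [k3, a0], ?_⟩
        rw [hQ.smul, qk]; clear * - a1; grind
      · exact ⟨k, k1, k2, k3, qk⟩
    obtain ⟨l, hl⟩ := exists_sq (1 + Q k)
    have q2 : Q (k + l • c) = 1 := by
      simp only [hQ.add, hQ.smul, map_smul, kc, qc, hl]; clear * -; simp; grind
    have l0 : l ≠ 0 := by have := ks.2; clear * - hl this; grind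
    have g2 : G (k + l • c) := prop u _ gu (hg _ (by simp [kc, h.alt.self]) q2) q2
      (by simp [h.alt.symm u k, ku, l0, uc])
    exact prop _ s g2 hsX qs (by simp [h.alt.symm c s, hs, ks.1])
  intro v qv
  by_cases vc : B v c = 0
  · exact hg v vc qv
  have cv : B c v = B v c := h.alt.symm _ _
  obtain ⟨x', hx'⟩ : ∃ k, k = x + (B x v / B v c) • c := ⟨_, rfl⟩
  obtain ⟨y', hy'⟩ : ∃ k, k = y + (B y v / B v c) • c := ⟨_, rfl⟩
  have x1 : B x' c = 0 := by simp [hx', h.alt.self, xc]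
  have y1 : B y' c = 0 := by simp [hy', h.alt.self, yc]
  have x2 : B x' v = 0 := by simp [hx', cv]; clear * - vc; grind
  have y2 : B y' v = 0 := by simp [hy', cv]; clear * - vc; grind
  have xy : B x' y' ≠ 0 := by
    simpa [hx', hy', h.alt.self, xc, h.alt.symm c y, yc] using e
  obtain ⟨s, s1, s2, s3⟩ : ∃ s, B s c = 0 ∧ B s v = 0 ∧ Q s ≠ 0 := by
    by_cases q1 : Q x' = 0
    · by_cases q2 : Q y' = 0
      · exact ⟨x' + y', by simp [x1, y1], by simp [x2, y2], by simpa [hQ.add, q1, q2] using xy⟩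
      · exact ⟨y', y1, y2, q2⟩
    · exact ⟨x', x1, x2, q1⟩
  obtain ⟨r, hr⟩ := exists_sq (Q s)⁻¹
  have := gs (r • s) (by simp [s1]) (by rw [hQ.smul, hr]; field_simp)
  exact this.2.2 v (by simp [h.alt.symm v s, s2]) qv

theorem IsQ.big (h : Dat B X) {Q : V → F} (hQ : IsQ B Q) (hall : ∀ v, Q v = 1 → v ∈ X) {a : F}
    (a0 : a ≠ 0) (a1 : a ≠ 1) {v : V} (hv : v ∈ X) (qv : Q v ≠ 1) :
    ∃ k ∈ h.nice.K, k ≠ 0 ∧ k ≠ 1 := by
  have key : ∀ v ∈ X, Q v ≠ 1 → Q v ≠ 0 → ∃ k ∈ h.nice.K, k ≠ 0 ∧ k ≠ 1 := by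
    intro v hv q1 q0
    obtain ⟨r, hr⟩ := exists_sq (Q v)⁻¹
    refine ⟨r, h.nice.mem_K hv (hall _ (by rw [hQ.smul, hr]; field_simp)), ?_, ?_⟩
    · clear * - hr q0; grind
    · clear * - hr q0 q1; grind
  by_cases q0 : Q v = 0
  swap
  · exact key v hv qv q0
  obtain ⟨w, -, hw⟩ := h.ex (v := v) fun e => h.zero (e ▸ hv)
  have hu := hall ((a / B w v) • w + ((1 + (a / B w v) ^ 2 * Q w) / a) • v) (by
    simp only [hQ.add, hQ.smul, map_smul, LinearMap.smul_apply, smul_eq_mul, q0]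
    clear * - a0 hw; grind)
  have e : B ((a / B w v) • w + ((1 + (a / B w v) ^ 2 * Q w) / a) • v) v = a := by
    simp [h.alt.self, hw]
  have e' : Q ((a / B w v) • w + ((1 + (a / B w v) ^ 2 * Q w) / a) • v + a • v) = 1 + a ^ 2 := by
    simp only [hQ.add, hQ.smul, map_smul, map_add, LinearMap.add_apply, LinearMap.smul_apply,
      smul_eq_mul, q0, h.alt.self]
    clear * - a0 hw; grind
  have := h.cl _ hu v hv
  rw [e] at this
  exact key _ this (by rw [e']; clear * - a0; grind) (by rw [e']; clear * - a1; grind)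

theorem exists_ne (h4 : 4 ≤ Nat.card F) : ∃ a : F, a ≠ 0 ∧ a ≠ 1 := by
  classical
  have := Fintype.ofFinite F
  by_contra hc
  push Not at hc
  have h1 : (Finset.univ : Finset F) ⊆ {0, 1} := fun c _ => by
    by_cases e : c = 0
    · simp [e]
    · simp [hc c e]
  have h2 := Finset.card_le_card h1
  have h5 : ({0, 1} : Finset F).card ≤ 2 := Finset.card_le_two
  rw [Finset.card_univ, ← Nat.card_eq_fintype_card] at h2
  omega

/-- the prime field -/
def F2 (F : Type*) [Field F] [CharP F 2] : Subfield F where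
  carrier := {a | a = 0 ∨ a = 1}
  mul_mem' := by rintro a b (rfl | rfl) (rfl | rfl) <;> simp
  one_mem' := Or.inr rfl
  add_mem' := by rintro a b (rfl | rfl) (rfl | rfl) <;> simp [CharTwo.add_self_eq_zero]
  zero_mem' := Or.inl rfl
  neg_mem' := by intro a ha; rwa [CharTwo.neg_eq]
  inv_mem' := by rintro a (rfl | rfl) <;> simp

theorem F2_ne_top (h4 : 4 ≤ Nat.card F) : F2 F ≠ ⊤ := by
  obtain ⟨a, a0, a1⟩ := exists_ne h4
  intro e
  have : a ∈ F2 F := e ▸ Subfield.mem_top a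
  exact this.elim a0 a1

theorem Dat.main (h : Dat B X) (hd : Module.finrank F V = 4) (h4 : 4 ≤ Nat.card F) {Q₀ : V → F}
    (hQ₀ : IsQ B Q₀) : (∃ K : Subfield F, K ≠ ⊤ ∧ ∀ u ∈ X, ∀ v ∈ X, B u v ∈ K) ∨
      (∃ Q, IsQ B Q ∧ ∀ v ∈ X, Q v = 1) ∨ ∀ v ≠ 0, v ∈ X := by
  obtain ⟨a, a0, a1⟩ := exists_ne h4
  by_cases hbig : ∃ k ∈ h.nice.K, k ≠ 0 ∧ k ≠ 1
  · obtain ⟨k, hk, k0, k1⟩ := hbig
    by_cases hK : h.nice.K = ⊤
    · exact Or.inr (Or.inr (h.full hK a0 a1))
    · exact Or.inl ⟨_, hK, fun u hu v hv => h.nice.B_mem hk k0 k1 hu hv⟩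
  by_cases hA : ∃ n, ∃ x y c K, BP B X x y c K ∧ Nat.card K = n
  swap
  · refine Or.inl ⟨F2 F, F2_ne_top h4, h.noA (by omega) fun x hx y hy z hz e hne => ?_⟩
    by_contra hN
    obtain ⟨c, K, hb, -⟩ := triple h.alt h.cl hx hy hz e hne hN
    exact hA ⟨_, x, y, c, K, hb, rfl⟩
  classical
  have hbd : ∀ n, (∃ x y c K, BP B X x y c K ∧ Nat.card K = n) → n ≤ Nat.card F := by
    rintro _ ⟨x, y, c, K, -, rfl⟩
    exact Nat.card_le_card_of_injective _ Subtype.val_injective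
  obtain ⟨n₀, hn₀⟩ := hA
  obtain ⟨x, y, c, K, hb, hK⟩ := Nat.findGreatest_spec
    (P := fun n => ∃ x y c K, BP B X x y c K ∧ Nat.card K = n) (hbd _ hn₀) hn₀
  have hmem := h.maxstep hb fun x' y' c' K' hb' => by
    rw [hK]
    exact Nat.le_findGreatest (hbd _ ⟨_, _, _, _, hb', rfl⟩) ⟨_, _, _, _, hb', rfl⟩
  by_cases hKt : K = ⊤
  swap
  · exact Or.inl ⟨K, hKt, hmem⟩
  subst hKt
  have hall : ∀ a b l : F, ¬ (a = 0 ∧ b = 0) → a ^ 2 + b ^ 2 + a * b * B x y + l ^ 2 = 1 →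
      a • x + b • y + l • c ∈ X := fun a b l => hb.all a trivial b trivial l
  have hx : x ∈ X := by simpa using hall 1 0 0 (by simp) (by simp)
  have hy : y ∈ X := by simpa using hall 0 1 0 (by simp) (by simp)
  have c0 : c ≠ 0 := by
    rintro rfl
    refine hbig ⟨a, h.nice.mem_K hx ?_, a0, a1⟩
    simpa using hall a 0 (1 + a) (by simp [a0]) (by clear * -; grind)
  obtain ⟨u, hu, uc⟩ := h.ex c0
  have e := hb.ne
  have xc := hb.xc
  have yc := hb.yc
  have cx : B c x = 0 := (h.alt.symm _ _).trans xc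
  have cy : B c y = 0 := (h.alt.symm _ _).trans yc
  have yx : B y x = B x y := h.alt.symm _ _
  have hc : c ∈ X := by
    have hp : ∀ t ≠ (0 : F), t • x + (1 + t) • c ∈ X := fun t ht => by
      simpa using hall t 0 (1 + t) (by simp [ht]) (by clear * -; grind)
    have s1 := hp 1 one_ne_zero
    have s2 := hp a a0
    have s3 := hp (1 + a) (by clear * - a1; grind)
    refine T5 h.alt h.cl hu uc ?_
    have := h.cl _ (h.cl _ (h.cl _ hu _ s1) _ s2) _ s3
    simp only [map_add, map_smul, h.alt.self, smul_eq_mul, LinearMap.smul_apply,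
      LinearMap.add_apply, xc, cx] at this
    convert this using 1
    clear * -; vv
  have hli : LinearIndependent F ![x, y, c, u] := by
    rw [Fintype.linearIndependent_iff]
    intro g hg
    simp only [Fin.sum_univ_four, Matrix.cons_val_zero, Matrix.cons_val_one, Matrix.cons_val] at hg
    have e1 := congrArg (fun v => B v c) hg
    have e2 := congrArg (fun v => B v x) hg
    have e3 := congrArg (fun v => B v y) hg
    have e4 := congrArg (fun v => B v u) hg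
    simp only [map_add, map_smul, h.alt.self, smul_eq_mul, LinearMap.smul_apply,
      LinearMap.add_apply, xc, cx, yc, cy, yx, map_zero, LinearMap.zero_apply, h.alt.symm c u] at e1 e2 e3 e4
    have g3 : g 3 = 0 := by clear * - e1 uc; grind
    have g1 : g 1 = 0 := by clear * - e2 e g3; grind
    have g0 : g 0 = 0 := by clear * - e3 e g3; grind
    have g2 : g 2 = 0 := by clear * - e4 uc g0 g1; grind
    intro i; fin_cases i <;> assumption
  have : Nonempty (Fin 4) := ⟨0⟩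
  let b := basisOfLinearIndependentOfCardEqFinrank hli (by simp [hd])
  have hb0 : ∀ i, b i = ![x, y, c, u] i := fun i => by simp [b]
  choose r hr using fun i => exists_sq (1 + Q₀ (b i))
  let f := b.constr F r
  let Q : V → F := fun v => Q₀ v + f v ^ 2
  have hQ : IsQ B Q := ⟨fun u v => by simp only [Q, hQ₀.add, map_add]; clear * -; grind,
    fun a v => by simp only [Q, hQ₀.smul, map_smul, smul_eq_mul]; ring⟩
  have q1 : ∀ i, Q (b i) = 1 := fun i => by
    simp only [Q, f, Module.Basis.constr_basis, hr]; clear * -; grind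
  have qx : Q x = 1 := by simpa [hb0] using q1 0
  have qy : Q y = 1 := by simpa [hb0] using q1 1
  have qc : Q c = 1 := by simpa [hb0] using q1 2
  have qu : Q u = 1 := by simpa [hb0] using q1 3
  have hg : ∀ s, B s c = 0 → Q s = 1 → s ∈ X := by
    intro s sc qs
    have hs := b.sum_repr s
    simp only [Fin.sum_univ_four, hb0, Matrix.cons_val_zero, Matrix.cons_val_one,
      Matrix.cons_val] at hs
    generalize b.repr s 0 = s0 at hs
    generalize b.repr s 1 = s1 at hs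
    generalize b.repr s 2 = s2 at hs
    generalize b.repr s 3 = s3 at hs
    subst hs
    have : s3 = 0 := by simpa [xc, yc, h.alt.self, uc] using sc
    subst this
    simp only [zero_smul, add_zero, hQ.add, hQ.smul, qx, qy, qc, map_add, map_smul, smul_eq_mul,
      LinearMap.smul_apply, LinearMap.add_apply, xc, yc] at qs ⊢
    by_cases h01 : s0 = 0 ∧ s1 = 0
    · have : s2 = 1 := sq_inj (by rw [h01.1, h01.2] at qs; clear * - qs; grind)
      simpa [h01.1, h01.2, this] using hc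
    · exact hall _ _ _ h01 (by clear * - qs; grind)
  have hall' := hQ.all_mem h xc yc e hc hu qc qu uc hg a0 a1
  refine Or.inr (Or.inl ⟨Q, hQ, fun v hv => ?_⟩)
  by_contra qv
  exact hbig (hQ.big h hall' a0 a1 hv qv)

end Cfsg.Agent.H3.Sz1
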