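import Cfsg.Agent.H3.Sz2
import Cfsg.Agent.H3.Sz3
import Cfsg.Agent.H6.Suzuki
import Cfsg.Agent.H1.Basic

/-! The group `Sp₄(F)` in characteristic two: coordinates and the graph endomorphism. -/

set_option autoImplicit false
set_option linter.unusedSectionVars false

namespace Cfsg.Agent.H3.Sz4

open Matrix hiding J
open Cfsg.Lie Cfsg.Agent.H3.Sz1
open Cfsg.Agent.H6.Suzuki (J J_mul_J mem_Sp4_iff row_of_col col_rel row_rel star4_mul star4_one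
  pairOf_0 pairOf_1 pairOf_2 pairOf_3)

variable {F : Type*} [Field F] [CharP F 2]

abbrev G (F : Type*) [Field F] : Type _ := Sp4 F

/-- the matrix -/
def m (g : G F) : Matrix (Fin 4) (Fin 4) F := g.1.1

theorem m_mul (g h : G F) : m (g * h) = m g * m h := rfl
theorem m_one : m (1 : G F) = 1 := rfl
theorem m_inj {g h : G F} (e : m g = m h) : g = h := Subtype.ext (Units.ext e)
theorem m_sp (g : G F) : (m g)ᵀ * J F * m g = J F := (mem_Sp4_iff _).1 g.2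

def mk (A : Matrix (Fin 4) (Fin 4) F) (h : Aᵀ * J F * A = J F) : G F :=
  ⟨⟨A, J F * Aᵀ * J F, by
      calc A * (J F * Aᵀ * J F) = (A * J F * Aᵀ) * J F := by simp only [Matrix.mul_assoc]
        _ = 1 := by rw [row_of_col h, J_mul_J], by
      calc (J F * Aᵀ * J F) * A = J F * (Aᵀ * J F * A) := by simp only [Matrix.mul_assoc]
        _ = 1 := by rw [h, J_mul_J]⟩, (mem_Sp4_iff _).2 h⟩

theorem m_mk (A : Matrix (Fin 4) (Fin 4) F) (h : Aᵀ * J F * A = J F) : m (mk A h) = A := rfl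

theorem m_inv (g : G F) : m g⁻¹ = J F * (m g)ᵀ * J F := by
  have : g = mk (m g) (m_sp g) := m_inj rfl
  conv_lhs => rw [this]
  rfl

theorem mul_app (g h : G F) (i j : Fin 4) :
    m (g * h) i j = m g i 0 * m h 0 j + m g i 1 * m h 1 j + m g i 2 * m h 2 j + m g i 3 * m h 3 j := by
  simp [m_mul, Matrix.mul_apply, Fin.sum_univ_four]

theorem inv_app (g : G F) (i j : Fin 4) : m g⁻¹ i j = m g j.rev i.rev := by
  rw [m_inv]
  fin_cases i <;> fin_cases j <;> simp [J, Matrix.mul_apply, Fin.sum_univ_four, Fin.rev, Matrix.vecMul, dotProduct]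

instance instFiniteG [Finite F] : Finite (G F) := Finite.of_injective m fun _ _ => m_inj

macro "mx" : tactic => `(tactic| (ext i j; fin_cases i <;> fin_cases j <;>
  simp [J, Matrix.mul_apply, Fin.sum_univ_four] <;> grind))

/-- the column relations -/
theorem cr (g : G F) : m g 0 0 * m g 3 1 + m g 1 0 * m g 2 1 + m g 2 0 * m g 1 1 + m g 3 0 * m g 0 1 = 0 ∧
    m g 0 0 * m g 3 2 + m g 1 0 * m g 2 2 + m g 2 0 * m g 1 2 + m g 3 0 * m g 0 2 = 0 ∧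
    m g 0 0 * m g 3 3 + m g 1 0 * m g 2 3 + m g 2 0 * m g 1 3 + m g 3 0 * m g 0 3 = 1 ∧
    m g 0 1 * m g 3 2 + m g 1 1 * m g 2 2 + m g 2 1 * m g 1 2 + m g 3 1 * m g 0 2 = 1 ∧
    m g 0 1 * m g 3 3 + m g 1 1 * m g 2 3 + m g 2 1 * m g 1 3 + m g 3 1 * m g 0 3 = 0 ∧
    m g 0 2 * m g 3 3 + m g 1 2 * m g 2 3 + m g 2 2 * m g 1 3 + m g 3 2 * m g 0 3 = 0 :=
  ⟨col_rel (m_sp g) 0 1, col_rel (m_sp g) 0 2, col_rel (m_sp g) 0 3, col_rel (m_sp g) 1 2,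
    col_rel (m_sp g) 1 3, col_rel (m_sp g) 2 3⟩

/-- the row relations -/
theorem rr (g : G F) : m g 0 0 * m g 1 3 + m g 0 1 * m g 1 2 + m g 0 2 * m g 1 1 + m g 0 3 * m g 1 0 = 0 ∧
    m g 0 0 * m g 2 3 + m g 0 1 * m g 2 2 + m g 0 2 * m g 2 1 + m g 0 3 * m g 2 0 = 0 ∧
    m g 0 0 * m g 3 3 + m g 0 1 * m g 3 2 + m g 0 2 * m g 3 1 + m g 0 3 * m g 3 0 = 1 ∧
    m g 1 0 * m g 2 3 + m g 1 1 * m g 2 2 + m g 1 2 * m g 2 1 + m g 1 3 * m g 2 0 = 1 ∧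
    m g 1 0 * m g 3 3 + m g 1 1 * m g 3 2 + m g 1 2 * m g 3 1 + m g 1 3 * m g 3 0 = 0 ∧
    m g 2 0 * m g 3 3 + m g 2 1 * m g 3 2 + m g 2 2 * m g 3 1 + m g 2 3 * m g 3 0 = 0 :=
  ⟨row_rel (m_sp g) 0 1, row_rel (m_sp g) 0 2, row_rel (m_sp g) 0 3, row_rel (m_sp g) 1 2,
    row_rel (m_sp g) 1 3, row_rel (m_sp g) 2 3⟩

theorem ext16 {g h : G F} (h00 : m g 0 0 = m h 0 0) (h01 : m g 0 1 = m h 0 1) (h02 : m g 0 2 = m h 0 2)
    (h03 : m g 0 3 = m h 0 3) (h10 : m g 1 0 = m h 1 0) (h11 : m g 1 1 = m h 1 1)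
    (h12 : m g 1 2 = m h 1 2) (h13 : m g 1 3 = m h 1 3) (h20 : m g 2 0 = m h 2 0)
    (h21 : m g 2 1 = m h 2 1) (h22 : m g 2 2 = m h 2 2) (h23 : m g 2 3 = m h 2 3)
    (h30 : m g 3 0 = m h 3 0) (h31 : m g 3 1 = m h 3 1) (h32 : m g 3 2 = m h 3 2)
    (h33 : m g 3 3 = m h 3 3) : g = h := by
  apply m_inj
  ext i j; fin_cases i <;> fin_cases j <;> assumption

/-! ### Elements -/

def u (a c b s : F) : G F := mk !![1, a, b + a * c, s; 0, 1, c, b; 0, 0, 1, a; 0, 0, 0, 1] (by mx)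

theorem m_u (a c b s : F) :
    m (u a c b s) = !![1, a, b + a * c, s; 0, 1, c, b; 0, 0, 1, a; 0, 0, 0, 1] := rfl

def dg (l k : Fˣ) : G F :=
  mk !![l, 0, 0, 0; 0, k, 0, 0; 0, 0, (k : F)⁻¹, 0; 0, 0, 0, (l : F)⁻¹] (by mx)

theorem m_dg (l k : Fˣ) :
    m (dg l k) = !![(l : F), 0, 0, 0; 0, k, 0, 0; 0, 0, (k : F)⁻¹, 0; 0, 0, 0, (l : F)⁻¹] := rfl

def w1 (F : Type*) [Field F] [CharP F 2] : G F := mk !![1, 0, 0, 0; 0, 0, 1, 0; 0, 1, 0, 0; 0, 0, 0, 1] (by mx)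
def w2 (F : Type*) [Field F] [CharP F 2] : G F := mk !![0, 1, 0, 0; 1, 0, 0, 0; 0, 0, 0, 1; 0, 0, 1, 0] (by mx)

theorem m_w1 : m (w1 F) = !![1, 0, 0, 0; 0, 0, 1, 0; 0, 1, 0, 0; 0, 0, 0, 1] := rfl
theorem m_w2 : m (w2 F) = !![0, 1, 0, 0; 1, 0, 0, 0; 0, 0, 0, 1; 0, 0, 1, 0] := rfl

macro "gx" : tactic => `(tactic| (apply ext16 <;>
  simp [mul_app, inv_app, Fin.rev, m_u, m_dg, m_w1, m_w2, m_one] <;> grind))

theorem u_mul (a c b s a' c' b' s' : F) : u a c b s * u a' c' b' s' =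
    u (a + a') (c + c') (b + b' + c * a') (s + s' + a * b' + (b + a * c) * a') := by gx

theorem u_zero : u (0 : F) 0 0 0 = 1 := by gx

theorem u_inj {a c b s a' c' b' s' : F} :
    u a c b s = u a' c' b' s' ↔ a = a' ∧ c = c' ∧ b = b' ∧ s = s' := by
  constructor
  · intro h
    have e := congrArg m h
    exact ⟨congrFun (congrFun e 0) 1, congrFun (congrFun e 1) 2, congrFun (congrFun e 1) 3,
      congrFun (congrFun e 0) 3⟩
  · rintro ⟨rfl, rfl, rfl, rfl⟩; rfl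

theorem u_eq_one {a c b s : F} : u a c b s = 1 ↔ a = 0 ∧ c = 0 ∧ b = 0 ∧ s = 0 := by
  rw [← u_zero, u_inj]

theorem u_inv (a c b s : F) : (u a c b s)⁻¹ = u a c (b + a * c) s := by gx

theorem u_sq (a c b s : F) : u a c b s * u a c b s = u 0 0 (a * c) (a ^ 2 * c) := by
  rw [u_mul, u_inj]; grind

theorem u_pow4 (a c b s : F) : u a c b s ^ 4 = 1 := by
  have : u a c b s ^ 4 = (u a c b s * u a c b s) * (u a c b s * u a c b s) := by
    simp [pow_succ, mul_assoc]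
  rw [this, u_sq, u_sq, u_eq_one]; grind

def U (F : Type*) [Field F] [CharP F 2] : Subgroup (G F) where
  carrier := {g | ∃ a c b s, g = u a c b s}
  mul_mem' := by rintro _ _ ⟨a, c, b, s, rfl⟩ ⟨a', c', b', s', rfl⟩; exact ⟨_, _, _, _, u_mul ..⟩
  one_mem' := ⟨0, 0, 0, 0, u_zero.symm⟩
  inv_mem' := by rintro _ ⟨a, c, b, s, rfl⟩; exact ⟨_, _, _, _, u_inv ..⟩

theorem u_mem (a c b s : F) : u a c b s ∈ U F := ⟨a, c, b, s, rfl⟩

theorem U_pow4 {g : G F} (h : g ∈ U F) : g ^ 4 = 1 := by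
  obtain ⟨a, c, b, s, rfl⟩ := h; exact u_pow4 ..

theorem eq_u {g : G F} (h00 : m g 0 0 = 1) (h10 : m g 1 0 = 0) (h20 : m g 2 0 = 0) (h30 : m g 3 0 = 0)
    (h11 : m g 1 1 = 1) (h21 : m g 2 1 = 0) : g = u (m g 0 1) (m g 1 2) (m g 1 3) (m g 0 3) := by
  have := cr g
  gx

def Mp (F : Type*) [Field F] [CharP F 2] : Subgroup (G F) where
  carrier := {g | m g 1 0 = 0 ∧ m g 2 0 = 0 ∧ m g 3 0 = 0}
  mul_mem' := by
    rintro g h ⟨a, b, c⟩ ⟨a', b', c'⟩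
    simp [mul_app, a, b, c, a', b', c']
  one_mem' := by simp [m_one]
  inv_mem' := by
    rintro g ⟨a, b, c⟩
    have := cr g
    simp only [Set.mem_ofPred_eq, inv_app, Fin.rev]
    simp; grind

def Ml (F : Type*) [Field F] [CharP F 2] : Subgroup (G F) where
  carrier := {g | m g 2 0 = 0 ∧ m g 2 1 = 0 ∧ m g 3 0 = 0 ∧ m g 3 1 = 0}
  mul_mem' := by
    rintro g h ⟨a, b, c, d⟩ ⟨a', b', c', d'⟩
    simp [mul_app, a, b, c, d, a', b', c', d']
  one_mem' := by simp [m_one]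
  inv_mem' := by
    rintro g ⟨a, b, c, d⟩
    simp only [Set.mem_ofPred_eq, inv_app, Fin.rev]
    simp [a, b, c, d]

theorem mem_Mp {g : G F} : g ∈ Mp F ↔ m g 1 0 = 0 ∧ m g 2 0 = 0 ∧ m g 3 0 = 0 := Iff.rfl
theorem mem_Ml {g : G F} : g ∈ Ml F ↔ m g 2 0 = 0 ∧ m g 2 1 = 0 ∧ m g 3 0 = 0 ∧ m g 3 1 = 0 := Iff.rfl

theorem U_le_Mp : U F ≤ Mp F := by rintro _ ⟨a, c, b, s, rfl⟩; simp [mem_Mp, m_u]
theorem U_le_Ml : U F ≤ Ml F := by rintro _ ⟨a, c, b, s, rfl⟩; simp [mem_Ml, m_u]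

theorem Mp_rel {g : G F} (h : g ∈ Mp F) : m g 0 0 ≠ 0 ∧ m g 3 1 = 0 ∧ m g 3 2 = 0 ∧
    m g 0 0 * m g 3 3 = 1 ∧ m g 1 1 * m g 2 2 + m g 1 2 * m g 2 1 = 1 := by
  obtain ⟨a, b, c⟩ := h
  have := cr g
  have := rr g
  grind

theorem conj_e {g : G F} (h : g ∈ Mp F) (a b s : F) : g * u a 0 b s * g⁻¹ =
    u (m g 0 0 * (m g 2 1 * b + m g 2 2 * a)) 0 (m g 0 0 * (m g 1 1 * b + m g 1 2 * a))
      (m g 0 0 ^ 2 * s) := by
  rw [mul_inv_eq_iff_eq_mul]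
  obtain ⟨-, h1, h2, h3, h4⟩ := Mp_rel h
  obtain ⟨a1, a2, a3⟩ := h
  have := cr g
  apply ext16 <;> simp [mul_app, m_u, h1, h2, a1, a2, a3] <;> grind

theorem borel {g : G F} (h : g ∈ Mp F) (h' : g ∈ Ml F) : ∃ a c b s l k, g = u a c b s * dg l k := by
  obtain ⟨h0, h1, h2, h3, h4⟩ := Mp_rel h
  obtain ⟨a1, a2, a3⟩ := h
  obtain ⟨-, b1, -, -⟩ := h'
  have k0 : m g 1 1 ≠ 0 := by grind
  have := eq_u (g := g * (dg (Units.mk0 _ h0) (Units.mk0 _ k0))⁻¹)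
    (by simp [mul_app, inv_app, Fin.rev, m_dg, h0]) (by simp [mul_app, inv_app, Fin.rev, m_dg, a1])
    (by simp [mul_app, inv_app, Fin.rev, m_dg, a2]) (by simp [mul_app, inv_app, Fin.rev, m_dg, a3])
    (by simp [mul_app, inv_app, Fin.rev, m_dg, k0]) (by simp [mul_app, inv_app, Fin.rev, m_dg, b1])
  exact ⟨_, _, _, _, _, _, mul_inv_eq_iff_eq_mul.1 this⟩

theorem dg_conj (l k : Fˣ) (a c b s : F) : dg l k * u a c b s * (dg l k)⁻¹ =
    u (l / k * a) (k ^ 2 * c) (l * k * b) (l ^ 2 * s) := by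
  have := l.ne_zero
  have := k.ne_zero
  gx

theorem cent {g : G F} {b s : F} (b0 : b ≠ 0) (s0 : s ≠ 0) (h : g * u 0 0 b s = u 0 0 b s * g) :
    g ∈ U F := by
  have e : ∀ i j, m (g * u 0 0 b s) i j = m (u 0 0 b s * g) i j := fun i j => by rw [h]
  have e00 := e 0 0
  have e01 := e 0 1
  have e02 := e 0 2
  have e03 := e 0 3
  have e10 := e 1 0
  have e11 := e 1 1
  have e12 := e 1 2
  have e13 := e 1 3
  have e22 := e 2 2
  have e23 := e 2 3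
  simp [mul_app, m_u, b0, s0] at e00 e01 e02 e03 e10 e11 e12 e13 e22 e23
  obtain ⟨c1, c2, c3, c4, c5, c6⟩ := cr g
  have h30 : m g 3 0 = 0 := by grind
  have h31 : m g 3 1 = 0 := by grind
  have h20 : m g 2 0 = 0 := by grind
  have h21 : m g 2 1 = 0 := by grind
  have h32 : m g 3 2 = 0 := by
    have : s * m g 3 2 ^ 2 = 0 := by grind
    simpa [s0] using this
  have h10 : m g 1 0 = 0 := by grind
  have h1 : m g 0 0 = m g 3 3 := by grind
  have h00 : m g 0 0 = 1 := sq_inj (by grind)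
  exact ⟨_, _, _, _, eq_u h00 h10 h20 h30 (by grind) h21⟩

/-- involutions of `U` are conjugate into the centre -/
theorem inv_conj [Finite F] {z : G F} (hz : z ∈ U F) (z2 : z * z = 1) :
    ∃ k : G F, ∃ b s, k * z * k⁻¹ = u 0 0 b s := by
  obtain ⟨a, c, b, s, rfl⟩ := hz
  rw [u_sq, u_eq_one] at z2
  by_cases a0 : a = 0
  · subst a0
    by_cases c0 : c = 0
    · exact ⟨1, b, s, by simp [c0]⟩
    obtain ⟨r, hr⟩ := exists_sq (s / c)
    refine ⟨w2 F * u r 0 0 0, b + r * c, c, ?_⟩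
    rw [mul_inv_eq_iff_eq_mul]
    gx
  · have c0 : c = 0 := by simpa [a0] using z2.2.2.1
    subst c0
    refine ⟨w1 F * u 0 (b / a) 0 0, a, s, ?_⟩
    rw [mul_inv_eq_iff_eq_mul]
    gx

/-! ### The graph endomorphism -/

theorem star_app (A : Matrix (Fin 4) (Fin 4) F) (p r : Fin 4) : star4 A p r =
    A (pairOf p).1 (pairOf r).1 * A (pairOf p).2 (pairOf r).2 -
      A (pairOf p).2 (pairOf r).1 * A (pairOf p).1 (pairOf r).2 := rfl

theorem star_sp (g : G F) : (star4 (m g))ᵀ * J F * star4 (m g) = J F := by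
  have h1 : star4 (m g⁻¹) * star4 (m g) = 1 := by
    rw [← star4_mul (m_sp _) (m_sp _), ← m_mul, inv_mul_cancel, m_one, star4_one]
  have h2 : star4 (m g⁻¹) = J F * (star4 (m g))ᵀ * J F := by
    ext i j
    fin_cases i <;> fin_cases j <;>
      simp [star_app, inv_app, Fin.rev, J, Matrix.mul_apply, Fin.sum_univ_four, Matrix.vecMul,
        dotProduct, pairOf_0, pairOf_1, pairOf_2, pairOf_3] <;> ring
  rw [h2] at h1
  calc _ = J F * (J F * (star4 (m g))ᵀ * J F * star4 (m g)) := by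
        rw [← Matrix.mul_assoc, ← Matrix.mul_assoc, ← Matrix.mul_assoc, J_mul_J, Matrix.one_mul]
    _ = _ := by rw [h1, Matrix.mul_one]

/-- the graph endomorphism -/
def γ : G F →* G F where
  toFun g := mk (star4 (m g)) (star_sp g)
  map_one' := m_inj star4_one
  map_mul' g h := m_inj (star4_mul (m_sp g) (m_sp h))

theorem γ_app (g : G F) (p r : Fin 4) : m (γ g) p r =
    m g (pairOf p).1 (pairOf r).1 * m g (pairOf p).2 (pairOf r).2 -
      m g (pairOf p).2 (pairOf r).1 * m g (pairOf p).1 (pairOf r).2 := rfl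

theorem γ_u (a c b s : F) :
    γ (u a c b s) = u c (a ^ 2) (s + a * b + a ^ 2 * c) (b ^ 2 + a * b * c + c * s) := by
  apply ext16 <;> simp [γ_app, m_u, pairOf_0, pairOf_1, pairOf_2, pairOf_3] <;> grind

theorem det_m (g : G F) : (m g).det = 1 := by
  have h := congrArg Matrix.det (m_sp g)
  have hJ : (J F).det ≠ 0 := by
    intro e
    have := congrArg Matrix.det (J_mul_J (F := F))
    rw [Matrix.det_mul, e, Matrix.det_one] at this
    simp at this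
  rw [Matrix.det_mul, Matrix.det_mul, Matrix.det_transpose] at h
  apply sq_inj
  apply mul_left_cancel₀ hJ
  linear_combination h

theorem adj_m (g : G F) : (m g).adjugate = m g⁻¹ := by
  have h := Matrix.mul_adjugate (m g)
  rw [det_m, one_smul] at h
  calc _ = m (g⁻¹ * g) * (m g).adjugate := by rw [inv_mul_cancel, m_one, Matrix.one_mul]
    _ = _ := by rw [m_mul, Matrix.mul_assoc, h, Matrix.mul_one]

theorem γγ (g : G F) (i j : Fin 4) : m (γ (γ g)) i j = m g i j ^ 2 := by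
  have h := congrFun (congrFun (adj_m g) j.rev) i.rev
  rw [inv_app, Matrix.adjugate_fin_succ_eq_det_submatrix, Matrix.det_fin_three, Fin.rev_rev,
    Fin.rev_rev] at h
  rw [sq]
  conv_rhs => rw [← h]; enter [1]; rw [h]
  clear h
  fin_cases i <;> fin_cases j <;>
    simp [γ_app, pairOf_0, pairOf_1, pairOf_2, pairOf_3, Fin.rev, Fin.succAbove] <;> grind

theorem γ_inj : Function.Injective (γ : G F → G F) := by
  intro g h e
  apply m_inj
  ext i j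
  apply sq_inj
  rw [← γγ, ← γγ, e]

theorem γ_surj [Finite F] : Function.Surjective (γ : G F → G F) := Finite.surjective_of_injective γ_inj

theorem γ_Mp {g : G F} (h : g ∈ Mp F) : γ g ∈ Ml F := by
  obtain ⟨-, h1, h2, -⟩ := Mp_rel h
  obtain ⟨a1, a2, a3⟩ := h
  simp [mem_Ml, γ_app, pairOf_0, pairOf_1, pairOf_2, pairOf_3, h1, h2, a1, a2, a3]

theorem γ_Ml {g : G F} (h : g ∈ Ml F) : γ g ∈ Mp F := by
  obtain ⟨a1, a2, a3, a4⟩ := h
  simp [mem_Mp, γ_app, pairOf_0, pairOf_1, pairOf_2, pairOf_3, a1, a2, a3, a4]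

theorem γ_Mp_iff {g : G F} : γ g ∈ Mp F ↔ g ∈ Ml F := by
  refine ⟨fun h => ?_, γ_Ml⟩
  simpa [mem_Ml, γγ] using γ_Mp h

theorem γ_Ml_iff {g : G F} : γ g ∈ Ml F ↔ g ∈ Mp F := by
  refine ⟨fun h => ?_, γ_Mp⟩
  simpa [mem_Mp, γγ] using γ_Ml h

theorem γ_U {g : G F} (h : g ∈ U F) : γ g ∈ U F := by
  obtain ⟨a, c, b, s, rfl⟩ := h
  rw [γ_u]; exact u_mem ..

theorem γ_U_iff {g : G F} : γ g ∈ U F ↔ g ∈ U F := by
  refine ⟨fun h => ?_, γ_U⟩
  obtain ⟨a, c, b, s, e⟩ := γ_U h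
  have e' : ∀ i j, m g i j ^ 2 = m (u a c b s) i j := fun i j => by rw [← e, γγ]
  refine ⟨_, _, _, _, eq_u (sq_inj ?_) (sq_inj ?_) (sq_inj ?_) (sq_inj ?_) (sq_inj ?_) (sq_inj ?_)⟩ <;>
    rw [e'] <;> simp [m_u]

/-! ### `U` is a Sylow subgroup -/

theorem fix_e0 [Finite F] {R : Subgroup (G F)} (hR : IsPGroup 2 R) (hU : U F ≤ R) {g : G F} (hg : g ∈ R) :
    m g 0 0 = 1 ∧ g ∈ Mp F := by
  let ρ : Representation F R (Fin 4 → F) :=
    (Matrix.toLinAlgEquiv' (R := F) (n := Fin 4)).toMonoidHom.comp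
      ((Units.coeHom _).comp ((Sp4 F).subtype.comp R.subtype))
  have hρ : ∀ (g : R) v, ρ g v = m g.1 *ᵥ v := fun g v => rfl
  obtain ⟨v, -, hv0, hv⟩ := Cfsg.Agent.H1.Basic.exists_fixed_vector hR ρ ⊤ (fun _ _ _ => trivial)
    top_ne_bot
  have h1 := congrFun (hv ⟨u 1 0 0 0, hU (u_mem ..)⟩) 0
  have h2 := congrFun (hv ⟨u 0 1 0 0, hU (u_mem ..)⟩) 1
  have h3 := congrFun (hv ⟨u 0 0 0 1, hU (u_mem ..)⟩) 0
  simp [hρ, m_u, Matrix.mulVec, dotProduct, Fin.sum_univ_four] at h1 h2 h3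
  have h0 : v 0 ≠ 0 := by
    intro h0; apply hv0; ext i; fin_cases i <;> simp [h0, h1, h2, h3]
  have h4 := hv ⟨g, hg⟩
  have e0 := congrFun h4 0
  have e1 := congrFun h4 1
  have e2 := congrFun h4 2
  have e3 := congrFun h4 3
  simp [hρ, Matrix.mulVec, dotProduct, Fin.sum_univ_four, h0, h1, h2, h3] at e0 e1 e2 e3
  exact ⟨e0, e1, e2, e3⟩

def sylU (F : Type*) [Field F] [CharP F 2] [Finite F] : Sylow 2 (G F) where
  toSubgroup := U F
  isPGroup' := fun g => ⟨2, Subtype.ext (U_pow4 g.2)⟩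
  is_maximal' := by
    intro R hR hU
    refine le_antisymm (fun g hg => ?_) hU
    obtain ⟨h0, h1, h2, h3⟩ := fix_e0 hR hU hg
    obtain ⟨k0, k1⟩ := fix_e0 (hR.map γ) (fun x hx => by
      obtain ⟨y, rfl⟩ := γ_surj x
      exact ⟨y, hU (γ_U_iff.1 hx), rfl⟩) ⟨g, hg, rfl⟩
    rw [γ_Mp_iff] at k1
    rw [γ_app] at k0
    simp [pairOf_0, h0, h1] at k0
    exact ⟨_, _, _, _, eq_u h0 h1 h2 h3 k0 k1.2.1⟩

/-! ### The form and transvections -/

def B (F : Type*) [Field F] : (Fin 4 → F) →ₗ[F] (Fin 4 → F) →ₗ[F] F :=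
  LinearMap.mk₂ F (fun v w => v 0 * w 3 + v 1 * w 2 + v 2 * w 1 + v 3 * w 0) (by intros; simp; ring)
    (by intros; simp; ring) (by intros; simp; ring) (by intros; simp; ring)

theorem B_app (v w : Fin 4 → F) : B F v w = v 0 * w 3 + v 1 * w 2 + v 2 * w 1 + v 3 * w 0 := rfl

theorem B_alt : Alt (B F) := ⟨fun v => by rw [B_app]; grind⟩

theorem B_nd (v : Fin 4 → F) (h : ∀ w, B F v w = 0) : v = 0 := by
  have h0 := h (Pi.single 3 1)
  have h1 := h (Pi.single 2 1)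
  have h2 := h (Pi.single 1 1)
  have h3 := h (Pi.single 0 1)
  simp [B_app] at h0 h1 h2 h3
  ext i; fin_cases i <;> simp [h0, h1, h2, h3]

theorem B_m (g : G F) (v w : Fin 4 → F) : B F (m g *ᵥ v) (m g *ᵥ w) = B F v w :=
  (g.2 : ∀ v w, altForm4 _ _ = altForm4 v w) v w

theorem mv (g : G F) (v : Fin 4 → F) (i : Fin 4) :
    (m g *ᵥ v) i = m g i 0 * v 0 + m g i 1 * v 1 + m g i 2 * v 2 + m g i 3 * v 3 := by
  simp [Matrix.mulVec, dotProduct, Fin.sum_univ_four]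

theorem mv_mul (g h : G F) (v : Fin 4 → F) : m (g * h) *ᵥ v = m g *ᵥ (m h *ᵥ v) := by
  rw [m_mul, Matrix.mulVec_mulVec]

theorem mv_inv (g : G F) (v : Fin 4 → F) : m g⁻¹ *ᵥ (m g *ᵥ v) = v := by
  rw [← mv_mul, inv_mul_cancel, m_one, Matrix.one_mulVec]

theorem mv_inv' (g : G F) (v : Fin 4 → F) : m g *ᵥ (m g⁻¹ *ᵥ v) = v := by
  rw [← mv_mul, mul_inv_cancel, m_one, Matrix.one_mulVec]

theorem ext_mv {g h : G F} (e : ∀ v, m g *ᵥ v = m h *ᵥ v) : g = h :=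
  m_inj (Matrix.toLin'.injective (LinearMap.ext e))

def tv (v : Fin 4 → F) : G F := mk (Matrix.of fun i j => (1 : Matrix (Fin 4) (Fin 4) F) i j + v i * v j.rev)
  (by ext i j; fin_cases i <;> fin_cases j <;>
        simp [J, Matrix.mul_apply, Fin.sum_univ_four, Fin.rev, Matrix.vecMul, dotProduct] <;> grind)

theorem tv_app (v : Fin 4 → F) (i j : Fin 4) :
    m (tv v) i j = (1 : Matrix (Fin 4) (Fin 4) F) i j + v i * v j.rev := rfl

theorem tv_mv (v x : Fin 4 → F) : m (tv v) *ᵥ x = x + B F x v • v := by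
  ext i
  rw [mv]
  fin_cases i <;> simp [tv_app, B_app, Fin.rev] <;> ring

theorem tv_conj (g : G F) (v : Fin 4 → F) : g * tv v * g⁻¹ = tv (m g *ᵥ v) := by
  rw [mul_inv_eq_iff_eq_mul]
  apply ext_mv
  intro x
  rw [mv_mul, mv_mul, tv_mv, tv_mv, B_m, Matrix.mulVec_add, Matrix.mulVec_smul]

theorem tv_e0 (r : F) : tv (Pi.single 0 r) = u 0 0 0 (r ^ 2) := by
  apply ext16 <;> simp [tv_app, m_u, Fin.rev, sq]

theorem exists_e0 [Finite F] {v : Fin 4 → F} (hv : v ≠ 0) : ∃ k : G F, m k *ᵥ Pi.single 0 1 = v := by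
  have key : ∀ x y : Fin 4 → F, B F x y ≠ 0 → ∃ k : G F, m k *ᵥ x = y := by
    intro x y h
    obtain ⟨d, hd⟩ := exists_sq (B F x y)
    have d0 : d ≠ 0 := by rintro rfl; exact h (by rw [← hd]; ring)
    refine ⟨tv (d⁻¹ • (x + y)), ?_⟩
    rw [tv_mv]
    simp only [map_smul, map_add, B_alt.self, ← hd, smul_eq_mul]
    vv
  obtain ⟨y, h1, h2⟩ : ∃ y, B F (Pi.single 0 1) y ≠ 0 ∧ B F y v ≠ 0 := by
    by_cases h0 : v 0 = 0
    · obtain ⟨w, hw⟩ : ∃ w, B F v w ≠ 0 := by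
        by_contra hc; push Not at hc; exact hv (B_nd v hc)
      refine ⟨w + (1 + w 3) • Pi.single 3 1, by simp [B_app]; grind, ?_⟩
      rw [B_app] at hw
      simp [B_app, h0] at hw ⊢
      grind
    · exact ⟨Pi.single 3 1, by simp [B_app], by simpa [B_app] using h0⟩
  obtain ⟨k, hk⟩ := key _ _ h1
  obtain ⟨k', hk'⟩ := key _ _ h2
  exact ⟨k' * k, by rw [mv_mul, hk, hk']⟩

end Cfsg.Agent.H3.Sz4
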