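import Cfsg.Agent.H3.Sz4

/-! Subgroups of `Sp₄(F)` containing transvections; invariant quadratic forms. -/

set_option autoImplicit false
set_option linter.unusedSectionVars false

namespace Cfsg.Agent.H3.Sz4

open Matrix hiding J
open Cfsg.Lie Cfsg.Agent.H3.Sz1 Cfsg.Agent.H3.Sz3
open Cfsg.Agent.H6.Suzuki (J pairOf_0 pairOf_1 pairOf_2 pairOf_3)

variable {F : Type*} [Field F] [CharP F 2] [Finite F] {P : Subgroup (G F)}

def Simp (P : Subgroup (G F)) : Prop :=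
  ∀ N ≤ P, (∀ g ∈ P, ∀ x ∈ N, g * x * g⁻¹ ∈ N) → N = ⊥ ∨ N = P

def FixQ (P : Subgroup (G F)) : Prop := ∃ Q, IsQ (B F) Q ∧ ∀ g ∈ P, ∀ v, Q (m g *ᵥ v) = Q v

def SubF (P : Subgroup (G F)) : Prop :=
  ∃ K : Subfield F, K ≠ ⊤ ∧ ∃ k : G F, ∀ g ∈ P, ∀ i j, m (k⁻¹ * g * k) i j ∈ K

def NPt (P : Subgroup (G F)) : Prop := ∀ k : G F, ¬ ∀ g ∈ P, k⁻¹ * g * k ∈ Mp F
def NLn (P : Subgroup (G F)) : Prop := ∀ k : G F, ¬ ∀ g ∈ P, k⁻¹ * g * k ∈ Ml F

/-- matrices over a subfield -/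
def Over (K : Subfield F) : Subgroup (G F) where
  carrier := {g | ∀ i j, m g i j ∈ K}
  mul_mem' := by
    intro g h hg hh i j
    rw [mul_app]
    exact add_mem (add_mem (add_mem (mul_mem (hg ..) (hh ..)) (mul_mem (hg ..) (hh ..)))
      (mul_mem (hg ..) (hh ..))) (mul_mem (hg ..) (hh ..))
  one_mem' := by
    intro i j
    rw [m_one, Matrix.one_apply]
    split_ifs
    exacts [one_mem _, zero_mem _]
  inv_mem' := by intro g hg i j; rw [inv_app]; exact hg ..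

theorem mem_Over {K : Subfield F} {g : G F} : g ∈ Over K ↔ ∀ i j, m g i j ∈ K := Iff.rfl

theorem NPt.not_fix (h : NPt P) {v : Fin 4 → F} (hv : v ≠ 0) (hf : ∀ g ∈ P, ∃ c : F, m g *ᵥ v = c • v) :
    False := by
  obtain ⟨k, rfl⟩ := exists_e0 hv
  refine h k fun g hg => ?_
  obtain ⟨c, hc⟩ := hf g hg
  have : m (k⁻¹ * g * k) *ᵥ Pi.single 0 1 = c • Pi.single 0 1 := by
    rw [mv_mul, mv_mul, hc, Matrix.mulVec_smul, mv_inv]
  have e1 := congrFun this 1
  have e2 := congrFun this 2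
  have e3 := congrFun this 3
  simp [mv] at e1 e2 e3
  exact ⟨e1, e2, e3⟩

theorem tv_swap {x y : Fin 4 → F} (h : B F x y ≠ 0) :
    ∃ w, m (tv w) *ᵥ x = y ∧ ∀ z, B F z x = B F z y → m (tv w) *ᵥ z = z := by
  obtain ⟨d, hd⟩ := exists_sq (B F x y)
  have d0 : d ≠ 0 := by rintro rfl; exact h (by rw [← hd]; ring)
  refine ⟨d⁻¹ • (x + y), ?_, fun z hz => ?_⟩
  · rw [tv_mv]
    simp only [map_smul, map_add, B_alt.self, ← hd, smul_eq_mul]
    vv
  · rw [tv_mv]
    simp [hz, CharTwo.add_self_eq_zero]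

theorem tv_swap2 (hP : ∀ v, tv v ∈ P) {x y y' : Fin 4 → F} (h : B F x y ≠ 0 ∨ B F x y' ≠ 0 ∧ B F y' y ≠ 0) :
    ∃ k ∈ P, m k *ᵥ x = y ∧ ∀ z, B F z x = B F z y → B F z x = B F z y' → m k *ᵥ z = z := by
  rcases h with h | ⟨h1, h2⟩
  · obtain ⟨w, h3, h4⟩ := tv_swap h
    exact ⟨_, hP w, h3, fun z hz _ => h4 z hz⟩
  · obtain ⟨w, h3, h4⟩ := tv_swap h1
    obtain ⟨w', h5, h6⟩ := tv_swap h2
    exact ⟨tv w' * tv w, mul_mem (hP _) (hP _), by rw [mv_mul, h3, h5],
      fun z hz hz' => by rw [mv_mul, h4 z hz', h6 z (hz'.symm.trans hz)]⟩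

theorem top_of_tv (hP : ∀ v, tv v ∈ P) : P = ⊤ := by
  have col : ∀ (g : G F) (j : Fin 4), m g *ᵥ Pi.single j 1 = fun i => m g i j := by
    intro g j; ext i; simp
  have s3 : ∀ g : G F, m g *ᵥ Pi.single 0 1 = Pi.single 0 1 → m g *ᵥ Pi.single 3 1 = Pi.single 3 1 →
      m g *ᵥ Pi.single 1 1 = Pi.single 1 1 → g ∈ P := by
    intro g h0 h3 h1
    rw [col] at h0 h3 h1
    obtain ⟨r, hr⟩ := exists_sq (m g 1 2)
    have := eq_u (g := g) (congrFun h0 0) (congrFun h0 1) (congrFun h0 2) (congrFun h0 3)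
      (congrFun h1 1) (congrFun h1 2)
    rw [this, show m g 0 1 = 0 from congrFun h1 0, show m g 1 3 = 0 from congrFun h3 1,
      show m g 0 3 = 0 from congrFun h3 0, ← hr]
    convert hP (Pi.single 1 r) using 1
    apply ext16 <;> simp [tv_app, m_u, Fin.rev, sq]
  have s2 : ∀ g : G F, m g *ᵥ Pi.single 0 1 = Pi.single 0 1 → m g *ᵥ Pi.single 3 1 = Pi.single 3 1 →
      g ∈ P := by
    intro g h0 h3
    have b0 := B_m g (Pi.single 0 1) (Pi.single 1 1)
    have b3 := B_m g (Pi.single 3 1) (Pi.single 1 1)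
    have b2 := B_m g (Pi.single 1 1) (Pi.single 2 1)
    rw [h0] at b0
    rw [h3] at b3
    obtain ⟨k, hk, h1, h2⟩ := tv_swap2 hP (x := m g *ᵥ Pi.single 1 1) (y := Pi.single 1 1)
      (y' := Pi.single 2 1) (by
        simp [B_app] at b0 b2 b3 ⊢
        grind)
    have := s3 (k * g) (by rw [mv_mul, h0, h2 _ b0 (by rw [b0]; simp [B_app])])
      (by rw [mv_mul, h3, h2 _ b3 (by rw [b3]; simp [B_app])]) (by rw [mv_mul, h1])
    simpa using mul_mem (inv_mem hk) this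
  have s1 : ∀ g : G F, m g *ᵥ Pi.single 0 1 = Pi.single 0 1 → g ∈ P := by
    intro g h0
    have b3 := B_m g (Pi.single 0 1) (Pi.single 3 1)
    rw [h0] at b3
    obtain ⟨k, hk, h1, h2⟩ := tv_swap2 hP (x := m g *ᵥ Pi.single 3 1) (y := Pi.single 3 1)
      (y' := Pi.single 0 1 + Pi.single 3 1) (by
        simp [B_app] at b3 ⊢
        grind)
    have := s2 (k * g) (by rw [mv_mul, h0, h2 _ b3 (by rw [b3]; simp [B_app])]) (by rw [mv_mul, h1])
    simpa using mul_mem (inv_mem hk) this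
  rw [eq_top_iff]
  intro g _
  obtain ⟨k, hk, h1, -⟩ : ∃ k ∈ P, m k *ᵥ (m g *ᵥ Pi.single 0 1) = Pi.single 0 1 ∧ True := by
    have b3 := B_m g (Pi.single 0 1) (Pi.single 3 1)
    by_cases h0 : m g 0 0 = 0
    · obtain ⟨k, hk, h1, -⟩ := tv_swap2 hP (x := m g *ᵥ Pi.single 0 1) (y := Pi.single 0 1)
        (y' := m g *ᵥ Pi.single 3 1 + (1 + m g 3 3) • Pi.single 3 1) (Or.inr (by
          simp [B_app, h0] at b3 ⊢
          grind))
      exact ⟨k, hk, h1, trivial⟩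
    · obtain ⟨k, hk, h1, -⟩ := tv_swap2 hP (x := m g *ᵥ Pi.single 0 1) (y := Pi.single 0 1)
        (y' := Pi.single 3 1) (Or.inr (by simp [B_app, h0]))
      exact ⟨k, hk, h1, trivial⟩
  simpa using mul_mem (inv_mem hk) (s1 (k * g) (by rw [mv_mul, h1]))

def Q0 (v : Fin 4 → F) : F := v 0 * v 3 + v 1 * v 2

theorem isQ0 : IsQ (B F) Q0 :=
  ⟨fun u v => by simp [Q0, B_app]; ring, fun a v => by simp [Q0]; ring⟩

theorem tv_ne_one {v : Fin 4 → F} (hv : v ≠ 0) : tv v ≠ 1 := by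
  intro h
  apply hv
  apply B_nd
  intro w
  have := tv_mv v w
  rw [h, m_one, Matrix.one_mulVec, left_eq_add, smul_eq_zero] at this
  rw [B_alt.symm]
  exact this.resolve_right hv

theorem tv_inv (x : Fin 4 → F) : (tv x)⁻¹ = tv x := by
  apply inv_eq_of_mul_eq_one_right
  apply ext_mv
  intro y
  simp only [mv_mul, tv_mv, m_one, Matrix.one_mulVec, map_add, map_smul, LinearMap.add_apply,
    LinearMap.smul_apply, B_alt.self, smul_eq_mul]
  vv

theorem exists_perp {M : Submodule F (Fin 4 → F)} (h : M ≠ ⊤) : ∃ n ≠ 0, ∀ w ∈ M, B F n w = 0 := by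
  obtain ⟨f, f0, hf⟩ := M.exists_le_ker_of_lt_top (lt_top_iff_ne_top.2 h)
  have hn : ∀ w, B F (fun i => f (Pi.single i.rev 1)) w = f w := by
    intro w
    conv_rhs => rw [← Finset.univ_sum_single w]
    have : ∀ i, (Pi.single i (w i) : Fin 4 → F) = w i • Pi.single i 1 := fun i => by
      rw [← Pi.single_smul, smul_eq_mul, mul_one]
    simp only [this, Fin.sum_univ_four, map_add, map_smul, B_app, smul_eq_mul]
    simp [Fin.rev]; ring
  refine ⟨_, fun e => f0 (LinearMap.ext fun w => ?_), fun w hw => (hn w).trans (hf hw)⟩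
  rw [← hn, e]; simp

theorem subF_of {X : Set (Fin 4 → F)} (hX : Dat (B F) X) {K : Subfield F} (hK : ∀ u ∈ X, ∀ v ∈ X, B F u v ∈ K) :
    ∃ k : G F, ∀ v ∈ X, k⁻¹ * tv v * k ∈ Over K := by
  obtain ⟨x, hx⟩ := hX.ne
  obtain ⟨y, hy, e⟩ := hX.nice.nb x hx
  rw [B_alt.symm] at e
  obtain ⟨z, hz, w, hw, -, -, hδ⟩ := hX.exists_out (by simp) hx hy e
  obtain ⟨g, hg⟩ : ∃ g, B F x y = g := ⟨_, rfl⟩
  have hyx : B F y x = g := (B_alt.symm y x).trans hg
  obtain ⟨δ, hd⟩ : ∃ δ, B F x y * B F z w + B F x z * B F y w + B F y z * B F x w = δ := ⟨_, rfl⟩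
  have gK : g ∈ K := hg ▸ hK x hx y hy
  have dK : δ ∈ K := hd ▸ add_mem (add_mem (mul_mem (hK _ hx _ hy) (hK _ hz _ hw))
    (mul_mem (hK _ hx _ hz) (hK _ hy _ hw))) (mul_mem (hK _ hy _ hz) (hK _ hx _ hw))
  rw [hd] at hδ
  rw [hg] at e hd
  let c : Fin 4 → Fin 4 → F := ![x, z + (B F y z / g) • x + (B F x z / g) • y,
    (g / δ) • (w + (B F y w / g) • x + (B F x w / g) • y), g⁻¹ • y]
  have hc : ∀ i j, B F (c i) (c j) = J F i j := by
    have s1 := B_alt.symm z x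
    have s2 := B_alt.symm z y
    have s3 := B_alt.symm w x
    have s4 := B_alt.symm w y
    have s5 := B_alt.symm w z
    intro i j
    fin_cases i <;> fin_cases j <;>
      simp [c, J, B_alt.self, hg, hyx, s1, s2, s3, s4, s5] <;> clear * - e hd hδ <;> grind
  have hk : (Matrix.of c)ᵀᵀ * J F * (Matrix.of c)ᵀ = J F := by
    ext i j
    rw [← hc, B_app]
    simp [J, Matrix.mul_apply, Fin.sum_univ_four, Matrix.vecMul, dotProduct]
    ring
  refine ⟨mk _ hk, fun v hv => ?_⟩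
  have h1 : ∀ i, B F (c i) v ∈ K := by
    have a1 := hK x hx v hv
    have a2 := hK y hy v hv
    have a3 := hK z hz v hv
    have a4 := hK w hw v hv
    have b1 := div_mem (hK y hy z hz) gK
    have b2 := div_mem (hK x hx z hz) gK
    have b3 := div_mem (hK y hy w hw) gK
    have b4 := div_mem (hK x hx w hw) gK
    intro i
    fin_cases i
    · exact a1
    · simpa [c] using add_mem (add_mem a3 (mul_mem b1 a1)) (mul_mem b2 a2)
    · simpa [c, mul_add] using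
        mul_mem (div_mem gK dK) (add_mem (add_mem a4 (mul_mem b3 a1)) (mul_mem b4 a2))
    · simpa [c] using mul_mem (inv_mem gK) a2
  have h2 : ∀ i, (m (mk _ hk)⁻¹ *ᵥ v) i = B F (c i.rev) v := by
    intro i
    rw [mv, B_app]
    simp [inv_app, m_mk, Fin.rev]
    ring
  have := tv_conj (mk _ hk)⁻¹ v
  rw [inv_inv] at this
  rw [this]
  intro i j
  rw [tv_app, h2, h2]
  exact add_mem ((Over K).one_mem i j) (mul_mem (h1 _) (h1 _))

theorem no_tv (h4 : 4 ≤ Nat.card F) (hs : Simp P) (hp : NPt P) (hQ : ¬ FixQ P) (hK : ¬ SubF P)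
    (ht : P ≠ ⊤) {v : Fin 4 → F} (hv : v ≠ 0) : tv v ∉ P := by
  intro hvP
  let X : Set (Fin 4 → F) := {x | ∃ g ∈ P, x = m g *ᵥ v}
  have hXP : ∀ x ∈ X, tv x ∈ P := by
    rintro _ ⟨g, hg, rfl⟩
    rw [← tv_conj]; exact mul_mem (mul_mem hg hvP) (inv_mem hg)
  have hXg : ∀ g ∈ P, ∀ x ∈ X, m g *ᵥ x ∈ X := by
    rintro g hg _ ⟨g', hg', rfl⟩
    exact ⟨g * g', mul_mem hg hg', (mv_mul ..).symm⟩
  have hvX : v ∈ X := ⟨1, one_mem _, by simp [m_one]⟩
  have hgen : ∀ L : Subgroup (G F), (∀ x ∈ X, tv x ∈ L) → P ≤ L := by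
    intro L hL
    have := hs (Subgroup.closure (tv '' X)) ((Subgroup.closure_le _).2 (by
      rintro _ ⟨x, hx, rfl⟩; exact hXP x hx)) (by
      intro g hg x hx
      have : Subgroup.closure (tv '' X) ≤ (Subgroup.closure (tv '' X)).comap (MulAut.conj g).toMonoidHom :=
        (Subgroup.closure_le _).2 (by
          rintro _ ⟨x, hx, rfl⟩
          exact Subgroup.subset_closure ⟨_, hXg g hg x hx, (tv_conj g x).symm⟩)
      exact this hx)
    rcases this with h | h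
    · exact absurd ((Subgroup.eq_bot_iff_forall _).1 h _ (Subgroup.subset_closure ⟨v, hvX, rfl⟩))
        (tv_ne_one hv)
    · rw [← h, Subgroup.closure_le]
      rintro _ ⟨x, hx, rfl⟩; exact hL x hx
  have hfix : ∀ n, (∀ x ∈ X, B F n x = 0) → n = 0 := by
    intro n hn
    by_contra n0
    let L : Subgroup (G F) :=
      { carrier := {g | m g *ᵥ n = n}
        mul_mem' := fun {a b} ha hb => by
          show m (a * b) *ᵥ n = n
          rw [mv_mul, hb, ha]
        one_mem' := by simp [m_one]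
        inv_mem' := fun {a} ha => by
          show m a⁻¹ *ᵥ n = n
          conv_lhs => rw [← show m a *ᵥ n = n from ha]
          exact mv_inv .. }
    refine hp.not_fix n0 fun g hg => ⟨1, ?_⟩
    rw [one_smul]
    exact hgen L (fun x hx => by show _ = _; rw [tv_mv, hn x hx]; simp) hg
  have hX : Dat (B F) X := by
    refine ⟨B_alt, B_nd, fun y hy z hz => ?_, ?_, ⟨v, hvX⟩, fun M hM => ?_⟩
    · rw [← tv_mv]; exact hXg _ (hXP z hz) y hy
    · rintro ⟨g, -, e⟩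
      apply hv
      rw [← mv_inv g v, ← e, Matrix.mulVec_zero]
    · let L : Subgroup (G F) :=
        { carrier := {g | ∀ w ∈ M, m g *ᵥ w ∈ M ∧ m g⁻¹ *ᵥ w ∈ M}
          mul_mem' := fun {a b} ha hb w hw => by
            rw [mv_mul, _root_.mul_inv_rev, mv_mul]
            exact ⟨(ha _ (hb w hw).1).1, (hb _ (ha w hw).2).2⟩
          one_mem' := by simp [m_one]
          inv_mem' := fun {a} ha w hw => by simpa using (ha w hw).symm }
      have hL : P ≤ L := hgen L fun x hx w hw => by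
        have h1 : m (tv x) *ᵥ w ∈ M := by
          rw [tv_mv]
          rcases hM x hx with h | h
          · exact add_mem hw (M.smul_mem _ h)
          · rw [B_alt.symm, h w hw]; simpa
        rw [tv_inv]; exact ⟨h1, h1⟩
      rcases hM v hvX with h | h
      · right
        by_contra hne
        obtain ⟨n, n0, hn⟩ := exists_perp hne
        exact n0 (hfix n (by rintro _ ⟨g, hg, rfl⟩; exact hn _ (hL hg v h).1))
      · left
        rw [eq_bot_iff]
        intro w hw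
        refine hfix w ?_
        rintro _ ⟨g, hg, rfl⟩
        rw [← mv_inv' g w, B_m, B_alt.symm]
        exact h _ (hL hg w hw).2
  rcases hX.main (by simp) h4 isQ0 with ⟨K, hKt, h⟩ | ⟨Q, h1, h2⟩ | h
  · obtain ⟨k, hk⟩ := subF_of hX h
    exact hK ⟨K, hKt, k, fun g hg =>
      hgen ((Over K).comap (MulAut.conj k⁻¹).toMonoidHom) (fun x hx => by simpa using hk x hx) hg⟩
  · let L : Subgroup (G F) :=
      { carrier := {g | ∀ w, Q (m g *ᵥ w) = Q w}
        mul_mem' := fun {a b} ha hb w => by rw [mv_mul, ha, hb]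
        one_mem' := by simp [m_one]
        inv_mem' := fun {a} ha w => by rw [← ha, mv_inv'] }
    refine hQ ⟨Q, h1, fun g hg => hgen L (fun x hx w => ?_) hg⟩
    rw [tv_mv, h1.add, h1.smul, h2 x hx, map_smul, smul_eq_mul]
    clear * -; grind
  · refine ht (top_of_tv fun w => ?_)
    by_cases w0 : w = 0
    · have : tv w = 1 := ext_mv fun y => by simp [tv_mv, w0, m_one]
      rw [this]; exact one_mem _
    · exact hXP w (h w w0)

/-- averaging an invariant quadratic form -/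
theorem fixQ_of {T : Subgroup (G F)} (ho : Odd (T.relIndex P)) {Q : (Fin 4 → F) → F} (hQ : IsQ (B F) Q)
    (h : ∀ g ∈ T, g ∈ P → ∀ v, Q (m g *ᵥ v) = Q v) : FixQ P := by
  obtain ⟨ι, _, x, hι, -, hx⟩ := avg ho
  refine ⟨fun v => ∑ i, Q (m (x i)⁻¹ *ᵥ v), ⟨fun u v => ?_, fun a v => ?_⟩, fun g hg v => ?_⟩
  · simp only [Matrix.mulVec_add, hQ.add, B_m, Finset.sum_add_distrib, Finset.sum_const,
      Finset.card_univ]
    obtain ⟨n, hn⟩ := hι
    rw [hn, nsmul_eq_mul]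
    push_cast
    grind
  · simp only [Matrix.mulVec_smul, hQ.smul, Finset.mul_sum]
  · have := hx (fun y => Q (m y⁻¹ *ᵥ v)) (fun y t ht htP => by
      rw [_root_.mul_inv_rev, mv_mul, h _ (inv_mem ht) (inv_mem htP)]) g⁻¹ (inv_mem hg)
    simpa only [_root_.mul_inv_rev, inv_inv, mv_mul] using this

theorem Q_eq {Q : (Fin 4 → F) → F} (hQ : IsQ (B F) Q) : ∃ f : Fin 4 → F, ∀ x,
    Q x = Q0 x + (f 0 * x 0 + f 1 * x 1 + f 2 * x 2 + f 3 * x 3) ^ 2 := by
  choose f hf using fun i : Fin 4 => exists_sq (Q (Pi.single i 1))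
  refine ⟨f, fun x => ?_⟩
  have : x = x 0 • Pi.single 0 1 + x 1 • Pi.single 1 1 + x 2 • Pi.single 2 1 + x 3 • Pi.single 3 1 := by
    ext i; fin_cases i <;> simp
  conv_lhs => rw [this]
  simp only [hQ.add, hQ.smul, ← hf]
  simp [B_app, Q0]
  grind

theorem scalar_of {C : Matrix (Fin 4) (Fin 4) F} (h : ∀ v w, B F v w = 0 → B F (C *ᵥ v) w = 0) :
    C = C 0 0 • (1 : Matrix (Fin 4) (Fin 4) F) := by
  have h1 : ∀ i j : Fin 4, i ≠ j → C i j = 0 := by
    intro i j hij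
    have := h (Pi.single j 1) (Pi.single i.rev 1) (by
      fin_cases i <;> fin_cases j <;> simp [B_app, Fin.rev] at hij ⊢)
    fin_cases i <;> simpa [B_app, Fin.rev] using this
  have a1 := h ![1, 1, 0, 0] ![0, 0, 1, 1] (by simp [B_app]; grind)
  have a2 := h ![1, 0, 1, 0] ![0, 1, 0, 1] (by simp [B_app]; grind)
  have a3 := h ![0, 1, 0, 1] ![1, 0, 1, 0] (by simp [B_app]; grind)
  simp [B_app, Matrix.mulVec, dotProduct, Fin.sum_univ_four, h1] at a1 a2 a3
  ext i j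
  fin_cases i <;> fin_cases j <;> simp [h1] <;> clear h h1 <;> grind

/-- Plücker coordinates -/
def pl (v w : Fin 4 → F) : Fin 4 → F :=
  ![v 0 * w 1 + v 1 * w 0, v 0 * w 2 + v 2 * w 0, v 1 * w 3 + v 3 * w 1, v 2 * w 3 + v 3 * w 2]

theorem γ_pl (g : G F) {v w : Fin 4 → F} (h : B F v w = 0) :
    m (γ g) *ᵥ pl v w = pl (m g *ᵥ v) (m g *ᵥ w) := by
  rw [B_app] at h
  have := rr g
  ext i
  rw [mv]
  fin_cases i <;> simp [pl, mv, γ_app, pairOf_0, pairOf_1, pairOf_2, pairOf_3] <;> grind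

theorem not_fixQ_γ (hP : ⁅P, P⁆ = P)
    (hc : ∀ A : Matrix (Fin 4) (Fin 4) F, (∀ g ∈ P, A * m g = m g * A) → ∃ c : F, A = c • 1) :
    ¬ FixQ (P.map γ) := by
  rintro ⟨Q, hQ, h⟩
  obtain ⟨f, hf⟩ := Q_eq hQ
  obtain ⟨A, hA⟩ : ∃ A : Matrix (Fin 4) (Fin 4) F,
    A = !![1, f 2, f 3, 0; f 1, 0, 0, f 3; f 0, 0, 0, f 2; 0, f 0, f 1, 1] := ⟨_, rfl⟩
  have h1 : ∀ v w, B F v w = 0 → Q (pl v w) = B F (A *ᵥ v) w ^ 2 := by
    intro v w e
    rw [B_app] at e
    simp [hf, hA, pl, Q0, B_app, Matrix.mulVec, dotProduct, Fin.sum_univ_four]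
    clear * - e; grind
  have h2 : ∀ g ∈ P, ∃ l : F, A * m g = m g * (A + l • 1) := by
    intro g hg
    have := scalar_of (C := m g⁻¹ * A * m g + A) fun v w e => by
      have e1 := h _ ⟨g, hg, rfl⟩ (pl v w)
      rw [γ_pl g e, h1 _ _ e, h1 _ _ (by rwa [B_m])] at e1
      rw [Matrix.add_mulVec, map_add, LinearMap.add_apply, ← sq_inj e1, ← B_m g,
        ← Matrix.mulVec_mulVec, ← Matrix.mulVec_mulVec, mv_inv']
      exact CharTwo.add_self_eq_zero _
    refine ⟨(m g⁻¹ * A * m g + A) 0 0, ?_⟩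
    rw [← this, add_comm _ A, ← add_assoc, CharTwo.add_self_eq_zero, zero_add, ← Matrix.mul_assoc,
      ← Matrix.mul_assoc, ← m_mul, mul_inv_cancel, m_one, Matrix.one_mul]
  have h3 : ∀ (g g' : G F) (l l' : F), A * m g = m g * (A + l • 1) → A * m g' = m g' * (A + l' • 1) →
      A * m (g * g') = m (g * g') * (A + (l + l') • 1) := by
    intro g g' l l' e e'
    rw [m_mul, ← Matrix.mul_assoc, e, Matrix.mul_assoc, add_mul, e', Matrix.mul_assoc]
    simp [mul_add, add_smul, add_assoc, add_comm, add_left_comm]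
  have h4 : ∀ (g : G F) (l : F), A * m g = m g * (A + l • 1) → A * m g⁻¹ = m g⁻¹ * (A + l • 1) := by
    intro g l e
    have e1 : m g⁻¹ * (A * m g) * m g⁻¹ = m g⁻¹ * (m g * (A + l • 1)) * m g⁻¹ := by rw [e]
    rw [Matrix.mul_assoc, Matrix.mul_assoc, ← m_mul, mul_inv_cancel, m_one, Matrix.mul_one,
      ← Matrix.mul_assoc, ← m_mul, inv_mul_cancel, m_one, Matrix.one_mul] at e1
    rw [mul_add, e1, add_mul, add_assoc]
    simp [CharTwo.add_self_eq_zero]
  let L : Subgroup (G F) :=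
    { carrier := {g | A * m g = m g * A}
      mul_mem' := fun {a b} ha hb => by simpa using h3 a b 0 0 (by simpa using ha) (by simpa using hb)
      one_mem' := by simp [m_one]
      inv_mem' := fun {a} ha => by simpa using h4 a 0 (by simpa using ha) }
  have hL : ⁅P, P⁆ ≤ L := by
    rw [Subgroup.commutator_le]
    intro g hg g' hg'
    obtain ⟨l, e⟩ := h2 g hg
    obtain ⟨l', e'⟩ := h2 g' hg'
    have := h3 _ _ _ _ (h3 _ _ _ _ (h3 _ _ _ _ e e') (h4 _ _ e)) (h4 _ _ e')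
    rw [show l + l' + l + l' = 0 by clear * -; grind, zero_smul, add_zero] at this
    exact this
  obtain ⟨c, e⟩ := hc A fun g hg => hL (hP.symm ▸ hg)
  have e0 := congrFun (congrFun e 0) 0
  have e1 := congrFun (congrFun e 1) 1
  simp [hA] at e0 e1
  exact one_ne_zero (e0.trans e1.symm)

end Cfsg.Agent.H3.Sz4
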