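import Cfsg.Agent.H3.Sz5

/-! Subgroups of `Sp₄(F)` all of whose involutions are of type `c₂`: set-up and the first case. -/

set_option autoImplicit false
set_option linter.unusedSectionVars false

namespace Cfsg.Agent.H3.Sz4

open Matrix hiding J
open Cfsg.Lie Cfsg.Agent.H3.Sz1 Cfsg.Agent.H3.Sz3

variable {F : Type*} [Field F] [CharP F 2] [Finite F] {P : Subgroup (G F)}

structure Hyp (P : Subgroup (G F)) : Prop where
  perf : ⁅P, P⁆ = P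
  b1 : ∀ (k : G F) (s : F), s ≠ 0 → k * u 0 0 0 s * k⁻¹ ∉ P
  a2 : ∀ (k : G F) (b : F), b ≠ 0 → k * u 0 0 b 0 * k⁻¹ ∉ P
  npt : NPt P
  nln : NLn P
  syl : Odd ((P ⊓ U F).relIndex P)

/-- conjugate subgroup -/
def cj (k : G F) (P : Subgroup (G F)) : Subgroup (G F) := P.map (MulAut.conj k).toMonoidHom

theorem mem_cj {k x : G F} : x ∈ cj k P ↔ k⁻¹ * x * k ∈ P := by
  constructor
  · rintro ⟨y, hy, rfl⟩; simpa [mul_assoc] using hy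
  · intro h; exact ⟨_, h, by simp [mul_assoc]⟩

theorem cj_mem {k x : G F} (h : x ∈ P) : k * x * k⁻¹ ∈ cj k P := ⟨x, h, rfl⟩

theorem NPt.cj (h : NPt P) (k : G F) : NPt (cj k P) := fun k' hk =>
  h (k⁻¹ * k') fun g hg => by simpa [mul_assoc] using hk _ (cj_mem hg)

theorem NLn.cj (h : NLn P) (k : G F) : NLn (cj k P) := fun k' hk =>
  h (k⁻¹ * k') fun g hg => by simpa [mul_assoc] using hk _ (cj_mem hg)

theorem perf_map (h : ⁅P, P⁆ = P) (f : G F →* G F) : ⁅P.map f, P.map f⁆ = P.map f := by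
  rw [← Subgroup.map_commutator, h]

theorem syl_map (h : Odd ((P ⊓ U F).relIndex P)) {f : G F →* G F} (hf : Function.Injective f)
    (hU : ∀ x, f x ∈ U F ↔ x ∈ U F) : Odd ((P.map f ⊓ U F).relIndex (P.map f)) := by
  have : P.map f ⊓ U F = (P ⊓ U F).map f := by
    ext x
    constructor
    · rintro ⟨⟨y, hy, rfl⟩, h2⟩; exact ⟨y, ⟨hy, (hU y).1 h2⟩, rfl⟩
    · rintro ⟨y, ⟨hy, h2⟩, rfl⟩; exact ⟨⟨y, hy, rfl⟩, (hU y).2 h2⟩
  rwa [this, Subgroup.relIndex_map_map_of_injective _ _ hf]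

theorem Hyp.cj (h : Hyp P) (k : G F) (hk : Odd ((cj k P ⊓ U F).relIndex (cj k P))) : Hyp (cj k P) :=
  ⟨perf_map h.perf _, fun k' s hs hm => h.b1 (k⁻¹ * k') s hs (by simpa [mul_assoc] using mem_cj.1 hm),
    fun k' s hs hm => h.a2 (k⁻¹ * k') s hs (by simpa [mul_assoc] using mem_cj.1 hm),
    h.npt.cj k, h.nln.cj k, hk⟩

theorem Hyp.cj' (h : Hyp P) (k : G F) (hk : ∀ x ∈ U F, k * x * k⁻¹ ∈ U F) : Hyp (Sz4.cj k P) := by
  refine h.cj k (syl_map h.syl (MulAut.conj k).injective fun x => ⟨fun hx => ?_, hk x⟩)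
  let f : U F → U F := fun y => ⟨_, hk y y.2⟩
  have hf : Function.Injective f := fun y y' e => by
    simpa [f] using e
  obtain ⟨y, hy⟩ := Finite.surjective_of_injective hf ⟨_, hx⟩
  have : y.1 = x := by simpa [f] using hy
  exact this ▸ y.2

theorem Hyp.cjU (h : Hyp P) {k : G F} (hk : k ∈ U F) : Hyp (Sz4.cj k P) :=
  h.cj' k fun _ hx => mul_mem (mul_mem hk hx) (inv_mem hk)

theorem Hyp.cjd (h : Hyp P) (l k : Fˣ) : Hyp (Sz4.cj (dg l k) P) :=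
  h.cj' _ (by rintro _ ⟨a, c, b, s, rfl⟩; rw [dg_conj]; exact u_mem ..)

theorem NLn.dual (h : NLn P) : NPt (P.map γ) := by
  intro k hk
  obtain ⟨k, rfl⟩ := γ_surj k
  exact h k fun g hg => γ_Mp_iff.1 (by simpa using hk _ ⟨g, hg, rfl⟩)

theorem NPt.dual (h : NPt P) : NLn (P.map γ) := by
  intro k hk
  obtain ⟨k, rfl⟩ := γ_surj k
  exact h k fun g hg => γ_Ml_iff.1 (by simpa using hk _ ⟨g, hg, rfl⟩)

theorem mem_γ {x : G F} : γ x ∈ P.map γ ↔ x ∈ P := Subgroup.mem_map_iff_mem γ_inj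

theorem Hyp.dual (h : Hyp P) : Hyp (P.map γ) := by
  refine ⟨perf_map h.perf _, fun k s hs hm => ?_, fun k s hs hm => ?_, h.nln.dual, h.npt.dual,
    syl_map h.syl γ_inj fun _ => γ_U_iff⟩
  · obtain ⟨k, rfl⟩ := γ_surj k
    obtain ⟨r, rfl⟩ := exists_sq s
    refine h.a2 k r (by simpa using hs) (mem_γ.1 ?_)
    simpa [γ_u] using hm
  · obtain ⟨k, rfl⟩ := γ_surj k
    refine h.b1 k s hs (mem_γ.1 ?_)
    simpa [γ_u] using hm

theorem conj_p {a : F} (a0 : a ≠ 0) (b s : F) :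
    (w1 F * u 0 (b / a) 0 0)⁻¹ * u 0 0 a s * (w1 F * u 0 (b / a) 0 0)⁻¹⁻¹ = u a 0 b s := by
  rw [inv_inv, mul_assoc, inv_mul_eq_iff_eq_mul]
  gx

theorem conj_l {c r s : F} (h : r ^ 2 * c = s) (b : F) :
    (w2 F * u r 0 0 0)⁻¹ * u 0 0 (b + r * c) c * (w2 F * u r 0 0 0)⁻¹⁻¹ = u 0 c b s := by
  rw [inv_inv, mul_assoc, inv_mul_eq_iff_eq_mul]
  gx

namespace Hyp

variable (h : Hyp P)
include h

theorem f0 {k : G F} {b s : F} (hm : k * u 0 0 b s * k⁻¹ ∈ P) (hne : ¬ (b = 0 ∧ s = 0)) :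
    b ≠ 0 ∧ s ≠ 0 := by
  constructor
  · rintro rfl; exact h.b1 k s (by simpa using hne) hm
  · rintro rfl; exact h.a2 k b (by simpa using hne) hm

theorem fz {b s : F} (hm : u 0 0 b s ∈ P) (hne : ¬ (b = 0 ∧ s = 0)) : b ≠ 0 ∧ s ≠ 0 :=
  h.f0 (k := 1) (by simpa) hne

theorem fz' {b s : F} (hm : u 0 0 b s ∈ P) (hb : b = 0) : s = 0 := by
  by_contra hs; exact (h.fz hm (fun e => hs e.2)).1 hb

theorem fp {a b s : F} (hm : u a 0 b s ∈ P) (hne : u a 0 b s ≠ 1) : s ≠ 0 := by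
  by_cases a0 : a = 0
  · subst a0; exact (h.fz hm (by simpa [u_eq_one] using hne)).2
  · exact (h.f0 (conj_p a0 b s ▸ hm) (by simp [a0])).2

theorem fl {c b s : F} (hm : u 0 c b s ∈ P) (c0 : c ≠ 0) : b ^ 2 ≠ c * s := by
  obtain ⟨r, hr⟩ := exists_sq (s / c)
  have e : r ^ 2 * c = s := by rw [hr]; field_simp
  have := (h.f0 (conj_l e b ▸ hm) (by simp [c0])).1
  intro e2
  apply this
  apply sq_inj
  clear * - e e2; grind

theorem into {L : Subgroup (G F)} (h1 : P ⊓ U F ≤ L) (h2 : L ≤ P) {y : G F} (hy : y ∈ L) (y2 : y * y = 1) :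
    ∃ x ∈ L, ∃ a c b s, y = x * u a c b s * x⁻¹ ∧ u a c b s ∈ P ∧ (a = 0 ∨ c = 0) := by
  obtain ⟨x, hx, hP, a, c, b, s, e⟩ := conj_into (odd_rel h.syl h1 h2) hy (k := 1) (by simpa [sq])
  refine ⟨x, hx, a, c, b, s, by rw [← e]; group, e ▸ hP, ?_⟩
  have : u a c b s * u a c b s = 1 := by
    rw [← e]
    calc _ = x⁻¹ * (y * y) * x := by group
      _ = 1 := by rw [y2]; group
  rw [u_sq, u_eq_one] at this
  exact mul_eq_zero.1 this.2.2.1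

theorem cit {z : G F} (hz : z ∈ P) (z1 : z ≠ 1) (z2 : z * z = 1) {x : G F} (e : x * z = z * x) :
    x ^ 4 = 1 := by
  obtain ⟨y, hy, hP, hU⟩ := conj_into h.syl hz (k := 1) (by simpa [sq])
  obtain ⟨k, b, s, e1⟩ := inv_conj hU (by
    calc _ = y⁻¹ * (z * z) * y := by group
      _ = 1 := by rw [z2]; group)
  have e2 : z = (k * y⁻¹)⁻¹ * u 0 0 b s * (k * y⁻¹)⁻¹⁻¹ := by rw [← e1]; group
  obtain ⟨b0, s0⟩ := h.f0 (e2 ▸ hz) (by
    rintro ⟨rfl, rfl⟩; exact z1 (by rw [e2, u_zero]; group))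
  have := U_pow4 (cent (g := (k * y⁻¹) * x * (k * y⁻¹)⁻¹) b0 s0 (by
    rw [← e1]
    calc _ = k * y⁻¹ * (x * z) * y * k⁻¹ := by group
      _ = _ := by rw [e]; group))
  rwa [conj_pow, conj_eq_one_iff] at this

end Hyp

theorem B_u (a c b s : F) (v : Fin 4 → F) (h : a * c = 0) :
    B F v (m (u a c b s) *ᵥ v) = c * v 2 ^ 2 + s * v 3 ^ 2 := by
  simp only [B_app, mv]; simp [m_u]; grind

theorem Mp_of_conj {g : G F} {a b s a' b' s' : F} (s0 : s' ≠ 0) (e : g * u a 0 b s * g⁻¹ = u a' 0 b' s') :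
    g ∈ Mp F := by
  have key : ∀ v, s' * (m g *ᵥ v) 3 ^ 2 = s * v 3 ^ 2 := by
    intro v
    have h1 := B_u a' 0 b' s' (m g *ᵥ v) (by simp)
    rw [← e, mv_mul, mv_inv, mv_mul, B_m, B_u _ _ _ _ _ (by simp)] at h1
    simpa using h1.symm
  have h0 := key (Pi.single 0 1)
  have h1 := key (Pi.single 1 1)
  have h2 := key (Pi.single 2 1)
  simp [s0] at h0 h1 h2
  have := rr g
  refine ⟨?_, ?_, h0⟩ <;> clear key e <;> grind

theorem TU_le_Mp : P ⊓ U F ≤ P ⊓ Mp F := inf_le_inf_left _ U_le_Mp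

theorem Hyp.inv_Mp (h : Hyp P) (nb : ∀ c b s, u 0 c b s ∈ P → c = 0) {y : G F} (hy : y ∈ P ⊓ Mp F)
    (y2 : y * y = 1) : ∃ a b s, y = u a 0 b s := by
  obtain ⟨x, hx, a, c, b, s, e, hP, h0⟩ := h.into TU_le_Mp inf_le_left hy y2
  have : c = 0 := h0.elim (fun e => nb c b s (e ▸ hP)) id
  subst this
  exact ⟨_, _, _, e.trans (conj_e hx.2 ..)⟩

theorem Hyp.se (h : Hyp P) (nb : ∀ c b s, u 0 c b s ∈ P → c = 0) : SE P (P ⊓ Mp F) := by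
  refine ⟨inf_le_left, fun g hg y hy y1 y2 hy' => ⟨hg, ?_⟩, fun z hz z1 z2 x _ e => h.cit hz z1 z2 e⟩
  obtain ⟨a, b, s, rfl⟩ := h.inv_Mp nb hy y2
  obtain ⟨a', b', s', e⟩ := h.inv_Mp nb hy' (by rw [conj_mul, y2]; simp)
  exact Mp_of_conj (h.fp (e ▸ hy'.1) (by rw [← e]; simpa using y1)) e

theorem Hyp.exists_t (h : Hyp P) (nb : ∀ c b s, u 0 c b s ∈ P → c = 0) {b s : F} (hz : u 0 0 b s ∈ P)
    (b0 : b ≠ 0) : ∃ t ∈ P, t * t = 1 ∧ t ∉ P ⊓ Mp F := by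
  obtain ⟨g, hg, gn⟩ : ∃ g ∈ P, g ∉ Mp F := by
    have := h.npt 1
    push Not at this
    simpa using this
  obtain ⟨t, ht, t2, e⟩ := (h.se nb).exists_t (z := u 0 0 b s) ⟨hz, U_le_Mp (u_mem ..)⟩
    (by simp [u_eq_one, b0]) (by simp [u_sq, u_zero]) hg (fun h' => gn h'.2)
  exact ⟨t, ht, t2, fun h' => gn (by simpa using (mul_mem h' (inv_mem e)).2)⟩

/-- a coordinate as a homomorphism -/
def φc (P : Subgroup (G F)) : ↥(P ⊓ U F) →* Multiplicative F where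
  toFun y := Multiplicative.ofAdd (m y.1 1 2)
  map_one' := by simp [m_one]
  map_mul' := by
    rintro ⟨_, h1, a, c, b, s, rfl⟩ ⟨_, h2, a', c', b', s', rfl⟩
    simp [u_mul, m_u]

theorem Hyp.no_index_two (h : Hyp P) {c₀ : F} (h1 : ∀ a c b s, u a c b s ∈ P → c ≠ 0 → a ≠ 0 ∧ c = c₀)
    {a c b s : F} (hm : u a c b s ∈ P) : c = 0 := by
  by_contra c0
  obtain ⟨a0, rfl⟩ := h1 _ _ _ _ hm c0
  refine transfer_lem inf_le_left h.perf h.syl (φc P) (c := Multiplicative.ofAdd c) (by simpa)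
    (by rw [← ofAdd_add, CharTwo.add_self_eq_zero]; rfl) ?_ ?_ hm (by simp [u_sq, u_eq_one, a0, c0])
    (u_pow4 ..)
  · rintro ⟨_, hP, a', c', b', s', rfl⟩ e
    have : u a' c' b' s' * u a' c' b' s' = 1 := congrArg Subtype.val e
    rw [u_sq, u_eq_one] at this
    by_contra hc
    have c0' : c' ≠ 0 := by simpa [φc, m_u] using hc
    exact mul_ne_zero (h1 _ _ _ _ hP c0').1 c0' this.2.2.1
  · rintro ⟨_, hP, a', c', b', s', rfl⟩ e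
    have c0' : c' ≠ 0 := by
      rintro rfl
      exact e (Subtype.ext (by simp [u_sq, u_zero]))
    simpa [φc, m_u] using (h1 _ _ _ _ hP c0').2

theorem Hyp.fixQ (h : Hyp P) {f₁ f₂ : F}
    (h1 : ∀ a c b s, u a c b s ∈ P → c = 0 ∧ s = a * b + b ^ 2 * f₁ + a ^ 2 * f₂) : FixQ P := by
  refine fixQ_of h.syl (Q := fun v => Q0 v + f₁ * v 1 ^ 2 + f₂ * v 2 ^ 2)
    ⟨fun u v => by simp [Q0, B_app]; clear * -; grind, fun a v => by simp [Q0]; ring⟩ ?_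
  rintro _ ⟨hP, a, c, b, s, rfl⟩ - v
  obtain ⟨rfl, rfl⟩ := h1 _ _ _ _ hP
  simp only [Q0, mv]
  simp [m_u]
  clear * -; grind

theorem det_id {p0 p1 p2 p3 p4 q0 q1 q2 q3 q4 α β : F} (hp : p1 * p4 + p2 * p3 = 1)
    (hq : q1 * q4 + q2 * q3 = 1) (p30 : p3 ≠ 0) (c1 : p2 * q3 = q2 * p3)
    (c2 : p3 * q1 + p4 * q3 = q3 * p1 + q4 * p3) (e1 : q0 * q1 = α + β * (p0 * p1))
    (e2 : q0 * q3 = β * (p0 * p3)) : q0 ^ 2 = α ^ 2 + α * β * (p0 * (p1 + p4)) + β ^ 2 * p0 ^ 2 := by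
  have h2 : q0 * q2 = β * (p0 * p2) := by grind
  have h4 : q0 * q4 = α + β * (p0 * p4) := by grind
  grind

theorem Hyp.caseI (h : Hyp P) (nb : ∀ c b s, u 0 c b s ∈ P → c = 0) {b₁ s₁ : F} (hz : u 0 0 b₁ s₁ ∈ P)
    (b0 : b₁ ≠ 0) {a₂ b₂ s₂ : F} (hy : u a₂ 0 b₂ s₂ ∈ P) (a0 : a₂ ≠ 0) : FixQ P := by
  obtain ⟨t, ht, t2, tn⟩ := h.exists_t nb hz b0
  have hS := h.se nb
  have s0 : s₁ ≠ 0 := (h.fz hz (by simp [b0])).2
  have tr : ∀ a b s, u a 0 b s ∈ P → u a 0 b s ≠ 1 → ∃ d ∈ P ⊓ Mp F, t * d * t ∈ P ⊓ Mp F ∧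
      m d 0 0 * (m d 2 1 * b₁) = a ∧ m d 0 0 * (m d 1 1 * b₁) = b ∧ m d 0 0 ^ 2 * s₁ = s := by
    intro a b s hm h1
    obtain ⟨d, hd, hd', e⟩ := hS.trans ht t2 tn (z := u 0 0 b₁ s₁) ⟨hz, U_le_Mp (u_mem ..)⟩
      (by simp [u_eq_one, b0]) (by simp [u_sq, u_zero]) ⟨hm, U_le_Mp (u_mem ..)⟩ h1
      (by simp [u_sq, u_zero])
    rw [conj_e hd.2, u_inj] at e
    exact ⟨d, hd, hd', by simpa using e.1, by simpa using e.2.2.1, e.2.2.2⟩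
  obtain ⟨p, hp, hp', e1, e2, e3⟩ := tr _ _ _ hy (by simp [u_eq_one, a0])
  have key : ∀ α β s, u (β * a₂) 0 (α * b₁ + β * b₂) s ∈ P → u (β * a₂) 0 (α * b₁ + β * b₂) s ≠ 1 →
      s = α ^ 2 * s₁ + α * β * (m p 0 0 * (m p 1 1 + m p 2 2)) * s₁ + β ^ 2 * s₂ := by
    intro α β s hm h1
    obtain ⟨q, hq, hq', f1, f2, f3⟩ := tr _ _ _ hm h1
    have c := hS.comm ht t2 tn hp hp' hq hq'
    have c1 : m (p * q) 1 1 = m (q * p) 1 1 := by rw [c]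
    have c2 : m (p * q) 2 1 = m (q * p) 2 1 := by rw [c]
    obtain ⟨-, k1, -, -, k2⟩ := Mp_rel hp.2
    obtain ⟨-, k3, -, -, k4⟩ := Mp_rel hq.2
    simp only [mul_app, hp.2.1, hp.2.2.1, hq.2.1, hq.2.2.1, k1, k3] at c1 c2
    have := det_id (p0 := m p 0 0) (q0 := m q 0 0) (α := α) (β := β) k2 k4
      (by clear * - e1 a0; grind) (by clear * - c1; grind) (by clear * - c2; grind)
      (by clear * - f2 e2 b0; grind) (by clear * - f1 e1 b0; grind)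
    rw [← f3, this, ← e3]; ring
  have k1 := key 1 1 (s₁ + s₂ + b₁ * a₂) (by simpa [u_mul] using mul_mem hz hy) (by simp [u_eq_one, a0])
  obtain ⟨f₁, hf₁⟩ : ∃ f, f * b₁ ^ 2 = s₁ := ⟨s₁ / b₁ ^ 2, by field_simp⟩
  obtain ⟨f₂, hf₂⟩ : ∃ f, f * a₂ ^ 2 = s₂ + a₂ * b₂ + b₂ ^ 2 * f₁ :=
    ⟨(s₂ + a₂ * b₂ + b₂ ^ 2 * f₁) / a₂ ^ 2, by field_simp⟩
  have hE : ∀ a b s, u a 0 b s ∈ P → s = a * b + b ^ 2 * f₁ + a ^ 2 * f₂ := by
    intro a b s hm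
    by_cases h1 : u a 0 b s = 1
    · obtain ⟨rfl, -, rfl, rfl⟩ := u_eq_one.1 h1; simp
    have ea : a = a / a₂ * a₂ := by field_simp
    have eb : b = (b + a / a₂ * b₂) / b₁ * b₁ + a / a₂ * b₂ := by clear * - b0; grind
    have := key ((b + a / a₂ * b₂) / b₁) (a / a₂) s (by rwa [← ea, ← eb]) (by rwa [← ea, ← eb])
    generalize m p 0 0 * (m p 1 1 + m p 2 2) = τ at this k1
    generalize (b + a / a₂ * b₂) / b₁ = α at this eb
    generalize a / a₂ = β at this ea eb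
    clear * - this k1 ea eb hf₁ hf₂; grind
  have hc : ∀ a c b s, u a c b s ∈ P → c = 0 := fun a c b s => h.no_index_two (c₀ := f₁⁻¹) (by
    intro a c b s hm c0
    refine ⟨fun e => c0 (nb c b s (e ▸ hm)), ?_⟩
    have h1 := mul_mem (mul_mem hm hy) (inv_mem hm)
    rw [conj_e (U_le_Mp (u_mem ..))] at h1
    have h2 := hE _ _ _ h1
    have h3 := hE _ _ _ hy
    simp [m_u] at h2
    clear * - h2 h3 c0 a0; grind)
  refine h.fixQ (f₁ := f₁) (f₂ := f₂) fun a c b s hm => ?_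
  obtain rfl := hc _ _ _ _ hm
  exact ⟨rfl, hE _ _ _ hm⟩

end Cfsg.Agent.H3.Sz4
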