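import Cfsg.Agent.H3.Sz6

/-! The central case: normal form of the rank one group. -/

set_option autoImplicit false
set_option linter.unusedSectionVars false

namespace Cfsg.Agent.H3.Sz4

open Matrix hiding J
open Cfsg.Lie Cfsg.Agent.H3.Sz1 Cfsg.Agent.H3.Sz3

variable {F : Type*} [Field F] [CharP F 2] [Finite F] {P : Subgroup (G F)}

theorem borel_conj {g : G F} (h : g ∈ Mp F) (h' : g ∈ Ml F) (a c b s : F) :
    ∃ b' s', g * u a c b s * g⁻¹ = u (m g 0 0 / m g 1 1 * a) (m g 1 1 ^ 2 * c) b' s' := by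
  obtain ⟨a', c', b', s', l, k, rfl⟩ := borel h h'
  have e : u a' c' b' s' * dg l k * u a c b s * (u a' c' b' s' * dg l k)⁻¹ =
      u a' c' b' s' * (dg l k * u a c b s * (dg l k)⁻¹) * (u a' c' b' s')⁻¹ := by group
  rw [e, dg_conj, u_inv, u_mul, u_mul]
  refine ⟨_, _, u_inj.2 ⟨?_, ?_, rfl, rfl⟩⟩ <;> simp [mul_app, m_u, m_dg] <;> grind

structure Cen (P : Subgroup (G F)) : Prop extends Hyp P where
  nb : ∀ c b s, u 0 c b s ∈ P → c = 0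
  na : ∀ a b s, u a 0 b s ∈ P → a = 0
  two : ∃ b s b' s', u 0 0 b s ∈ P ∧ u 0 0 b' s' ∈ P ∧ b ≠ 0 ∧ b' ≠ 0 ∧ b ≠ b'

theorem Cen.cj (h : Cen P) {k : G F} (h1 : k ∈ Mp F) (h2 : k ∈ Ml F) : Cen (cj k P) := by
  obtain ⟨k0, -, -, -, k1⟩ := Mp_rel h1
  have k2 : m k 1 1 ≠ 0 := by have := h2.2.1; grind
  obtain ⟨j0, -, -, -, j1⟩ := Mp_rel (inv_mem h1)
  have j2 : m k⁻¹ 1 1 ≠ 0 := by have := (inv_mem h2).2.1; grind
  refine ⟨h.toHyp.cj' k ?_, fun c b s hm => ?_, fun a b s hm => ?_, ?_⟩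
  · rintro _ ⟨a, c, b, s, rfl⟩
    obtain ⟨b', s', e⟩ := borel_conj h1 h2 a c b s
    rw [e]; exact u_mem ..
  · obtain ⟨b', s', e⟩ := borel_conj (inv_mem h1) (inv_mem h2) 0 c b s
    rw [mem_cj] at hm
    rw [inv_inv, mul_zero] at e
    rw [e] at hm
    simpa [j2] using h.nb _ _ _ hm
  · obtain ⟨b', s', e⟩ := borel_conj (inv_mem h1) (inv_mem h2) a 0 b s
    rw [mem_cj] at hm
    rw [inv_inv, mul_zero] at e
    rw [e] at hm
    simpa [j0, j2] using h.na _ _ _ hm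
  · obtain ⟨b, s, b', s', m1, m2, b0, b0', hne⟩ := h.two
    have e1 := cj_mem (k := k) m1
    have e2 := cj_mem (k := k) m2
    rw [conj_e h1] at e1 e2
    simp only [h2.2.1, mul_zero, zero_mul, add_zero] at e1 e2
    exact ⟨_, _, _, _, e1, e2, by simp [k0, k2, b0], by simp [k0, k2, b0'], by simp [k0, k2, hne]⟩

namespace Cen

variable (h : Cen P)
include h

theorem ml {g : G F} (hg : g ∈ P ⊓ Mp F) : g ∈ Ml F := by
  obtain ⟨b, s, -, -, m1, -, b0, -⟩ := h.two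
  have e := P.mul_mem (P.mul_mem hg.1 m1) (P.inv_mem hg.1)
  rw [conj_e hg.2] at e
  obtain ⟨k0, k1, -⟩ := Mp_rel hg.2
  exact ⟨hg.2.2.1, by simpa [k0, b0] using h.na _ _ _ e, hg.2.2.2, k1⟩

theorem c_eq {a c b s c' b' s' : F} (h1 : u a c b s ∈ P) (h2 : u a c' b' s' ∈ P) : c = c' := by
  have := mul_mem h1 h2
  rw [u_mul, CharTwo.add_self_eq_zero] at this
  exact CharTwo.add_eq_zero.1 (h.nb _ _ _ this)

theorem a_eq {a c b s a' b' s' : F} (h1 : u a c b s ∈ P) (h2 : u a' c b' s' ∈ P) : a = a' := by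
  have := mul_mem h1 h2
  rw [u_mul, CharTwo.add_self_eq_zero] at this
  exact CharTwo.add_eq_zero.1 (h.na _ _ _ this)

theorem s_eq {a c b s s' : F} (h1 : u a c b s ∈ P) (h2 : u a c b s' ∈ P) : s = s' := by
  have := mul_mem h1 (inv_mem h2)
  rw [u_inv, u_mul, CharTwo.add_self_eq_zero, CharTwo.add_self_eq_zero] at this
  have := h.toHyp.fz' this (by clear * -; grind)
  clear * - this; grind

variable {t : G F} (ht : t ∈ P) (t2 : t * t = 1) (tn : t ∉ P ⊓ Mp F)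
include ht t2 tn

theorem trz {b s b' s' : F} (h1 : u 0 0 b s ∈ P) (h2 : u 0 0 b' s' ∈ P) (b0 : b ≠ 0) (b0' : b' ≠ 0) :
    ∃ d ∈ P ⊓ Mp F, t * d * t ∈ P ⊓ Mp F ∧ m d 0 0 * m d 1 1 * b = b' ∧ m d 0 0 ^ 2 * s = s' := by
  obtain ⟨d, hd, hd', e⟩ := (h.toHyp.se h.nb).trans ht t2 tn (z := u 0 0 b s) ⟨h1, U_le_Mp (u_mem ..)⟩
    (by simp [u_eq_one, b0]) (by simp [u_sq, u_zero]) ⟨h2, U_le_Mp (u_mem ..)⟩ (by simp [u_eq_one, b0'])
    (by simp [u_sq, u_zero])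
  rw [conj_e hd.2, u_inj] at e
  exact ⟨d, hd, hd', by simpa [mul_assoc] using e.2.2.1, e.2.2.2⟩

theorem exists_d : ∃ d ∈ P ⊓ Mp F, t * d * t ∈ P ⊓ Mp F ∧ m d 0 0 * m d 1 1 ≠ 1 := by
  obtain ⟨b, s, b', s', m1, m2, b0, b0', hne⟩ := h.two
  obtain ⟨d, hd, hd', e, -⟩ := h.trz ht t2 tn m1 m2 b0 b0'
  exact ⟨d, hd, hd', fun e' => hne (by rw [← e, e', one_mul])⟩

theorem two_trans {g : G F} (hg : g ∈ P) :
    g ∈ P ⊓ Mp F ∨ ∃ x ∈ P ⊓ U F, ∃ y ∈ P ⊓ Mp F, g = x * t * y := by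
  obtain ⟨b, s, -, -, m1, -, b0, -⟩ := h.two
  obtain ⟨d, hd, hd', e⟩ := h.exists_d ht t2 tn
  refine (h.toHyp.se h.nb).two_trans ht t2 tn (z := u 0 0 b s) ⟨m1, U_le_Mp (u_mem ..)⟩
    (by simp [u_eq_one, b0]) (by simp [u_sq, u_zero]) TU_le_Mp ?_ (fun x hx => U_pow4 hx.2)
    (fun x hx e => ⟨hx, cent b0 (h.toHyp.fz m1 (by simp [b0])).2 e⟩) hd hd'
    (by rintro rfl; simp [m_one] at e) hg
  rintro y hy _ ⟨hx, a, c, b, s, rfl⟩
  refine ⟨P.mul_mem (P.mul_mem hy.1 hx) (P.inv_mem hy.1), ?_⟩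
  obtain ⟨b', s', e⟩ := borel_conj hy.2 (h.ml hy) a c b s
  rw [e]; exact u_mem ..

theorem gen {L : Subgroup (G F)} (h1 : ∀ a c b s, u a c b s ∈ P → u a c b s ∈ L)
    (h2 : ∀ d ∈ P ⊓ Mp F, t * d * t ∈ P ⊓ Mp F → d ∈ L) (h3 : t ∈ L) : P ≤ L := by
  have hT : P ⊓ U F ≤ L := by rintro _ ⟨hx, a, c, b, s, rfl⟩; exact h1 _ _ _ _ hx
  have hM : P ⊓ Mp F ≤ L := by
    intro y hy
    obtain ⟨b, s, -, -, m1, -, b0, -⟩ := h.two
    obtain ⟨d, hd, hd', e⟩ := (h.toHyp.se h.nb).decomp ht t2 tn (z := u 0 0 b s) ⟨m1, U_le_Mp (u_mem ..)⟩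
      (by simp [u_eq_one, b0]) (by simp [u_sq, u_zero]) (T := P ⊓ U F)
      (fun x hx e => ⟨hx, cent b0 (h.toHyp.fz m1 (by simp [b0])).2 e⟩) hy
    simpa using mul_mem (h2 d hd hd') (hT e)
  intro g hg
  rcases h.two_trans ht t2 tn hg with hg | ⟨x, hx, y, hy, rfl⟩
  · exact hM hg
  · exact mul_mem (mul_mem (hT hx) h3) (hM hy)

theorem dt {d : G F} (hd : d ∈ P ⊓ Mp F) (hd' : t * d * t ∈ P ⊓ Mp F) (i j : Fin 4) :
    m (d * t) i j = m (t * d⁻¹) i j := by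
  rw [← (h.toHyp.se h.nb).inv ht t2 tn hd hd', ← mul_assoc, ← mul_assoc, t2, one_mul]

omit ht t2 tn in
theorem small {d : G F} (hd : d ∈ P ⊓ Mp F) (e : m d 0 0 * m d 1 1 ≠ 1)
    (e' : m d 0 0 = m d 1 1 ∨ m d 1 1 = 1) {a c b s : F} (hm : u a c b s ∈ P) : a = 0 ∧ c = 0 := by
  obtain ⟨b', s', e1⟩ := borel_conj hd.2 (h.ml hd) a c b s
  have h1 := P.mul_mem (P.mul_mem hd.1 hm) (P.inv_mem hd.1)
  rw [e1] at h1
  obtain ⟨k0, -⟩ := Mp_rel hd.2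
  rcases e' with e' | e'
  · rw [e', div_self (e' ▸ k0), one_mul] at h1
    have h2 := h.c_eq hm h1
    have c0 : c = 0 := by clear * - h2 e e'; grind
    subst c0
    exact ⟨h.na _ _ _ hm, rfl⟩
  · rw [e', one_pow, one_mul] at h1
    have h2 := h.a_eq hm h1
    have a0 : a = 0 := by clear * - h2 e e'; grind
    subst a0
    exact ⟨rfl, h.nb _ _ _ hm⟩

theorem t30 : m t 3 0 ≠ 0 := by
  intro y3
  obtain ⟨d, hd, hd', e⟩ := h.exists_d ht t2 tn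
  by_cases y2 : m t 2 0 = 0
  · have y1 : m t 1 0 ≠ 0 := fun y1 => tn ⟨ht, y1, y2, y3⟩
    have e1 := h.dt ht t2 tn hd hd' 1 0
    obtain ⟨-, k1, k2, k3, -⟩ := Mp_rel hd.2
    simp [mul_app, inv_app, Fin.rev, y2, y3, hd.2.1, hd.2.2.2, k1, k2] at e1
    clear * - e e1 k3 y1; grind
  have key : ∀ d ∈ P ⊓ Mp F, t * d * t ∈ P ⊓ Mp F → m d 0 0 = m d 1 1 ∧
      m d 1 1 * m t 1 0 + m d 1 2 * m t 2 0 = m t 1 0 * m d 3 3 := by
    intro d hd hd'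
    have e1 := h.dt ht t2 tn hd hd' 1 0
    have e2 := h.dt ht t2 tn hd hd' 2 0
    obtain ⟨-, k1, k2, k3, k4⟩ := Mp_rel hd.2
    have k5 := (h.ml hd).2.1
    simp [mul_app, inv_app, Fin.rev, y3, hd.2.1, hd.2.2.1, hd.2.2.2, k1, k2, k5] at e1 e2
    exact ⟨by clear * - e2 k3 k4 k5 y2; grind, e1⟩
  have hs := fun a c b s => h.small hd e (Or.inl (key d hd hd').1) (a := a) (c := c) (b := b) (s := s)
  refine h.nln (u 0 (m t 1 0 / m t 2 0) 0 0 * w1 F) fun g hg => ?_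
  refine (mem_cj (P := Ml F)).1 (h.gen ht t2 tn (fun a c b s hm => ?_) (fun d hd hd' => ?_) ?_ hg)
  · obtain ⟨rfl, rfl⟩ := hs _ _ _ _ hm
    rw [mem_cj, mem_Ml]
    simp [mul_app, inv_app, Fin.rev, m_u, m_w1]
    clear * -; grind
  · obtain ⟨e1, e2⟩ := key d hd hd'
    obtain ⟨-, k1, k2, k3, k4⟩ := Mp_rel hd.2
    have k5 := (h.ml hd).2.1
    rw [mem_cj, mem_Ml]
    simp [mul_app, inv_app, Fin.rev, m_u, m_w1, hd.2.1, hd.2.2.1, hd.2.2.2, k1, k2, k5]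
    clear * - e1 e2 k3 k4 k5 y2; grind
  · have e1 : m (t * t) 1 0 = 0 := by simp [t2, m_one]
    have e2 : m (t * t) 2 0 = 0 := by simp [t2, m_one]
    have e3 : m (t * t) 3 0 = 0 := by simp [t2, m_one]
    rw [mem_cj, mem_Ml]
    simp [mul_app, inv_app, Fin.rev, m_u, m_w1, y3] at e1 e2 e3 ⊢
    clear * - e1 e2 e3 y2; grind

theorem t21 (y0 : m t 0 0 = 0) (y1 : m t 1 0 = 0) (y2 : m t 2 0 = 0) : m t 2 1 ≠ 0 := by
  intro y21
  have y3 := h.t30 ht t2 tn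
  have c := cr t
  have y01 : m t 0 1 = 0 := by clear * - c y0 y1 y2 y3; grind
  have r := rr t
  have e0 : m (t * t) 1 0 = 0 := by simp [t2, m_one]
  have e1 : m (t * t) 3 0 = 0 := by simp [t2, m_one]
  have e2 : m (t * t) 2 0 = 0 := by simp [t2, m_one]
  simp [mul_app, y0, y1, y2, y3] at e0 e1 e2
  have y31 : m t 3 1 = 0 := by clear * - c e0 e1 e2 y0 y1 y2 y3; grind
  have y11 : m t 1 1 ≠ 0 := by clear * - c y01 y21 y31; grind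
  have key : ∀ d ∈ P ⊓ Mp F, t * d * t ∈ P ⊓ Mp F → m d 1 1 = 1 ∧ m d 0 1 = 0 := by
    intro d hd hd'
    have f1 := h.dt ht t2 tn hd hd' 2 0
    have f2 := h.dt ht t2 tn hd hd' 1 1
    obtain ⟨-, k1, k2, k3, k4⟩ := Mp_rel hd.2
    have k5 := (h.ml hd).2.1
    have k6 := (cr d).2.2.2.2.1
    simp [mul_app, inv_app, Fin.rev, y0, y1, y2, y3, y01, y21, y31, hd.2.1, hd.2.2.1, hd.2.2.2,
      k1, k2, k5] at f1 f2
    refine ⟨sq_inj (by clear * - f2 k4 k5 y11; grind), by clear * - f1 k1 k3 k5 k6; grind⟩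
  obtain ⟨d, hd, hd', e⟩ := h.exists_d ht t2 tn
  have hs := fun a c b s => h.small hd e (Or.inr (key d hd hd').1) (a := a) (c := c) (b := b) (s := s)
  refine h.npt (w2 F) fun g hg => ?_
  refine (mem_cj (P := Mp F)).1 (h.gen ht t2 tn (fun a c b s hm => ?_) (fun d hd hd' => ?_) ?_ hg)
  · obtain ⟨rfl, rfl⟩ := hs _ _ _ _ hm
    rw [mem_cj, mem_Mp]
    simp [mul_app, inv_app, Fin.rev, m_u, m_w2]
  · rw [mem_cj, mem_Mp]
    simp [mul_app, inv_app, Fin.rev, m_w2, (key d hd hd').2, (h.ml hd).2.1, (h.ml hd).2.2.2]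
  · rw [mem_cj, mem_Mp]
    simp [mul_app, inv_app, Fin.rev, m_w2, y01, y21, y31]

end Cen

/-- antidiagonal involutions -/
def ad (α β : Fˣ) : G F :=
  mk !![0, 0, 0, (α : F)⁻¹; 0, 0, (β : F)⁻¹, 0; 0, β, 0, 0; α, 0, 0, 0] (by
    open Cfsg.Agent.H6.Suzuki in mx)

theorem m_ad (α β : Fˣ) :
    m (ad α β) = !![0, 0, 0, (α : F)⁻¹; 0, 0, (β : F)⁻¹, 0; 0, β, 0, 0; α, 0, 0, 0] := rfl

theorem ad_sq (α β : Fˣ) : ad α β * ad α β = 1 := by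
  apply ext16 <;> simp [mul_app, m_ad, m_one]

theorem ad_not (α β : Fˣ) : ad α β ∉ P ⊓ Mp F := fun h => by
  simpa [m_ad] using h.2.2.2

theorem Cen.normal (h : Cen P) : ∃ k : G F, ∃ α β, Cen (Sz4.cj k P) ∧ ad α β ∈ Sz4.cj k P := by
  obtain ⟨b, s, -, -, m1, -, b0, -⟩ := h.two
  obtain ⟨t, ht, t2, tn⟩ := h.toHyp.exists_t h.nb m1 b0
  have y3 := h.t30 ht t2 tn
  obtain ⟨k, hk⟩ : ∃ k, k = u (m t 2 0 / m t 3 0) 0 (m t 1 0 / m t 3 0) (m t 0 0 / m t 3 0) := ⟨_, rfl⟩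
  have kU : k ∈ U F := hk ▸ u_mem ..
  have h1 := h.cj (U_le_Mp kU) (U_le_Ml kU)
  have ht1 : k * t * k⁻¹ ∈ Sz4.cj k P := cj_mem ht
  have t21 : (k * t * k⁻¹) * (k * t * k⁻¹) = 1 := by rw [conj_mul, t2]; simp
  have y0 : m (k * t * k⁻¹) 0 0 = 0 := by
    simp [hk, u_inv, mul_app, m_u]; clear * - y3; grind
  have y1 : m (k * t * k⁻¹) 1 0 = 0 := by
    simp [hk, u_inv, mul_app, m_u]; clear * - y3; grind
  have y2 : m (k * t * k⁻¹) 2 0 = 0 := by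
    simp [hk, u_inv, mul_app, m_u]; clear * - y3; grind
  have y3' : m (k * t * k⁻¹) 3 0 ≠ 0 := by simpa [hk, u_inv, mul_app, m_u] using y3
  generalize k * t * k⁻¹ = t' at ht1 t21 y0 y1 y2 y3'
  have y21 := h1.t21 ht1 t21 (fun h' => y3' h'.2.2.2) y0 y1 y2
  obtain ⟨k', hk'⟩ : ∃ k, k = u 0 (m t' 1 1 / m t' 2 1) 0 0 := ⟨_, rfl⟩
  have kU' : k' ∈ U F := hk' ▸ u_mem ..
  have h2 := h1.cj (U_le_Mp kU') (U_le_Ml kU')
  have e : Sz4.cj k' (Sz4.cj k P) = Sz4.cj (k' * k) P := by ext x; simp [mem_cj, mul_assoc]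
  refine ⟨k' * k, Units.mk0 _ y3', Units.mk0 _ y21, e ▸ h2, ?_⟩
  rw [← e]
  convert cj_mem (k := k') ht1 using 1
  have c := cr t'
  have f : ∀ i j, m (t' * t') i j = (1 : Matrix (Fin 4) (Fin 4) F) i j := fun i j => by rw [t21, m_one]
  have f00 := f 0 0
  have f10 := f 1 0
  have f20 := f 2 0
  have f30 := f 3 0
  have f11 := f 1 1
  have f21 := f 2 1
  simp [mul_app, y0, y1, y2, y3'] at f00 f10 f20 f30 f11 f21
  have y01 : m t' 0 1 = 0 := by clear * - c y0 y1 y2 y3'; grind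
  have y02 : m t' 0 2 = 0 := by clear * - c y0 y1 y2 y3'; grind
  have y31 : m t' 3 1 = 0 := by clear * - c f00 f10 f20 f30 y3'; grind
  have y32 : m t' 3 2 = 0 := by clear * - c f00 f10 f20 f30 y3'; grind
  apply ext16 <;> simp [hk', u_inv, mul_app, m_u, m_ad, y0, y1, y2, y01, y02, y31, y32, f10, f20, f30] <;>
    clear * - f00 f11 f21 y3' y21 f10 f20 <;> grind

end Cfsg.Agent.H3.Sz4
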