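import Cfsg.Agent.H3.Sz7

/-! The central case: identification with the Suzuki group. -/

set_option autoImplicit false
set_option linter.unusedSectionVars false

namespace Cfsg.Agent.H3.Sz4

open Matrix hiding J
open Cfsg.Lie Cfsg.Agent.H3.Sz1 Cfsg.Agent.H3.Sz3
open Cfsg.Agent.H6.Suzuki (SzG IsSz uM hM isSz_uM isSz_hM isSz_J)

variable {F : Type*} [Field F] [CharP F 2] [Finite F] {P : Subgroup (G F)}

attribute [local irreducible] u dg ad

theorem mem_of_pow_card (K : Subfield F) {x : F} (h : x ^ Nat.card K = x) : x ∈ K := by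
  classical
  have := Fintype.ofFinite K
  have h1 : 1 < Nat.card K := Finite.one_lt_card
  have hp : (Polynomial.X ^ Nat.card K - Polynomial.X : Polynomial F) ≠ 0 :=
    FiniteField.X_pow_card_sub_X_ne_zero F h1
  have h2 := Polynomial.card_roots' (Polynomial.X ^ Nat.card K - Polynomial.X : Polynomial F)
  rw [FiniteField.X_pow_card_sub_X_natDegree_eq F h1] at h2
  have h3 : (Finset.univ : Finset K).map (Function.Embedding.subtype _) =
      (Polynomial.X ^ Nat.card K - Polynomial.X : Polynomial F).roots.toFinset := by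
    apply Finset.eq_of_subset_of_card_le
    · intro y hy
      obtain ⟨z, -, rfl⟩ := Finset.mem_map.1 hy
      have := congrArg Subtype.val (FiniteField.pow_card z)
      rw [Multiset.mem_toFinset, Polynomial.mem_roots hp, Nat.card_eq_fintype_card]
      simpa [sub_eq_zero] using this
    · rw [Finset.card_map, Finset.card_univ, ← Nat.card_eq_fintype_card]
      exact (Multiset.toFinset_card_le _).trans h2
  have h4 : x ∈ (Polynomial.X ^ Nat.card K - Polynomial.X : Polynomial F).roots.toFinset := by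
    rw [Multiset.mem_toFinset, Polynomial.mem_roots hp, Polynomial.IsRoot.def, Polynomial.eval_sub,
      Polynomial.eval_pow, Polynomial.eval_X, h, sub_self]
  rw [← h3] at h4
  obtain ⟨z, -, rfl⟩ := Finset.mem_map.1 h4
  exact z.2

theorem alg1 {a c a' c' : F} (e1 : a * c = a' * c') (e2 : a ^ 2 * c = a' ^ 2 * c') (n1 : a ≠ 0 → c ≠ 0)
    (n2 : a' ≠ 0 → c' ≠ 0) : a = a' := by
  by_cases h : a = 0
  · subst h
    by_contra h'
    exact n2 (Ne.symm h') (by simpa [Ne.symm h'] using e1)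
  · have := mul_ne_zero h (n1 h)
    apply mul_left_cancel₀ this
    rw [e1]
    linear_combination e2 - a * e1

def IsSzP (P : Subgroup (G F)) : Prop :=
  ∃ θ : F →+* F, (∀ x, θ (θ x) = x ^ 2) ∧ Nonempty (P ≃* SzG θ)

theorem IsSzP.of_cj {k : G F} (h : IsSzP (cj k P)) : IsSzP P := by
  obtain ⟨θ, h1, ⟨e⟩⟩ := h
  exact ⟨θ, h1, ⟨((MulAut.conj k).subgroupMap P).trans e⟩⟩

theorem SubF.cj {k : G F} (h : SubF (cj k P)) : SubF P := by
  obtain ⟨K, h1, k', h2⟩ := h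
  exact ⟨K, h1, k⁻¹ * k', fun g hg => by simpa [mul_assoc] using h2 _ (cj_mem hg)⟩

namespace Cen

variable (h : Cen P) {α β : Fˣ} (ht : ad α β ∈ P)
include h ht

theorem diag {d : G F} (hd : d ∈ P ⊓ Mp F) (hd' : ad α β * d * ad α β ∈ P ⊓ Mp F) :
    ∃ l k : Fˣ, d = dg l k := by
  obtain ⟨a, c, b, s, l, k, rfl⟩ := borel hd.2 (h.ml hd)
  obtain ⟨e1, e2, e3⟩ := hd'.2
  have e4 := (h.ml hd').2.1
  simp [mul_app, m_ad, m_u, m_dg] at e1 e2 e3 e4
  exact ⟨l, k, by simp [e1, e2, e3, e4, u_zero]⟩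

theorem trd {b s b' s' : F} (h1 : u 0 0 b s ∈ P) (h2 : u 0 0 b' s' ∈ P) (b0 : b ≠ 0) (b0' : b' ≠ 0) :
    ∃ l k : Fˣ, dg l k ∈ P ∧ l * k * b = b' ∧ (l : F) ^ 2 * s = s' := by
  obtain ⟨d, hd, hd', e1, e2⟩ := h.trz ht (ad_sq ..) (ad_not _ _) h1 h2 b0 b0'
  obtain ⟨l, k, rfl⟩ := h.diag ht hd hd'
  exact ⟨l, k, hd.1, by simpa [m_dg] using e1, by simpa [m_dg] using e2⟩

theorem opp {b s : F} (h1 : u 0 0 b s ∈ P) (b0 : b ≠ 0) :
    ∃ c, u (β * b / (α * s)) c 0 (1 / (α ^ 2 * s)) ∈ P := by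
  have s0 := (h.toHyp.fz h1 (by simp [b0])).2
  rcases h.two_trans ht (ad_sq ..) (ad_not _ _) (P.mul_mem (P.mul_mem ht h1) ht) with
    e | ⟨_, ⟨hx, a, c, b', s', rfl⟩, y, hy, e⟩
  · have := e.2.2.2
    simp [mul_app, m_ad, m_u, s0] at this
  · have f : ∀ i, m (ad α β * u 0 0 b s * ad α β) i 0 = m (u a c b' s' * ad α β * y) i 0 :=
      fun i => by rw [e]
    have f0 := f 0
    have f1 := f 1
    have f2 := f 2
    have f3 := f 3
    obtain ⟨y0, -⟩ := Mp_rel hy.2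
    simp [mul_app, m_ad, m_u, hy.2.1, hy.2.2.1, hy.2.2.2, y0] at f0 f1 f2 f3
    have := α.ne_zero
    have e1 : a = β * b / (α * s) := by clear * - f2 f3 s0 this; grind
    have e2 : s' = 1 / (α ^ 2 * s) := by clear * - f0 f3 s0 this; grind
    exact ⟨c, by rw [← e1, ← e2, ← f1]; exact hx⟩

set_option maxHeartbeats 1600000 in
theorem ident {b₀ s₀ : F} (h11 : u 1 1 b₀ s₀ ∈ P) (hK : ¬ SubF P) : IsSzP P := by
  let R : F → F → Prop := fun a c => ∃ b s, u a c b s ∈ P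
  have Rf : ∀ {a c c'}, R a c → R a c' → c = c' := fun ⟨_, _, h1⟩ ⟨_, _, h2⟩ => h.c_eq h1 h2
  have Ra : ∀ {a c a' c'}, R a c → R a' c' → R (a + a') (c + c') :=
    fun ⟨_, _, h1⟩ ⟨_, _, h2⟩ => ⟨_, _, u_mul (F := F) .. ▸ P.mul_mem h1 h2⟩
  have R0 : R 0 0 := ⟨0, 0, u_zero (F := F) ▸ P.one_mem⟩
  have R1 : R 1 1 := ⟨_, _, h11⟩
  have Rz : ∀ {a c}, R a c → u 0 0 (a * c) (a ^ 2 * c) ∈ P :=
    fun ⟨_, _, h1⟩ => u_sq (F := F) .. ▸ P.mul_mem h1 h1
  have Rn : ∀ {a c}, R a c → a ≠ 0 → c ≠ 0 := by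
    rintro a c ⟨b, s, h1⟩ a0 rfl
    exact a0 (h.na _ _ _ h1)
  have z1 : u 0 0 (1 : F) 1 ∈ P := by simpa using Rz R1
  have cj : ∀ {l k : Fˣ} {a c b s : F}, dg l k ∈ P → u a c b s ∈ P →
      u (l / k * a) (k ^ 2 * c) (l * k * b) (l ^ 2 * s) ∈ P :=
    fun hd hu => dg_conj (F := F) .. ▸ P.mul_mem (P.mul_mem hd hu) (P.inv_mem hd)
  have Rd : ∀ {a c}, R a c → a ≠ 0 → ∃ l k : Fˣ, dg l k ∈ P ∧ (l : F) / k = a ∧ (k : F) ^ 2 = c := by
    intro a c hr a0
    obtain ⟨l, k, hd, e1, e2⟩ := h.trd ht z1 (Rz hr) one_ne_zero (mul_ne_zero a0 (Rn hr a0))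
    have l0 := l.ne_zero
    have k0 := k.ne_zero
    have e3 : (l : F) = a * k := by clear * - e1 e2 l0; grind
    exact ⟨l, k, hd, by rw [e3]; field_simp, by clear * - e3 e2 a0; grind⟩
  have Rm : ∀ {a c a' c'}, R a c → R a' c' → R (a * a') (c * c') := by
    intro a c a' c' hr ⟨_, _, h2⟩
    by_cases a0 : a = 0
    · subst a0; rw [← Rf R0 hr]; simpa using R0
    obtain ⟨l, k, hd, rfl, rfl⟩ := Rd hr a0
    exact ⟨_, _, cj hd h2⟩
  have Rp : ∀ {a c} (n : ℕ), R a c → R (a ^ n) (c ^ n) := by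
    intro a c n hr
    induction n with
    | zero => simpa using R1
    | succ n ih => rw [pow_succ, pow_succ]; exact Rm ih hr
  have Ri : ∀ {a c}, R a c → R a⁻¹ c⁻¹ := by
    intro a c hr
    by_cases a0 : a = 0
    · subst a0; rw [← Rf R0 hr]; simpa using R0
    obtain ⟨l, k, hd, rfl, rfl⟩ := Rd hr a0
    have hd' : dg l⁻¹ k⁻¹ ∈ P := by
      convert P.inv_mem hd using 1
      gx
    have := cj hd' h11
    refine ⟨_, _, by convert this using 2 <;> simp [div_eq_mul_inv, mul_comm]⟩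
  let K : Subfield F :=
    { carrier := {a | ∃ c, R a c}
      mul_mem' := fun ⟨_, h1⟩ ⟨_, h2⟩ => ⟨_, Rm h1 h2⟩
      one_mem' := ⟨_, R1⟩
      add_mem' := fun ⟨_, h1⟩ ⟨_, h2⟩ => ⟨_, Ra h1 h2⟩
      zero_mem' := ⟨_, R0⟩
      neg_mem' := fun ha => by rwa [CharTwo.neg_eq]
      inv_mem' := fun _ ⟨_, h1⟩ => ⟨_, Ri h1⟩ }
  have hKm : ∀ {a}, a ∈ K ↔ ∃ c, R a c := Iff.rfl
  have RK : ∀ {a c}, R a c → c ∈ K := by
    intro a c hr
    apply mem_of_pow_card
    have := Fintype.ofFinite K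
    have e : a ^ Nat.card K = a := by
      rw [Nat.card_eq_fintype_card]
      exact congrArg Subtype.val (FiniteField.pow_card (⟨a, c, hr⟩ : K))
    exact Rf (e ▸ Rp _ hr) hr
  -- the centre
  have Sf : ∀ {b s s' : F}, u 0 0 b s ∈ P → u 0 0 b s' ∈ P → s = s' := h.s_eq
  have Sa : ∀ {b s b' s' : F}, u 0 0 b s ∈ P → u 0 0 b' s' ∈ P → u 0 0 (b + b') (s + s') ∈ P :=
    fun h1 h2 => by simpa [u_mul] using P.mul_mem h1 h2
  have Sd : ∀ {b s : F}, u 0 0 b s ∈ P → b ≠ 0 → ∃ l k : Fˣ, dg l k ∈ P ∧ l * k = b ∧ (l : F) ^ 2 = s := by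
    intro b s h1 b0
    simpa using h.trd ht z1 h1 one_ne_zero b0
  have Sm : ∀ {b s b' s' : F}, u 0 0 b s ∈ P → u 0 0 b' s' ∈ P → u 0 0 (b * b') (s * s') ∈ P := by
    intro b s b' s' h1 h2
    by_cases b0 : b = 0
    · rw [h.toHyp.fz' h1 b0, b0]; simpa [u_zero] using P.one_mem
    obtain ⟨l, k, hd, rfl, rfl⟩ := Sd h1 b0
    simpa using cj hd h2
  have SK : ∀ {b s : F}, u 0 0 b s ∈ P → b ∈ K := by
    intro b s h1
    by_cases b0 : b = 0
    · rw [b0]; exact zero_mem _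
    obtain ⟨l, k, hd, rfl, rfl⟩ := Sd h1 b0
    have hr : R _ _ := ⟨_, _, cj hd h11⟩
    have := mul_mem (hKm.2 ⟨_, hr⟩) (RK hr)
    convert this using 1
    field_simp
  have Ss : ∀ x ∈ K, ∃ s, u 0 0 x s ∈ P := by
    let f : K → K := fun a => ⟨a.1 * a.2.choose, mul_mem a.2 (RK a.2.choose_spec)⟩
    have hf : Function.Injective f := by
      intro a a' e
      have e1 : a.1 * a.2.choose = a'.1 * a'.2.choose := congrArg Subtype.val e
      have r1 := a.2.choose_spec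
      have r2 := a'.2.choose_spec
      have e2 := Sf (Rz r1) (e1 ▸ Rz r2)
      exact Subtype.ext (alg1 e1 e2 (Rn r1) (Rn r2))
    intro x hx
    obtain ⟨a, ha⟩ := Finite.surjective_of_injective hf ⟨x, hx⟩
    have e : a.1 * a.2.choose = x := congrArg Subtype.val ha
    exact ⟨_, e ▸ Rz a.2.choose_spec⟩
  have key : ∀ {x s c s'}, u 0 0 x s ∈ P → R x c → u 0 0 c s' ∈ P →
      s + s' = x ^ 2 + c ∧ (s = x ^ 2 ∨ s = c) := by
    intro x s c s' h1 hr h2
    have e1 := Sf (Sm h1 h2) (Rz hr)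
    have e2 := Sf (Sm (Sa h1 z1) (Sa h2 z1)) (Rz (Ra hr R1))
    clear * - e1 e2; grind
  obtain ⟨k₀, hk₀, k0, k1⟩ : ∃ k ∈ K, k ≠ 0 ∧ k ≠ 1 := by
    obtain ⟨b, s, b', s', m1, m2, b0, b0', hne⟩ := h.two
    by_cases e : b = 1
    · exact ⟨b', SK m2, b0', fun e' => hne (e.trans e'.symm)⟩
    · exact ⟨b, SK m1, b0, e⟩
  have SR : ∀ {x s}, u 0 0 x s ∈ P → R x s := by
    intro x s h1
    obtain ⟨c, hr⟩ := hKm.1 (SK h1)
    obtain ⟨s', h2⟩ := Ss _ (RK hr)
    by_contra hn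
    have hne : s ≠ c := fun e => hn (e ▸ hr)
    have e1 := (key h1 hr h2).2.resolve_right hne
    have all : ∀ {y t}, u 0 0 y t ∈ P → t = y ^ 2 := by
      intro y t h3
      obtain ⟨d, hr'⟩ := hKm.1 (SK h3)
      obtain ⟨t', h4⟩ := Ss _ (RK hr')
      obtain ⟨t'', h5⟩ := Ss _ (RK (Ra hr hr'))
      have e2 := (key h3 hr' h4).2
      have e3 := (key (Sa h1 h3) (Ra hr hr') h5).2
      clear * - e1 e2 e3 hne; grind
    obtain ⟨c₀, hr₀⟩ := hKm.1 hk₀
    have e2 := all (Rz hr₀)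
    have e3 := all (Rz (Ra hr₀ R1))
    have e4 := Rn hr₀ k0
    have e5 := Rn (Ra hr₀ R1) (by clear * - k1; grind)
    clear * - e2 e4 e5 k0; grind
  have RS : ∀ {x c}, R x c → u 0 0 x c ∈ P := by
    intro x c hr
    obtain ⟨s, h1⟩ := Ss x ⟨c, hr⟩
    rwa [← Rf (SR h1) hr]
  have RR : ∀ {x c}, R x c → R c (x ^ 2) := by
    intro x c hr
    obtain ⟨s', h2⟩ := Ss _ (RK hr)
    have e := (key (RS hr) hr h2).1
    rw [show x ^ 2 = s' by clear * - e; grind]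
    exact SR h2
  have a0 := α.ne_zero
  have b0 := β.ne_zero
  obtain ⟨ε, hε⟩ : ∃ ε, R (β / α) ε := by
    obtain ⟨c, h1⟩ := h.opp ht z1 one_ne_zero
    exact ⟨c, 0, _, by simpa using h1⟩
  have ε0 : ε ≠ 0 := Rn hε (div_ne_zero b0 a0)
  have W : ∀ {k c}, R k c → u k c 0 (k ^ 2 * c / (β ^ 2 * ε)) ∈ P := by
    intro k c hr
    by_cases k0 : k = 0
    · subst k0; rw [← Rf R0 hr]; simpa [u_zero] using P.one_mem
    have c0 := Rn hr k0
    obtain ⟨c', h1⟩ := h.opp ht (Rz (Rm hε (Ri hr))) (by simp [k0, c0, ε0])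
    have e1 : (β : F) * (β / α * k⁻¹ * (ε * c⁻¹)) / (α * ((β / α * k⁻¹) ^ 2 * (ε * c⁻¹))) = k := by
      field_simp
    have e2 : 1 / ((α : F) ^ 2 * ((β / α * k⁻¹) ^ 2 * (ε * c⁻¹))) = k ^ 2 * c / (β ^ 2 * ε) := by
      field_simp
    rw [e1, e2] at h1
    obtain rfl := Rf hr ⟨_, _, h1⟩
    exact h1
  have κ : (β : F) ^ 2 * ε = 1 := by
    obtain ⟨c, hr⟩ := hKm.1 hk₀
    have h1 := P.mul_mem (W hr) (W R1)
    have h2 := P.mul_mem (W (Ra hr R1)) (RS (RR hr))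
    rw [u_mul] at h1 h2
    simp only [add_zero, zero_add, mul_one, mul_zero, one_pow] at h1 h2
    have e := h.s_eq h1 h2
    have hne : k₀ ^ 2 ≠ c := by
      rintro rfl
      have := Rf (RR hr) (Rp 2 hr)
      clear * - this k0 k1; grind
    have : (β : F) ^ 2 * ε ≠ 0 := by simp [ε0]
    generalize (β : F) ^ 2 * ε = κ at e this
    clear * - e this hne; grind
  simp only [κ, div_one] at W
  have TT : ∀ {a c b s}, u a c b s ∈ P → R b (s + a * b + a ^ 2 * c) := by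
    intro a c b s h1
    have h2 := P.mul_mem (P.inv_mem (W ⟨_, _, h1⟩)) h1
    rw [u_inv, u_mul, CharTwo.add_self_eq_zero, CharTwo.add_self_eq_zero] at h2
    convert SR h2 using 1 <;> clear * - <;> grind
  have DD : ∀ {l k : Fˣ}, dg l k ∈ P → R (l / k) (k ^ 2) := fun hd => by
    simpa using (⟨_, _, cj hd h11⟩ : R _ _)
  have hKt : K = ⊤ := by
    by_contra hne
    refine hK ⟨K, hne, 1, fun g hg => ?_⟩
    rw [inv_one, one_mul, mul_one]
    refine h.gen ht (ad_sq ..) (ad_not _ _) (L := Over K) (fun a c b s hm => ?_) (fun d hd hd' => ?_) ?_ hg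
    · have h1 : a ∈ K := ⟨c, _, _, hm⟩
      have h2 : c ∈ K := RK ⟨_, _, hm⟩
      have h3 : b ∈ K := ⟨_, TT hm⟩
      have h4 : s ∈ K := by
        have := add_mem (add_mem (RK (TT hm)) (mul_mem (pow_mem h1 2) h2)) (mul_mem h1 h3)
        convert this using 1
        clear * -; grind
      have h5 := add_mem h3 (mul_mem h1 h2)
      intro i j
      fin_cases i <;> fin_cases j <;> simp [m_u, h1, h2, h3, h4, h5]
    · obtain ⟨l, k, rfl⟩ := h.diag ht hd hd'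
      have h1 : (k : F) ∈ K := mem_of_sq _ (RK (DD hd.1))
      have h2 : (l : F) ∈ K := by simpa using mul_mem (hKm.2 ⟨_, DD hd.1⟩) h1
      intro i j
      fin_cases i <;> fin_cases j <;> simp [m_dg, h1, h2]
    · have h1 : (β : F) ∈ K := mem_of_sq _ (by
        rw [eq_inv_of_mul_eq_one_left κ]; exact inv_mem (RK hε))
      have h2 : (α : F) ∈ K := by
        have := div_mem h1 (hKm.2 ⟨_, hε⟩)
        convert this using 1
        field_simp
      intro i j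
      fin_cases i <;> fin_cases j <;> simp [m_ad, h1, h2]
  choose θ' hθ using fun a : F => hKm.1 (hKt ▸ Subfield.mem_top a)
  let θ : F →+* F :=
    { toFun := θ'
      map_one' := Rf (hθ 1) R1
      map_mul' := fun x y => Rf (hθ _) (Rm (hθ x) (hθ y))
      map_zero' := Rf (hθ 0) R0
      map_add' := fun x y => Rf (hθ _) (Ra (hθ x) (hθ y)) }
  have Rθ : ∀ {a c}, R a c → θ a = c := fun hr => Rf (hθ _) hr
  have θθ : ∀ x, θ (θ x) = x ^ 2 := fun x => Rθ (RR (hθ x))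
  have hdg : ∀ {l k : Fˣ}, θ k = l / k → m (dg l k) = hM θ l := by
    intro l k e
    have e2 : θ l = l * k := by
      have := θθ k
      rw [e, map_div₀, e] at this
      have h1 := l.ne_zero
      have h2 := k.ne_zero
      clear * - this h1 h2; grind
    rw [m_dg, hM, e2]
    congr <;> field_simp
  have hdg' : ∀ {l k : Fˣ}, dg l k ∈ P → θ k = l / k := by
    intro l k hd
    have := θθ (l / k)
    rw [Rθ (DD hd), map_pow] at this
    exact sq_inj this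
  have hu : ∀ a b, uM θ a b = m (u a (θ a) b (a * b + θ b + a ^ 2 * θ a)) := fun a b => by
    rw [m_u]; rfl
  have huP : ∀ a b, u a (θ a) b (a * b + θ b + a ^ 2 * θ a) ∈ P := by
    intro a b
    have := P.mul_mem (W (hθ a)) (RS (hθ b))
    rw [u_mul] at this
    convert this using 2 <;> simp [θ] <;> ring
  have had : m (ad α β) = H6.Suzuki.J F * hM θ α := by
    rw [← hdg (k := β) (by
      apply θ.injective
      rw [θθ, map_div₀]
      have e := Rθ hε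
      rw [map_div₀] at e
      rw [← inv_div, e, eq_inv_of_mul_eq_one_left κ])]
    ext i j
    fin_cases i <;> fin_cases j <;>
      simp [m_ad, m_dg, H6.Suzuki.J, Matrix.mul_apply, Fin.sum_univ_four]
  have hP : P.map (Sp4 F).subtype = SzG θ := by
    apply le_antisymm
    · rw [Subgroup.map_le_iff_le_comap]
      refine h.gen ht (ad_sq ..) (ad_not _ _) (fun a c b s hm => ?_) (fun d hd hd' => ?_) ?_
      · have e1 : θ a = c := Rθ ⟨_, _, hm⟩
        have e2 := Rθ (TT hm)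
        have : IsSz θ (m (u a c b s)) := by
          convert isSz_uM θθ a b using 1
          rw [hu, e1, e2]
          congr 2
          clear * -; grind
        exact this
      · obtain ⟨l, k, rfl⟩ := h.diag ht hd hd'
        have : IsSz θ (m (dg l k)) := hdg (hdg' hd.1) ▸ isSz_hM θθ l.ne_zero
        exact this
      · have : IsSz θ (m (ad α β)) := had ▸ (H6.Suzuki.n θ * H6.Suzuki.h θθ α).2
        exact this
    · have mU : ∀ a b, (H6.Suzuki.u θθ a b).1 ∈ P.map (Sp4 F).subtype :=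
        fun a b => ⟨_, huP a b, Units.ext (hu a b).symm⟩
      have mH : ∀ l, (H6.Suzuki.h θθ l).1 ∈ P.map (Sp4 F).subtype := by
        intro l
        obtain ⟨s, h1⟩ := Ss ((l : F) * (θ l / l)) (hKt ▸ Subfield.mem_top _)
        obtain ⟨l', k, hd, e1, e2⟩ := Sd h1 (by simp)
        have e3 := Rθ (SR h1)
        have : l' = l := by
          apply Units.ext
          apply sq_inj
          rw [e2, ← e3, mul_div_cancel₀ _ l.ne_zero, θθ]
        subst this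
        exact ⟨_, hd, Units.ext (hdg (hdg' hd))⟩
      have mN : (H6.Suzuki.n θ).1 ∈ P.map (Sp4 F).subtype := by
        have h1 : (H6.Suzuki.n θ * H6.Suzuki.h θθ α).1 ∈ P.map (Sp4 F).subtype :=
          ⟨_, ht, Units.ext had⟩
        simpa using mul_mem h1 (inv_mem (mH α))
      intro g hg
      by_cases g3 : H6.Suzuki.mat θ ⟨g, hg⟩ 3 0 = 0
      · obtain ⟨g1, g2⟩ := H6.Suzuki.col_zero (H6.Suzuki.mat_isSz ⟨g, hg⟩) g3
        obtain ⟨a, b, k, e, -⟩ := H6.Suzuki.exists_uh θθ ⟨g, hg⟩ g1 g2 g3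
        rw [show g = _ from congrArg Subtype.val e]
        exact mul_mem (mU ..) (mH _)
      · obtain ⟨a, b, a', b', k, e, -⟩ := H6.Suzuki.bruhat θθ ⟨g, hg⟩ g3
        rw [show g = _ from congrArg Subtype.val e]
        exact mul_mem (mul_mem (mU ..) mN) (mul_mem (mU ..) (mH _))
  exact ⟨θ, θθ, ⟨(P.equivMapOfInjective _ (Sp4 F).subtype_injective).trans (MulEquiv.subgroupCongr hP)⟩⟩

end Cen

theorem Cen.isSz (h : Cen P) (hK : ¬ SubF P) : IsSzP P := by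
  obtain ⟨k, α, β, h1, ht⟩ := h.normal
  obtain ⟨b, s, -, -, m1, -, b0, -⟩ := h1.two
  obtain ⟨c, h2⟩ := h1.opp ht m1 b0
  have s0 := (h1.toHyp.fz m1 (by simp [b0])).2
  obtain ⟨a, ha⟩ : ∃ a, a = β * b / (α * s) := ⟨_, rfl⟩
  have a0 : a ≠ 0 := by simp [ha, b0, s0]
  rw [← ha] at h2
  have c0 : c ≠ 0 := by rintro rfl; exact a0 (h1.na _ _ _ h2)
  obtain ⟨r, hr⟩ := exists_sq c⁻¹
  have r0 : r ≠ 0 := by rintro rfl; simp [eq_comm, c0] at hr
  let l : Fˣ := Units.mk0 (r / a) (div_ne_zero r0 a0)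
  let k' : Fˣ := Units.mk0 r r0
  have h3 := h1.cj (k := dg l k') (by simp [mem_Mp, m_dg]) (by simp [mem_Ml, m_dg])
  have h4 := cj_mem (k := dg l k') h2
  rw [dg_conj] at h4
  have e1 : (l : F) / k' * a = 1 := by simp [l, k']; field_simp
  have e2 : (k' : F) ^ 2 * c = 1 := by simp [k', hr, c0]
  rw [e1, e2] at h4
  have h5 : ad (α / l ^ 2) (β / k' ^ 2) ∈ Sz4.cj (dg l k') (Sz4.cj k P) := by
    convert cj_mem (k := dg l k') ht using 1
    apply ext16 <;> simp [mul_app, inv_app, Fin.rev, m_ad, m_dg] <;> field_simp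
  exact (h3.ident h5 h4 fun h' => hK h'.cj.cj).of_cj.of_cj

theorem Hyp.central (h : Hyp P) (nb : ∀ c b s, u 0 c b s ∈ P → c = 0) (na : ∀ a b s, u a 0 b s ∈ P → a = 0)
    {b₁ s₁ : F} (hz : u 0 0 b₁ s₁ ∈ P) (b0 : b₁ ≠ 0) (hQ : ¬ FixQ P) (hK : ¬ SubF P) : IsSzP P := by
  by_cases h2 : ∃ b s, u 0 0 b s ∈ P ∧ b ≠ 0 ∧ b₁ ≠ b
  · obtain ⟨b, s, h1, h2, h3⟩ := h2
    exact Cen.isSz ⟨h, nb, na, _, _, _, _, hz, h1, b0, h2, h3⟩ hK
  exfalso
  push Not at h2
  have s0 := (h.fz hz (by simp [b0])).2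
  have h3 : ∀ b s, u 0 0 b s ∈ P → b ≠ 0 → b = b₁ ∧ s = s₁ := by
    intro b s h1 b0
    obtain rfl := h2 b s h1 b0
    have := P.mul_mem h1 hz
    simp only [u_mul, add_zero, mul_zero, zero_mul, CharTwo.add_self_eq_zero] at this
    exact ⟨rfl, CharTwo.add_eq_zero.1 (h.fz' this rfl)⟩
  have hc : ∀ a c b s, u a c b s ∈ P → c = 0 := fun a c b s => h.no_index_two (c₀ := b₁ ^ 2 / s₁) (by
    intro a c b s hm c0
    have a0 : a ≠ 0 := fun e => c0 (nb c b s (e ▸ hm))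
    obtain ⟨e1, e2⟩ := h3 _ _ (u_sq a c b s ▸ P.mul_mem hm hm) (mul_ne_zero a0 c0)
    exact ⟨a0, by clear * - e1 e2 s0; grind⟩)
  refine hQ (h.fixQ (f₁ := s₁ / b₁ ^ 2) (f₂ := 0) fun a c b s hm => ?_)
  obtain rfl := hc _ _ _ _ hm
  obtain rfl := na _ _ _ hm
  refine ⟨rfl, ?_⟩
  by_cases e : b = 0
  · simp [e, h.fz' hm e]
  · obtain ⟨rfl, rfl⟩ := h3 _ _ hm e
    field_simp; ring

end Cfsg.Agent.H3.Sz4
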