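import Cfsg.Agent.H3.Sz8

/-! The case of dihedral Sylow subgroups. -/

set_option autoImplicit false
set_option linter.unusedSectionVars false

namespace Cfsg.Agent.H3.Sz4

open Matrix hiding J
open Cfsg.Lie Cfsg.Agent.H3.Sz1 Cfsg.Agent.H3.Sz3
open Cfsg.Agent.H6.Suzuki (pairOf_0 pairOf_1 pairOf_2 pairOf_3)

variable {F : Type*} [Field F] [CharP F 2] [Finite F] {P : Subgroup (G F)}

attribute [local irreducible] u dg

structure III (P : Subgroup (G F)) (a₁ b₁ s₁ c₂ b₂ s₂ : F) : Prop extends Hyp P where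
  h1 : u a₁ 0 b₁ s₁ ∈ P
  a0 : a₁ ≠ 0
  h2 : u 0 c₂ b₂ s₂ ∈ P
  c0 : c₂ ≠ 0

theorem Hyp.s_eq (h : Hyp P) {a c b s s' : F} (h1 : u a c b s ∈ P) (h2 : u a c b s' ∈ P) : s = s' := by
  have := P.mul_mem h1 (P.inv_mem h2)
  rw [u_inv, u_mul, CharTwo.add_self_eq_zero, CharTwo.add_self_eq_zero] at this
  have := h.fz' this (by clear * -; grind)
  clear * - this; grind

namespace III

variable {a₁ b₁ s₁ c₂ b₂ s₂ : F} (h : III P a₁ b₁ s₁ c₂ b₂ s₂)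
include h

theorem dual : III (P.map γ) c₂ s₂ (b₂ ^ 2 + c₂ * s₂) (a₁ ^ 2) (s₁ + a₁ * b₁) (b₁ ^ 2) :=
  ⟨h.toHyp.dual, by simpa [γ_u] using mem_γ.2 h.h2, h.c0, by simpa [γ_u] using mem_γ.2 h.h1,
    pow_ne_zero 2 h.a0⟩

theorem hz : u 0 0 (a₁ * c₂) (a₁ ^ 2 * c₂) ∈ P := by
  have := P.mul_mem h.h1 h.h2
  rw [u_mul] at this
  simpa [u_sq] using P.mul_mem this this

theorem s0 : s₁ ≠ 0 := h.toHyp.fp h.h1 (by simp [u_eq_one, h.a0])

theorem L1 : ∃ g ∈ P ⊓ Mp F, g ∉ Ml F := by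
  by_contra hc
  push Not at hc
  have a0 := h.a0
  have c0 := h.c0
  have s0 := h.s0
  have hC : ∀ x ∈ P, x * u a₁ 0 b₁ s₁ = u a₁ 0 b₁ s₁ * x → ∃ a b s, x = u a 0 b s := by
    intro x hx e
    have e' : x * u a₁ 0 b₁ s₁ * x⁻¹ = u a₁ 0 b₁ s₁ := by rw [e, mul_inv_cancel_right]
    have h1 := Mp_of_conj s0 e'
    have h2 := (hc x ⟨hx, h1⟩).2.1
    rw [conj_e h1, u_inj] at e'
    obtain ⟨e1, -, e2, e3⟩ := e'
    obtain ⟨-, -, -, -, k⟩ := Mp_rel h1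
    have k0 : m x 0 0 = 1 := sq_inj (by clear * - e3 s0; grind)
    have k2 : m x 2 2 = 1 := by clear * - e1 k0 h2 a0; grind
    have k1 : m x 1 1 = 1 := by clear * - k k2 h2; grind
    have k3 : m x 1 2 = 0 := by clear * - e2 k0 k1 a0; grind
    exact ⟨_, _, _, k3 ▸ eq_u k0 h1.1 h1.2.1 h1.2.2 k1 h2⟩
  have key : ∀ g ∈ P, m g 2 0 = 0 ∧ m g 3 0 = 0 := by
    intro g hg
    rcases dih h.hz (P.mul_mem (P.mul_mem hg h.h1) (P.inv_mem hg)) (by simp [u_sq, u_zero])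
      (by rw [conj_mul]; simp [u_sq, u_zero]) with ⟨t, ht, t2, e⟩ | ⟨w, hw, w1, w2, e1, e2⟩
    · exfalso
      have ti : t⁻¹ = t := inv_eq_of_mul_eq_one_right t2
      have hy := P.mul_mem h.h1 h.h2
      have cy : u a₁ 0 b₁ s₁ * u 0 c₂ b₂ s₂ * u 0 0 (a₁ * c₂) (a₁ ^ 2 * c₂) =
          u 0 0 (a₁ * c₂) (a₁ ^ 2 * c₂) * (u a₁ 0 b₁ s₁ * u 0 c₂ b₂ s₂) := by
        simp only [u_mul, u_inj]; clear * -; grind
      have sy : u a₁ 0 b₁ s₁ * u 0 c₂ b₂ s₂ * (u a₁ 0 b₁ s₁ * u 0 c₂ b₂ s₂) ≠ 1 := by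
        rw [u_mul, u_sq]; simp [u_eq_one, a0, c0]
      generalize u a₁ 0 b₁ s₁ * u 0 c₂ b₂ s₂ = y at hy cy sy
      obtain ⟨a, b, s, e3⟩ := hC ((g⁻¹ * t) * y * (g⁻¹ * t)⁻¹)
        (P.mul_mem (P.mul_mem (P.mul_mem (P.inv_mem hg) ht) hy) (P.inv_mem (P.mul_mem (P.inv_mem hg) ht)))
        (by
          have e4 : u a₁ 0 b₁ s₁ = (g⁻¹ * t) * u 0 0 (a₁ * c₂) (a₁ ^ 2 * c₂) * (g⁻¹ * t)⁻¹ := by
            rw [_root_.mul_inv_rev, ti]
            calc _ = g⁻¹ * (g * u a₁ 0 b₁ s₁ * g⁻¹) * g := by group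
              _ = _ := by rw [← e]; group
          rw [e4, conj_mul, conj_mul, cy])
      apply sy
      rw [← conj_eq_one_iff (a := g⁻¹ * t), ← conj_mul, e3]
      simp [u_sq, u_zero]
    · obtain ⟨a, c, b, s, rfl⟩ := cent (mul_ne_zero a0 c0) (mul_ne_zero (pow_ne_zero 2 a0) c0) e1
      obtain ⟨a', b', s', e3⟩ := hC (g⁻¹ * u a c b s * g) (P.mul_mem (P.mul_mem (P.inv_mem hg) hw) hg) (by
        calc _ = g⁻¹ * (u a c b s * (g * u a₁ 0 b₁ s₁ * g⁻¹)) * g := by group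
          _ = _ := by rw [e2]; group)
      have s0' : s' ≠ 0 := h.toHyp.fp (e3 ▸ P.mul_mem (P.mul_mem (P.inv_mem hg) hw) hg) (by
        rw [← e3]; intro e4; apply w1
        calc _ = g * (g⁻¹ * u a c b s * g) * g⁻¹ := by group
          _ = 1 := by rw [e4]; group)
      rw [u_sq, u_eq_one] at w2
      have k : ∀ v, s' * (m g⁻¹ *ᵥ v) 3 ^ 2 = c * v 2 ^ 2 + s * v 3 ^ 2 := by
        intro v
        have h1 := B_u a' 0 b' s' (m g⁻¹ *ᵥ v) (by simp)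
        rw [← e3, mv_mul, mv_inv', mv_mul, B_m, B_u _ _ _ _ _ w2.2.2.1] at h1
        simpa using h1.symm
      have k0 := k (Pi.single 0 1)
      have k1 := k (Pi.single 1 1)
      simp [s0', inv_app, Fin.rev] at k0 k1
      exact ⟨k1, k0⟩
  obtain ⟨g₀, hg₀, gn⟩ : ∃ g ∈ P, g ∉ Mp F := by
    have := h.npt 1
    push Not at this
    simpa using this
  have g1 : m g₀ 1 0 ≠ 0 := fun e => gn ⟨e, key g₀ hg₀⟩
  refine h.nln 1 fun g hg => ?_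
  have k1 := key g hg
  have k2 := key _ (P.mul_mem hg hg₀)
  simp [mul_app, k1, key g₀ hg₀, g1] at k2
  simpa [mem_Ml, k1] using k2

omit h in
theorem Y_conj {x y : F} (hY : ∀ a b s, u a 0 b s ∈ P → u (a + (b * y + a * x) * y) 0 (b + (b * y + a * x) * x) s ∈ P)
    {g : G F} (hg : g ∈ P ⊓ Mp F) (a b s : F) (hm : u a 0 b s ∈ P) :
    u (a + (b * (m g 2 1 * x + m g 2 2 * y) + a * (m g 1 1 * x + m g 1 2 * y)) * (m g 2 1 * x + m g 2 2 * y)) 0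
      (b + (b * (m g 2 1 * x + m g 2 2 * y) + a * (m g 1 1 * x + m g 1 2 * y)) * (m g 1 1 * x + m g 1 2 * y))
      s ∈ P := by
  have h1 := P.mul_mem (P.mul_mem (P.inv_mem hg.1) hm) (P.inv_mem (P.inv_mem hg.1))
  rw [conj_e (inv_mem hg.2)] at h1
  have h2 := P.mul_mem (P.mul_mem hg.1 (hY _ _ _ h1)) (P.inv_mem hg.1)
  rw [conj_e hg.2] at h2
  obtain ⟨-, -, -, k1, k2⟩ := Mp_rel hg.2
  simp only [inv_app, Fin.rev] at h2
  convert h2 using 2 <;> simp <;> clear * - k1 k2 <;> grind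

omit h in
theorem Y_out {x y : F} (hY : ∀ a b s, u a 0 b s ∈ P → u (a + (b * y + a * x) * y) 0 (b + (b * y + a * x) * x) s ∈ P)
    {a b s : F} (hm : u a 0 b s ∈ P) :
    u ((b * y + a * x) * y) 0 ((b * y + a * x) * x) ((b * y + a * x) ^ 2) ∈ P := by
  have := P.mul_mem hm (hY _ _ _ hm)
  rw [u_mul] at this
  convert this using 2 <;> clear * - <;> grind

omit h in
theorem Y_of {a c b s r : F} (hm : u a c b s ∈ P) (hr : r ^ 2 = c) (a' b' s' : F) (hm' : u a' 0 b' s' ∈ P) :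
    u (a' + (b' * 0 + a' * r) * 0) 0 (b' + (b' * 0 + a' * r) * r) s' ∈ P := by
  have := P.mul_mem (P.mul_mem hm hm') (P.inv_mem hm)
  rw [conj_e (U_le_Mp (u_mem ..))] at this
  convert this using 2 <;> simp [m_u] <;> clear * - hr <;> grind

theorem L2 {a c b s : F} (hm : u a c b s ∈ P) : c = 0 ∨ c = c₂ := by
  by_contra hc
  push Not at hc
  obtain ⟨g, hg, gn⟩ := h.L1
  have g21 : m g 2 1 ≠ 0 := fun e => gn ⟨hg.2.2.1, e, hg.2.2.2, (Mp_rel hg.2).2.1⟩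
  obtain ⟨r, hr⟩ := exists_sq c
  obtain ⟨r', hr'⟩ := exists_sq c₂
  have y1 := Y_of hm hr
  have y2 := Y_of h.h2 hr'
  have e1 := Y_out (Y_conj y2 hg) (Y_out y1 h.h1)
  have e2 := Y_out (Y_conj y1 hg) (Y_out y2 h.h1)
  have a0 := h.a0
  have c0 := h.c0
  have r0 : r ≠ 0 := by clear * - hr hc; grind
  have r0' : r' ≠ 0 := by clear * - hr' c0; grind
  have := h.toHyp.s_eq e1 (by convert e2 using 2 <;> ring)
  have e3 : (a₁ * r * r' * m g 2 1) ^ 2 * (c + c₂) = 0 := by clear * - this hr hr'; grind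
  simp only [mul_eq_zero, pow_eq_zero_iff two_ne_zero, a0, r0, r0', g21, false_or] at e3
  exact hc.2 (CharTwo.add_eq_zero.1 e3)

theorem L2' {a c b s : F} (hm : u a c b s ∈ P) : a = 0 ∨ a = a₁ := by
  have := mem_γ.2 hm
  rw [γ_u] at this
  exact (h.dual.L2 this).imp (by simp) sq_inj

theorem Z2 {b s : F} (hm : u 0 0 b s ∈ P) : (b = 0 ∧ s = 0) ∨ (b = a₁ * c₂ ∧ s = a₁ ^ 2 * c₂) := by
  by_cases b0 : b = 0
  · exact Or.inl ⟨b0, h.toHyp.fz' hm b0⟩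
  obtain ⟨g, hg, gn⟩ := h.L1
  have g21 : m g 2 1 ≠ 0 := fun e => gn ⟨hg.2.2.1, e, hg.2.2.2, (Mp_rel hg.2).2.1⟩
  have g0 := (Mp_rel hg.2).1
  have h1 := P.mul_mem (P.mul_mem hg.1 hm) (P.inv_mem hg.1)
  have h2 := P.mul_mem (P.mul_mem hg.1 h.hz) (P.inv_mem hg.1)
  rw [conj_e hg.2] at h1 h2
  have e1 := (h.L2' h1).resolve_left (by simp [g0, g21, b0])
  have e2 := (h.L2' h2).resolve_left (by simp [g0, g21, h.a0, h.c0])
  have e3 : b = a₁ * c₂ := by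
    have := e1.trans e2.symm
    simpa [g0, g21] using this
  subst e3
  exact Or.inr ⟨rfl, h.toHyp.s_eq hm h.hz⟩

theorem E2 {b s : F} (hm : u a₁ 0 b s ∈ P) : s = s₁ ∧ (b = b₁ ∨ b = b₁ + a₁ * c₂) := by
  have := P.mul_mem hm h.h1
  rw [u_mul, CharTwo.add_self_eq_zero, add_zero] at this
  have := h.Z2 this
  clear * - this; grind

theorem rel3 : s₁ = a₁ ^ 2 * c₂ := by
  obtain ⟨g, hg, gn⟩ := h.L1
  have g21 : m g 2 1 ≠ 0 := fun e => gn ⟨hg.2.2.1, e, hg.2.2.2, (Mp_rel hg.2).2.1⟩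
  have g0 := (Mp_rel hg.2).1
  have h3 : u a₁ 0 (b₁ + a₁ * c₂) s₁ ∈ P := by
    have := P.mul_mem h.h1 h.hz
    rw [u_mul] at this
    convert this using 2 <;> clear * - <;> grind
  have h1 := P.mul_mem (P.mul_mem hg.1 h.h1) (P.inv_mem hg.1)
  have h2 := P.mul_mem (P.mul_mem hg.1 h.hz) (P.inv_mem hg.1)
  have h4 := P.mul_mem (P.mul_mem hg.1 h3) (P.inv_mem hg.1)
  rw [conj_e hg.2] at h1 h2 h4
  have e2 := (h.L2' h2).resolve_left (by simp [g0, g21, h.a0, h.c0])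
  have e3 := (h.E2 (e2 ▸ h2)).1
  have s0 := h.s0
  have a0 := h.a0
  have e4 : m g 0 0 ^ 2 * s₁ = s₁ := by
    rcases h.L2' h1 with e | e
    · rcases h.L2' h4 with e' | e'
      · exfalso; clear * - e e' e2 a0; grind
      · exact (h.E2 (e' ▸ h4)).1
    · exact (h.E2 (e ▸ h1)).1
  clear * - e3 e4 s0; grind

end III

theorem III.normal {a₁ b₁ s₁ c₂ b₂ s₂ : F} (h : III P a₁ b₁ s₁ c₂ b₂ s₂) :
    ∃ k : G F, III (cj k P) 1 0 1 1 0 1 := by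
  have e1 := h.rel3
  have e2 := h.dual.rel3
  have a0 := h.a0
  have c0 := h.c0
  obtain ⟨r, hr⟩ := exists_sq c₂⁻¹
  have r0 : r ≠ 0 := by rintro rfl; simp [eq_comm, c0] at hr
  let l : Fˣ := Units.mk0 (r / a₁) (div_ne_zero r0 a0)
  let k : Fˣ := Units.mk0 r r0
  have h1 := h.toHyp.cjd l k
  have h2 := h1.cjU (u_mem (l * k * b₂) (l * k * b₁) 0 0)
  have e : cj (u (l * k * b₂) (l * k * b₁) 0 0) (cj (dg l k) P) =
      cj (u (l * k * b₂) (l * k * b₁) 0 0 * dg l k) P := by ext x; simp [mem_cj, mul_assoc]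
  refine ⟨_, e ▸ h2, ?_, one_ne_zero, ?_, one_ne_zero⟩
  · rw [← e]
    convert cj_mem (cj_mem h.h1) using 1
    rw [dg_conj, u_inv, u_mul, u_mul, u_inj]
    simp only [l, k, Units.val_mk0]
    clear * - e1 a0 c0 hr r0; grind
  · rw [← e]
    convert cj_mem (cj_mem h.h2) using 1
    rw [dg_conj, u_inv, u_mul, u_mul, u_inj]
    simp only [l, k, Units.val_mk0]
    clear * - e2 a0 c0 hr r0; grind

def A0 (F : Type*) [Field F] [CharP F 2] : G F :=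
  mk !![1, 0, 0, 1; 0, 1, 0, 0; 0, 1, 1, 0; 0, 0, 0, 1] (by open Cfsg.Agent.H6.Suzuki in mx)

theorem m_A0 : m (A0 F) = !![1, 0, 0, 1; 0, 1, 0, 0; 0, 1, 1, 0; 0, 0, 0, 1] := rfl

theorem m_B0 : m (γ (A0 F)) = !![1, 0, 1, 0; 1, 1, 1, 1; 0, 0, 1, 0; 0, 0, 1, 1] := by
  ext i j
  fin_cases i <;> fin_cases j <;> simp [γ_app, m_A0, pairOf_0, pairOf_1, pairOf_2, pairOf_3] <;> grind

theorem III.dual0 (h : III P 1 0 1 1 0 1) : III (P.map γ) 1 0 1 1 0 1 := by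
  have h' := h.dual
  have hz := h'.hz
  refine ⟨h'.toHyp, ?_, one_ne_zero, ?_, one_ne_zero⟩
  · convert mul_mem h'.h1 hz using 1
    rw [u_mul, u_inj]; clear * -; grind
  · convert mul_mem h'.h2 hz using 1
    rw [u_mul, u_inj]; clear * -; grind

theorem III.H4 (h : III P 1 0 1 1 0 1) : ∃ β : F, u 0 0 β 0 * A0 F * (u 0 0 β 0)⁻¹ ∈ P := by
  have hz : u 0 0 (1 : F) 1 ∈ P := by simpa using h.hz
  have cz : ∀ g ∈ P ⊓ Mp F, g ∉ Ml F → ∃ b, g * u 0 0 1 1 * g⁻¹ = u 1 0 b 1 ∧ (b = 0 ∨ b = 1) := by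
    intro g hg gn
    have g21 : m g 2 1 ≠ 0 := fun e => gn ⟨hg.2.2.1, e, hg.2.2.2, (Mp_rel hg.2).2.1⟩
    have g0 := (Mp_rel hg.2).1
    have h2 := P.mul_mem (P.mul_mem hg.1 hz) (P.inv_mem hg.1)
    rw [conj_e hg.2] at h2 ⊢
    have e2 := (h.L2' h2).resolve_left (by simp [g0, g21])
    rw [e2] at h2 ⊢
    obtain ⟨e3, e4⟩ := h.E2 h2
    exact ⟨_, by rw [e3], by simpa using e4⟩
  have c2 : ∀ b : F, u 0 1 0 1 * u 1 0 b 1 * (u 0 1 0 1)⁻¹ = u 1 0 b 1 * u 0 0 1 1 := by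
    intro b; rw [u_inv, u_mul, u_mul, u_mul, u_inj]; clear * -; grind
  obtain ⟨g, hg, gn, e⟩ : ∃ g ∈ P ⊓ Mp F, g ∉ Ml F ∧ g * u 0 0 1 1 * g⁻¹ = u 1 0 0 1 := by
    obtain ⟨g, hg, gn⟩ := h.L1
    obtain ⟨b, e, rfl | rfl⟩ := cz g hg gn
    · exact ⟨g, hg, gn, e⟩
    · refine ⟨u 0 1 0 1 * g, mul_mem ⟨h.h2, U_le_Mp (u_mem ..)⟩ hg,
        fun h' => gn (by simpa using mul_mem (inv_mem (U_le_Ml (u_mem 0 1 0 1))) h'), ?_⟩
      calc _ = u 0 1 0 1 * (g * u 0 0 1 1 * g⁻¹) * (u 0 1 0 1)⁻¹ := by group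
        _ = _ := by rw [e, c2, u_mul, u_inj]; clear * -; grind
  obtain ⟨b, e', -⟩ := cz g⁻¹ (inv_mem hg) (fun h' => gn (by simpa using inv_mem h'))
  have hx : g * u 0 1 0 1 * g⁻¹ ∈ P ⊓ Mp F :=
    mul_mem (mul_mem hg ⟨h.h2, U_le_Mp (u_mem ..)⟩) (inv_mem hg)
  have x2 : (g * u 0 1 0 1 * g⁻¹) * (g * u 0 1 0 1 * g⁻¹) = 1 := by
    rw [conj_mul]; simp [u_sq, u_zero]
  have f1 : (g * u 0 1 0 1 * g⁻¹) * u 1 0 0 1 * (g * u 0 1 0 1 * g⁻¹)⁻¹ = u 1 0 0 1 := by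
    have : u (0 : F) 1 0 1 * u 0 0 1 1 * (u 0 1 0 1)⁻¹ = u 0 0 1 1 := by
      rw [u_inv, u_mul, u_mul, u_inj]; clear * -; grind
    calc _ = g * (u 0 1 0 1 * (g⁻¹ * u 1 0 0 1 * g) * (u 0 1 0 1)⁻¹) * g⁻¹ := by group
      _ = _ := by rw [← e]; simp only [← mul_assoc, inv_mul_cancel, one_mul, inv_mul_cancel_right]
                  rw [mul_assoc g, mul_assoc g, this]
  have f2 : (g * u 0 1 0 1 * g⁻¹) * u 0 0 1 1 * (g * u 0 1 0 1 * g⁻¹)⁻¹ = u 1 0 1 1 := by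
    calc _ = g * (u 0 1 0 1 * (g⁻¹ * u 0 0 1 1 * g⁻¹⁻¹) * (u 0 1 0 1)⁻¹) * g⁻¹ := by group
      _ = u 0 0 1 1 * (g * u 0 0 1 1 * g⁻¹) := by rw [e', c2, ← e']; group
      _ = _ := by rw [e, u_mul, u_inj]; clear * -; grind
  generalize g * u 0 1 0 1 * g⁻¹ = x at hx x2 f1 f2
  rw [conj_e hx.2, u_inj] at f1 f2
  obtain ⟨-, k1, k2, k3, -⟩ := Mp_rel hx.2
  obtain ⟨k4, k5, k6⟩ := hx.2
  have x00 : m x 0 0 = 1 := sq_inj (by simpa using f1.2.2.2)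
  simp only [x00, mul_zero, mul_one, one_mul, zero_add, add_zero] at f1 f2 k3
  have x01 : m (x * x) 0 1 = 0 := by simp [x2, m_one]
  have c := cr x
  simp [mul_app, x00, k1, f2.1, f2.2.2.1] at x01
  have x02 : m x 0 2 = 0 := by clear * - x01; grind
  have x13 : m x 1 3 = 0 := by have := f1.1; have := f1.2.2.1; clear * - c x02 k2 k3 f1; grind
  have x23 : m x 2 3 = m x 0 1 := by clear * - c x13 k1 k3 f2; grind
  have e3 : (u 0 1 0 1 * x) * (u 0 1 0 1 * x) * (u 0 1 0 1 * x) = u 0 0 0 (m x 0 3 + m x 0 1 ^ 2 + 1) := by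
    apply ext16 <;> simp [mul_app, m_u, x00, k1, k2, k3, k4, k5, k6, f1.1, f1.2.2.1, f2.1, f2.2.2.1,
      x02, x13, x23] <;> clear * - <;> grind
  have hy := P.mul_mem h.h2 hx.1
  have e4 := h.toHyp.fz' (e3 ▸ P.mul_mem (P.mul_mem hy hy) hy) rfl
  refine ⟨m x 0 1, ?_⟩
  convert (show x ∈ P from hx.1) using 1
  apply ext16 <;> simp [mul_app, u_inv, m_u, m_A0, x00, k1, k2, k3, k4, k5, k6, f1.1, f1.2.2.1, f2.1,
    f2.2.2.1, x02, x13, x23] <;> clear * - e4 <;> grind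

theorem III.fin (h4 : 4 ≤ Nat.card F) (h : III P 1 0 1 1 0 1) (hA : A0 F ∈ P) (hB : γ (A0 F) ∈ P) :
    SubF P := by
  have hz : u 0 0 (1 : F) 1 ∈ P := by simpa using h.hz
  have m0 : (0 : F) ∈ F2 F := zero_mem _
  have m1 : (1 : F) ∈ F2 F := one_mem _
  have uO : ∀ {a c b s : F}, a ∈ F2 F → c ∈ F2 F → b ∈ F2 F → s ∈ F2 F → u a c b s ∈ Over (F2 F) := by
    intro a c b s h1 h2 h3 h4 i j
    have h5 := add_mem h3 (mul_mem h1 h2)
    fin_cases i <;> fin_cases j <;> simp [m_u, h1, h2, h3, h4, h5]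
  have hT : P ⊓ U F ≤ P ⊓ Over (F2 F) := by
    rintro _ ⟨hm, a, c, b, s, rfl⟩
    refine ⟨hm, ?_⟩
    have key : ∀ {a c b s : F}, u a c b s ∈ P → ∀ y ∈ P, y ∈ Over (F2 F) → ∀ b' s',
        u a c b s * y = u 0 0 b' s' → u a c b s ∈ Over (F2 F) := by
      intro a c b s hm y hy hy' b' s' e
      rw [eq_mul_inv_of_mul_eq e]
      refine mul_mem ?_ (inv_mem hy')
      rcases h.Z2 (e ▸ P.mul_mem hm hy) with ⟨rfl, rfl⟩ | ⟨rfl, rfl⟩
      · exact uO m0 m0 m0 m0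
      · exact uO m0 m0 (by simp) (by simp)
    rcases h.L2' hm with rfl | rfl <;> rcases h.L2 hm with rfl | rfl
    · exact key hm 1 (one_mem _) (one_mem _) _ _ (mul_one _)
    · exact key hm _ h.h2 (uO m0 m1 m0 m1) _ _ (by rw [u_mul, CharTwo.add_self_eq_zero, CharTwo.add_self_eq_zero])
    · exact key hm _ h.h1 (uO m1 m0 m0 m1) _ _ (by rw [u_mul, CharTwo.add_self_eq_zero, CharTwo.add_self_eq_zero])
    · exact key hm _ (P.mul_mem h.h1 h.h2) (mul_mem (uO m1 m0 m0 m1) (uO m0 m1 m0 m1)) _ _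
        (by rw [u_mul, u_mul, add_zero, zero_add, CharTwo.add_self_eq_zero])
  have hA' : A0 F ∈ P ⊓ Over (F2 F) := ⟨hA, fun i j => by fin_cases i <;> fin_cases j <;> simp [m_A0]⟩
  have hB' : γ (A0 F) ∈ P ⊓ Over (F2 F) := ⟨hB, fun i j => by fin_cases i <;> fin_cases j <;> simp [m_B0]⟩
  have h1' := hT ⟨h.h1, u_mem ..⟩
  have h2' := hT ⟨h.h2, u_mem ..⟩
  have hz' := hT ⟨hz, u_mem ..⟩
  have cA : A0 F * u 0 0 1 1 * (A0 F)⁻¹ = u 1 0 1 1 := by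
    apply ext16 <;> simp [mul_app, inv_app, Fin.rev, m_u, m_A0] <;> clear * - <;> grind
  have cB : γ (A0 F) * u 0 0 1 1 * (γ (A0 F))⁻¹ = u 0 1 0 1 := by
    apply ext16 <;> simp [mul_app, inv_app, Fin.rev, m_u, m_B0] <;> clear * - <;> grind
  have hcj : ∀ y ∈ P ⊓ Over (F2 F), y ≠ 1 → y * y = 1 →
      ∃ x ∈ P ⊓ Over (F2 F), y = x * u 0 0 1 1 * x⁻¹ := by
    intro y hy y1 y2
    obtain ⟨x, hx, a, c, b, s, rfl, hm, h0⟩ := h.toHyp.into hT inf_le_left hy y2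
    suffices ∃ x' ∈ P ⊓ Over (F2 F), u a c b s = x' * u 0 0 1 1 * x'⁻¹ by
      obtain ⟨x', hx', e⟩ := this
      exact ⟨x * x', mul_mem hx hx', by rw [e]; group⟩
    rcases h.L2' hm with rfl | rfl <;> rcases h.L2 hm with rfl | rfl
    · rcases h.Z2 hm with ⟨rfl, rfl⟩ | ⟨rfl, rfl⟩
      · simp [u_zero] at y1
      · exact ⟨1, one_mem _, by simp⟩
    · have := P.mul_mem hm h.h2
      rw [u_mul, CharTwo.add_self_eq_zero, CharTwo.add_self_eq_zero] at this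
      rcases h.Z2 this with e | e
      · exact ⟨_, hB', by rw [cB, u_inj]; clear * - e; grind⟩
      · refine ⟨_, mul_mem h1' hB', ?_⟩
        calc _ = u 1 0 0 1 * (γ (A0 F) * u 0 0 1 1 * (γ (A0 F))⁻¹) * (u 1 0 0 1)⁻¹ := by
              rw [cB, u_inv, u_mul, u_mul, u_inj]; clear * - e; grind
          _ = _ := by group
    · obtain ⟨rfl, rfl | rfl⟩ := h.E2 hm
      · refine ⟨_, mul_mem h2' hA', ?_⟩
        calc _ = u 0 1 0 1 * (A0 F * u 0 0 1 1 * (A0 F)⁻¹) * (u 0 1 0 1)⁻¹ := by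
              rw [cA, u_inv, u_mul, u_mul, u_inj]; clear * -; grind
          _ = _ := by group
      · exact ⟨_, hA', by rw [cA]; simp⟩
    · simp at h0
  have hS : SE P (P ⊓ Over (F2 F)) := by
    refine ⟨inf_le_left, fun g hg y hy y1 y2 hy' => ?_, fun z hz z1 z2 x _ e => h.toHyp.cit hz z1 z2 e⟩
    obtain ⟨x', hx', e⟩ := hcj _ hy' (by simpa using y1) (by rw [conj_mul, y2]; simp)
    obtain ⟨x, hx, rfl⟩ := hcj y hy y1 y2
    have h1 : x'⁻¹ * g * x ∈ P ⊓ U F := ⟨P.mul_mem (P.mul_mem (P.inv_mem hx'.1) hg) hx.1,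
      cent one_ne_zero one_ne_zero (by
        calc _ = x'⁻¹ * (g * (x * u 0 0 1 1 * x⁻¹) * g⁻¹) * g * x := by group
          _ = _ := by rw [e]; group)⟩
    simpa [mul_assoc] using mul_mem (mul_mem hx' (hT h1)) (inv_mem hx)
  by_contra hn
  obtain ⟨g, hg, gn⟩ : ∃ g ∈ P, g ∉ P ⊓ Over (F2 F) := by
    by_contra hc
    push Not at hc
    exact hn ⟨_, F2_ne_top h4, 1, fun g hg => by simpa [mem_Over] using (hc g hg).2⟩
  have z1 : u 0 0 (1 : F) 1 ≠ 1 := by simp [u_eq_one]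
  have z2 : u 0 0 (1 : F) 1 * u 0 0 1 1 = 1 := by simp [u_sq, u_zero]
  obtain ⟨t, ht, t2, e⟩ := hS.exists_t hz' z1 z2 hg gn
  have tn : t ∉ P ⊓ Over (F2 F) := fun h' => gn (by simpa using mul_mem h' (inv_mem e))
  obtain ⟨d, hd, hd', e1⟩ := hS.trans ht t2 tn hz' z1 z2 h1' (by simp [u_eq_one]) (by simp [u_sq, u_zero])
  have key : ∀ b s : F, u 0 1 b s ∈ P → d * u 0 1 b s * d⁻¹ = u 0 0 1 1 := by
    intro b s hm
    obtain ⟨d', hd1, hd2, e2⟩ := hS.trans ht t2 tn hz' z1 z2 (hT ⟨hm, u_mem ..⟩) (by simp [u_eq_one])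
      (by simp [u_sq, u_zero])
    have c := hS.comm ht t2 tn hd hd' hd1 hd2
    have c1 : (d * u 0 1 b s * d⁻¹) * u 1 0 0 1 = u 1 0 0 1 * (d * u 0 1 b s * d⁻¹) := by
      rw [← e1, conj_mul, conj_mul, u_mul, u_mul]; congr 2; rw [u_inj]; clear * -; grind
    have e3 : d * u 0 1 b s * d⁻¹ = d' * u 1 0 0 1 * d'⁻¹ := by
      rw [← e1, ← e2]
      calc _ = (d * d') * u 0 0 1 1 * (d * d')⁻¹ := by group
        _ = _ := by rw [c]; group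
    have c2 : (d * u 0 1 b s * d⁻¹) * u 0 1 b s = u 0 1 b s * (d * u 0 1 b s * d⁻¹) := by
      rw [e3, ← e2, conj_mul, conj_mul, u_mul, u_mul]; congr 2; rw [u_inj]; clear * -; grind
    have hx : d * u 0 1 b s * d⁻¹ ∈ P := P.mul_mem (P.mul_mem hd.1 hm) (P.inv_mem hd.1)
    have x1 : d * u 0 1 b s * d⁻¹ ≠ 1 := by simp [u_eq_one]
    generalize d * u 0 1 b s * d⁻¹ = x at c1 c2 hx x1
    have e4 : u 0 0 (1 : F) 1 = (u 1 0 0 1 * u 0 1 b s) * (u 1 0 0 1 * u 0 1 b s) := by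
      rw [u_mul, u_sq]; simp
    obtain ⟨a', c', b', s', rfl⟩ := cent (g := x) one_ne_zero one_ne_zero (by
      rw [e4]
      exact ((((show Commute x _ from c1).mul_right c2)).mul_right
        ((show Commute x _ from c1).mul_right c2)).eq)
    rw [u_mul, u_mul, u_inj] at c1 c2
    have a0 : a' = 0 := by clear * - c2; grind
    have c0 : c' = 0 := by clear * - c1; grind
    subst a0 c0
    rcases h.Z2 hx with ⟨rfl, rfl⟩ | ⟨rfl, rfl⟩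
    · simp [u_zero] at x1
    · simp
  have k1 := key _ _ h.h2
  have k2 := key 1 0 (by
    have := P.mul_mem h.h2 hz
    rw [u_mul] at this
    convert this using 2 <;> clear * - <;> grind)
  have := k1.trans k2.symm
  simp [u_inj] at this

theorem III.subF (h4 : 4 ≤ Nat.card F) {a₁ b₁ s₁ c₂ b₂ s₂ : F} (h : III P a₁ b₁ s₁ c₂ b₂ s₂) : SubF P := by
  obtain ⟨k, h⟩ := h.normal
  refine SubF.cj (k := k) ?_
  generalize cj k P = P at h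
  obtain ⟨β, h1⟩ := h.H4
  obtain ⟨σ, h2⟩ := h.dual0.H4
  have e : γ (u 0 0 0 σ * γ (A0 F) * (u 0 0 0 σ)⁻¹) = u 0 0 σ 0 * A0 F * (u 0 0 σ 0)⁻¹ := by
    have : γ (γ (A0 F)) = A0 F := by apply ext16 <;> simp [γγ, m_A0]
    simp [γ_u, this]
  rw [← e, mem_γ] at h2
  refine SubF.cj (k := u 0 0 β σ) (III.fin h4 ⟨h.toHyp.cjU (u_mem ..), ?_, one_ne_zero, ?_, one_ne_zero⟩ ?_ ?_)
  · convert cj_mem h.h1 using 1
    rw [u_inv, u_mul, u_mul, u_inj]; clear * -; grind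
  · convert cj_mem h.h2 using 1
    rw [u_inv, u_mul, u_mul, u_inj]; clear * -; grind
  · convert cj_mem h1 using 1
    apply ext16 <;> simp [mul_app, u_inv, m_u, m_A0] <;> clear * - <;> grind
  · convert cj_mem h2 using 1
    apply ext16 <;> simp [mul_app, u_inv, m_u, m_B0] <;> clear * - <;> grind

end Cfsg.Agent.H3.Sz4
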