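import Cfsg.Agent.H7.Tensor

/-!
Overgroups of `1 ⊗ SL(W)` in `GL(U ⊗ W)`: root elements, the parabolic analysis and the algebra of
"levels".
-/

set_option autoImplicit false
set_option linter.unusedSectionVars false

namespace Cfsg.Agent.H3.TenLin

open Module Cfsg.Agent.H7

variable {F : Type*} [Field F] {V : Type*} [AddCommGroup V] [Module F V]
  {U : Type*} [AddCommGroup U] [Module F U] {W : Type*} [AddCommGroup W] [Module F W]
  {τ : U →ₗ[F] W →ₗ[F] V}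

/-- The subspace `U ⊗ w`. -/
def Bw (τ : U →ₗ[F] W →ₗ[F] V) (w : W) : Submodule F V := LinearMap.range (τ.flip w)

theorem mem_Bw {w : W} {v : V} : v ∈ Bw τ w ↔ ∃ u, τ u w = v := Iff.rfl

theorem tmul_mem_Bw (u : U) (w : W) : τ u w ∈ Bw τ w := ⟨u, rfl⟩

theorem finrank_Bw (h : IsTens τ) {w : W} (hw : w ≠ 0) : finrank F (Bw τ w) = finrank F U :=
  LinearMap.finrank_range_of_inj (h.left_inj hw)

theorem ctr_Bw (h : IsTens τ) {φ : Dual F W} {w : W} (hφ : φ w = 0) {v : V} (hv : v ∈ Bw τ w) :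
    h.ctr φ v = 0 := by
  obtain ⟨u, rfl⟩ := hv
  simp [hφ]

theorem ctr_add (h : IsTens τ) (φ ψ : Dual F W) : h.ctr (φ + ψ) = h.ctr φ + h.ctr ψ :=
  h.ext fun a b => by simp [add_smul]

theorem ctr_smul (h : IsTens τ) (c : F) (φ : Dual F W) : h.ctr (c • φ) = c • h.ctr φ :=
  h.ext fun a b => by simp [mul_smul]

theorem ctr_zero (h : IsTens τ) : h.ctr 0 = 0 := h.ext fun a b => by simp

theorem ctr_neg (h : IsTens τ) (φ : Dual F W) : h.ctr (-φ) = - h.ctr φ :=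
  h.ext fun a b => by simp

/-- contraction as a linear map in the functional -/
noncomputable def ctrL (h : IsTens τ) (v : V) : Dual F W →ₗ[F] U where
  toFun φ := h.ctr φ v
  map_add' φ ψ := by rw [ctr_add]; rfl
  map_smul' c φ := by rw [ctr_smul]; rfl

@[simp] theorem ctrL_apply (h : IsTens τ) (v : V) (φ : Dual F W) : ctrL h v φ = h.ctr φ v := rfl

theorem ctr_tmap (h : IsTens τ) (φ : Dual F W) (a : U →ₗ[F] U) (b : W →ₗ[F] W) (v : V) :
    h.ctr φ (h.tmap a b v) = a (h.ctr (φ ∘ₗ b) v) := by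
  refine h.induction v (by simp) (fun x y => by simp) (fun x y hx hy => by simp [hx, hy])

theorem ctr_of_tens (h : IsTens τ) (φ : Dual F W) {g : V ≃ₗ[F] V} {a : U ≃ₗ[F] U} {b : W ≃ₗ[F] W}
    (hg : ∀ u w, g (τ u w) = τ (a u) (b w)) (v : V) :
    h.ctr φ (g v) = a (h.ctr (φ ∘ₗ (b : W →ₗ[F] W)) v) := by
  refine h.induction v (by simp) (fun x y => by simp [hg]) (fun x y hx hy => by simp [hx, hy])

theorem tcongr_mem (h : IsTens τ) (a : U ≃ₗ[F] U) (b : W ≃ₗ[F] W) : h.tcongr a b ∈ TStab τ :=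
  ⟨a, b, fun _ _ => h.tcongr_apply _ _ _ _⟩

theorem eq_of_tmul_eq (h : IsTens τ) {u u' : U} {w : W} (hw : w ≠ 0) (e : τ u w = τ u' w) :
    u = u' := h.left_inj hw e

theorem mem_Bw_of_ctr [FiniteDimensional F W] (h : IsTens τ) {w : W} (hw : w ≠ 0) {v : V}
    (hv : ∀ φ : Dual F W, φ w = 0 → h.ctr φ v = 0) : v ∈ Bw τ w := by
  obtain ⟨ψ, hψ, -⟩ := exists_dual_one (W := (⊥ : Submodule F W)) (x := w) (by simpa using hw)
  refine ⟨h.ctr ψ v, ?_⟩
  rw [eq_comm, ← sub_eq_zero]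
  refine h.eq_zero_of_ctr fun φ => ?_
  have := hv (φ - φ w • ψ) (by simp [hψ])
  rw [sub_eq_add_neg, ctr_add, ctr_neg, ctr_smul] at this
  simpa [sub_eq_add_neg] using this

/-- The map `v ↦ v + θ v ⊗ w` belongs to `M`. -/
def HasQ (τ : U →ₗ[F] W →ₗ[F] V) (M : Subgroup (V ≃ₗ[F] V)) (θ : V →ₗ[F] U) (w : W) : Prop :=
  ∃ g ∈ M, ∀ v, g v = v + τ (θ v) w

variable {M : Subgroup (V ≃ₗ[F] V)}

theorem HasQ.congr {θ θ' : V →ₗ[F] U} {w w' : W} (h : HasQ τ M θ w)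
    (e : ∀ v, τ (θ v) w = τ (θ' v) w') : HasQ τ M θ' w' := by
  obtain ⟨g, hg, e'⟩ := h
  exact ⟨g, hg, fun v => by rw [e', e]⟩

theorem HasQ.add {θ θ' : V →ₗ[F] U} {w : W} (h : HasQ τ M θ w) (h' : HasQ τ M θ' w)
    (h0 : ∀ u, θ (τ u w) = 0) : HasQ τ M (θ + θ') w := by
  obtain ⟨g, hg, e⟩ := h
  obtain ⟨g', hg', e'⟩ := h'
  refine ⟨g * g', M.mul_mem hg hg', fun v => ?_⟩
  simp only [LinearEquiv.mul_apply, e, e', map_add, h0, LinearMap.add_apply]
  simp only [map_zero, LinearMap.zero_apply, add_zero]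
  abel

theorem symm_apply_of_Q {θ : V →ₗ[F] U} {w : W} {g : V ≃ₗ[F] V} (e : ∀ v, g v = v + τ (θ v) w)
    (h0 : ∀ u, θ (τ u w) = 0) (v : V) : g.symm v = v - τ (θ v) w := by
  rw [LinearEquiv.symm_apply_eq, e]
  simp [h0]

theorem HasQ.neg {θ : V →ₗ[F] U} {w : W} (h : HasQ τ M θ w) (h0 : ∀ u, θ (τ u w) = 0) :
    HasQ τ M (-θ) w := by
  obtain ⟨g, hg, e⟩ := h
  refine ⟨g⁻¹, M.inv_mem hg, fun v => ?_⟩
  rw [LinearEquiv.coe_inv, symm_apply_of_Q e h0]
  simp [sub_eq_add_neg]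

theorem HasQ.sub {θ θ' : V →ₗ[F] U} {w : W} (h : HasQ τ M θ w) (h' : HasQ τ M θ' w)
    (h0 : ∀ u, θ (τ u w) = 0) (h0' : ∀ u, θ' (τ u w) = 0) : HasQ τ M (θ - θ') w := by
  rw [sub_eq_add_neg]; exact h.add (h'.neg h0') h0

theorem hasQ_zero (w : W) : HasQ τ M 0 w := ⟨1, M.one_mem, fun v => by simp⟩

/-- Conjugation by an element mapping `U ⊗ w` to `U ⊗ w'`. -/
theorem HasQ.conj {θ : V →ₗ[F] U} {w w' : W} (h : HasQ τ M θ w) {x : V ≃ₗ[F] V} (hx : x ∈ M)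
    (a : U →ₗ[F] U) (ha : ∀ u, x (τ u w) = τ (a u) w') :
    HasQ τ M (a ∘ₗ θ ∘ₗ (x.symm : V →ₗ[F] V)) w' := by
  obtain ⟨g, hg, e⟩ := h
  refine ⟨x * g * x⁻¹, M.mul_mem (M.mul_mem hx hg) (M.inv_mem hx), fun v => ?_⟩
  simp [e, ha]

/-- The commutator with an element fixing `U ⊗ w` pointwise. -/
theorem HasQ.comm {θ : V →ₗ[F] U} {w : W} (h : HasQ τ M θ w) (h0 : ∀ u, θ (τ u w) = 0)
    {x : V ≃ₗ[F] V} (hx : x ∈ M) (ha : ∀ u, x (τ u w) = τ u w) :
    HasQ τ M (θ - θ ∘ₗ (x.symm : V →ₗ[F] V)) w := by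
  have := h.conj hx LinearMap.id ha
  refine h.sub this h0 (fun u => ?_)
  have e : x.symm (τ u w) = τ u w := by rw [LinearEquiv.symm_apply_eq, ha]
  simp [e, h0]

/-- The root element `1 ⊗ (1 + w φ)`. -/
noncomputable def rt (h : IsTens τ) {φ : Dual F W} {w : W} (hφ : φ w = 0) : V ≃ₗ[F] V :=
  h.tcongr 1 (LinearEquiv.transvection hφ)

theorem rt_tmul (h : IsTens τ) {φ : Dual F W} {w : W} (hφ : φ w = 0) (u : U) (y : W) :
    rt h hφ (τ u y) = τ u (y + φ y • w) := by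
  rw [rt, h.tcongr_apply]; rfl

theorem rt_apply (h : IsTens τ) {φ : Dual F W} {w : W} (hφ : φ w = 0) (v : V) :
    rt h hφ v = v + τ (h.ctr φ v) w := by
  refine h.induction v (by simp) (fun x y => by simp [rt_tmul]) (fun x y hx hy => ?_)
  simp only [map_add, hx, hy, LinearMap.add_apply]; abel

theorem rt_mem (h : IsTens τ) {φ : Dual F W} {w : W} (hφ : φ w = 0) : rt h hφ ∈ TStab τ :=
  tcongr_mem h _ _

theorem det_rt [FiniteDimensional F U] [FiniteDimensional F W] (h : IsTens τ) {φ : Dual F W} {w : W}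
    (hφ : φ w = 0) : LinearEquiv.det (rt h hφ) = 1 := by
  rw [rt, h.det_tcongr, LinearEquiv.transvection.det_eq_one hφ]; simp

/-- An element stabilising `U ⊗ w` induces an automorphism of `U`. -/
theorem exists_of_map_Bw [FiniteDimensional F U] (h : IsTens τ) {w w' : W} (hw : w ≠ 0)
    (hw' : w' ≠ 0) {x : V ≃ₗ[F] V} (hx : ∀ u, x (τ u w) ∈ Bw τ w') :
    ∃ a : U ≃ₗ[F] U, ∀ u, x (τ u w) = τ (a u) w' := by
  obtain ⟨ψ, hψ, -⟩ := exists_dual_one (W := (⊥ : Submodule F W)) (x := w') (by simpa using hw')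
  let a : U →ₗ[F] U := h.ctr ψ ∘ₗ (x : V →ₗ[F] V) ∘ₗ τ.flip w
  have ha : ∀ u, x (τ u w) = τ (a u) w' := fun u => by
    obtain ⟨u', hu'⟩ := hx u
    have : a u = u' := by
      change h.ctr ψ (x (τ u w)) = u'
      rw [← hu']; simp [hψ]
    rw [this]; exact hu'.symm
  have hinj : Function.Injective a := by
    rw [injective_iff_map_eq_zero]
    intro u hu
    have := ha u
    rw [hu, map_zero, LinearMap.zero_apply, map_eq_zero_iff _ x.injective] at this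
    exact (h.eq_zero this).resolve_right hw
  exact ⟨LinearEquiv.ofInjectiveEndo a hinj, ha⟩

/-- Criterion for membership in the tensor stabiliser. -/
theorem mem_TStab_of [FiniteDimensional F W] [Nontrivial U] (h : IsTens τ) {x : V ≃ₗ[F] V}
    (a : U ≃ₗ[F] U) (hx : ∀ w, ∃ y, ∀ u, x (τ u w) = τ (a u) y) : x ∈ TStab τ := by
  obtain ⟨u₀, hu₀⟩ := exists_ne (0 : U)
  obtain ⟨ψ, hψ, -⟩ := exists_dual_one (W := (⊥ : Submodule F U)) (x := a u₀) (by simpa using hu₀)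
  let b : W →ₗ[F] W := h.flip.ctr ψ ∘ₗ (x : V →ₗ[F] V) ∘ₗ τ u₀
  have hb : ∀ u w, x (τ u w) = τ (a u) (b w) := fun u w => by
    obtain ⟨y, hy⟩ := hx w
    have : b w = y := by
      change h.flip.ctr ψ (x (τ u₀ w)) = y
      rw [hy]
      have := h.flip.ctr_apply ψ y (a u₀)
      rw [LinearMap.flip_apply] at this
      rw [this, hψ, one_smul]
    rw [this, hy]
  have hinj : Function.Injective b := by
    rw [injective_iff_map_eq_zero]
    intro w hw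
    have := hb u₀ w
    rw [hw, map_zero, map_eq_zero_iff _ x.injective] at this
    exact (h.eq_zero this).resolve_left hu₀
  exact ⟨a, LinearEquiv.ofInjectiveEndo b hinj, hb⟩

theorem exists_dual_two [FiniteDimensional F W] (h3 : 3 ≤ finrank F W) (w w' : W) :
    ∃ φ : Dual F W, φ ≠ 0 ∧ φ w = 0 ∧ φ w' = 0 := by
  obtain ⟨z, -, hz⟩ := exists_mem_notMem_of_finrank_lt (U := (⊤ : Submodule F W))
    (W := Submodule.span F {w, w'}) (by
      have := finrank_span_pair_le (F := F) w w'; rw [finrank_top]; omega)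
  obtain ⟨φ, h1, h2⟩ := exists_dual_one hz
  refine ⟨φ, fun e => by simp [e] at h1, h2 _ (Submodule.subset_span (by simp)),
    h2 _ (Submodule.subset_span (by simp))⟩

theorem exists_apply_eq_one {φ : Dual F W} (hφ : φ ≠ 0) : ∃ z, φ z = 1 := by
  obtain ⟨z, hz⟩ := exists_dual_apply_ne hφ
  exact ⟨(φ z)⁻¹ • z, by simp [hz]⟩

/-- `M` contains all root elements `1 ⊗ transvection`. -/
def AllRt (h : IsTens τ) (M : Subgroup (V ≃ₗ[F] V)) : Prop :=
  ∀ (φ : Dual F W) (w : W), φ w = 0 → HasQ τ M (h.ctr φ) w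

/-- The parabolic analysis. -/
theorem parabolic [FiniteDimensional F U] [FiniteDimensional F W] [Nontrivial U] (h : IsTens τ)
    (h3 : 3 ≤ finrank F W) (hM : AllRt h M) {w : W} (hw : w ≠ 0)
    (hQ : ∀ θ : V →ₗ[F] U, (∀ u, θ (τ u w) = 0) → HasQ τ M θ w → ∃ ψ, θ = h.ctr ψ)
    {x : V ≃ₗ[F] V} (hx : x ∈ M) (hxw : ∀ u, x (τ u w) ∈ Bw τ w) : x ∈ TStab τ := by
  obtain ⟨a, ha⟩ := exists_of_map_Bw h hw hw hxw
  have ha' : ∀ u, x.symm (τ u w) = τ (a.symm u) w := fun u => by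
    rw [LinearEquiv.symm_apply_eq, ha]; simp
  obtain ⟨u₀, hu₀⟩ := exists_ne (0 : U)
  have h1 : ∀ ψ' : Dual F W, ψ' w = 0 → ∃ ψ : Dual F W, ∀ v, h.ctr ψ' (x v) = a (h.ctr ψ v) := by
    intro ψ' hψ'
    have hi : x⁻¹.symm = x := rfl
    obtain ⟨ψ, e⟩ := hQ _ (fun u => by simp [hi, ha, hψ'])
      ((hM ψ' w hψ').conj (M.inv_mem hx) (a.symm : U →ₗ[F] U) ha')
    refine ⟨ψ, fun v => ?_⟩
    rw [← e]; simp [hi]
  have h2 : ∀ φ : Dual F W, φ w = 0 → ∃ φ' : Dual F W, φ' w = 0 ∧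
      ∀ v, a (h.ctr φ v) = h.ctr φ' (x v) := by
    intro φ hφ
    obtain ⟨φ', e⟩ := hQ _ (fun u => by simp [ha', hφ])
      ((hM φ w hφ).conj hx (a : U →ₗ[F] U) ha)
    have e' : ∀ v, a (h.ctr φ v) = h.ctr φ' (x v) := fun v => by rw [← e]; simp
    refine ⟨φ', ?_, e'⟩
    have := e' (τ u₀ w)
    rw [ha] at this
    simpa [hφ, hu₀] using this.symm
  refine mem_TStab_of h a (fun w₁ => ?_)
  -- first modulo `U ⊗ w`
  obtain ⟨ψ₀, hψ₀, -⟩ := exists_dual_one (W := (⊥ : Submodule F W)) (x := w) (by simpa using hw)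
  let c := Module.finBasis F W
  choose κ hκ using fun i => h1 (c.coord i - c.coord i w • ψ₀) (by simp [hψ₀])
  let y : W := ∑ i, κ i w₁ • c i
  let θ : U →ₗ[F] U := h.ctr ψ₀ ∘ₗ (x : V →ₗ[F] V) ∘ₗ τ.flip w₁
  have e1 : ∀ u, x (τ u w₁) = τ (a u) y + τ (θ u) w := by
    intro u
    rw [← h.sum_basis c (x (τ u w₁))]
    conv_rhs => rw [← c.sum_repr w]
    simp only [y, map_sum, map_smul, ← Finset.sum_add_distrib]
    refine Finset.sum_congr rfl fun i _ => ?_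
    have := hκ i (τ u w₁)
    rw [sub_eq_add_neg, ctr_add, ctr_neg, ctr_smul] at this
    simp only [LinearMap.add_apply, LinearMap.neg_apply, LinearMap.smul_apply, h.ctr_apply,
      map_smul] at this
    rw [← sub_eq_add_neg, sub_eq_iff_eq_add] at this
    rw [this]
    simp [θ]
  obtain ⟨φ, hφ0, hφw, hφ1⟩ := exists_dual_two h3 w w₁
  obtain ⟨φ', hφ'w, hφ'⟩ := h2 φ hφw
  have hφ'y : φ' y = 0 := by
    have := hφ' (τ u₀ w₁)
    rw [e1] at this
    simpa [hφ1, hφ'w, hu₀] using this.symm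
  obtain ⟨n, hn, en⟩ := hM φ w₁ hφ1
  obtain ⟨n', hn', en'⟩ := (hM φ' y hφ'y).neg (fun u => by simp [hφ'y])
  have h4 : HasQ τ M (θ ∘ₗ (a.symm : U →ₗ[F] U) ∘ₗ h.ctr φ') w := by
    refine ⟨n' * (x * n * x⁻¹), M.mul_mem hn' (M.mul_mem (M.mul_mem hx hn) (M.inv_mem hx)),
      fun v => ?_⟩
    have e2 : h.ctr φ (x.symm v) = a.symm (h.ctr φ' v) := by
      rw [LinearEquiv.eq_symm_apply, hφ']; simp
    simp [en, en', e1, e2, hφ'y, hφ'w]
    abel
  obtain ⟨ψ, e⟩ := hQ _ (fun u => by simp [hφ'w]) h4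
  have hφ'0 : φ' ≠ 0 := by
    intro e0
    obtain ⟨z, hz⟩ := exists_apply_eq_one hφ0
    have := hφ' (τ u₀ z)
    rw [e0, ctr_zero] at this
    simp [hz, hu₀] at this
  obtain ⟨z, hz⟩ := exists_apply_eq_one hφ'0
  refine ⟨y + ψ z • w, fun u => ?_⟩
  have := LinearMap.congr_fun e (τ (a u) z)
  simp only [LinearMap.comp_apply, h.ctr_apply, hz, one_smul, LinearEquiv.coe_coe,
    LinearEquiv.symm_apply_apply] at this
  rw [e1, this]; simp

/-- The algebra of levels. -/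
def Lev [FiniteDimensional F W] (h : IsTens τ) (h3 : 3 ≤ finrank F W) (hM : AllRt h M) :
    Subalgebra F (Module.End F U) where
  carrier := {X | ∀ (φ : Dual F W) (w : W), φ w = 0 → HasQ τ M (X ∘ₗ h.ctr φ) w}
  add_mem' := fun {X Y} hX hY φ w hφ => by
    rw [LinearMap.add_comp]
    exact (hX φ w hφ).add (hY φ w hφ) (fun u => by simp [hφ])
  algebraMap_mem' := fun c φ w hφ => by
    refine (hM (c • φ) w (by simp [hφ])).congr fun v => ?_
    rw [ctr_smul]; rfl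
  mul_mem' := fun {X Y} hX hY φ w hφ => by
    by_cases hw : w = 0
    · exact (hasQ_zero w).congr fun v => by simp [hw]
    obtain ⟨y, hy, hyw⟩ := exists_mem_notMem_of_finrank_lt (U := ⊤ ⊓ LinearMap.ker φ)
      (W := F ∙ w) (by
        have := finrank_le_finrank_inf_ker ⊤ φ
        have := finrank_span_singleton_le (F := F) w
        rw [finrank_top] at *; omega)
    obtain ⟨ψ, h1, h2⟩ := exists_dual_one hyw
    have h2 : ψ w = 0 := h2 w (Submodule.mem_span_singleton_self w)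
    have hy : φ y = 0 := hy.2
    obtain ⟨n, hn, en⟩ := hY φ y hy
    have := (hX ψ w h2).comm (fun u => by simp [h2]) hn (fun u => by simp [en, hφ])
    refine this.congr fun v => ?_
    simp [symm_apply_of_Q en (fun u => by simp [hy]), h1]

theorem mem_Lev [FiniteDimensional F W] {h : IsTens τ} {h3 : 3 ≤ finrank F W} {hM : AllRt h M}
    {X : Module.End F U} : X ∈ Lev h h3 hM ↔
      ∀ (φ : Dual F W) (w : W), φ w = 0 → HasQ τ M (X ∘ₗ h.ctr φ) w := Iff.rfl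

theorem conj_mem_Lev [FiniteDimensional F W] {h : IsTens τ} {h3 : 3 ≤ finrank F W} {hM : AllRt h M}
    {X : Module.End F U} (hX : X ∈ Lev h h3 hM) {g : V ≃ₗ[F] V} (hg : g ∈ M) {a : U ≃ₗ[F] U}
    {b : W ≃ₗ[F] W} (e : ∀ u w, g (τ u w) = τ (a u) (b w)) :
    (a : U →ₗ[F] U) ∘ₗ X ∘ₗ (a.symm : U →ₗ[F] U) ∈ Lev h h3 hM := by
  intro φ w hφ
  have := (hX (φ ∘ₗ (b : W →ₗ[F] W)) (b.symm w) (by simp [hφ])).conj hg (a : U →ₗ[F] U)
    (w' := w) (fun u => by simp [e])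
  refine this.congr fun v => ?_
  have e2 := ctr_of_tens h φ e (g.symm v)
  rw [LinearEquiv.apply_symm_apply, ← LinearEquiv.symm_apply_eq] at e2
  simp [e2]

/-- One root element of level `X` gives all of them. -/
theorem mem_Lev_of [FiniteDimensional F W] {h : IsTens τ} {h3 : 3 ≤ finrank F W} {hM : AllRt h M}
    {X : Module.End F U} {φ₀ : Dual F W} {w₀ : W} (h0 : φ₀ w₀ = 0) (hφ₀ : φ₀ ≠ 0) (hw₀ : w₀ ≠ 0)
    (hX : HasQ τ M (X ∘ₗ h.ctr φ₀) w₀) : X ∈ Lev h h3 hM := by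
  -- change the functional
  have A : ∀ {φ : Dual F W} {w : W}, φ w = 0 → φ ≠ 0 → HasQ τ M (X ∘ₗ h.ctr φ) w →
      ∀ ψ : Dual F W, ψ w = 0 → HasQ τ M (X ∘ₗ h.ctr ψ) w := by
    intro φ w hφ hφ0 hH
    have A1 : ∀ ψ : Dual F W, ψ w = 0 → (∃ z, φ z = 1 ∧ ψ z = 0) → HasQ τ M (X ∘ₗ h.ctr ψ) w := by
      rintro ψ hψ ⟨z, hz1, hz2⟩
      obtain ⟨n, hn, en⟩ := hM ψ z hz2
      have := hH.comm (fun u => by simp [hφ]) hn (fun u => by simp [en, hψ])
      refine this.congr fun v => ?_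
      simp [symm_apply_of_Q en (fun u => by simp [hz2]), hz1]
    intro ψ hψ
    obtain ⟨z, hz⟩ := exists_apply_eq_one hφ0
    obtain ⟨χ, hχ0, hχw, hχz⟩ := exists_dual_two h3 w z
    by_cases hψz : ψ z = 0
    · exact A1 ψ hψ ⟨z, hz, hψz⟩
    · obtain ⟨z', hz'⟩ := exists_apply_eq_one hχ0
      have e : ψ = (ψ - ψ z • φ) + ((ψ z • φ - ψ z • χ) + ψ z • χ) := by abel
      rw [e, ctr_add, ctr_add, LinearMap.comp_add, LinearMap.comp_add]
      refine (A1 _ (by simp [hψ, hφ]) ⟨z, hz, by simp [hz]⟩).add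
        ((A1 _ (by simp [hφ, hχw]) ⟨z + (z' - φ z' • z), ?_, ?_⟩).add
        (A1 _ (by simp [hχw]) ⟨z, hz, by simp [hχz]⟩) (fun u => by simp [hφ, hχw]))
        (fun u => by simp [hφ, hψ])
      · simp [hz]
      · simp [hz, hz', hχz]
  -- change the vector
  have B : ∀ {φ : Dual F W} {w : W}, φ w = 0 → HasQ τ M (X ∘ₗ h.ctr φ) w →
      ∀ y : W, φ y = 0 → y ∉ F ∙ w → w ≠ 0 → HasQ τ M (X ∘ₗ h.ctr φ) y := by
    intro φ w hφ hH y hy hyw hw
    have hwy : w ∉ F ∙ (y - w) := by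
      intro hm
      obtain ⟨c, hc⟩ := Submodule.mem_span_singleton.1 hm
      have hc0 : c ≠ 0 := by rintro rfl; exact hw (by simpa using hc.symm)
      apply hyw
      refine Submodule.mem_span_singleton.2 ⟨c⁻¹ + 1, ?_⟩
      have : y - w = c⁻¹ • w := by rw [eq_inv_smul_iff₀ hc0, hc]
      rw [add_smul, ← this]; simp
    obtain ⟨ψ, h1, h2⟩ := exists_dual_one hwy
    have h2 : ψ (y - w) = 0 := h2 _ (Submodule.mem_span_singleton_self _)
    obtain ⟨n, hn, en⟩ := hM ψ (y - w) h2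
    have := hH.conj hn LinearMap.id (w' := y) (fun u => by simp [en, h1])
    refine this.congr fun v => ?_
    have h4 : φ (y - w) = 0 := by simp [hy, hφ]
    simp [symm_apply_of_Q en (fun u => by rw [h.ctr_apply, h2, zero_smul]), -map_sub, h4,
      map_sub (h.ctr φ)]
  intro φ w hφ
  by_cases hw : w = 0
  · exact (hasQ_zero w).congr fun v => by simp [hw]
  by_cases hww : w ∈ F ∙ w₀
  · obtain ⟨c, rfl⟩ := Submodule.mem_span_singleton.1 hww
    have hc : c ≠ 0 := by rintro rfl; simp at hw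
    refine (A h0 hφ₀ hX (c • φ) (by simpa [hc] using hφ)).congr fun v => ?_
    rw [ctr_smul]; simp
  obtain ⟨χ, hχ0, hχw₀, hχw⟩ := exists_dual_two h3 w₀ w
  exact A hχw hχ0 (B hχw₀ (A h0 hφ₀ hX χ hχw₀) w hχw hww hw₀) φ hφ

/-- A new element of the unipotent radical gives a non-scalar level. -/
theorem exists_mem_Lev [FiniteDimensional F W] [Nontrivial U] {h : IsTens τ} (h3 : 3 ≤ finrank F W)
    (hM : AllRt h M) {w : W} (hw : w ≠ 0) {θ : V →ₗ[F] U} (h0 : ∀ u, θ (τ u w) = 0)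
    (hθ : HasQ τ M θ w) (hne : ∀ ψ, θ ≠ h.ctr ψ) :
    ∃ X ∈ Lev h h3 hM, ∀ c : F, X ≠ c • LinearMap.id := by
  by_contra hc
  push Not at hc
  have key : ∀ y : W, ∃ c : F, ∀ u, θ (τ u y) = c • u := by
    intro y
    obtain ⟨φ, hφ0, hφw, hφy⟩ := exists_dual_two h3 w y
    obtain ⟨n, hn, en⟩ := hM φ y hφy
    have h1 := hθ.comm h0 hn (fun u => by simp [en, hφw])
    obtain ⟨c, hc⟩ := hc (θ ∘ₗ τ.flip y) (mem_Lev_of hφw hφ0 hw (h1.congr fun v => by
      simp [symm_apply_of_Q en (fun u => by simp [hφy])]))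
    exact ⟨c, fun u => LinearMap.congr_fun hc u⟩
  obtain ⟨u₀, hu₀⟩ := exists_ne (0 : U)
  obtain ⟨χ, hχ, -⟩ := exists_dual_one (W := (⊥ : Submodule F U)) (x := u₀) (by simpa using hu₀)
  refine hne (χ ∘ₗ θ ∘ₗ τ u₀) (h.ext fun u y => ?_)
  obtain ⟨c, hc⟩ := key y
  simp [hc, hχ]

/-- If all endomorphisms of rank one are levels then `M` contains `SL(V)`. -/
theorem mem_of_Lev [FiniteDimensional F U] [FiniteDimensional F W] {h : IsTens τ}
    {h3 : 3 ≤ finrank F W} {hM : AllRt h M}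
    (hL : ∀ (ψ : Dual F U) (u : U), ψ.smulRight u ∈ Lev h h3 hM) (g : V ≃ₗ[F] V)
    (hg : LinearEquiv.det g = 1) : g ∈ M := by
  have : FiniteDimensional F V := h.equiv.finiteDimensional
  have A : ∀ (ψ : Dual F U) (φ : Dual F W) (u : U) (w : W), φ w = 0 →
      Has M (ψ ∘ₗ h.ctr φ) (τ u w) := by
    intro ψ φ u w hφ
    obtain ⟨n, hn, en⟩ := hL ψ u φ w hφ
    exact ⟨n, hn, fun v => by simp [en]⟩
  have B : ∀ (ψ : Dual F U) (φ : Dual F W) (u : U) (w : W), ψ u = 0 →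
      Has M (ψ ∘ₗ h.ctr φ) (τ u w) := by
    intro ψ φ u w hψ
    by_cases hφ : φ w = 0
    · exact A ψ φ u w hφ
    by_cases hu : u = 0
    · simpa [hu] using has_zero_right (M := M) (ψ ∘ₗ h.ctr φ)
    obtain ⟨y, hy, hy0⟩ := exists_ne_zero_of_finrank_pos (A := ⊤ ⊓ LinearMap.ker φ) (by
      have := finrank_le_finrank_inf_ker ⊤ φ; rw [finrank_top] at this; omega)
    have hy : φ y = 0 := hy.2
    have hyw : y ∉ F ∙ w := by
      intro hm
      obtain ⟨c, rfl⟩ := Submodule.mem_span_singleton.1 hm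
      simp [hφ] at hy
      simp [hy] at hy0
    obtain ⟨χ, h1, h2⟩ := exists_dual_one hyw
    have h2 : χ w = 0 := h2 w (Submodule.mem_span_singleton_self w)
    obtain ⟨ρ, h4, -⟩ := exists_dual_one (W := (⊥ : Submodule F U)) (x := u) (by simpa using hu)
    have := (A ρ χ u w h2).comm_left (A ψ φ u y hy) (by simp [h2]) (by simp [hy]) (by simp [hψ])
    simpa [h1, h4] using this
  refine mem_of_fullCenters_eq_top (eq_top_iff.2 fun v _ => ?_) g hg
  refine h.induction v (Submodule.zero_mem _) (fun u w => ?_) (fun x y hx hy => add_mem hx hy)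
  by_cases hu : u = 0
  · simp [hu]
  obtain ⟨ρ, hρ, -⟩ := exists_dual_one (W := (⊥ : Submodule F U)) (x := u) (by simpa using hu)
  intro Φ hΦ
  let c := Module.finBasis F W
  let p : U →ₗ[F] U := LinearMap.id - ρ.smulRight u
  have e : Φ = ρ ∘ₗ h.ctr (Φ ∘ₗ τ u) + ∑ i, (Φ ∘ₗ τ.flip (c i) ∘ₗ p) ∘ₗ h.ctr (c.coord i) := by
    refine h.ext fun a b => ?_
    have : ∑ i, (c.coord i) b • Φ (τ (p a) (c i)) = Φ (τ (p a) b) := by
      conv_rhs => rw [← c.sum_repr b, map_sum, map_sum]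
      simp only [map_smul, Basis.coord_apply]
    simp only [LinearMap.add_apply, LinearMap.comp_apply, h.ctr_apply, LinearMap.sum_apply,
      map_smul, LinearMap.flip_apply, this]
    simp [p]; ring
  rw [e]
  refine (A _ _ _ _ (by simpa using hΦ)).add_left ?_ (by simp [hΦ])
  suffices H : ∀ s : Finset (Fin (finrank F W)),
      Has M (∑ i ∈ s, (Φ ∘ₗ τ.flip (c i) ∘ₗ p) ∘ₗ h.ctr (c.coord i)) (τ u w) from H _
  intro s
  induction s using Finset.induction_on with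
  | empty => simpa using has_zero_left (M := M) (τ u w)
  | insert i s hi ih =>
    rw [Finset.sum_insert hi]
    exact (B _ _ _ _ (by simp [p, hρ])).add_left ih (by simp [p, hρ])

end Cfsg.Agent.H3.TenLin
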