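import Cfsg.Agent.H3.RootGeo
import Cfsg.Agent.H3.TenLin

/-!
Tensor products of forms: root elements `1 ⊗ transvection`.
-/

set_option autoImplicit false
set_option linter.unusedSectionVars false

namespace Cfsg.Agent.H3.TenForm

open Module Cfsg.Agent.H7 Cfsg.Agent.Form Cfsg.Agent.H3.TenLin Cfsg.Agent.H3.RootGeo

variable {F : Type*} [Field F] {V : Type*} [AddCommGroup V] [Module F V]
  {U : Type*} [AddCommGroup U] [Module F U] {W : Type*} [AddCommGroup W] [Module F W]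
  {P P₁ P₂ : FP F}

/-- rescaling a pseudo-quadratic space -/
def scale (S : PQ P V) (κ : F) (hσ : P.σ κ = κ) (hΛ : ∀ l ∈ P.Λ, κ * l ∈ P.Λ) : PQ P V where
  B x y := κ * S.B x y
  B_add_left x y z := by simp [mul_add]
  B_smul_left a x y := by simp; ring
  B_swap x y := by rw [S.B_swap x y, map_mul, hσ]; ring
  Q x := κ * S.Q x
  Q_add x y := by convert hΛ _ (S.Q_add x y) using 1; ring
  Q_smul a x := by convert hΛ _ (S.Q_smul a x) using 1; ring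
  B_self x := by rw [S.B_self, map_mul, hσ]; ring

theorem scale_nondeg {S : PQ P V} (hS : S.Nondeg) {κ : F} (hκ : κ ≠ 0) (hσ : P.σ κ = κ)
    (hΛ : ∀ l ∈ P.Λ, κ * l ∈ P.Λ) : (scale S κ hσ hΛ).Nondeg :=
  fun x hx => hS x fun y => (mul_eq_zero.1 (hx y)).resolve_left hκ

/-- The form on `V` is the tensor product of the forms on `U` and `W`. -/
structure TF (S₁ : PQ P₁ U) (S₂ : PQ P₂ W) (S : PQ P V) (τ : U →ₗ[F] W →ₗ[F] V) : Prop where
  tens : IsTens τ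
  σ₁ : ∀ a, P₁.σ a = P.σ a
  σ₂ : ∀ a, P₂.σ a = P.σ a
  ε : P.ε = P₁.ε * P₂.ε
  form : ∀ u w u' w', S.B (τ u w) (τ u' w') = S₁.B u u' * S₂.B w w'
  nd₁ : S₁.Nondeg
  nd₂ : S₂.Nondeg

variable {S₁ : PQ P₁ U} {S₂ : PQ P₂ W} {S : PQ P V} {τ : U →ₗ[F] W →ₗ[F] V}

/-- The second factors of the elements `1 ⊗ b` of `M`. -/
def snd (τ : U →ₗ[F] W →ₗ[F] V) (M : Subgroup (V ≃ₗ[F] V)) : Subgroup (W ≃ₗ[F] W) where
  carrier := {b | ∃ g ∈ M, ∀ u w, g (τ u w) = τ u (b w)}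
  one_mem' := ⟨1, M.one_mem, fun _ _ => rfl⟩
  mul_mem' := by
    rintro a b ⟨g, hg, e⟩ ⟨g', hg', e'⟩
    exact ⟨g * g', M.mul_mem hg hg', fun u w => by simp [e, e']⟩
  inv_mem' := by
    rintro a ⟨g, hg, e⟩
    refine ⟨g⁻¹, M.inv_mem hg, fun u w => g.injective ?_⟩
    rw [e]; simp

theorem snd_mono {M T : Subgroup (V ≃ₗ[F] V)} (h : M ≤ T) : snd τ M ≤ snd τ T :=
  fun _ ⟨g, hg, e⟩ => ⟨g, h hg, e⟩

theorem exists_dual_pair {w y : W} (hy : y ∉ F ∙ w) : ∃ φ : Dual F W, φ y = 1 ∧ φ w = 0 := by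
  obtain ⟨φ, h1, h2⟩ := exists_dual_one hy
  exact ⟨φ, h1, h2 _ (Submodule.mem_span_singleton_self w)⟩

theorem Bw_inf (h : IsTens τ) {w y : W} (hy : y ∉ F ∙ w) {v : V} (h1 : v ∈ Bw τ w)
    (h2 : v ∈ Bw τ y) : v = 0 := by
  obtain ⟨φ, e1, e2⟩ := exists_dual_pair hy
  obtain ⟨u, rfl⟩ := h2
  have := ctr_Bw h e2 h1
  simp [e1] at this
  simp [this]

theorem Bw_smul {w : W} {c : F} (hc : c ≠ 0) : Bw τ (c • w) = Bw τ w := by
  ext v
  exact ⟨fun ⟨u, e⟩ => ⟨c • u, by simpa using e⟩, fun ⟨u, e⟩ => ⟨c⁻¹ • u, by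
    simpa [smul_smul, hc] using e⟩⟩

namespace TF

theorem flip (h : TF S₁ S₂ S τ) : TF S₂ S₁ S τ.flip :=
  ⟨h.tens.flip, h.σ₂, h.σ₁, by rw [h.ε, mul_comm], fun _ _ _ _ => by
    simp [h.form, mul_comm], h.nd₂, h.nd₁⟩

/-- contraction with `B(·, w)` -/
noncomputable def cw (h : TF S₁ S₂ S τ) (w : W) : V →ₗ[F] U := h.tens.ctr (S₂.lin w)

variable (h : TF S₁ S₂ S τ)
include h

@[simp] theorem cw_apply (w : W) (u : U) (y : W) : h.cw w (τ u y) = S₂.B y w • u := by simp [cw]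

theorem cw_add (w w' : W) (v : V) : h.cw (w + w') v = h.cw w v + h.cw w' v := by
  refine h.tens.induction v (by simp) (fun _ _ => by simp [add_smul]) (fun x y hx hy => ?_)
  simp only [map_add, hx, hy]; abel

theorem cw_smul (c : F) (w : W) (v : V) : h.cw (c • w) v = P.σ c • h.cw w v := by
  refine h.tens.induction v (by simp) (fun _ _ => by simp [mul_smul, h.σ₂]) (fun x y hx hy => ?_)
  simp only [map_add, hx, hy, smul_add]

theorem cw_zero (v : V) : h.cw 0 v = 0 := by simpa using h.cw_smul 0 0 v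

theorem cw_neg (w : W) (v : V) : h.cw (-w) v = - h.cw w v := by simpa using h.cw_smul (-1) w v

theorem cw_sub (w w' : W) (v : V) : h.cw (w - w') v = h.cw w v - h.cw w' v := by
  rw [sub_eq_add_neg, cw_add, cw_neg, sub_eq_add_neg]

theorem B_tmul (v : V) (u : U) (w : W) : S.B v (τ u w) = S₁.B (h.cw w v) u := by
  refine h.tens.induction v (by simp) (fun _ _ => by simp [h.form, mul_comm]) (fun x y hx hy => ?_)
  simp [hx, hy]

theorem cw_eq_zero_iff {w : W} {v : V} : h.cw w v = 0 ↔ ∀ u, S.B v (τ u w) = 0 :=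
  ⟨fun e u => by simp [h.B_tmul, e], fun e => h.nd₁ _ fun u => by rw [← h.B_tmul, e]⟩

theorem cw_Bw {w y : W} (e : S₂.B y w = 0) {v : V} (hv : v ∈ Bw τ y) : h.cw w v = 0 := by
  obtain ⟨u, rfl⟩ := hv
  simp [e]

theorem eq_zero_of_cw [FiniteDimensional F W] {v : V} (hv : ∀ w, h.cw w v = 0) : v = 0 :=
  h.tens.eq_zero_of_ctr fun ψ => by
    obtain ⟨w, rfl⟩ := h.nd₂.exists_lin ψ
    exact hv w

theorem nd [FiniteDimensional F W] : S.Nondeg := fun _ hv =>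
  h.eq_zero_of_cw fun _ => h.cw_eq_zero_iff.2 fun _ => hv _

theorem mem_Bw_of_cw [FiniteDimensional F W] {w : W} (hw : w ≠ 0) {v : V}
    (hv : ∀ y, S₂.B w y = 0 → h.cw y v = 0) : v ∈ Bw τ w :=
  mem_Bw_of_ctr h.tens hw fun φ hφ => by
    obtain ⟨y, rfl⟩ := h.nd₂.exists_lin φ
    exact hv y hφ

theorem mem_bis_of {g : V ≃ₗ[F] V} {m : F}
    (e : ∀ u w u' w', S.B (g (τ u w)) (g (τ u' w')) = m * S.B (τ u w) (τ u' w')) (x y : V) :
    S.B (g x) (g y) = m * S.B x y := by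
  refine h.tens.induction x (by simp) (fun u w => ?_) (fun x y hx hy => by simp [hx, hy, mul_add])
  exact h.tens.induction y (by simp) (e u w) (fun x y hx hy => by simp [hx, hy, mul_add])

theorem tens_mem_bis {g : V ≃ₗ[F] V} {a : U ≃ₗ[F] U} {b : W ≃ₗ[F] W}
    (e : ∀ u w, g (τ u w) = τ (a u) (b w)) (ha : a ∈ bis S₁) (hb : b ∈ bis S₂) : g ∈ bis S :=
  fun x y => by
    rw [h.mem_bis_of (m := 1) (fun _ _ _ _ => by rw [e, e, h.form, h.form, ha, hb, one_mul]), one_mul]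

theorem snd_bis [Nontrivial U] {g : V ≃ₗ[F] V} (hg : g ∈ bis S) {b : W ≃ₗ[F] W}
    (e : ∀ u w, g (τ u w) = τ u (b w)) : b ∈ bis S₂ := by
  obtain ⟨u, hu⟩ := exists_ne (0 : U)
  obtain ⟨u', hu'⟩ := h.nd₁.exists_ne hu
  intro x y
  have := hg (τ u' x) (τ u y)
  rw [e, e, h.form, h.form] at this
  exact mul_left_cancel₀ hu' this

theorem sim_of_tens [Nontrivial U] [Nontrivial W] {g : V ≃ₗ[F] V} (hg : g ∈ sim S) {a : U ≃ₗ[F] U}
    {b : W ≃ₗ[F] W} (e : ∀ u w, g (τ u w) = τ (a u) (b w)) : b ∈ sim S₂ := by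
  obtain ⟨u, hu⟩ := exists_ne (0 : U)
  obtain ⟨u', hu'⟩ := h.nd₁.exists_ne (x := a u) (by simpa using hu)
  obtain ⟨u', rfl⟩ := a.surjective u'
  obtain ⟨m, hm, hg⟩ := hg
  have key : ∀ x y, S₂.B (b x) (b y) = (m * S₁.B u' u / S₁.B (a u') (a u)) * S₂.B x y := by
    intro x y
    have := hg (τ u' x) (τ u y)
    rw [e, e, h.form, h.form] at this
    field_simp
    linear_combination this
  refine ⟨_, fun e0 => ?_, key⟩
  obtain ⟨w, hw⟩ := exists_ne (0 : W)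
  obtain ⟨w', hw'⟩ := h.nd₂.exists_ne (x := b w) (by simpa using hw)
  obtain ⟨w', rfl⟩ := b.surjective w'
  rw [key, e0, zero_mul] at hw'
  exact hw' rfl

/-- The nilpotent map `1 ⊗ (y ↦ B(y,w) w)`. -/
noncomputable def nu (w : W) : End F V := τ.flip w ∘ₗ h.cw w

theorem nu_apply (w : W) (v : V) : h.nu w v = τ (h.cw w v) w := rfl

theorem nu_sq {w : W} (hw : S₂.Sing w) (v : V) : h.nu w (h.nu w v) = 0 := by
  simp [nu_apply, hw.B_self]

theorem range_nu {w : W} (hw : w ≠ 0) : LinearMap.range (h.nu w) = Bw τ w := by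
  obtain ⟨y, hy⟩ := h.nd₂.exists_eq hw 1
  ext v
  exact ⟨fun ⟨x, e⟩ => ⟨_, e⟩, fun ⟨u, e⟩ => ⟨τ u y, by simpa [nu_apply, hy] using e⟩⟩

theorem nu_eq_zero_iff {w : W} (hw : w ≠ 0) {v : V} : h.nu w v = 0 ↔ h.cw w v = 0 :=
  ⟨fun e => (h.tens.eq_zero e).resolve_right hw, fun e => by simp [nu_apply, e]⟩

theorem nu_ne_zero [Nontrivial U] {w : W} (hw : w ≠ 0) : h.nu w ≠ 0 := by
  obtain ⟨y, hy⟩ := h.nd₂.exists_eq hw 1
  obtain ⟨u, hu⟩ := exists_ne (0 : U)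
  intro e
  have := (h.nu_eq_zero_iff hw).1 (LinearMap.congr_fun e (τ u y))
  simp [hy, hu] at this

/-- The root group `1 ⊗ {transvections with centre w}`. -/
noncomputable abbrev R {w : W} (hw : S₂.Sing w) : Subgroup (V ≃ₗ[F] V) :=
  RG (h.nu w) (h.nu_sq hw) P₂.Λ

theorem eq_of_tens {g k : V ≃ₗ[F] V} (e : ∀ u w, g (τ u w) = k (τ u w)) : g = k :=
  LinearEquiv.toLinearMap_injective (h.tens.ext e)

theorem R_tens {w : W} (hw : S₂.Sing w) {g : V ≃ₗ[F] V} (hg : g ∈ h.R hw) :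
    ∃ c, ∃ hc : c ∈ P₂.Λ, ∀ u y, g (τ u y) = τ u (S₂.tau w c (tauOK_of_sing hw hc) y) := by
  obtain ⟨c, hc, e⟩ := hg
  exact ⟨c, hc, fun u y => by simp [e, nu_apply, mul_smul]⟩

theorem R_le [FiniteDimensional F W] {M : Subgroup (V ≃ₗ[F] V)} (hM : sisom S₂ ≤ snd τ M) {w : W}
    (hw : S₂.Sing w) : h.R hw ≤ M := fun g hg => by
  obtain ⟨c, hc, e⟩ := h.R_tens hw hg
  obtain ⟨k, hk, e'⟩ := hM (tau_mem_sisom S₂ hw c (tauOK_of_sing hw hc))
  rwa [h.eq_of_tens (g := g) (k := k) fun u y => by rw [e, e']]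

theorem R_le_bis {w : W} (hw : S₂.Sing w) : h.R hw ≤ bis S := fun g hg => by
  obtain ⟨c, hc, e⟩ := h.R_tens hw hg
  exact h.tens_mem_bis (a := 1) e (one_mem _) (isom_le_bis (S₂.tau_mem _ _ _))

theorem R_le_TStab {w : W} (hw : S₂.Sing w) : h.R hw ≤ TStab τ := fun g hg => by
  obtain ⟨c, hc, e⟩ := h.R_tens hw hg
  exact ⟨1, _, e⟩

theorem mem_R_of (hP : TrP P₂) [Nontrivial U] {w : W} (hw : S₂.Sing w) (hw0 : w ≠ 0)
    {g : V ≃ₗ[F] V} (hg : g ∈ bis S) {b : W ≃ₗ[F] W} (e : ∀ u y, g (τ u y) = τ u (b y))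
    (hb : ∀ y, b y - y ∈ F ∙ w) : g ∈ h.R hw := by
  have hb' := h.snd_bis hg e
  choose φ hφ using fun y => Submodule.mem_span_singleton.1 (hb y)
  have e1 : ∀ y, b y = y + φ y • w := fun y => by rw [hφ]; simp
  obtain ⟨y₁, hy₁⟩ := h.nd₂.exists_eq hw0 1
  have hy₂ : S₂.B w y₁ = P₂.ε := by rw [S₂.B_swap, hy₁]; simp
  have key : ∀ x, φ x = -(P₂.ε * P₂.σ (φ y₁)) * S₂.B x w := fun x => by
    have := hb' x y₁
    simp only [e1, PQ.B_add_left, PQ.B_add_right, PQ.B_smul_left, PQ.B_smul_right, hw.B_self,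
      hy₂] at this
    linear_combination P₂.ε * this - φ x * P₂.εε
  refine ⟨φ y₁, hP.mem_of _ (by have := key y₁; rw [hy₁] at this; linear_combination this),
    fun v => ?_⟩
  have h2 : φ y₁ = -(P₂.ε * P₂.σ (φ y₁)) := by have := key y₁; rwa [hy₁, mul_one] at this
  refine h.tens.induction v (by simp) (fun u y => ?_) (fun x y hx hy => ?_)
  · rw [e, e1, key y, ← h2]; simp [nu_apply, mul_smul]
  · simp only [map_add, hx, hy, smul_add]; abel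

theorem cw_stab [FiniteDimensional F U] {w w' : W} (hw : w ≠ 0) (hw' : w' ≠ 0) {x : V ≃ₗ[F] V}
    (hx : x ∈ sim S) (hxw : ∀ u, x (τ u w) ∈ Bw τ w') {v : V} :
    h.cw w' (x v) = 0 ↔ h.cw w v = 0 := by
  obtain ⟨a, ha⟩ := exists_of_map_Bw h.tens hw hw' hxw
  rw [cw_eq_zero_iff, cw_eq_zero_iff]
  constructor
  · intro e u; rw [← sim_perp hx, ha, e]
  · intro e u; obtain ⟨u, rfl⟩ := a.surjective u; rw [← ha, sim_perp hx, e]

end TF

theorem exists_sisom_map [FiniteDimensional F W] (hP : TrP P₂) (hS : S₂.Nondeg)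
    (h2 : 2 ≤ finrank F W) {w w' : W} (hw : S₂.Sing w) (hw' : S₂.Sing w') (h0 : w ≠ 0)
    (h0' : w' ≠ 0) : ∃ b ∈ sisom S₂, ∃ c : F, c ≠ 0 ∧ b w = c • w' := by
  have hl : ∀ {x : W}, x ≠ 0 → S₂.lin x ≠ 0 := fun hx e => by
    obtain ⟨y, hy⟩ := hS.exists_ne hx
    exact hy (LinearMap.congr_fun e y)
  obtain ⟨d, hd, h1, h2⟩ := hP.exists_sing_ne_ne hS h2 (hl h0) (hl h0')
  have h1 : S₂.B w d ≠ 0 := fun e => h1 (S₂.B_comm_zero e)
  have h2 : S₂.B w' d ≠ 0 := fun e => h2 (S₂.B_comm_zero e)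
  obtain ⟨y, q, hE, -, e⟩ := exists_eich_map S₂ (x := w) (y := (S₂.B w d / S₂.B w' d) • w') hd
    (by simp [h2]) h1 (sub_mem (hw'.smul _) hw)
  exact ⟨_, eich_mem_sisom S₂ _ _ _ hE, _, div_ne_zero h1 h2, e⟩

/-- A tensor `a ⊗ b` acting trivially on a suitable section has `a` scalar. -/
theorem exists_snd_of (h : IsTens τ) {δ : V ≃ₗ[F] V} (hδ : δ ∈ TStab τ) {y : W} {φ : Dual F W}
    (hφ : φ y = 1) (hy : ∀ u, h.ctr φ (δ (τ u y) - τ u y) = 0) :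
    ∃ b : W ≃ₗ[F] W, ∀ u y, δ (τ u y) = τ u (b y) := by
  obtain ⟨a, b, e⟩ := hδ
  have h1 : ∀ u, φ (b y) • a u = u := fun u => by simpa [e, hφ, sub_eq_zero] using hy u
  by_cases hc : φ (b y) = 0
  · exact ⟨1, fun u y => by rw [← h1 u, hc]; simp⟩
  refine ⟨b.trans (LinearEquiv.smulOfNeZero F W _ (inv_ne_zero hc)), fun u z => ?_⟩
  rw [e]
  conv_rhs => rw [← h1 u]
  simp [smul_smul, hc]

end Cfsg.Agent.H3.TenForm
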