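import Cfsg.Agent.H3.TenPar

/-!
Generation of `Sp` and `SU` by transvections whose centres include the singular pure tensors.
-/

set_option autoImplicit false
set_option linter.unusedSectionVars false

namespace Cfsg.Agent.H3.TenGen

open Module Cfsg.Agent.H7 Cfsg.Agent.Form Cfsg.Agent.H3.TenLin Cfsg.Agent.H3.RootGeo
  Cfsg.Agent.H3.TenForm Cfsg.Agent.H3.TenGeo

variable {F : Type*} [Field F] {V : Type*} [AddCommGroup V] [Module F V]
  {U : Type*} [AddCommGroup U] [Module F U] {W : Type*} [AddCommGroup W] [Module F W]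
  {P P₁ P₂ : FP F} {S₁ : PQ P₁ U} {S₂ : PQ P₂ W} {S : PQ P V} {τ : U →ₗ[F] W →ₗ[F] V}
  {M : Subgroup (V ≃ₗ[F] V)}

/-- `M` contains an Eichler map with data `v, y`. -/
def Ei (S : PQ P V) (M : Subgroup (V ≃ₗ[F] V)) (v y : V) : Prop :=
  ∃ q, ∃ h : S.EichOK v y q, S.eich v y q h ∈ M

theorem Ei.add {v y y' : V} (h : Ei S M v y) (h' : Ei S M v y') : Ei S M v (y + y') := by
  obtain ⟨q, h, e⟩ := h
  obtain ⟨q', h', e'⟩ := h'
  exact ⟨_, h.add h', by rw [← S.eich_mul h h']; exact M.mul_mem e e'⟩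

theorem ei_zero {v : V} (hv : S.Sing v) : Ei S M v 0 := by
  refine ⟨0, ⟨hv, by simp, by simpa using S.Q_zero⟩, ?_⟩
  convert M.one_mem using 1
  ext x; simp

theorem Ei.map {v y : V} (h : Ei S M v y) {g : V ≃ₗ[F] V} (hg : g ∈ M) (hg' : g ∈ S.isom) :
    Ei S M (g v) (g y) := by
  obtain ⟨q, h, e⟩ := h
  exact ⟨q, h.map hg', by
    rw [← S.conj_eich _ _ _ h hg']; exact M.mul_mem (M.mul_mem hg e) (M.inv_mem hg)⟩

theorem Ei.smul {v y : V} {c : F} (h : Ei S M v (P.σ c • y)) (hc : c ≠ 0) : Ei S M (c • v) y := by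
  obtain ⟨q, h, e⟩ := h
  have hσ := P.σ_ne_zero hc
  have h1 : S.B y v = 0 := by simpa [hc] using h.perp
  refine ⟨q / (c * P.σ c), ⟨h.sing.smul c, by simp [h1], ?_⟩, ?_⟩
  · have := P.Λ_smul (P.σ c)⁻¹ _ (add_mem h.qw (S.Q_smul (P.σ c) y))
    convert this using 1
    rw [map_inv₀, P.σσ]; field_simp; ring
  · convert e using 1
    ext x
    simp only [PQ.eich_apply, PQ.B_smul_right, P.σσ, smul_smul]
    congr 2
    · congr 1; field_simp
    · ring

theorem Ei.mem {v y : V} (h : Ei S M v y) (hv : Ctr S M v) {q : F} (hq : S.EichOK v y q) :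
    S.eich v y q hq ∈ M := by
  obtain ⟨q', h', e⟩ := h
  have h0 : S.EichOK v 0 (q - q') := ⟨hv.1, by simp, by
    convert sub_mem (sub_mem hq.qw h'.qw) S.Q_zero using 1; ring⟩
  have := M.mul_mem e (hv.eich_zero h0)
  rw [S.eich_mul] at this
  convert this using 2 <;> simp

/-- The subspace of `y` all of whose multiples give Eichler maps in `M`. -/
def Ys (S : PQ P V) (M : Subgroup (V ≃ₗ[F] V)) {v : V} (hv : S.Sing v) : Submodule F V where
  carrier := {y | ∀ a : F, Ei S M v (a • y)}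
  add_mem' := fun h h' a => by rw [smul_add]; exact (h a).add (h' a)
  zero_mem' := fun a => by simpa using ei_zero hv
  smul_mem' := fun c y h a => by rw [smul_smul]; exact h _

theorem Ys_map {v y : V} {hv : S.Sing v} (h : y ∈ Ys S M hv) {g : V ≃ₗ[F] V} (hg : g ∈ M)
    (hg' : g ∈ S.isom) (e : g v = v) : g y ∈ Ys S M hv := fun a => by
  have := (h a).map hg hg'
  rwa [e, map_smul] at this

theorem Ys_tau (hP : TrP P) {v y x : V} {hv : S.Sing v} (h : y ∈ Ys S M hv) (hx : Ctr S M x)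
    (h1 : S.B v x = 0) (h2 : S.B y x ≠ 0) : x ∈ Ys S M hv := by
  obtain ⟨c, hc, hc0⟩ := hP.ex
  have hc' := tauOK_of_sing hx.1 hc
  have := sub_mem (Ys_map h (hx.2 c hc') (S.tau_mem _ _ _) (by simp [h1])) h
  rw [PQ.tau_apply, add_sub_cancel_left] at this
  exact (Submodule.smul_mem_iff _ (mul_ne_zero hc0 h2)).1 this

theorem Ys_eich {v y x x' : V} {hv : S.Sing v} (h : y ∈ Ys S M hv) (hx : x ∈ Ys S M hv)
    (hE : Ei S M x x') (h1 : S.B v x = 0) (h1' : S.B v x' = 0) (h2 : S.B y x ≠ 0) :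
    x' ∈ Ys S M hv := by
  obtain ⟨q, hq, e⟩ := hE
  have := sub_mem (add_mem h (Submodule.smul_mem _ (S.B y x' - P.ε * q * S.B y x) hx))
    (Ys_map h e (S.eich_mem _ _ _ _) (by simp [h1, h1']))
  rw [PQ.eich_apply, sub_sub_cancel] at this
  exact (Submodule.smul_mem_iff _ (mul_ne_zero P.ε_ne_zero h2)).1 this

/-- `M` contains all transvections and Eichler maps with centre `v`. -/
def Full (S : PQ P V) (M : Subgroup (V ≃ₗ[F] V)) (v : V) : Prop :=
  Ctr S M v ∧ ∀ y, S.B y v = 0 → Ei S M v y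

theorem Full.smul {v : V} (h : Full S M v) {c : F} (hc : c ≠ 0) : Full S M (c • v) :=
  ⟨h.1.smul c, fun y hy => (h.2 _ (by simpa [hc] using hy)).smul hc⟩

theorem Full.map {v : V} (h : Full S M v) {g : V ≃ₗ[F] V} (hg : g ∈ M) (hg' : g ∈ S.isom) :
    Full S M (g v) := ⟨h.1.map hg hg', fun y hy => by
  obtain ⟨y, rfl⟩ := g.surjective y
  exact (h.2 y (by rwa [PQ.B_isom hg'] at hy)).map hg hg'⟩

variable [FiniteDimensional F V]

theorem Full.move {d v x : V} (hd : Full S M d) (hv : Full S M v) (h1 : S.B v d ≠ 0)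
    (hx : S.Sing x) (h2 : S.B x d ≠ 0) : Full S M x := by
  obtain ⟨y, q, hE, -, e⟩ := exists_eich_map S (x := (S.B x d / S.B v d) • v) (y := x) hd.1.1
    (by simp [h1]) (by simp [h1, h2]) (sub_mem hx (hv.1.1.smul _))
  rw [← e]
  exact (hv.smul (div_ne_zero h2 h1)).map ((hd.2 y hE.perp).mem hd.1 hE) (S.eich_mem _ _ _ _)

theorem ctr_of_full (hP : TrP P) (hS : S.Nondeg) (h2 : 2 ≤ finrank F V) {v v' : V}
    (hv : Full S M v) (hv' : Full S M v') (h : S.B v' v ≠ 0) (x : V) (hx : S.Sing x) :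
    Ctr S M x := by
  by_cases h0 : x = 0
  · rw [h0]; exact ctr_zero
  have hl : ∀ {x : V}, x ≠ 0 → S.lin x ≠ 0 := fun hx e => by
    obtain ⟨y, hy⟩ := hS.exists_ne hx
    exact hy (LinearMap.congr_fun e y)
  obtain ⟨d, hd, h1, h2⟩ := hP.exists_sing_ne_ne hS h2 (hl h0)
    (hl (x := v) (by rintro rfl; simp at h))
  exact ((hv.move hv' h hd h2).move hv (fun e => h2 (S.B_comm_zero e)) hx
    (fun e => h1 (S.B_comm_zero e))).1

omit [FiniteDimensional F V] in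
theorem le_of_sing_ne {H A : Submodule F U} {d : U} (hd : S₁.Sing d) (hdH : d ∈ H) (hdA : d ∈ A)
    (h0 : ∃ y ∈ H, S₁.B y d ≠ 0) (h : ∀ x ∈ H, S₁.Sing x → S₁.B x d ≠ 0 → x ∈ A) : H ≤ A := by
  have key : ∀ x ∈ H, S₁.B x d ≠ 0 → x ∈ A := fun x hx hxd => by
    obtain ⟨a, ha⟩ := S₁.exists_sing_add hd hxd 0
    have := h _ (add_mem hx (H.smul_mem a hdH)) (sing_of_zero_sub ha) (by simpa [hd.B_self] using hxd)
    simpa using sub_mem this (A.smul_mem a hdA)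
  obtain ⟨y, hy, hyd⟩ := h0
  intro x hx
  by_cases hxd : S₁.B x d = 0
  · simpa using sub_mem (key _ (add_mem hx hy) (by simpa [hxd] using hyd)) (key y hy hyd)
  · exact key x hx hxd

omit [FiniteDimensional F V] in
theorem mem_of_cw (h : TF S₁ S₂ S τ) {w z : W} (hz : S₂.B z w = 1) {A : Submodule F V}
    (hA : ∀ u y, S₂.B y w = 0 → τ u y ∈ A) (v : V) : v - τ (h.cw w v) z ∈ A :=
  h.tens.induction v (by simp) (fun u x => by
    simpa using hA u (x - S₂.B x w • z) (by simp [hz])) (fun a b ha hb => by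
    convert add_mem ha hb using 1
    simp only [map_add, LinearMap.add_apply]; abel)

variable [FiniteDimensional F U] [FiniteDimensional F W]

theorem exists_sing_partner (hS : S₂.Nondeg) {w : W} (hw : S₂.Sing w) (h0 : w ≠ 0) :
    ∃ z, S₂.Sing z ∧ S₂.B z w = 1 := by
  obtain ⟨y, hy⟩ := hS.exists_eq h0 1
  obtain ⟨a, ha⟩ := S₂.exists_sing_add hw (z := y) (by simp [hy]) 0
  exact ⟨_, sing_of_zero_sub ha, by simp [hy, hw.B_self]⟩

theorem tmul_mem_Ys (h : TF S₁ S₂ S τ) (hP : TrP P) (hP₂ : TrP P₂)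
    (hW : 4 ≤ finrank F W ∨ ∀ y, S₂.Sing y)
    (hC : ∀ u w, S₁.Sing u → S₂.Sing w → Ctr S M (τ u w)) {u : U} {w : W} (hu : S₁.Sing u)
    (hw : S₂.Sing w) (hu0 : u ≠ 0) (hw0 : w ≠ 0) (u' : U) {y : W} (hy : S₂.B y w = 0) :
    τ u' y ∈ Ys S M (hC u w hu hw).1 := by
  have s1 : ∀ w₁, S₂.Sing w₁ → (∀ a : F, S₂.Sing (w + a • w₁)) → τ u w₁ ∈ Ys S M (hC u w hu hw).1 := by
    intro w₁ h1 h2 a
    have hE : S.EichOK (τ u w) (a • τ u w₁) (S.Q (a • τ u w₁)) :=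
      ⟨(hC u w hu hw).1, by simp [h.form, hu.B_self], by simp⟩
    refine ⟨_, hE, hP.eich_mem_of_ctr hE (hC u w hu hw) ((hC u w₁ hu h1).smul a) fun b => ?_⟩
    simpa [smul_smul] using hC u _ hu (h2 (b * a))
  have s2 : ∀ y w₁, S₂.Sing y → S₂.B y w = 0 → S₂.Sing w₁ → (∀ a : F, S₂.Sing (w + a • w₁)) →
      S₂.B w₁ y ≠ 0 → τ u' y ∈ Ys S M (hC u w hu hw).1 := by
    intro y w₁ hy hyw h1 h2 h3
    refine le_of_sing_ne (H := ⊤) (A := (Ys S M (hC u w hu hw).1).comap (τ.flip y)) hu trivial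
      (s1 y hy fun a => hw.add (hy.smul a) (by simp [S₂.B_comm_zero hyw])) ?_ (fun x _ hx hxu => ?_)
      (Submodule.mem_top (x := u'))
    · obtain ⟨x, hx⟩ := h.nd₁.exists_ne hu0
      exact ⟨x, trivial, hx⟩
    · refine Ys_tau hP (s1 w₁ h1 h2) (hC x y hx hy) (by simp [h.form, S₂.B_comm_zero hyw]) ?_
      rw [LinearMap.flip_apply, h.form]
      exact mul_ne_zero (fun e => hxu (S₁.B_comm_zero e)) h3
  rcases hW with hW | hW
  · obtain ⟨z, -, hz⟩ := exists_sing_partner h.nd₂ hw hw0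
    obtain ⟨d, hd0, hd, h1, h2⟩ := exists_sing_perp_two hP₂ h.nd₂ hW w z
    have key : ∀ y, S₂.Sing y → S₂.B y w = 0 → y ∉ F ∙ w → τ u' y ∈ Ys S M (hC u w hu hw).1 := by
      intro y hy hyw hn
      obtain ⟨w₁, h1, h2, h3⟩ := hP₂.exists_sing_perp_ne' h.nd₂ hn (by
        have := finrank_span_singleton_le (F := F) w; omega)
      rw [S₂.mem_perp_span_singleton] at h1
      exact s2 y w₁ hy hyw h2 (fun a => hw.add (h2.smul a) (by simp [S₂.B_comm_zero h1])) h3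
    have hdw : d ∉ F ∙ w := fun hm => by
      obtain ⟨c, rfl⟩ := Submodule.mem_span_singleton.1 hm
      simp [hz] at h2
      simp [h2] at hd0
    refine le_of_sing_ne (S₁ := S₂) (H := S₂.perp (F ∙ w))
      (A := (Ys S M (hC u w hu hw).1).comap (τ u')) hd
      (S₂.mem_perp_span_singleton.2 (S₂.B_comm_zero h1)) (key d hd (S₂.B_comm_zero h1) hdw) ?_
      (fun x hx hxs hxd => key x hxs (S₂.mem_perp_span_singleton.1 hx) fun hm => ?_)
      (S₂.mem_perp_span_singleton.2 hy)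
    · obtain ⟨x, hx, hx'⟩ := h.nd₂.exists_perp_ne hdw
      exact ⟨x, hx, fun e => hx' (S₂.B_comm_zero e)⟩
    · obtain ⟨c, rfl⟩ := Submodule.mem_span_singleton.1 hm
      simp [h1] at hxd
  · by_cases hy0 : y = 0
    · simp [hy0]
    obtain ⟨w₁, h1⟩ := h.nd₂.exists_ne hy0
    exact s2 y w₁ (hW _) hy (hW _) (fun _ => hW _) h1

theorem full_tmul (h : TF S₁ S₂ S τ) (hP : TrP P) (hP₂ : TrP P₂)
    (hW : 4 ≤ finrank F W ∨ ∀ y, S₂.Sing y)
    (hC : ∀ u w, S₁.Sing u → S₂.Sing w → Ctr S M (τ u w)) {u : U} {w : W} (hu : S₁.Sing u)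
    (hw : S₂.Sing w) (hu0 : u ≠ 0) (hw0 : w ≠ 0) : Full S M (τ u w) := by
  refine ⟨hC u w hu hw, fun v hv => ?_⟩
  suffices H : v ∈ Ys S M (hC u w hu hw).1 by simpa using H 1
  obtain ⟨z, hz, hzw⟩ := exists_sing_partner h.nd₂ hw hw0
  have hz0 : z ≠ 0 := by rintro rfl; simp at hzw
  have h1 := fun u' y hy => tmul_mem_Ys h hP hP₂ hW hC hu hw hu0 hw0 u' (y := y) hy
  obtain ⟨u₁, hu₁⟩ := h.nd₁.exists_ne hu0
  have h2 : S.B (τ u₁ w) (τ u z) ≠ 0 := by
    rw [h.form]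
    exact mul_ne_zero hu₁ fun e => by simp [S₂.B_comm_zero e] at hzw
  have h3 := Ys_tau hP (h1 u₁ w hw.B_self) (hC u z hu hz) (by simp [h.form, hu.B_self]) h2
  rw [h.B_tmul] at hv
  have h4 := Ys_eich (h1 u₁ w hw.B_self) h3 (x' := τ (h.cw w v) z) (by
    simpa using tmul_mem_Ys h hP hP₂ hW hC hu hz hu0 hz0 (h.cw w v) hz.B_self 1)
    (by simp [h.form, hu.B_self]) (by simp [h.form, S₁.B_comm_zero hv]) h2
  simpa using add_mem (mem_of_cw h hzw h1 v) h4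

/-- Transvections with all singular pure tensors as centres generate `Sp` or `SU`. -/
theorem ctr_all (h : TF S₁ S₂ S τ) (hP : TrP P) (hP₂ : TrP P₂)
    (hW : 4 ≤ finrank F W ∨ ∀ y, S₂.Sing y) (h2 : 2 ≤ finrank F W)
    (hC : ∀ u w, S₁.Sing u → S₂.Sing w → Ctr S M (τ u w)) {u : U} (hu : S₁.Sing u) (hu0 : u ≠ 0)
    (x : V) (hx : S.Sing x) : Ctr S M x := by
  obtain ⟨w, -, hw0, hw⟩ := hP₂.exists_sing_of_two_le S₂ ⊤ (by rwa [finrank_top])
  obtain ⟨z, hz, hzw⟩ := exists_sing_partner h.nd₂ hw hw0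
  obtain ⟨u', hu', huu⟩ := exists_sing_partner h.nd₁ hu hu0
  have : Nontrivial U := ⟨⟨u, 0, hu0⟩⟩
  refine ctr_of_full hP h.nd ?_ (full_tmul h hP hP₂ hW hC hu hw hu0 hw0)
    (full_tmul h hP hP₂ hW hC hu' hz (by rintro rfl; simp at huu) (by rintro rfl; simp at hzw))
    (by simp [h.form, huu, hzw]) x hx
  have := finrank_pos (R := F) (M := U)
  rw [h.tens.finrank_eq]; nlinarith

end Cfsg.Agent.H3.TenGen
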