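import Cfsg.Agent.H3.TenForm

/-!
If the stabiliser of `U ⊗ w` in `M` lies in `T` then `M ≤ T` (second factor of dimension at least four).
-/

set_option autoImplicit false
set_option linter.unusedSectionVars false

namespace Cfsg.Agent.H3.TenGeo

open Module Cfsg.Agent.H7 Cfsg.Agent.Form Cfsg.Agent.H3.TenLin Cfsg.Agent.H3.RootGeo
  Cfsg.Agent.H3.TenForm

variable {F : Type*} [Field F] {V : Type*} [AddCommGroup V] [Module F V]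
  {U : Type*} [AddCommGroup U] [Module F U] {W : Type*} [AddCommGroup W] [Module F W]
  {P P₁ P₂ : FP F} {S₁ : PQ P₁ U} {S₂ : PQ P₂ W} {S : PQ P V} {τ : U →ₗ[F] W →ₗ[F] V}

/-- The hypotheses of the geometric step. -/
structure Hyp (h : TF S₁ S₂ S τ) (M T : Subgroup (V ≃ₗ[F] V)) : Prop where
  trP : TrP P₂
  sim : M ≤ sim S
  sndM : sisom S₂ ≤ snd τ M
  sndT : sisom S₂ ≤ snd τ T
  stab : ∀ w, S₂.Sing w → w ≠ 0 → ∀ x ∈ M, (∀ u, x (τ u w) ∈ Bw τ w) → x ∈ T ∧ x ∈ TStab τ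
  fus : ∀ w (hw : S₂.Sing w), w ≠ 0 → ∀ g ∈ M, ∀ ρ ∈ h.R hw, ρ ≠ 1 → g * ρ * g⁻¹ ∈ T → g ∈ T

variable [FiniteDimensional F U] [FiniteDimensional F W] [FiniteDimensional F V] [Nontrivial U]
  {h : TF S₁ S₂ S τ} {M T : Subgroup (V ≃ₗ[F] V)}

theorem exists_move (h : TF S₁ S₂ S τ) (hP : TrP P₂) (hM : sisom S₂ ≤ snd τ M)
    (hT : sisom S₂ ≤ snd τ T) (h2 : 2 ≤ finrank F W) {w w' : W} (hw : S₂.Sing w) (hw' : S₂.Sing w')
    (h0 : w ≠ 0) (h0' : w' ≠ 0) : ∃ n ∈ M, n ∈ T ∧ ∃ b ∈ sisom S₂, (∀ u y, n (τ u y) = τ u (b y)) ∧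
      ∃ c : F, c ≠ 0 ∧ b w = c • w' := by
  obtain ⟨b, hb, c, hc, e⟩ := exists_sisom_map hP h.nd₂ h2 hw hw' h0 h0'
  obtain ⟨n, hn, en⟩ := hM hb
  obtain ⟨n', hn', en'⟩ := hT hb
  refine ⟨n, hn, ?_, b, hb, en, c, hc, e⟩
  rwa [h.eq_of_tens (g := n) (k := n') fun u y => by rw [en, en']]

theorem Hyp.move (H : Hyp h M T) (h2 : 2 ≤ finrank F W) {w w' : W} (hw : S₂.Sing w)
    (hw' : S₂.Sing w') (h0 : w ≠ 0) (h0' : w' ≠ 0) {x : V ≃ₗ[F] V} (hx : x ∈ M)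
    (hxw : ∀ u, x (τ u w) ∈ Bw τ w') : x ∈ T ∧ x ∈ TStab τ := by
  obtain ⟨n, hn, hnT, b, -, en, c, hc, e⟩ := exists_move h H.trP H.sndM H.sndT h2 hw' hw h0' h0
  obtain ⟨h1, h2⟩ := H.stab w hw h0 (n * x) (M.mul_mem hn hx) (fun u => by
    obtain ⟨u', hu'⟩ := hxw u
    exact ⟨c • u', by simp [← hu', en, e]⟩)
  exact ⟨(T.mul_mem_cancel_left hnT).1 h1, ((TStab τ).mul_mem_cancel_left ⟨1, b, en⟩).1 h2⟩

theorem exists_R_ne_one (hP : TrP P₂) {w : W} (hw : S₂.Sing w) (h0 : w ≠ 0) :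
    ∃ ρ ∈ h.R hw, ρ ≠ 1 := by
  obtain ⟨c, hc, hc0⟩ := hP.ex
  refine ⟨_, rootE_mem hc, fun e => h.nu_ne_zero h0 (LinearMap.ext fun v => ?_)⟩
  simpa [hc0] using LinearEquiv.congr_fun e v

theorem R_fix {w : W} {hw : S₂.Sing w} {ρ : V ≃ₗ[F] V} (hρ : ρ ∈ h.R hw) {v : V}
    (hv : h.cw w v = 0) : ρ v = v := by
  obtain ⟨c, -, e⟩ := hρ
  simp [e, TF.nu_apply, hv]

theorem Hyp.conj_not_mem (H : Hyp h M T) {g : V ≃ₗ[F] V} (hg : g ∈ M) (hgT : g ∉ T) {w : W}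
    {hw : S₂.Sing w} (h0 : w ≠ 0) {ρ : V ≃ₗ[F] V} (hρ : ρ ∈ h.R hw) (h1 : ρ ≠ 1) :
    g⁻¹ * ρ * g ∉ T := fun e =>
  hgT (T.inv_mem_iff.1 (H.fus w hw h0 _ (M.inv_mem hg) ρ hρ h1 (by simpa using e)))

/-- A non-standard subspace is not perpendicular to a standard one. -/
theorem Hyp.exists_cw_ne (H : Hyp h M T) {g : V ≃ₗ[F] V} (hg : g ∈ M) (hgT : g ∉ T) {w₀ w : W}
    (hw₀ : S₂.Sing w₀) (h0 : w₀ ≠ 0) (hw : S₂.Sing w) (h0' : w ≠ 0) :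
    ∃ u, h.cw w (g (τ u w₀)) ≠ 0 := by
  by_contra hc
  push Not at hc
  obtain ⟨ρ, hρ, h1⟩ := exists_R_ne_one (h := h) H.trP hw h0'
  refine H.conj_not_mem hg hgT h0' hρ h1 (H.stab w₀ hw₀ h0 _
    (M.mul_mem (M.mul_mem (M.inv_mem hg) (h.R_le H.sndM hw hρ)) hg) fun u => ⟨u, ?_⟩).1
  simp [R_fix hρ (hc u)]

theorem Hyp.Gam_le (H : Hyp h M T) {g : V ≃ₗ[F] V} (hg : g ∈ M) {w₀ w : W} (hw₀ : S₂.Sing w₀)
    (hw : S₂.Sing w) : Gam (cj g (h.nu w₀)) (h.nu w) P₂.Λ ≤ M ⊓ bis S :=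
  RootGeo.Gam_le (RG_cj_le (hν := h.nu_sq hw₀) fun _ hk =>
    ⟨M.mul_mem (M.mul_mem hg (h.R_le H.sndM hw₀ hk)) (M.inv_mem hg),
      conj_mem_bis (H.sim hg) (h.R_le_bis hw₀ hk)⟩) (le_inf (h.R_le H.sndM hw) (h.R_le_bis hw))

theorem le_of_Bw_le (h : IsTens τ) {A : Submodule F V} (hA : finrank F A ≤ finrank F U) {w y : W}
    (hw : w ≠ 0) (hy : y ∉ F ∙ w) (hle : Bw τ y ≤ A ⊔ Bw τ w) : A ≤ Bw τ w ⊔ Bw τ y := by
  have hy0 : y ≠ 0 := by rintro rfl; simp at hy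
  have h1 := Submodule.finrank_sup_add_finrank_inf_eq (Bw τ w) (Bw τ y)
  have h2 : Bw τ w ⊓ Bw τ y = ⊥ := eq_bot_iff.2 fun v hv => Bw_inf h hy hv.1 hv.2
  have h3 := Submodule.finrank_add_le_finrank_add_finrank A (Bw τ w)
  rw [h2, finrank_bot, finrank_Bw h hw, finrank_Bw h hy0] at h1
  rw [finrank_Bw h hw] at h3
  rw [Submodule.eq_of_le_of_finrank_le (sup_le le_sup_right hle) (by omega)]
  exact le_sup_left

/-- The stabiliser of `U ⊗ w` in the group generated by two root groups. -/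
theorem Hyp.lemmaL (H : Hyp h M T) {g : V ≃ₗ[F] V} (hg : g ∈ M) {w₀ w w₁ y₀ : W}
    (hw₀ : S₂.Sing w₀) (h0 : w₀ ≠ 0) (hw : S₂.Sing w) (h0' : w ≠ 0) {D : Submodule F U} (hD : D ≠ ⊤)
    (hA : ∀ a ∈ (Bw τ w₀).map (g : V →ₗ[F] V), h.cw w a = 0 → a ∈ Bw τ w ⊔ D.map (τ.flip w₁))
    (hy₀ : S₂.B y₀ w = 0) (hy₀' : y₀ ∉ Submodule.span F {w, w₁})
    {δ : V ≃ₗ[F] V} (hδ : δ ∈ Gam (cj g (h.nu w₀)) (h.nu w) P₂.Λ)
    (hst : ∀ u, δ (τ u w) ∈ Bw τ w) : δ ∈ h.R hw ∨ ∃ b : W ≃ₗ[F] W, (∀ u y, δ (τ u y) = τ u (b y)) ∧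
      ∃ y, y ∉ F ∙ w ∧ (Bw τ w₀).map (g : V →ₗ[F] V) ≤ Bw τ w ⊔ Bw τ y := by
  obtain ⟨hδM, hδb⟩ := H.Gam_le hg hw₀ hw hδ
  have hsub : ∀ v, δ v - v ∈ (Bw τ w₀).map (g : V →ₗ[F] V) ⊔ Bw τ w := fun v => by
    have := Gam_sub_mem hδ v
    rwa [range_cj, h.range_nu h0, h.range_nu h0'] at this
  have h1 : ∀ u y, S₂.B y w = 0 → δ (τ u y) - τ u y ∈ Bw τ w ⊔ D.map (τ.flip w₁) := by
    intro u y hy
    obtain ⟨a, ha, b, hb, e⟩ := Submodule.mem_sup.1 (hsub (τ u y))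
    rw [← e]
    refine add_mem (hA a ha ?_) (Submodule.mem_sup_left hb)
    have := congrArg (h.cw w) e
    rwa [map_add, h.cw_Bw hw.B_self hb, add_zero, map_sub,
      (h.cw_stab h0' h0' (bis_le_sim hδb) hst).2 (by simp [hy]), h.cw_apply, hy, zero_smul,
      sub_zero] at this
  obtain ⟨φ, hφ1, hφ2⟩ := exists_dual_one hy₀'
  obtain ⟨b, eb⟩ := exists_snd_of h.tens (H.stab w hw h0' δ hδM hst).2 hφ1 (fun u => by
    obtain ⟨x, hx, _, ⟨z, -, rfl⟩, e⟩ := Submodule.mem_sup.1 (h1 u y₀ hy₀)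
    rw [← e, map_add, ctr_Bw h.tens (hφ2 _ (Submodule.subset_span (by simp))) hx]
    simp [hφ2 w₁ (Submodule.subset_span (by simp))])
  by_cases hb : ∀ y, b y - y ∈ F ∙ w
  · exact Or.inl (h.mem_R_of H.trP hw h0' hδb eb hb)
  push Not at hb
  obtain ⟨y, hy⟩ := hb
  refine Or.inr ⟨b, eb, _, hy, le_of_Bw_le h.tens ?_ h0' hy ?_⟩
  · rw [LinearEquiv.finrank_map_eq, finrank_Bw h.tens h0]
  · rintro _ ⟨u, rfl⟩
    simpa [eb] using hsub (τ u y)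

theorem exists_sing_perp_two (hP : TrP P₂) (hS : S₂.Nondeg) (h4 : 4 ≤ finrank F W) (w y : W) :
    ∃ z, z ≠ 0 ∧ S₂.Sing z ∧ S₂.B w z = 0 ∧ S₂.B y z = 0 := by
  obtain ⟨z, hz, h0, hs⟩ := hP.exists_sing_of_two_le S₂ (S₂.perp (Submodule.span F {w, y})) (by
    have := hS.finrank_perp (Submodule.span F {w, y})
    have := finrank_span_pair_le (F := F) w y
    omega)
  rw [S₂.mem_perp_span] at hz
  exact ⟨z, h0, hs, S₂.B_comm_zero (hz w (by simp)), S₂.B_comm_zero (hz y (by simp))⟩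

theorem Hyp.lemmaL' (H : Hyp h M T) (h4 : 4 ≤ finrank F W) {g : V ≃ₗ[F] V} (hg : g ∈ M)
    (hgT : g ∉ T) {w₀ w w₁ : W}
    (hw₀ : S₂.Sing w₀) (h0 : w₀ ≠ 0) (hw : S₂.Sing w) (h0' : w ≠ 0) {D : Submodule F U} (hD : D ≠ ⊤)
    (hA : ∀ a ∈ (Bw τ w₀).map (g : V →ₗ[F] V), h.cw w a = 0 → a ∈ Bw τ w ⊔ D.map (τ.flip w₁)) :
    ∀ δ ∈ Gam (cj g (h.nu w₀)) (h.nu w) P₂.Λ,
      (∀ v, δ (h.nu w v) ∈ LinearMap.range (h.nu w)) → δ ∈ h.R hw := by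
  intro δ hδ hst
  obtain ⟨y₀, hy₀, hy₀'⟩ := exists_mem_notMem_of_finrank_lt (U := S₂.perp (F ∙ w))
    (W := Submodule.span F {w, w₁}) (by
      have := h.nd₂.finrank_perp (F ∙ w)
      have := finrank_span_singleton_le (F := F) w
      have := finrank_span_pair_le (F := F) w w₁
      omega)
  rw [h.range_nu h0'] at hst
  refine (H.lemmaL hg hw₀ h0 hw h0' hD hA (S₂.mem_perp_span_singleton.1 hy₀) hy₀' hδ
    (fun u => ?_)).resolve_right ?_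
  · obtain ⟨v, hv⟩ : τ u w ∈ LinearMap.range (h.nu w) := by rw [h.range_nu h0']; exact ⟨u, rfl⟩
    rw [← hv]; exact hst v
  rintro ⟨-, -, y, -, hle⟩
  obtain ⟨z, hz0, hz, h1, h2⟩ := exists_sing_perp_two H.trP h.nd₂ h4 w y
  obtain ⟨u, hu⟩ := H.exists_cw_ne hg hgT hw₀ h0 hz hz0
  obtain ⟨a, ha, b, hb, e⟩ := Submodule.mem_sup.1 (hle ⟨τ u w₀, ⟨u, rfl⟩, rfl⟩)
  apply hu
  rw [← LinearEquiv.coe_coe, ← e, map_add, h.cw_Bw h1 ha, h.cw_Bw h2 hb, add_zero]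

theorem Hyp.ext_perp (H : Hyp h M T) {g : V ≃ₗ[F] V} {w₀ w : W} (E : Ext M T (Bw τ w₀) g)
    (hw : S₂.Sing w) (h0' : w ≠ 0) (hww : S₂.B w₀ w = 0) {a : V}
    (ha : a ∈ (Bw τ w₀).map (g : V →ₗ[F] V)) (hc : h.cw w a = 0) : a ∈ Bw τ w₀ := by
  obtain ⟨ρ, hρ, h1⟩ := exists_R_ne_one (h := h) H.trP hw h0'
  exact E.key' (h.R_le H.sndM hw hρ) (H.conj_not_mem E.mem E.not_mem h0' hρ h1)
    (fun x _ hx => R_fix hρ (h.cw_Bw hww hx)) ha (by rwa [R_fix hρ hc])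

theorem Hyp.conj_R_not_mem (H : Hyp h M T) {g : V ≃ₗ[F] V} (hg : g ∈ M) (hgT : g ∉ T) {w : W}
    (hw : S₂.Sing w) (h0 : w ≠ 0) : ∃ k ∈ M, k ∉ T ∧ ∃ c : F, c ≠ 0 ∧ c ∈ P₂.Λ ∧
      ∀ v, k v = v + c • cj g (h.nu w) v := by
  obtain ⟨ρ, hρ, h1⟩ := exists_R_ne_one (h := h) H.trP hw h0
  obtain ⟨c, hc, e⟩ := conj_mem_RG (g := g) hρ
  refine ⟨_, M.mul_mem (M.mul_mem hg (h.R_le H.sndM hw hρ)) (M.inv_mem hg),
    fun e => hgT (H.fus w hw h0 g hg ρ hρ h1 e), c, ?_, hc, e⟩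
  rintro rfl
  apply h1
  have : g * ρ * g⁻¹ = 1 := LinearEquiv.ext fun v => by simpa using e v
  calc ρ = g⁻¹ * (g * ρ * g⁻¹) * g := by group
    _ = 1 := by rw [this]; group

variable [Finite F]

/-- The geometric step over fields with more than two "real" elements. -/
theorem Hyp.le_of_four (H : Hyp h M T) (h4 : 4 ≤ finrank F W) {a : F} (ha : a ≠ 0) (ha1 : a ≠ 1)
    (hΛ : ∀ c ∈ P₂.Λ, a * c ∈ P₂.Λ) : M ≤ T := by
  by_contra hle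
  obtain ⟨w₀, -, h0, hw₀⟩ := H.trP.exists_sing_of_two_le S₂ ⊤ (by rw [finrank_top]; omega)
  obtain ⟨g, E⟩ := exists_ext hle (Bw τ w₀)
  have := frob_end (h.nu_ne_zero h0) H.trP.ex ha ha1 hΛ
    (H.lemmaL' h4 E.mem E.not_mem hw₀ h0 hw₀ h0 (D := ⊥) (w₁ := 0) bot_ne_top
      fun a ha hc => Submodule.mem_sup_left (H.ext_perp E hw₀ h0 hw₀.B_self ha hc))
  obtain ⟨k, -, hk, c, -, hc, e⟩ := H.conj_R_not_mem E.mem E.not_mem hw₀ h0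
  exact hk (h.R_le H.sndT hw₀ (this (Subgroup.subset_closure ⟨c, hc, Or.inl e⟩)))

/-- The geometric step for a second factor of dimension at least five. -/
theorem Hyp.le_of_five (H : Hyp h M T) (h5 : 5 ≤ finrank F W) : M ≤ T := by
  by_contra hle
  obtain ⟨w₀, -, h0, hw₀⟩ := H.trP.exists_sing_of_two_le S₂ ⊤ (by rw [finrank_top]; omega)
  obtain ⟨g, E⟩ := exists_ext hle (Bw τ w₀)
  set A := (Bw τ w₀).map (g : V →ₗ[F] V) with hA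
  have hrA : LinearMap.range (cj g (h.nu w₀)) = A := by rw [range_cj, h.range_nu h0]
  obtain ⟨w, hw1, hw2, hw⟩ : ∃ w, S₂.B w₀ w = 0 ∧ w ∉ F ∙ w₀ ∧ S₂.Sing w := by
    obtain ⟨y, hy⟩ := h.nd₂.exists_eq h0 1
    obtain ⟨z, hz0, hz, h1, h2⟩ := exists_sing_perp_two H.trP h.nd₂ (by omega) w₀ y
    refine ⟨z, h1, fun hm => ?_, hz⟩
    obtain ⟨c, rfl⟩ := Submodule.mem_span_singleton.1 hm
    simp [hy] at h2
    simp [h2] at hz0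
  have h0' : w ≠ 0 := by rintro rfl; simp at hw2
  have hD : A.comap (τ.flip w₀) ≠ ⊤ := fun e => by
    have h1 : Bw τ w₀ ≤ A := by
      rintro _ ⟨u, rfl⟩
      exact (e ▸ Submodule.mem_top : u ∈ A.comap (τ.flip w₀))
    have h2 := Submodule.eq_of_le_of_finrank_le h1 (by rw [hA, LinearEquiv.finrank_map_eq])
    exact E.not_mem (H.stab w₀ hw₀ h0 g E.mem fun u => by
      rw [h2]; exact ⟨τ u w₀, ⟨u, rfl⟩, rfl⟩).1
  have key : ∀ {w : W} (hw : S₂.Sing w), w ≠ 0 → S₂.B w₀ w = 0 →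
      ∃ s ∈ M, (∀ a ∈ A, s a ∈ Bw τ w) ∧ ∀ v, cj g (h.nu w₀) v = 0 → h.cw w v = 0 → s v = v := by
    intro w hw h0' hw1
    obtain ⟨s, hs, e⟩ := sylow_end (cj_sq g (h.nu_sq hw₀)) (h.nu_ne_zero h0') H.trP.ex
      (H.lemmaL' (by omega) E.mem E.not_mem hw₀ h0 hw h0' (w₁ := w₀) hD fun a ha hc => by
        obtain ⟨u, rfl⟩ := H.ext_perp E hw h0' hw1 ha hc
        exact Submodule.mem_sup_right ⟨u, ha, rfl⟩)
    refine ⟨s, (H.Gam_le E.mem hw₀ hw hs).1, fun a ha => ?_,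
      fun v h1 h2 => Gam_fix hs h1 ((h.nu_eq_zero_iff h0').2 h2)⟩
    rw [← hrA] at ha
    obtain ⟨v, rfl⟩ := ha
    rw [← h.range_nu h0']; exact e v
  have hμA : ∀ a ∈ A, cj g (h.nu w₀) a = 0 := by
    rw [← hrA]; rintro _ ⟨v, rfl⟩; exact cj_sq g (h.nu_sq hw₀) v
  obtain ⟨s, hs, hs1, hs2⟩ := key hw h0' hw1
  obtain ⟨s₀, hs₀, hs₀1, hs₀2⟩ := key hw₀ h0 hw₀.B_self
  have hd : ∀ a ∈ A, a ∈ Bw τ w₀ → a = 0 := fun a ha hb =>
    Bw_inf h.tens hw2 hb (by have := hs1 a ha; rwa [hs2 a (hμA a ha) (h.cw_Bw hw1 hb)] at this)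
  -- `μ` maps `B₀` onto `A`
  obtain ⟨k, hkM, hkT, c, -, -, ek⟩ := H.conj_R_not_mem E.mem E.not_mem hw₀ h0
  have hinj : Function.Injective (cj g (h.nu w₀) ∘ₗ τ.flip w₀) := by
    rw [injective_iff_map_eq_zero]
    intro u hu
    have hu : cj g (h.nu w₀) (τ u w₀) = 0 := hu
    have := E.key hkM hkT (fun x hx _ => by rw [ek, hμA x hx]; simp) (b := τ u w₀) ⟨u, rfl⟩
      (by rw [ek, hu]; exact ⟨u, by simp⟩)
    exact (h.tens.eq_zero (hd _ this ⟨u, rfl⟩)).resolve_right h0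
  have hsurj : ∀ v, ∃ u, cj g (h.nu w₀) (v - τ u w₀) = 0 := fun v => by
    have h1 : LinearMap.range (cj g (h.nu w₀) ∘ₗ τ.flip w₀) = A := by
      refine Submodule.eq_of_le_of_finrank_le (hrA ▸ LinearMap.range_comp_le_range _ _) ?_
      rw [LinearMap.finrank_range_of_inj hinj, hA, LinearEquiv.finrank_map_eq, finrank_Bw h.tens h0]
    obtain ⟨u, hu⟩ : cj g (h.nu w₀) v ∈ LinearMap.range (cj g (h.nu w₀) ∘ₗ τ.flip w₀) := by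
      rw [h1, ← hrA]; exact ⟨v, rfl⟩
    exact ⟨u, by rw [map_sub, ← hu]; simp⟩
  have hs₀3 : A.map (s₀ : V →ₗ[F] V) = Bw τ w₀ := by
    refine Submodule.eq_of_le_of_finrank_le (by rintro _ ⟨a, ha, rfl⟩; exact hs₀1 a ha) ?_
    rw [LinearEquiv.finrank_map_eq, hA, LinearEquiv.finrank_map_eq]
  have hδ1 : ∀ u, (s * s₀⁻¹) (τ u w₀) ∈ Bw τ w := fun u => by
    obtain ⟨a, ha, e⟩ : τ u w₀ ∈ A.map (s₀ : V →ₗ[F] V) := by rw [hs₀3]; exact ⟨u, rfl⟩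
    rw [← e]; simpa using hs1 a ha
  have hδ2 : ∀ u y, S₂.B y w₀ = 0 → S₂.B y w = 0 → ∃ u',
      cj g (h.nu w₀) (τ u y - τ u' w₀) = 0 ∧
      (s * s₀⁻¹) (τ u y - τ u' w₀) = τ u y - τ u' w₀ := fun u y h1 h2 => by
    obtain ⟨u', hu'⟩ := hsurj (τ u y)
    refine ⟨u', hu', ?_⟩
    have e0 := hs₀2 _ hu' (by simp [h1, hw₀.B_self])
    have e1 := hs2 _ hu' (by simp [h2, hw1])
    rw [LinearEquiv.mul_apply, LinearEquiv.coe_inv, (LinearEquiv.symm_apply_eq _).2 e0.symm, e1]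
  obtain ⟨y₀, hy₀, hy₀'⟩ := exists_mem_notMem_of_finrank_lt
    (U := S₂.perp (Submodule.span F {w₀, w})) (W := Submodule.span F {w₀, w}) (by
      have := h.nd₂.finrank_perp (Submodule.span F {w₀, w})
      have := finrank_span_pair_le (F := F) w₀ w
      omega)
  rw [S₂.mem_perp_span] at hy₀
  obtain ⟨φ, hφ1, hφ2⟩ := exists_dual_one hy₀'
  have hφ3 : φ w₀ = 0 := hφ2 _ (Submodule.subset_span (by simp))
  have hφ4 : φ w = 0 := hφ2 _ (Submodule.subset_span (by simp))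
  obtain ⟨b, eb⟩ := exists_snd_of h.tens (H.move (by omega) hw₀ hw h0 h0'
    (M.mul_mem hs (M.inv_mem hs₀)) hδ1).2 hφ1 (fun u => by
      obtain ⟨u', -, e⟩ := hδ2 u y₀ (hy₀ _ (by simp)) (hy₀ _ (by simp))
      rw [map_sub, sub_eq_iff_eq_add] at e
      rw [e]
      simp [hφ3, -LinearEquiv.mul_apply, ctr_Bw h.tens hφ4 (hδ1 u')])
  have hb : b w₀ - w₀ ≠ 0 := by
    intro e
    obtain ⟨u, hu⟩ := exists_ne (0 : U)
    have := hδ1 u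
    rw [eb, sub_eq_zero.1 e] at this
    exact h.tens.ne_zero hu h0 (Bw_inf h.tens hw2 ⟨u, rfl⟩ this)
  choose θ hθ1 hθ2 using fun u => hδ2 u w (S₂.B_comm_zero hw1) hw.B_self
  let θ' : U →ₗ[F] U := IsLinearMap.mk' θ ⟨fun x y => hinj (by
      have e1 := hθ1 (x + y); have e2 := hθ1 x; have e3 := hθ1 y
      simp only [map_sub, sub_eq_zero, map_add, LinearMap.add_apply] at e1 e2 e3
      simp [-cj_apply, ← e1, ← e2, ← e3]), fun c x => hinj (by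
      have e1 := hθ1 (c • x); have e2 := hθ1 x
      simp only [map_sub, sub_eq_zero, map_smul, LinearMap.smul_apply] at e1 e2
      simp [-cj_apply, ← e1, ← e2])⟩
  obtain ⟨t, ht⟩ := scalar_of_forall_mem_span θ' fun u => by
    have := hθ2 u
    rw [map_sub, eb, eb] at this
    refine h.tens.mem_span_of_eq (b' := b w - w) hb ?_
    simp only [map_sub]
    change τ (θ u) _ - τ (θ u) _ = _
    linear_combination (norm := abel_nf) -this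
  have hz0 : w - t • w₀ ≠ 0 := fun e => hw2 (by
    rw [sub_eq_zero.1 e]; exact Submodule.smul_mem _ _ (Submodule.mem_span_singleton_self _))
  have hz : S₂.Sing (w - t • w₀) := by
    rw [sub_eq_add_neg]
    exact hw.add (hw₀.smul t).neg (by simp [S₂.B_comm_zero hw1])
  obtain ⟨u, hu⟩ := H.exists_cw_ne E.mem E.not_mem hw₀ h0 hz hz0
  refine hu (h.cw_eq_zero_iff.2 fun u' => ?_)
  have h1 := hθ1 u'
  rw [show θ u' = t • u' from ht u', cj_apply, map_eq_zero_iff _ g.injective,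
    h.nu_eq_zero_iff h0, h.cw_eq_zero_iff] at h1
  have h2 := (sim_perp (H.sim E.mem)).2 (h1 u)
  rw [LinearEquiv.apply_symm_apply] at h2
  simpa using S.B_comm_zero h2

end Cfsg.Agent.H3.TenGeo
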