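import Cfsg.Agent.H3.TenSpSp
import Cfsg.Agent.H8.Subfield

/-!
Siegel maps acting on symmetric and skew endomorphisms of an orthogonal space.
-/

set_option autoImplicit false
set_option linter.unusedSectionVars false

namespace Cfsg.Agent.H3.TenO1

open Module Cfsg.Agent.H7 Cfsg.Agent.Form Cfsg.Agent.H3.RootGeo Cfsg.Agent.H3.TenSU
  Cfsg.Agent.H3.OrthLem Cfsg.Agent.H9.FClass

variable {F : Type*} [Field F] {U : Type*} [AddCommGroup U] [Module F U] {S : PQ (FP.orth F) U}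
  [FiniteDimensional F U]

/-- Siegel maps. -/
noncomputable def sg (S : PQ (FP.orth F) U) (u v : U) : U ≃ₗ[F] U := H8.siegel (toQF S) u v

theorem sg_apply {u v : U} (hu : S.Q u = 0) (h : S.B v u = 0) (x : U) :
    sg S u v x = x + S.B x u • v - (S.B x v + S.Q v * S.B x u) • u := by
  rw [sg, H8.siegel_apply hu (by rw [polar_toQF, S.B_comm_zero h])]
  simp [polar_toQF, toQF_apply]

theorem sg_symm (u v : U) : (sg S u v).symm = sg S u (-v) := H8.siegel_inv u v

theorem sg_mem (u v : U) : sg S u v ∈ S.isom := OG_toQF S ▸ H8.siegel_mem_OG u v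

theorem B_self_zero {x : U} (h : S.Q x = 0) : S.B x x = 0 := by simp [S.orth_B_self, h]

theorem Q_of_B (h2 : (2 : F) ≠ 0) {x : U} (h : S.B x x = 0) : S.Q x = 0 :=
  by_contra fun e => B_self_ne h2 e h

theorem exists_ns (hS : S.Nondeg) {X : Submodule F U} (h : 2 * finrank F X < finrank F U) :
    ∃ y ∈ S.perp X, S.Q y ≠ 0 := by
  by_contra hc
  push Not at hc
  have := ((S.orth_ts _).2 hc).two_mul_finrank_le hS
  have := hS.finrank_perp X
  omega

theorem exists_ns₁ (hS : S.Nondeg) (h : 3 ≤ finrank F U) (d : U) : ∃ y, S.B y d = 0 ∧ S.Q y ≠ 0 := by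
  obtain ⟨y, h1, h2⟩ := exists_ns hS (X := F ∙ d) (by
    have := finrank_span_singleton_le (F := F) d; omega)
  exact ⟨y, S.mem_perp_span_singleton.1 h1, h2⟩

theorem exists_ns₂ (hS : S.Nondeg) (h : 5 ≤ finrank F U) (d e : U) :
    ∃ y, S.B y d = 0 ∧ S.B y e = 0 ∧ S.Q y ≠ 0 := by
  obtain ⟨y, h1, h2⟩ := exists_ns hS (X := Submodule.span F {d, e}) (by
    have := finrank_span_pair_le (F := F) d e; omega)
  rw [S.mem_perp_span] at h1
  exact ⟨y, h1 _ (by simp), h1 _ (by simp), h2⟩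

theorem exists_partner (hS : S.Nondeg) {d : U} (hd : S.Q d = 0) (h0 : d ≠ 0) :
    ∃ e, S.Q e = 0 ∧ S.B e d = 1 := by
  obtain ⟨e, h1, h2⟩ := TenGen.exists_sing_partner hS ((S.orth_sing d).2 hd) h0
  exact ⟨e, (S.orth_sing e).1 h1, h2⟩

theorem hyp_perp (hS : S.Nondeg) {d e : U} (hd : S.Q d = 0) (he : S.Q e = 0) (h : S.B e d ≠ 0) :
    S.NondegOn (S.perp (Submodule.span F {e, d})) ∧
      finrank F (S.perp (Submodule.span F {e, d})) + 2 = finrank F U := by
  have := hS.finrank_perp (Submodule.span F {e, d})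
  rw [S.finrank_span_pair_of_hyperbolic ((S.orth_sing e).2 he) h] at this
  exact ⟨(S.nondegOn_span_pair ((S.orth_sing e).2 he) ((S.orth_sing d).2 hd) h).perp hS, by omega⟩

theorem mem_perp_pair {x d e : U} : x ∈ S.perp (Submodule.span F {e, d}) ↔ S.B x e = 0 ∧ S.B x d = 0 := by
  simp [S.mem_perp_span]

theorem exists_ns_hyp (hS : S.Nondeg) (h3 : 3 ≤ finrank F U) {d e : U} (hd : S.Q d = 0) (he : S.Q e = 0)
    (h : S.B e d ≠ 0) : ∃ y, S.B y e = 0 ∧ S.B y d = 0 ∧ S.Q y ≠ 0 := by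
  obtain ⟨h1, h2⟩ := hyp_perp hS hd he h
  obtain ⟨y, hy, hQ⟩ := exists_Q_ne_zero h1 (fun e => by rw [e, finrank_bot] at h2; omega)
  exact ⟨y, (mem_perp_pair.1 hy).1, (mem_perp_pair.1 hy).2, hQ⟩

theorem exists_ns_perp (h2 : (2 : F) ≠ 0) {H : Submodule F U} (hH : S.NondegOn H) (h : 2 ≤ finrank F H)
    {y : U} (hy : y ∈ H) (hQ : S.Q y ≠ 0) : ∃ z ∈ H, S.B z y = 0 ∧ S.Q z ≠ 0 := by
  obtain ⟨h4, h5⟩ := (S.nondegOn_span_singleton (B_self_ne h2 hQ)).inf_perp hH (by simpa)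
  obtain ⟨z, hz, hQz⟩ := exists_Q_ne_zero h4 fun e => by
    rw [e, sup_bot_eq] at h5
    have := finrank_span_singleton_le (F := F) y
    rw [h5] at this; omega
  exact ⟨z, hz.1, S.mem_perp_span_singleton.1 hz.2, hQz⟩

theorem top_le_of_sing [Finite F] (hS : S.Nondeg) (h3 : 3 ≤ finrank F U) {Y : Submodule F U}
    (h : ∀ z, S.Q z = 0 → z ∈ Y) (x : U) : x ∈ Y :=
  H8.NDOn.le_of_sing (nd_toQF hS) (ndOn_toQF (S.nondegOn_top.2 hS)) (by rwa [finrank_top])
    (fun z _ hz => h z hz) Submodule.mem_top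

theorem perp_le_of_sing [Finite F] (hS : S.Nondeg) (h5 : 5 ≤ finrank F U) {w : U} (hw : S.Q w = 0)
    (h0 : w ≠ 0) {Y : Submodule F U} (h : ∀ z, S.Q z = 0 → S.B z w = 0 → z ∉ F ∙ w → z ∈ Y) {y : U}
    (hy : S.B y w = 0) : y ∈ Y := by
  obtain ⟨e, he, hew⟩ := exists_partner hS hw h0
  obtain ⟨h1, h2⟩ := hyp_perp hS hw he (by simp [hew])
  obtain ⟨z, hz, hz0, hQ⟩ := exists_sing S (H := S.perp (Submodule.span F {e, w})) (by omega)
  rw [mem_perp_pair] at hz
  have hn : z ∉ F ∙ w := fun hm => by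
    obtain ⟨c, rfl⟩ := Submodule.mem_span_singleton.1 hm
    simp [S.orth_B_swap e, hew] at hz
    simp [hz.1] at hz0
  have hwY : w ∈ Y := by
    simpa using sub_mem (h (z + w) (by simp [S.orth_Q_add, hQ, hw, hz.2]) (by simp [hz.2, B_self_zero hw])
      (fun hm => hn (by simpa using sub_mem hm (Submodule.mem_span_singleton_self w)))) (h z hQ hz.2 hn)
  refine H8.perp_le_of_sing (nd_toQF hS) h5 hw (fun z h1 h2 => ?_) (by rw [polar_toQF, S.B_comm_zero hy])
  rw [polar_toQF] at h2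
  by_cases hm : z ∈ F ∙ w
  · obtain ⟨c, rfl⟩ := Submodule.mem_span_singleton.1 hm
    exact Y.smul_mem c hwY
  · exact h z h1 (S.B_comm_zero h2) hm

theorem Sy_symm {d y : U} (hd : S.Q d = 0) (hy : S.B y d = 0) {X : End F U}
    (sy : ∀ a b, S.B (X a) b = S.B a (X b)) :
    cj (sg S d y) X + cj (sg S d (-y)) X - (2 : F) • X = (2 : F) • (-S.Q y • (rk S (X d) d + rk S d (X d)) -
      S.B y (X d) • (rk S y d + rk S d y) + S.B d (X d) • rk S y y +
      (S.B y (X y) + S.Q y ^ 2 * S.B d (X d)) • rk S d d) := by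
  have hy' : S.B (-y) d = 0 := by simp [hy]
  ext v
  simp [sg_symm, sg_apply hd hy, sg_apply hd hy', sy, S.orth_Q_neg, show S.B d (X y) = S.B y (X d) by
    rw [← sy, S.orth_B_swap]]
  module

theorem Sy_skew {d y : U} (hd : S.Q d = 0) (hy : S.B y d = 0) {X : End F U}
    (sk : ∀ a b, S.B (X a) b = -S.B a (X b)) (sk' : ∀ a, S.B a (X a) = 0) :
    cj (sg S d y) X + cj (sg S d (-y)) X - (2 : F) • X = (2 : F) •
      (rk S (S.Q y • X d - S.B y (X d) • y) d - rk S d (S.Q y • X d - S.B y (X d) • y)) := by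
  have hy' : S.B (-y) d = 0 := by simp [hy]
  ext v
  simp [sg_symm, sg_apply hd hy, sg_apply hd hy', sk, sk', S.orth_Q_neg, show S.B d (X y) = -S.B y (X d) by
    rw [← sk, S.orth_B_swap]]
  module

/-- A symmetric map commuting with all its conjugates is a scalar. -/
theorem symm_scalar [Finite F] (h2 : (2 : F) ≠ 0) (hS : S.Nondeg) (h3 : 3 ≤ finrank F U)
    (hdim : 4 ≤ finrank F U ∨ ∃ t : F, t ≠ 0 ∧ t ^ 2 ≠ 1) {A : Subgroup (U ≃ₗ[F] U)}
    (hA : ∀ u v, sg S u v ∈ A) {η : End F U} (sy : ∀ a b, S.B (η a) b = S.B a (η b))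
    (hc : ∀ a ∈ A, ∀ v, η (cj a η v) = cj a η (η v)) : ∃ c : F, ∀ v, η v = c • v := by
  let K : Submodule F (End F U) :=
    { carrier := {X | ∀ a ∈ A, ∀ v, η (cj a X v) = cj a X (η v)}
      add_mem' := fun h h' a ha v => by simp only [cj_add, LinearMap.add_apply, map_add, h a ha, h' a ha]
      zero_mem' := fun a _ v => by simp
      smul_mem' := fun c X h a ha v => by simp only [cj_smul, LinearMap.smul_apply, map_smul, h a ha] }
  have hK : ∀ d y, ∀ X ∈ K, cj (sg S d y) X + cj (sg S d (-y)) X - (2 : F) • X ∈ K := fun d y X hX =>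
    sub_mem (add_mem (fun a ha => hX _ (mul_mem ha (hA _ _))) fun a ha => hX _ (mul_mem ha (hA _ _)))
      (K.smul_mem _ hX)
  have k1 : ∀ d, S.Q d = 0 → S.B d (η d) = 0 := fun d hd => by
    by_contra hβ
    have h0 : d ≠ 0 := by rintro rfl; simp at hβ
    obtain ⟨e, he, hed⟩ := exists_partner hS hd h0
    suffices H : rk S d d ∈ K by
      have := congrArg (S.B d) (H 1 (one_mem _) e)
      simp [show ∀ v, (1 : U ≃ₗ[F] U).symm v = v from fun _ => rfl, hed, B_self_zero hd, hβ] at this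
    rcases hdim with h4 | ⟨t, ht, ht1⟩
    · obtain ⟨h5, h6⟩ := hyp_perp hS hd he (by simp [hed])
      obtain ⟨y, h7, h8, hy⟩ := exists_ns_hyp hS h3 hd he (by simp [hed])
      obtain ⟨z, h9, hzy, hz⟩ := exists_ns_perp h2 h5 (by omega) (mem_perp_pair.2 ⟨h7, h8⟩) hy
      rw [mem_perp_pair] at h9
      have a1 := hK d y η hc
      rw [Sy_symm hd h8 sy, K.smul_mem_iff h2] at a1
      have a2 := hK d z _ a1
      rw [Sy_symm hd h9.2 fun a b => by simp [S.orth_B_swap b]; ring, K.smul_mem_iff h2] at a2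
      refine (K.smul_mem_iff (s := 2 * S.Q y * S.Q z * S.B d (η d)) (by simp [h2, hy, hz, hβ])).1 ?_
      convert a2 using 1
      ext v
      simp [B_self_zero hd, h9.2, hzy, S.B_comm_zero h8]
      module
    · obtain ⟨y, hy, hQ⟩ := exists_ns₁ hS h3 d
      have a1 := hK d y η hc
      have a2 := hK d (t • y) η hc
      rw [Sy_symm hd hy sy, K.smul_mem_iff h2] at a1
      rw [Sy_symm hd (by simp [hy]) sy, K.smul_mem_iff h2] at a2
      refine (K.smul_mem_iff (s := t ^ 2 * (t ^ 2 - 1) * S.Q y ^ 2 * S.B d (η d))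
        (by simp [ht, hQ, hβ, sub_ne_zero.2 ht1])).1 ?_
      convert sub_mem a2 (K.smul_mem (t ^ 2) a1) using 1
      ext v
      simp [S.orth_Q_smul]
      module
  obtain ⟨d, -, h0, hd⟩ := exists_sing S (H := ⊤) (by rwa [finrank_top])
  obtain ⟨e, he, hed⟩ := exists_partner hS hd h0
  have sw : ∀ a b, S.B a (η b) = S.B b (η a) := fun a b => by rw [← sy, S.orth_B_swap]
  have k2 : ∀ y, S.B y e = 0 → S.B y d = 0 → ∀ s : F, s ≠ 0 → S.B y (η y) = 2 * S.Q y * S.B e (η d) ∧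
      s ^ 2 * S.B d (η y) = S.Q y * S.B e (η y) := fun y h1 h3 => by
    have key : ∀ s : F, s ≠ 0 → s * S.B y (η y) + 2 * s ^ 2 * S.B d (η y) - 2 * S.Q y * S.B e (η y) -
        2 * s * S.Q y * S.B e (η d) = 0 := fun s hs => by
      have := k1 (y + s • d - (S.Q y / s) • e) (by
        simp [S.orth_Q_sub, S.orth_Q_add, S.orth_Q_smul, hd, he, h1, h3, S.orth_B_swap e d, hed]
        field_simp; ring)
      simp [k1 d hd, k1 e he, sw y d, sw y e, sw d e] at this
      field_simp at this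
      linear_combination this
    intro s hs
    refine ⟨mul_left_cancel₀ (mul_ne_zero h2 hs) ?_, mul_left_cancel₀ (mul_ne_zero h2 h2) ?_⟩
    · linear_combination key s hs - key (-s) (by simpa)
    · linear_combination key s hs + key (-s) (by simpa)
  obtain ⟨h5, h6⟩ := hyp_perp hS hd he (by simp [hed])
  have k3 : ∀ y ∈ S.perp (Submodule.span F {e, d}), S.B e (η y) = 0 := by
    by_contra hc
    obtain ⟨y, hy, hQ, hn⟩ := exists_nonsing_notMem h2 h5
      (Y := LinearMap.ker (S.lin e ∘ₗ η)) fun h => hc fun y hy => by simpa [S.orth_B_swap e] using h hy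
    refine hn ?_
    simp only [LinearMap.mem_ker, LinearMap.comp_apply, PQ.lin_apply, ← S.orth_B_swap (η y)]
    rw [mem_perp_pair] at hy
    have a1 := (k2 y hy.1 hy.2 1 one_ne_zero).2
    rcases hdim with h4 | ⟨t, ht, ht1⟩
    · obtain ⟨z, hz, hzy, hQz⟩ := exists_ns_perp h2 h5 (by omega) (mem_perp_pair.2 hy) hQ
      rw [mem_perp_pair] at hz
      have a2 := (k2 z hz.1 hz.2 1 one_ne_zero).2
      have a3 := (k2 (z + y) (by simp [hz, hy]) (by simp [hz, hy]) 1 one_ne_zero).2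
      have a4 := (k2 (z - y) (by simp [hz, hy]) (by simp [hz, hy]) 1 one_ne_zero).2
      simp only [S.orth_Q_add, S.orth_Q_sub, hzy, map_add, map_sub, PQ.B_add_right, PQ.B_sub_right] at a3 a4
      exact mul_left_cancel₀ (mul_ne_zero h2 hQz) (by linear_combination a4 - a3 + 2 * a1)
    · have a2 := (k2 y hy.1 hy.2 t ht).2
      exact mul_left_cancel₀ (mul_ne_zero hQ (sub_ne_zero.2 ht1)) (by linear_combination a2 - t ^ 2 * a1)
  have k4 : ∀ x, S.B x (η x) = S.B e (η d) * S.B x x := fun x => by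
    obtain ⟨y, a, b, h1, h3, rfl⟩ : ∃ y, ∃ a b : F, S.B y e = 0 ∧ S.B y d = 0 ∧ x = y + a • d + b • e :=
      ⟨x - S.B x e • d - S.B x d • e, S.B x e, S.B x d, by
        simp [S.orth_B_swap e d, hed, B_self_zero he], by simp [hed, B_self_zero hd], by abel⟩
    have a1 := k2 y h1 h3 1 one_ne_zero
    have a2 := k3 y (mem_perp_pair.2 ⟨h1, h3⟩)
    rw [a2, one_pow, one_mul, mul_zero] at a1
    simp [k1 d hd, k1 e he, sw y d, sw y e, sw d e, a1, a2, h1, h3, S.B_comm_zero h1, S.B_comm_zero h3,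
      S.orth_B_self, hd, he, hed, S.orth_B_swap e d, S.orth_Q_add, S.orth_Q_smul]
    ring
  refine ⟨S.B e (η d), fun v => hS.ext_right fun u => mul_left_cancel₀ h2 ?_⟩
  have := k4 (u + v)
  simp only [map_add, PQ.B_add_left, PQ.B_add_right, k4, sw v u, S.orth_B_swap u v] at this
  simp only [PQ.B_smul_right, FP.orth_σ]
  linear_combination this

/-- The skew map `a ∧ b`. -/
def wg (S : PQ (FP.orth F) U) (a b : U) : End F U := rk S a b - rk S b a

@[simp] theorem wg_apply (a b x : U) : wg S a b x = S.B x a • b - S.B x b • a := rfl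

theorem cj_wg {g : U ≃ₗ[F] U} (hg : g ∈ S.isom) (a b : U) : cj g (wg S a b) = wg S (g a) (g b) := by
  rw [wg, wg, ← cj_rk hg, ← cj_rk hg]; ext; simp [-rk_apply]

/-- An invariant space of skew maps contains the long root elements. -/
theorem skew_extract [Finite F] (h2 : (2 : F) ≠ 0) (hS : S.Nondeg) (h3 : 3 ≤ finrank F U)
    (h4 : finrank F U = 4 → ∀ Y, S.TS Y → finrank F Y < 2) (Z : Submodule F (End F U))
    (hZ : ∀ u v, ∀ X ∈ Z, cj (sg S u v) X ∈ Z) {X : End F U} (hX : X ∈ Z) (h0 : X ≠ 0)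
    (sk : ∀ a b, S.B (X a) b = -S.B a (X b)) : ∃ d e, S.Q d = 0 ∧ S.Q e = 0 ∧ S.B e d ≠ 0 ∧
      (∀ a, S.B a d = 0 → wg S a d ∈ Z) ∧ ∀ a, S.B a e = 0 → wg S a e ∈ Z := by
  have sk' : ∀ a, S.B a (X a) = 0 := fun a => mul_left_cancel₀ h2 (by
    linear_combination sk a a + S.orth_B_swap (X a) a)
  obtain ⟨d, hd, hn⟩ : ∃ d, S.Q d = 0 ∧ X d ∉ F ∙ d := by
    by_contra hc
    push Not at hc
    refine h0 (LinearMap.ext fun x => top_le_of_sing hS h3 (Y := LinearMap.ker X) (fun d hd => ?_) x)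
    by_cases hd0 : d = 0
    · simp [hd0]
    obtain ⟨e, he, hed⟩ := exists_partner hS hd hd0
    obtain ⟨y, h5, h6, hy⟩ := exists_ns_hyp hS h3 hd he (by simp [hed])
    obtain ⟨a, ha⟩ := Submodule.mem_span_singleton.1 (hc d hd)
    obtain ⟨b, hb⟩ := Submodule.mem_span_singleton.1 (hc e he)
    obtain ⟨c, hc⟩ := Submodule.mem_span_singleton.1 (hc (y + d - S.Q y • e) (by
      simp [S.orth_Q_sub, S.orth_Q_add, S.orth_Q_smul, hd, he, h5, h6, S.orth_B_swap e d, hed]))
    have k1 := sk e d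
    have k2 := sk (y + d - S.Q y • e) d
    have k3 := sk (y + d - S.Q y • e) e
    rw [← hc] at k2 k3
    simp [← ha, ← hb, h5, h6, hed, S.orth_B_swap e d, B_self_zero hd, B_self_zero he] at k1 k2 k3
    have : a = 0 := mul_left_cancel₀ (mul_ne_zero h2 hy) (by linear_combination S.Q y * (k1 - k3) - k2)
    simp [← ha, this]
  have hd0 : d ≠ 0 := by rintro rfl; simp at hn
  let Y : Submodule F U :=
    { carrier := {a | wg S a d ∈ Z}
      add_mem' := fun h h' => by
        rw [Set.mem_ofPred_eq]; convert Z.add_mem h h' using 1; ext; simp; module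
      zero_mem' := by rw [Set.mem_ofPred_eq]; convert Z.zero_mem using 1; ext; simp
      smul_mem' := fun c _ h => by
        rw [Set.mem_ofPred_eq]; convert Z.smul_mem c h using 1; ext; simp; module }
  have k1 : ∀ y, S.B y d = 0 → S.Q y • X d - S.B y (X d) • y ∈ Y := fun y hy => by
    have := sub_mem (add_mem (hZ d y X hX) (hZ d (-y) X hX)) (Z.smul_mem (2 : F) hX)
    rwa [Sy_skew hd hy sk sk', Z.smul_mem_iff h2] at this
  have hXd : S.B (X d) d = 0 := S.B_comm_zero (sk' d)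
  have k2 : X d ∈ Y := by
    by_cases hQ : S.Q (X d) = 0
    · have h5 : S.TS (Submodule.span F {d, X d}) := (S.orth_ts _).2 fun x hx => by
        obtain ⟨a, b, rfl⟩ := Submodule.mem_span_pair.1 hx
        simp [S.orth_Q_add, S.orth_Q_smul, hd, hQ, sk']
      have h6 := finrank_span_eq_card (LinearIndependent.pair_iff' hd0 |>.2 fun a e =>
        hn (Submodule.mem_span_singleton.2 ⟨a, e⟩))
      rw [Matrix.range_cons_cons_empty] at h6
      simp only [Fintype.card_fin] at h6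
      obtain ⟨y, h7, h8, hy⟩ := exists_ns₂ hS (by
        have := h5.two_mul_finrank_le hS
        by_contra h
        have := h4 (by omega) _ h5
        omega) d (X d)
      simpa [h8, Y.smul_mem_iff hy] using k1 y h7
    · have := k1 _ hXd
      rwa [S.orth_B_self, ← sub_smul, Y.smul_mem_iff (by
        rw [two_mul, sub_add_cancel_left]; simpa)] at this
  have k3 : ∀ a, S.B a d = 0 → S.B a (X d) ≠ 0 → a ∈ Y := fun a h1 h => by
    simpa [Y.smul_mem_iff h] using sub_mem (Y.smul_mem (S.Q a) k2) (k1 a h1)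
  have k4 : ∀ a, S.B a d = 0 → wg S a d ∈ Z := fun a h1 => by
    by_cases h : S.B a (X d) = 0
    · obtain ⟨b, hb, hb'⟩ := hS.exists_perp_ne hn
      rw [S.mem_perp_span_singleton] at hb
      rw [S.orth_B_swap] at hb'
      have : a ∈ Y := by simpa using sub_mem (k3 (a + b) (by simp [h1, hb]) (by simpa [h])) (k3 b hb hb')
      exact this
    · exact k3 a h1 h
  obtain ⟨e, he, hed⟩ := exists_partner hS hd hd0
  obtain ⟨y, h5, h6, hy⟩ := exists_ns_hyp hS h3 hd he (by simp [hed])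
  refine ⟨d, sg S e y d, hd, by rw [(S.orth_mem_isom _).1 (sg_mem e y), hd], ?_, k4, fun a ha => ?_⟩
  · simpa [sg_apply he h5, B_self_zero hd, h6, hed, S.orth_B_swap e d, S.B_comm_zero h6] using hy
  · obtain ⟨a, rfl⟩ := (sg S e y).surjective a
    rw [← cj_wg (sg_mem e y)]
    exact hZ _ _ _ (k4 a (by rwa [PQ.B_isom (sg_mem e y)] at ha))

end Cfsg.Agent.H3.TenO1
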