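import Cfsg.Agent.H3.TenO1

/-!
`O ⊗ O` in `Ω`: the unipotent radical of the stabiliser of `U ⊗ w`.
-/

set_option autoImplicit false
set_option linter.unusedSectionVars false

namespace Cfsg.Agent.H3.TenO2

open Module Cfsg.Agent.H7 Cfsg.Agent.Form Cfsg.Agent.H3.TenLin Cfsg.Agent.H3.RootGeo
  Cfsg.Agent.H3.TenForm Cfsg.Agent.H3.TenPar Cfsg.Agent.H3.TenGlue Cfsg.Agent.H3.OrthLem
  Cfsg.Agent.H3.TenSpSp Cfsg.Agent.H3.TenO1 Cfsg.Agent.H9.FClass

variable {F : Type*} [Field F] {V : Type*} [AddCommGroup V] [Module F V]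
  {U : Type*} [AddCommGroup U] [Module F U] {W : Type*} [AddCommGroup W] [Module F W]
  [FiniteDimensional F U] [FiniteDimensional F W] [FiniteDimensional F V]
  {S₁ : PQ (FP.orth F) U} {S₂ : PQ (FP.orth F) W} {S : PQ (FP.orth F) V}
  {τ : U →ₗ[F] W →ₗ[F] V} {h : TF S₁ S₂ S τ} {M : Subgroup (V ≃ₗ[F] V)}

theorem isom_of_bis (h2 : (2 : F) ≠ 0) {g : V ≃ₗ[F] V} (hg : g ∈ bis S) : g ∈ S.isom :=
  (S.orth_mem_isom g).2 fun x => mul_left_cancel₀ h2 (by rw [← S.orth_B_self, ← S.orth_B_self, hg])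

/-- The map `1 ⊗ ρ(w, y)`. -/
noncomputable def eT (h : TF S₁ S₂ S τ) (w y : W) : V ≃ₗ[F] V := h.tens.tcongr 1 (sg S₂ w y)

theorem eT_tmul (w y : W) (u : U) (z : W) : eT h w y (τ u z) = τ u (sg S₂ w y z) :=
  h.tens.tcongr_apply _ _ _ _

theorem eT_T (w y : W) : eT h w y ∈ TStab τ := tcongr_mem _ _ _

theorem eT_bis (w y : W) : eT h w y ∈ bis S :=
  h.tens_mem_bis (a := 1) (eT_tmul w y) (one_mem _) (isom_le_bis (sg_mem w y))

theorem eT_apply {w y : W} (hw : S₂.Q w = 0) (hy : S₂.B y w = 0) (v : V) :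
    eT h w y v = v + τ (h.cw w v) y - τ (h.cw y v + S₂.Q y • h.cw w v) w :=
  h.tens.induction v (by simp) (fun u z => by simp [eT_tmul, sg_apply hw hy]; module) fun a b ha hb => by
    simp only [map_add, ha, hb, map_smul, smul_add, LinearMap.add_apply, LinearMap.smul_apply]; abel

theorem eT_symm (w y : W) : (eT h w y).symm = eT h w (-y) := h.eq_of_tens fun u z => by
  rw [LinearEquiv.symm_apply_eq, eT_tmul, eT_tmul, ← sg_symm]; simp

theorem eT_fix {d y w : W} (h1 : S₂.B w d = 0) (h2 : S₂.B w y = 0) (u : U) : eT h d y (τ u w) = τ u w := by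
  rw [eT_tmul, sg, H8.siegel_fix (by rwa [polar_toQF]) (by rwa [polar_toQF])]

theorem eT_inQ {w y : W} (hw : S₂.Q w = 0) (hy : S₂.B y w = 0) : InQ h w (eT h w y) :=
  ⟨eT_bis w y, eT_fix (B_self_zero hw) (S₂.B_comm_zero hy), fun v hv =>
    ⟨-h.cw y v, by simp [eT_apply hw hy, hv]⟩⟩

theorem eT_mem_Om [Finite F] (h2 : (2 : F) ≠ 0) (h5 : 5 ≤ finrank F V) (w y : W) : eT h w y ∈ Om S := by
  by_cases H : toQF S₂ w = 0 ∧ QuadraticMap.polar (toQF S₂) w y = 0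
  · convert H8.sq_mem_Om (nd_toQF h.nd) h5 (OG_toQF S ▸ isom_of_bis h2 (eT_bis (h := h) w ((2 : F)⁻¹ • y)))
    refine h.eq_of_tens fun u z => ?_
    have : QuadraticMap.polar (toQF S₂) w ((2 : F)⁻¹ • y) = 0 := by simp [H.2]
    rw [LinearEquiv.mul_apply, eT_tmul, eT_tmul, eT_tmul, ← LinearEquiv.mul_apply, sg, sg,
      H8.siegel_mul H.1 this this, ← two_smul F, smul_smul, mul_inv_cancel₀ h2, one_smul]
  · convert one_mem (Om S)
    exact h.eq_of_tens fun u z => by rw [eT_tmul, sg, H8.siegel_of_not H]; rfl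

/-- The standing hypotheses. -/
structure OH (h : TF S₁ S₂ S τ) (M : Subgroup (V ≃ₗ[F] V)) : Prop where
  two : (2 : F) ≠ 0
  dU : 3 ≤ finrank F U
  dW : 5 ≤ finrank F W
  le : M ≤ Om S
  ge : ∀ g ∈ Om S, g ∈ TStab τ → g ∈ M

/-- `M` contains an element of the unipotent radical with given levels. -/
def Lv (h : TF S₁ S₂ S τ) (M : Subgroup (V ≃ₗ[F] V)) (w : W) (Θ : V → U) : Prop :=
  ∃ q ∈ M, InQ h w q ∧ ∀ v, h.cw w v = 0 → q v = v + τ (Θ v) w

variable [Nontrivial U] {w : W} {Θ Θ' : V → U}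

theorem Lv.congr (h1 : Lv h M w Θ) (e : ∀ v, Θ v = Θ' v) : Lv h M w Θ' := funext e ▸ h1

theorem Lv.add (h1 : Lv h M w Θ) (h2 : Lv h M w Θ') : Lv h M w fun v => Θ v + Θ' v := by
  obtain ⟨q, hq, hQ, e⟩ := h1
  obtain ⟨q', hq', hQ', e'⟩ := h2
  exact ⟨q * q', mul_mem hq hq', hQ.mul hQ', fun v hv => by simp [e' v hv, e v hv, hQ.fix, add_assoc]⟩

theorem Lv.neg (h1 : Lv h M w Θ) : Lv h M w fun v => -Θ v := by
  obtain ⟨q, hq, hQ, e⟩ := h1
  exact ⟨q⁻¹, inv_mem hq, hQ.inv, fun v hv => by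
    rw [LinearEquiv.coe_inv, LinearEquiv.symm_apply_eq]; simp [e v hv, hQ.fix]⟩

theorem Lv.conj (h1 : Lv h M w Θ) (h0 : w ≠ 0) {g : V ≃ₗ[F] V} (hg : g ∈ M) (hg' : g ∈ bis S)
    {a : U → U} (ha : ∀ u, g (τ u w) = τ (a u) w) : Lv h M w fun v => a (Θ (g.symm v)) := by
  obtain ⟨q, hq, hQ, e⟩ := h1
  have hs : ∀ u, g (τ u w) ∈ Bw τ w := fun u => ⟨_, (ha u).symm⟩
  exact ⟨g * q * g⁻¹, mul_mem (mul_mem hg hq) (inv_mem hg), hQ.conj h0 (bis_le_sim hg') hs, fun v hv => by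
    simp [e _ ((h.cw_stab h0 h0 (bis_le_sim hg') hs (v := g.symm v)).1 (by simpa using hv)), ha]⟩

theorem exists_Lv (h0 : w ≠ 0) {q : V ≃ₗ[F] V} (hQ : InQ h w q) :
    ∃ Θ : V →ₗ[F] U, ∀ v, h.cw w v = 0 → q v = v + τ (Θ v) w := by
  obtain ⟨z, hz⟩ := h.nd₂.exists_eq h0 1
  refine ⟨h.cw z ∘ₗ ((q : V →ₗ[F] V) - LinearMap.id), fun v hv => ?_⟩
  obtain ⟨u, hu⟩ := hQ.sub v hv
  simp only [LinearMap.flip_apply] at hu
  simp only [LinearMap.comp_apply, LinearMap.sub_apply, LinearEquiv.coe_coe, LinearMap.id_apply, ← hu,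
    h.cw_apply, S₂.orth_B_swap z w, hz, one_smul]
  rw [hu]; simp

theorem eq_of_eq_on_perp (hw : S₂.B w w = 0) (h0 : w ≠ 0) (hZ : ∀ X ∈ Zs h M hw, X = 0) {q k : V ≃ₗ[F] V}
    (hq : q ∈ M) (hk : k ∈ M) (hq' : q ∈ bis S) (hk' : k ∈ bis S) (e : ∀ v, h.cw w v = 0 → q v = k v) :
    q = k := by
  obtain ⟨X, hX⟩ := exists_of_fix_perp (h := h) h0 (mul_mem (inv_mem hk') hq') fun v hv => by simp [e v hv]
  obtain rfl := hZ X ⟨_, mul_mem (inv_mem hk) hq, hX⟩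
  rw [eq_comm, ← inv_mul_eq_one]
  ext v; simpa using hX v

theorem Lv.comm (hw : S₂.B w w = 0) (h0 : w ≠ 0) (hZ : ∀ X ∈ Zs h M hw, X = 0) {η η' : End F U} {d d' : W}
    (h1 : Lv h M w fun v => η (h.cw d v)) (h2 : Lv h M w fun v => η' (h.cw d' v)) (hd : S₂.B d w = 0)
    (hd' : S₂.B d' w = 0) (hdd : S₂.B d' d ≠ 0) (a : U) :
    η (adj h.nd₁ η' a) = η' (adj h.nd₁ η a) := by
  obtain ⟨q, hq, hQ, e⟩ := h1
  obtain ⟨q', hq', hQ', e'⟩ := h2
  have hc := eq_of_eq_on_perp hw h0 hZ (mul_mem hq hq') (mul_mem hq' hq) (hQ.mul hQ').bis (hQ'.mul hQ).bis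
    fun v hv => by simp [e v hv, e' v hv, hQ.fix, hQ'.fix]; abel
  obtain ⟨z, hz⟩ := h.nd₂.exists_eq h0 1
  set v := τ a z
  have k1 := hQ.cw_symm_eta (y := d') (η := S₂.B d' d • η) (fun u => by simp [e _, hd']) v
  have k2 := hQ'.cw_symm_eta (y := d) (η := S₂.B d' d • η') (fun u => by
    simp [e' _, hd, S₂.orth_B_swap d d']) v
  have k3 : ∀ x, h.cw w x = 0 → q.symm x = x - τ (η (h.cw d x)) w := fun x hx => by
    rw [LinearEquiv.symm_apply_eq]; simp [e x hx, hQ.fix]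
  have k4 : ∀ x, h.cw w x = 0 → q'.symm x = x - τ (η' (h.cw d' x)) w := fun x hx => by
    rw [LinearEquiv.symm_apply_eq]; simp [e' x hx, hQ'.fix]
  have k5 := k3 (q'.symm v - v) (by simp [hQ'.cw_symm])
  have k6 := k4 (q.symm v - v) (by simp [hQ.cw_symm])
  have k7 : q.symm (q'.symm v) = q'.symm (q.symm v) := LinearEquiv.congr_fun (congrArg (·⁻¹) hc).symm v
  simp only [map_sub, k1, k2, add_sub_cancel_left, adj_smul, FP.orth_σ, LinearMap.smul_apply, map_smul,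
    v, h.cw_apply, hz, one_smul] at k5 k6 k7
  refine eq_of_tmul_eq h.tens h0 (smul_right_injective V hdd ?_)
  linear_combination (norm := module) k5 - k6 - k7

variable [Finite F]

namespace OH
variable (H : OH h M)
include H

theorem dV : 5 ≤ finrank F V := by
  have := H.dU; have := H.dW
  rw [h.tens.finrank_eq]; nlinarith

theorem isom {g : V ≃ₗ[F] V} (hg : g ∈ M) : g ∈ S.isom := Om_le S (H.le hg)

theorem bis {g : V ≃ₗ[F] V} (hg : g ∈ M) : g ∈ bis S := isom_le_bis (H.isom hg)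

theorem eT_mem (w y : W) : eT h w y ∈ M := H.ge _ (eT_mem_Om H.two H.dV w y) (eT_T w y)

theorem sg_mem₁ (u v : U) : sg S₁ u v ∈ snd τ.flip M :=
  ⟨_, H.ge _ (eT_mem_Om (h := h.flip) H.two H.dV u v) (TStab_flip τ ▸ eT_T u v), eT_tmul u v⟩

theorem move {w w' : W} (hw : S₂.Q w = 0) (hw' : S₂.Q w' = 0) (h0 : w ≠ 0) (h0' : w' ≠ 0) :
    ∃ n ∈ M, ∃ b ∈ S₂.isom, (∀ u y, n (τ u y) = τ u (b y)) ∧ b w = w' := by
  obtain ⟨b, hb, e⟩ := H8.Om_trans (nd_toQF h.nd₂) H.dW h0 h0' (hw.trans hw'.symm)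
  obtain ⟨n, hn, en⟩ : b ∈ snd τ M := H8.Om_le_of_siegel (nd_toQF h.nd₂) H.dW (K := snd τ M)
    (fun u v _ _ => ⟨_, H.eT_mem u v, eT_tmul u v⟩) hb
  exact ⟨n, hn, b, Om_le S₂ hb, en, e⟩

/-- If the centre of the unipotent radical meets `M` trivially, there are no new elements. -/
theorem eq_eT (hdim : 4 ≤ finrank F U ∨ ∃ t : F, t ≠ 0 ∧ t ^ 2 ≠ 1) (hw : S₂.Q w = 0) (h0 : w ≠ 0)
    (hZ : ∀ X ∈ Zs h M (B_self_zero hw), X = 0) {q : V ≃ₗ[F] V} (hq : q ∈ M) (hQ : InQ h w q) :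
    ∃ y, S₂.B y w = 0 ∧ q = eT h w y := by
  obtain ⟨Θ, e⟩ := exists_Lv h0 hQ
  have L : Lv h M w Θ := ⟨q, hq, hQ, e⟩
  let Y : Submodule F W :=
    { carrier := {y | ∃ c : F, ∀ u, Θ (τ u y) = c • u}
      add_mem' := fun ⟨c, e⟩ ⟨c', e'⟩ => ⟨c + c', fun u => by simp [e, e', add_smul]⟩
      zero_mem' := ⟨0, by simp⟩
      smul_mem' := fun a _ ⟨c, e⟩ => ⟨a * c, fun u => by simp [e, mul_smul]⟩ }
  obtain ⟨y, hy, ey⟩ := hQ.exists_of_scalar h0 fun y hy => by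
    suffices hc : y ∈ Y from hc.imp fun c hc u => by simp [e _, hy, hc]
    refine perp_le_of_sing h.nd₂ H.dW hw h0 (fun d hd hdw hn => ?_) hy
    obtain ⟨y, hyw, hyd, hy⟩ := exists_ns₂ h.nd₂ H.dW w d
    set η : End F U := (-(2 * S₂.Q y)) • Θ ∘ₗ τ.flip d with hη
    have cj1 : ∀ {Θ : V → U} {d y}, Lv h M w Θ → S₂.B d w = 0 → S₂.B y w = 0 →
        Lv h M w fun v => Θ ((eT h d y).symm v) := fun L h1 h2 =>
      L.conj h0 (H.eT_mem _ _) (eT_bis _ _) (a := id) (eT_fix (S₂.B_comm_zero h1) (S₂.B_comm_zero h2))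
    have L1 : Lv h M w fun v => η (h.cw d v) :=
      ((((cj1 L hdw hyw).add (cj1 L hdw (y := -y) (by simp [hyw]))).add L.neg).add L.neg).congr fun v => by
        simp [eT_symm, eT_apply hd hyd, eT_apply hd (y := -y) (by simp [hyd]), hη, h.cw_neg, S₂.orth_Q_neg]
        module
    obtain ⟨f, hf, hf', hdf⟩ := h.nd₂.exists_hyperbolic_perp (X := Submodule.span F {w, y})
      ((S₂.orth_sing d).2 hd) (fun hm => by
        obtain ⟨a, b, rfl⟩ := Submodule.mem_span_pair.1 hm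
        simp [S₂.orth_Q_add, S₂.orth_Q_smul, hw, hy, S₂.B_comm_zero hyw] at hd
        simp [hd, Submodule.smul_mem] at hn) (mem_perp_pair.2 ⟨hdw, S₂.B_comm_zero hyd⟩)
    rw [mem_perp_pair] at hf
    rw [S₂.orth_sing] at hf'
    have L2 : Lv h M w fun v => η (h.cw (sg S₂ f y d) v) := (cj1 L1 hf.1 hyw).congr fun v => by
      rw [cw_tens_symm (a := 1) (eT_tmul f y) (isom_le_bis (sg_mem _ _))]; rfl
    have k1 : S₂.B (sg S₂ f y d) w = 0 := by simp [sg_apply hf' (S₂.B_comm_zero hf.2), hdw, hyw, hf.1]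
    have k2 : S₂.B (sg S₂ f y d) d ≠ 0 := by
      simpa [sg_apply hf' (S₂.B_comm_zero hf.2), hyd, S₂.B_comm_zero hyd, B_self_zero hd, hdf,
        S₂.orth_B_swap d f] using hy
    have L3 : Lv h M w fun v => (LinearMap.id : End F U) (h.cw f v) :=
      ⟨_, H.eT_mem w (-f), eT_inQ hw (by simp [hf.1]), fun v hv => by
        simp [eT_apply hw (y := -f) (by simp [hf.1]), hv, h.cw_neg]⟩
    have k3 : adj h.nd₁ η = η := LinearMap.ext fun a => by
      have := L1.comm _ h0 hZ L3 hdw hf.1 (by simp [S₂.orth_B_swap d f, hdf]) a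
      rw [adj_eq (X := LinearMap.id) (Y := LinearMap.id) _ fun _ _ => rfl] at this
      exact this.symm
    obtain ⟨c, hc⟩ := symm_scalar H.two h.nd₁ H.dU hdim (A := snd τ.flip M ⊓ S₁.isom)
      (fun u v => ⟨H.sg_mem₁ u v, sg_mem u v⟩) (η := η) (fun a b => by rw [← B_adj h.nd₁, k3])
      fun a ⟨⟨g, hg, eg⟩, ha⟩ v => by
        have := L1.comm _ h0 hZ (η' := cj a η) ((L2.conj h0 hg (H.bis hg) (a := a) fun u => eg w u).congr
          fun v => by rw [cw_tens_symm (b := 1) (fun u y => eg y u) (one_mem _)]; rfl) hdw k1 k2 v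
        rwa [adj_cj _ ha, k3] at this
    refine ⟨-(2 * S₂.Q y)⁻¹ * c, fun u => ?_⟩
    rw [mul_smul, ← hc, hη]
    simp [smul_smul, -mul_inv_rev, mul_ne_zero H.two hy]
  exact ⟨-y, by simp [hy], eq_of_eq_on_perp _ h0 hZ hq (H.eT_mem _ _) hQ.bis (eT_bis _ _) fun v hv => by
    simp [ey v hv, eT_apply hw (y := -y) (by simp [hy]), hv, h.cw_neg]⟩

theorem Zs_move {w w' : W} (hw : S₂.Q w = 0) (hw' : S₂.Q w' = 0) (h0 : w ≠ 0) {X : End F U}
    (hX : X ∈ Zs h M (B_self_zero hw)) : X ∈ Zs h M (B_self_zero hw') := by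
  by_cases h0' : w' = 0
  · exact ⟨1, one_mem _, by simp [h0']⟩
  obtain ⟨n, hn, b, hb, en, rfl⟩ := H.move hw hw' h0 h0'
  exact hasQ_conj hX hn (a := LinearEquiv.refl F U) en (isom_le_bis hb)

theorem Q_tmul (u : U) {y : W} (hy : S₂.Q y = 0) : S.Q (τ u y) = 0 :=
  Q_of_B H.two (by simp [h.form, B_self_zero hy])

theorem sg_all {d e : U} (hd : S₁.Q d = 0) (he : S₁.Q e = 0) (hed : S₁.B e d ≠ 0)
    (k : ∀ x, x = d ∨ x = e → ∀ a y, S₁.B a x = 0 → S₂.Q y = 0 → sg S (τ x y) (τ a y) ∈ M)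
    (hw : S₂.Q w = 0) (h0 : w ≠ 0) (v : V) : sg S (τ d w) v ∈ M := by
  refine H8.siegel_all_of_MS (fun v hv => ?_) v
  set N := H8.MS (toQF S) M (τ d w)
  have mv : ∀ x, x = d ∨ x = e → ∀ a y, S₁.B a x = 0 → S₂.Q y = 0 → S₁.B d x * S₂.B w y = 0 →
      S₁.B d a * S₂.B w y = 0 → ∀ u z, τ u z ∈ N →
      S₂.B z y • (S₁.B u x • τ a y - S₁.B u a • τ x y) ∈ N := fun x hx a y h1 h2 h3 h4 u z hv => by
    have := sub_mem (H8.MS_fix (H8.siegel_mem_OG _ _) (k x hx a y h1 h2)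
      (H8.siegel_fix (by rwa [polar_toQF, h.form]) (by rwa [polar_toQF, h.form])) hv) hv
    convert this using 1
    rw [← sg, sg_apply (H.Q_tmul x h2) (by simp [h.form, h1])]
    simp [h.form, H.Q_tmul a h2]; module
  obtain ⟨a₀, h1, h2, hQ⟩ := exists_ns_hyp h.nd₁ H.dU hd he hed
  have hB := B_self_ne H.two hQ
  have hde : S₁.B d e ≠ 0 := by rwa [S₁.orth_B_swap]
  have k1 : ∀ a, S₁.B a d = 0 → τ a w ∈ N := fun a ha =>
    ⟨by simp [polar_toQF, h.form, B_self_zero hw], fun c => by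
      simpa [sg] using k d (.inl rfl) (c • a) w (by simp [ha]) hw⟩
  have k2 : ∀ y, τ d y ∈ N := fun y => by
    refine TenGen.le_of_sing_ne (H := ⊤) (A := N.comap (τ d)) ((S₂.orth_sing w).2 hw) trivial
      (k1 d (B_self_zero hd)) ((h.nd₂.exists_ne h0).imp fun _ h => ⟨trivial, h⟩) (fun y _ hy hyw => ?_) trivial
    simpa [h2, N.smul_mem_iff hB, S₂.orth_B_swap y w, N.smul_mem_iff hyw] using mv d (.inl rfl) a₀ y h2 ((S₂.orth_sing y).1 hy)
      (by simp [B_self_zero hd]) (by simp [S₁.B_comm_zero h2]) a₀ w (k1 a₀ h2)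
  have k3 : ∀ a y, S₁.B a e = 0 → S₁.B a d = 0 → S₂.Q y = 0 → S₂.B y w = 0 → τ a y ∈ N :=
    fun a y h3 h4 hy hyw => by
      by_cases hy0 : y = 0
      · simp [hy0]
      obtain ⟨z, hz⟩ := h.nd₂.exists_eq hy0 1
      simpa [hz, N.smul_mem_iff hde, S₁.B_comm_zero h4] using mv e (.inr rfl) a y h3 hy (by simp [S₂.B_comm_zero hyw])
        (by simp [S₂.B_comm_zero hyw]) d z (k2 z)
  have k4 : ∀ u y, S₂.B y w = 0 → τ u y ∈ N := fun u y hy => by
    refine perp_le_of_sing h.nd₂ H.dW hw h0 (Y := N.comap (τ u)) (fun y hy hyw hn => ?_) hy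
    obtain ⟨z, h3, h4, h5⟩ := h.nd₂.exists_hyperbolic_perp ((S₂.orth_sing y).2 hy) hn
      (S₂.mem_perp_span_singleton.2 hyw)
    rw [S₂.mem_perp_span_singleton] at h3
    have h6 : τ e y ∈ N := by
      simpa [h1, N.smul_mem_iff hB, S₂.orth_B_swap y z, h5] using mv e (.inr rfl) a₀ y h1 hy (by simp [S₂.B_comm_zero hyw])
        (by simp [S₂.B_comm_zero hyw]) a₀ z (k3 a₀ z h1 h2 ((S₂.orth_sing z).1 h4) h3)
    have := add_mem (add_mem (k3 (u - (S₁.B u e / S₁.B d e) • d - (S₁.B u d / S₁.B e d) • e) y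
      (by simp [hde, B_self_zero he]) (by simp [hed, B_self_zero hd]) hy hyw)
      (N.smul_mem (S₁.B u e / S₁.B d e) (k2 y))) (N.smul_mem (S₁.B u d / S₁.B e d) h6)
    rw [Submodule.mem_comap]
    convert this using 1
    simp only [map_sub, map_smul, LinearMap.sub_apply, LinearMap.smul_apply]; abel
  obtain ⟨w', hw', hww⟩ := exists_partner h.nd₂ hw h0
  rw [polar_toQF, S.orth_B_swap, h.B_tmul] at hv
  have h3 := mv d (.inl rfl) _ w' hv hw' (by simp [B_self_zero hd]) (by simp [S₁.B_comm_zero hv]) e w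
    (k4 e w (B_self_zero hw))
  rw [S₂.orth_B_swap, hww, one_smul, N.sub_mem_iff_left (N.smul_mem _ (k2 w')), N.smul_mem_iff hed] at h3
  simpa using add_mem (TenGen.mem_of_cw h hww k4 v) h3

/-- A non-trivial element in the centre of the unipotent radical generates everything. -/
theorem le_of_Z (h4 : finrank F U = 4 → ∀ Y, S₁.TS Y → finrank F Y < 2) (hw : S₂.Q w = 0) (h0 : w ≠ 0)
    {X : End F U} (hX : X ∈ Zs h M (B_self_zero hw)) (hX0 : X ≠ 0) : Om S ≤ M := by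
  let Z : Submodule F (End F U) :=
    { Zs h M (B_self_zero hw) with
      smul_mem' := fun a X hX => by
        have key : ∀ c : F, (c * c) • X ∈ Zs h M (B_self_zero hw) := fun c =>
          (H.Zs_move hw (w' := c • w) (by simp [S₂.orth_Q_smul, hw]) h0 hX).congr fun v => by
            simp [h.cw_smul, mul_smul]
        have := sub_mem (key ((a + 1) / 2)) (key ((a - 1) / 2))
        rwa [← sub_smul, show (a + 1) / 2 * ((a + 1) / 2) - (a - 1) / 2 * ((a - 1) / 2) = a by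
          have := H.two; field_simp; ring] at this }
  obtain ⟨d, e, hd, he, hed, k1, k2⟩ := skew_extract H.two h.nd₁ H.dU h4 Z (fun u v X hX => by
    obtain ⟨g, hg, eg⟩ := H.sg_mem₁ u v
    exact Zs_conj (hw := B_self_zero hw) hX hg fun u y => eg y u) hX hX0 fun a b => by
    have := adj_of_hasQ (fun g hg => bis_le_sim (H.bis hg)) (B_self_zero hw) h0 hX a b
    simp only [FP.orth_ε, one_mul] at this
    linear_combination this
  have k : ∀ x, x = d ∨ x = e → ∀ a y, S₁.B a x = 0 → S₂.Q y = 0 → sg S (τ x y) (τ a y) ∈ M := by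
    intro x hx a y ha hy
    obtain ⟨g, hg, eg⟩ := H.Zs_move hw hy h0 (X := wg S₁ (-a) x) (by
      rcases hx with rfl | rfl
      · exact k1 _ (by simpa)
      · exact k2 _ (by simpa))
    convert hg using 1
    ext v
    simp [eg, sg_apply (H.Q_tmul x hy) (v := τ a y) (by simp [h.form, ha]), h.B_tmul, H.Q_tmul a hy]
    abel
  obtain ⟨w', hw', hww⟩ := exists_partner h.nd₂ hw h0
  exact H8.Om_le_of_two (nd_toQF h.nd) H.dV (H.Q_tmul e hw') (H.Q_tmul d hw)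
    (by simp [polar_toQF, h.form, hed, hww])
    (H.sg_all he hd (by rwa [S₁.orth_B_swap]) (fun x hx => k x hx.symm) hw' (by rintro rfl; simp at hww))
    (H.sg_all hd he hed k hw h0)

end OH

end Cfsg.Agent.H3.TenO2
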