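import Cfsg.Agent.H3.TenO2
import Cfsg.Agent.H3.TenSpO2

/-!
`O ⊗ O` in `Ω`: the parabolic analysis.
-/

set_option autoImplicit false
set_option linter.unusedSectionVars false

namespace Cfsg.Agent.H3.TenO3

open Module Cfsg.Agent.H7 Cfsg.Agent.Form Cfsg.Agent.H3.TenLin Cfsg.Agent.H3.RootGeo
  Cfsg.Agent.H3.TenForm Cfsg.Agent.H3.TenPar Cfsg.Agent.H3.TenGlue Cfsg.Agent.H3.OrthLem
  Cfsg.Agent.H3.TenSpSp Cfsg.Agent.H3.TenO1 Cfsg.Agent.H3.TenO2 Cfsg.Agent.H9.FClass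
  Cfsg.Agent.H3.TenSU

variable {F : Type*} [Field F] {V : Type*} [AddCommGroup V] [Module F V]
  {U : Type*} [AddCommGroup U] [Module F U] {W : Type*} [AddCommGroup W] [Module F W]
  [FiniteDimensional F U] [FiniteDimensional F W] [FiniteDimensional F V]
  {S₁ : PQ (FP.orth F) U} {S₂ : PQ (FP.orth F) W} {S : PQ (FP.orth F) V}
  {τ : U →ₗ[F] W →ₗ[F] V} {h : TF S₁ S₂ S τ} {M : Subgroup (V ≃ₗ[F] V)} [Nontrivial U] [Finite F]

theorem inQ_mem_Om (h2 : (2 : F) ≠ 0) (h5 : 5 ≤ finrank F V) {w : W} {n : V ≃ₗ[F] V} (hn : InQ h w n) :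
    n ∈ Om S := by
  obtain ⟨p, hp⟩ := CharP.exists F
  obtain ⟨k, hk⟩ := (CharP.char_is_prime F p).odd_of_ne_two (by
    rintro rfl; exact h2 (by exact_mod_cast CharP.cast_eq_zero F 2))
  have h3 : ∀ v, n (n (n v)) = (3 : F) • n (n v) - (3 : F) • n v + v := fun v => by
    obtain ⟨u, hu⟩ := hn.sub (n v - v) (by simp [hn.cw_eq])
    have := hn.fix u
    rw [show τ u w = _ from hu] at this
    simp only [map_sub] at this
    linear_combination (norm := module) this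
  have h4 : ∀ (m : ℕ) v, (n ^ m) v = v + (m : F) • (n v - v) +
      ((m : F) * (m - 1) / 2) • (n (n v) - (2 : F) • n v + v) := fun m v => by
    induction m with
    | zero => simp
    | succ m ih =>
      rw [pow_succ', LinearEquiv.mul_apply, ih]
      simp only [map_add, map_sub, map_smul, h3, Nat.cast_succ]
      match_scalars <;> field_simp <;> ring
  have h6 : n ^ p = 1 := LinearEquiv.ext fun v => by simp [h4]
  convert H8.sq_mem_Om (nd_toQF h.nd) h5 (OG_toQF S ▸ pow_mem (isom_of_bis h2 hn.bis) (k + 1)) using 1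
  rw [← pow_add, show k + 1 + (k + 1) = p + 1 by omega, pow_succ, h6, one_mul]

/-- No new elements in the unipotent radicals. -/
structure OP (h : TF S₁ S₂ S τ) (M : Subgroup (V ≃ₗ[F] V)) : Prop extends OH h M where
  eq : ∀ w, S₂.Q w = 0 → w ≠ 0 → ∀ q ∈ M, InQ h w q → ∃ y, S₂.B y w = 0 ∧ q = eT h w y

theorem sing_of (h2 : (2 : F) ≠ 0) (h : TF S₁ S₂ S τ) {g : V ≃ₗ[F] V} (hg : g ∈ bis S) {z : W}
    (e : ∀ u u', S.B (g (τ u z)) (g (τ u' z)) = 0) : S₂.Q z = 0 := by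
  obtain ⟨u, hu⟩ := exists_ne (0 : U)
  obtain ⟨u', hu'⟩ := h.nd₁.exists_ne hu
  exact Q_of_B h2 (by simpa [hg _ _, h.form, hu'] using e u' u)

namespace OP
variable (H : OP h M)
include H

theorem par {w : W} (hw : S₂.Q w = 0) (h0 : w ≠ 0) {x : V ≃ₗ[F] V} (hx : x ∈ M)
    (hxw : ∀ u, x (τ u w) ∈ Bw τ w) : x ∈ TStab τ := by
  obtain ⟨a, ha⟩ := exists_of_map_Bw h.tens h0 h0 hxw
  obtain ⟨w', hw', hww⟩ := exists_partner h.nd₂ hw h0
  have hb := H.bis hx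
  have hB := B_self_zero hw
  have st : ∀ v, h.cw w v = 0 → h.cw w (x v) = 0 := fun v => (h.cw_stab h0 h0 (bis_le_sim hb) hxw).2
  have k1 : ∀ y, S₂.B y w = 0 → ∃ y', S₂.B y' w = 0 ∧ (∀ u, ∃ θ,
      x (τ u y) = τ (h.cw w (x (τ u w'))) y' + τ θ w) ∧
      ∀ u, S₂.B y y • a u = S₂.B y' y' • h.cw w (x (τ u w')) := fun y hy => by
    obtain ⟨y', hy', e⟩ := H.eq w hw h0 _ (mul_mem (mul_mem hx (H.eT_mem w y)) (inv_mem hx))
      ((eT_inQ hw hy).conj h0 (bis_le_sim hb) hxw)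
    have e1 : ∀ v, x (eT h w y v) = eT h w y' (x v) := fun v => by simp [← e]
    have e2 : ∀ u, ∃ θ, x (τ u y) = τ (h.cw w (x (τ u w'))) y' + τ θ w := fun u => by
      have := e1 (τ u w')
      simp only [eT_apply hw hy, eT_apply hw hy', h.cw_apply, hww, one_smul, map_sub, map_add x, ha] at this
      exact ⟨a (S₂.B w' y • u + S₂.Q y • u) - (h.cw y' (x (τ u w')) + S₂.Q y' • h.cw w (x (τ u w'))), by
        rw [map_sub, LinearMap.sub_apply]; linear_combination (norm := abel_nf) this⟩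
    refine ⟨y', hy', e2, fun u => eq_of_tmul_eq h.tens h0 ?_⟩
    have := e1 (τ u y)
    rw [eT_apply hw hy', st _ (by simp [hy]), eT_apply hw hy] at this
    obtain ⟨θ, e3⟩ := e2 u
    simpa [hy, ha, e3, S₂.B_comm_zero hy'] using this
  obtain ⟨y₀, hy₀, hQ⟩ := exists_ns₁ h.nd₂ (by have := H.dW; omega) w
  obtain ⟨y₁, -, -, e⟩ := k1 y₀ hy₀
  obtain ⟨u₀, hu₀⟩ := exists_ne (0 : U)
  have hy₁ : S₂.B y₁ y₁ ≠ 0 := fun e0 => by simpa [e0, B_self_ne H.two hQ, hu₀] using e u₀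
  obtain ⟨μ, hμ, e⟩ : ∃ μ : F, μ ≠ 0 ∧ ∀ u, h.cw w (x (τ u w')) = μ • a u :=
    ⟨(S₂.B y₁ y₁)⁻¹ * S₂.B y₀ y₀, by simp [hy₁, B_self_ne H.two hQ], fun u => by
      simp [mul_smul, e, hy₁]⟩
  have k2 : ∀ u u', μ * S₁.B (a u) (a u') = S₁.B u u' := fun u u' => by
    simpa [ha, h.B_tmul, e, hww] using hb (τ u w') (τ u' w)
  obtain ⟨ψ, hψ, -⟩ := exists_dual_one (W := (⊥ : Submodule F U)) (x := a u₀) (by simpa using hu₀)
  set z : End F W := h.tens.flip.ctr ψ ∘ₗ (x : V →ₗ[F] V) ∘ₗ τ u₀ with hz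
  have ct : ∀ u y, h.tens.flip.ctr ψ (τ u y) = ψ u • y := fun u y => h.tens.flip.ctr_apply ψ y u
  have k3 : ∀ y, S₂.B y w = 0 → S₂.B (z y) w = 0 ∧ ∀ u, ∃ θ, x (τ u y) = τ (a u) (z y) + τ θ w := by
    intro y hy
    obtain ⟨y', h1, h2, -⟩ := k1 y hy
    obtain ⟨θ₀, h3⟩ := h2 u₀
    have h4 : z y = μ • y' + ψ θ₀ • w := by simp [hz, h3, ct, e, hψ]
    refine ⟨by simp [h4, h1, hB], fun u => ?_⟩
    obtain ⟨θ, h5⟩ := h2 u
    exact ⟨θ - ψ θ₀ • a u, by simp [h4, h5, e]⟩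
  have k4 : ∀ y y', S₂.B y w = 0 → S₂.B y' w = 0 → S₂.B (z y) (z y') = μ * S₂.B y y' := by
    intro y y' hy hy'
    obtain ⟨u₁, hu₁⟩ := h.nd₁.exists_eq hu₀ 1
    obtain ⟨θ, h1⟩ := (k3 y hy).2 u₁
    obtain ⟨θ', h2⟩ := (k3 y' hy').2 u₀
    have := hb (τ u₁ y) (τ u₀ y')
    simp [h1, h2, h.form, (k3 y hy).1, S₂.B_comm_zero (k3 y' hy').1, hB, hu₁] at this
    linear_combination μ * this - S₂.B (z y) (z y') * k2 u₁ u₀ - S₂.B (z y) (z y') * hu₁
  set π : End F W := 1 - rk S₂ w' w - rk S₂ w w' with hπ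
  have p1 : ∀ y, S₂.B (π y) w = 0 := fun y => by simp [hπ, hB, hww]
  let b : End F W := rk S₂ w' w + μ • rk S₂ w w' + π ∘ₗ z ∘ₗ π
  have eb : ∀ y, b y = (S₂.B y w' - S₂.B (z (π y)) w') • w + (μ * S₂.B y w) • w' + z (π y) := fun y => by
    have : ∀ s, π s = s - S₂.B s w' • w - S₂.B s w • w' := fun _ => rfl
    simp only [b, LinearMap.add_apply, LinearMap.comp_apply, LinearMap.smul_apply, rk_apply]
    rw [this (z _), (k3 _ (p1 y)).1]; module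
  have k5 : ∀ y y', S₂.B (b y) (b y') = μ * S₂.B y y' := fun y y' => by
    have h1 := k4 _ _ (p1 y) (p1 y')
    have h2 : S₂.B (π y) (π y') = S₂.B y y' - S₂.B y w' * S₂.B y' w - S₂.B y w * S₂.B y' w' := by
      simp [hπ, hB, hww, B_self_zero hw', S₂.orth_B_swap w' w, S₂.orth_B_swap y']
    simp [eb, hB, hww, B_self_zero hw', S₂.orth_B_swap w' w, (k3 _ (p1 y)).1,
      S₂.B_comm_zero (k3 _ (p1 y')).1, h1, h2, S₂.orth_B_swap (z (π y')) w']
    ring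
  let b' := LinearEquiv.ofInjectiveEndo b ((injective_iff_map_eq_zero _).2 fun y hy =>
    h.nd₂ y fun y' => by simpa [hy, hμ] using k5 y y')
  set t := h.tens.tcongr a b' with ht
  have et : ∀ u y, t (τ u y) = τ (a u) (b y) := h.tens.tcongr_apply a b'
  have hti : t ∈ bis S := fun x y => by
    rw [h.mem_bis_of (m := 1) fun u _ u' _ => by
      rw [et, et, h.form, h.form, k5, ← k2 u u']; ring, one_mul]
  have bw : b w = w := by simp [b, hπ, hB, S₂.orth_B_swap w' w, hww]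
  have f1 : ∀ u, t.symm (τ (a u) w) = τ u w := fun u => by rw [LinearEquiv.symm_apply_eq, et, bw]
  have hn : InQ h w (t⁻¹ * x) := ⟨mul_mem (inv_mem hti) hb, fun u => by simp [ha, f1], fun v hv => by
    have := TenGen.mem_of_cw h hww (A := (Bw τ w).comap (((t⁻¹ * x : V ≃ₗ[F] V) : End F V) - 1))
      (fun u y hy => by
        obtain ⟨θ, h1⟩ := (k3 _ (p1 y)).2 u
        refine ⟨a.symm θ + S₂.B (z (π y)) w' • u, t.injective ?_⟩
        have h2 : x (τ u y) = x (τ u (π y)) + S₂.B y w' • τ (a u) w := by simp [hπ, hy, ha]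
        simp [et, bw, h2, h1, eb y, hy]; module) v
    simpa [hv] using this⟩
  have htM : t ∈ M := H.ge t (by
    simpa using mul_mem (H.le hx) (inv_mem (inQ_mem_Om H.two H.dV hn))) (tcongr_mem _ _ _)
  obtain ⟨y, -, e⟩ := H.eq w hw h0 _ (mul_mem (inv_mem htM) hx) hn
  exact ((TStab τ).mul_mem_cancel_left (inv_mem (tcongr_mem h.tens a b'))).1 (e ▸ eT_T w y)

theorem par' {w w' : W} (hw' : S₂.Q w' = 0) (h0 : w ≠ 0) (h0' : w' ≠ 0) {x : V ≃ₗ[F] V} (hx : x ∈ M)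
    (hxw : ∀ u, x (τ u w) ∈ Bw τ w') : x ∈ TStab τ := by
  have hw := sing_of H.two h (H.bis hx) (z := w) fun u u' => by
    obtain ⟨a, e⟩ := hxw u
    obtain ⟨a', e'⟩ := hxw u'
    simp [← e, ← e', h.form, B_self_zero hw']
  obtain ⟨n, hn, b, -, en, e⟩ := H.move hw' hw h0' h0
  refine ((TStab τ).mul_mem_cancel_left ⟨1, b, en⟩).1 (H.par hw h0 (mul_mem hn hx) fun u => ?_)
  obtain ⟨u', hu'⟩ := hxw u
  exact ⟨u', by simp [← hu', en, e]⟩

theorem par₂ {x x' z : W} (hx : S₂.Q x = 0) (hx' : S₂.Q x' = 0) (hxx : S₂.B x' x = 0) (h0 : x ≠ 0)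
    (hz : z ≠ 0) {g : V ≃ₗ[F] V} (hg : g ∈ M) (e : ∀ u, g (τ u z) ∈ Bw τ x ⊔ Bw τ x') : g ∈ TStab τ := by
  obtain ⟨y, h1, h2, hy⟩ := exists_ns₂ h.nd₂ H.dW x x'
  have e' : ∀ u, ∃ a b, g (τ u z) = τ a x + τ b x' := fun u => by
    obtain ⟨_, ⟨a, rfl⟩, _, ⟨b, rfl⟩, e⟩ := Submodule.mem_sup.1 (e u)
    exact ⟨a, b, e.symm⟩
  have hk := mul_mem (mul_mem (inv_mem hg) (H.eT_mem x y)) hg
  have fx : ∀ u, (g⁻¹ * eT h x y * g) (τ u z) = τ u z := fun u => by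
    obtain ⟨a, b, e⟩ := e' u
    simp [e, eT_fix (B_self_zero hx) (S₂.B_comm_zero h1), eT_fix hxx (S₂.B_comm_zero h2), -map_add,
      map_add (eT h x y)]
    simp [← e]
  obtain ⟨b, eb⟩ := TenSpO2.snd_of_fix h.tens hz (H.par (sing_of H.two h (H.bis hg) fun u u' => by
    obtain ⟨a, b, e⟩ := e' u
    obtain ⟨a', b', e'⟩ := e' u'
    simp [e, e', h.form, B_self_zero hx, B_self_zero hx', hxx, S₂.B_comm_zero hxx]) hz hk
    fun u => ⟨u, (fx u).symm⟩) fx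
  have eb' : ∀ u s, eT h x y (g (τ u s)) = g (τ u (b s)) := fun u s => by simp [← eb]
  have k : ∀ u s, g (τ u (b (b s) - (2 : F) • b s + s)) = τ (-(2 * S₂.Q y) • h.cw x (g (τ u s))) x := by
    intro u s
    simp [← eb', eT_apply hx h1, h1, S₂.B_comm_zero h1, B_self_zero hx, S₂.orth_B_self]
    module
  obtain ⟨s, hs⟩ : ∃ s, b (b s) - (2 : F) • b s + s ≠ 0 := by
    by_contra hc
    push Not at hc
    have : h.cw x ∘ₗ (g : V →ₗ[F] V) = 0 := h.tens.ext fun u s => by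
      have := k u s
      rw [hc] at this
      simpa [H.two, hy] using (h.tens.eq_zero (this.symm.trans (by simp))).resolve_right h0
    obtain ⟨u, hu⟩ := exists_ne (0 : U)
    obtain ⟨s, hs⟩ := h.nd₂.exists_eq h0 1
    simpa [hs, hu] using LinearMap.congr_fun this (g.symm (τ u s))
  exact H.par' hx hs h0 hg fun u => ⟨_, (k u s).symm⟩

end OP

end Cfsg.Agent.H3.TenO3
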