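import Cfsg.Agent.H3.TenO3

/-!
`O ⊗ O` in `Ω`: the geometric step.
-/

set_option autoImplicit false
set_option linter.unusedSectionVars false

namespace Cfsg.Agent.H3.TenO4

open Module Cfsg.Agent.H7 Cfsg.Agent.Form Cfsg.Agent.H3.TenLin Cfsg.Agent.H3.RootGeo
  Cfsg.Agent.H3.TenForm Cfsg.Agent.H3.TenPar Cfsg.Agent.H3.TenGlue Cfsg.Agent.H3.OrthLem
  Cfsg.Agent.H3.TenSpSp Cfsg.Agent.H3.TenO1 Cfsg.Agent.H3.TenO2 Cfsg.Agent.H9.FClass
  Cfsg.Agent.H3.TenSU Cfsg.Agent.H3.TenO3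

variable {F : Type*} [Field F] {V : Type*} [AddCommGroup V] [Module F V]
  {U : Type*} [AddCommGroup U] [Module F U] {W : Type*} [AddCommGroup W] [Module F W]
  [FiniteDimensional F U] [FiniteDimensional F W] [FiniteDimensional F V]
  {S₁ : PQ (FP.orth F) U} {S₂ : PQ (FP.orth F) W} {S : PQ (FP.orth F) V}
  {τ : U →ₗ[F] W →ₗ[F] V} {h : TF S₁ S₂ S τ} {M : Subgroup (V ≃ₗ[F] V)}

theorem finrank_B2 (h : IsTens τ) {x x' : W} (h0 : x ≠ 0) (h1 : x' ∉ F ∙ x) :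
    finrank F (Bw τ x ⊔ Bw τ x' : Submodule F V) = 2 * finrank F U := by
  have h2 := Submodule.finrank_sup_add_finrank_inf_eq (Bw τ x) (Bw τ x')
  rw [show Bw τ x ⊓ Bw τ x' = ⊥ from eq_bot_iff.2 fun v hv => Bw_inf h h1 hv.1 hv.2, finrank_bot,
    finrank_Bw h h0, finrank_Bw h (by rintro rfl; simp at h1)] at h2
  omega

theorem mem_B2 {x x' : W} {v : V} : v ∈ Bw τ x ⊔ Bw τ x' ↔ ∃ a b, τ a x + τ b x' = v :=
  ⟨fun hv => by
    obtain ⟨_, ⟨a, rfl⟩, _, ⟨b, rfl⟩, e⟩ := Submodule.mem_sup.1 hv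
    exact ⟨a, b, e⟩, by
    rintro ⟨a, b, rfl⟩
    exact add_mem (Submodule.mem_sup_left ⟨a, rfl⟩) (Submodule.mem_sup_right ⟨b, rfl⟩)⟩

/-- A totally singular line with a dual pair. -/
structure Ln (S₂ : PQ (FP.orth F) W) (x x' y y' : W) : Prop where
  q : S₂.Q x = 0
  q' : S₂.Q x' = 0
  b : S₂.B x' x = 0
  b₁ : S₂.B y x = 1
  b₂ : S₂.B y x' = 0
  b₃ : S₂.B y' x = 0
  b₄ : S₂.B y' x' = 1

/-- The long root element of the second factor. -/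
noncomputable def nu (h : TF S₁ S₂ S τ) (x x' : W) : End F V :=
  τ.flip x' ∘ₗ h.cw x - τ.flip x ∘ₗ h.cw x'

theorem nu_apply (x x' : W) (v : V) : nu h x x' v = τ (h.cw x v) x' - τ (h.cw x' v) x := rfl

variable {x x' y y' : W} (L : Ln S₂ x x' y y')
include L

theorem Ln.ne : x ≠ 0 := by rintro rfl; simpa using L.b₁

theorem Ln.notMem : x' ∉ F ∙ x := fun hm => by
  obtain ⟨c, rfl⟩ := Submodule.mem_span_singleton.1 hm
  simpa [L.b₃] using L.b₄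

theorem Ln.cw {v : V} (hv : v ∈ Bw τ x ⊔ Bw τ x') : h.cw x v = 0 ∧ h.cw x' v = 0 := by
  obtain ⟨a, b, rfl⟩ := mem_B2.1 hv
  simp [B_self_zero L.q, B_self_zero L.q', L.b, S₂.B_comm_zero L.b]

theorem Ln.nu_eq_zero {v : V} : nu h x x' v = 0 ↔ h.cw x v = 0 ∧ h.cw x' v = 0 :=
  ⟨fun e => ⟨by simpa [nu_apply, S₂.orth_B_swap y', L.b₃, L.b₄] using congrArg (h.cw y') e,
    by simpa [nu_apply, S₂.orth_B_swap y, L.b₁, L.b₂] using congrArg (h.cw y) e⟩,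
    fun e => by simp [nu_apply, e]⟩

theorem Ln.range_nu : LinearMap.range (nu h x x') = Bw τ x ⊔ Bw τ x' := by
  ext v
  rw [mem_B2]
  exact ⟨fun ⟨s, e⟩ => ⟨-h.cw x' s, h.cw x s, by rw [← e, nu_apply]; simp; abel⟩, fun ⟨a, b, e⟩ =>
    ⟨τ b y - τ a y', by simp [← e, nu_apply, L.b₁, L.b₂, L.b₃, L.b₄]; abel⟩⟩

theorem Ln.nu_sq (v : V) : nu h x x' (nu h x x' v) = 0 :=
  L.nu_eq_zero.2 (L.cw (L.range_nu (h := h) ▸ ⟨v, rfl⟩))

theorem Ln.perp {v : V} : (∀ b ∈ Bw τ x ⊔ Bw τ x', S.B v b = 0) ↔ nu h x x' v = 0 := by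
  rw [L.nu_eq_zero]
  refine ⟨fun e => ⟨h.cw_eq_zero_iff.2 fun u => e _ (Submodule.mem_sup_left ⟨u, rfl⟩),
    h.cw_eq_zero_iff.2 fun u => e _ (Submodule.mem_sup_right ⟨u, rfl⟩)⟩, fun e b hb => ?_⟩
  obtain ⟨a, b, rfl⟩ := mem_B2.1 hb
  simp [h.B_tmul, e]

theorem Ln.R_eq (c : F) : rootE _ (L.nu_sq (h := h)) c = eT h x (c • x') := LinearEquiv.ext fun v => by
  simp [eT_apply L.q (y := c • x') (by simp [L.b]), nu_apply, S₂.orth_Q_smul, L.q', h.cw_smul]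
  module

theorem Ln.R_le {H : Subgroup (V ≃ₗ[F] V)} (hH : ∀ y, eT h x y ∈ H) : RG _ (L.nu_sq (h := h)) ⊤ ≤ H := by
  rintro g ⟨c, -, e⟩
  rw [show g = rootE _ (L.nu_sq (h := h)) c from LinearEquiv.ext e, L.R_eq]; exact hH _

variable [Nontrivial U] [Finite F] (H : OP h M) (hlt : finrank F U < finrank F W)

theorem Ln.nu_ne : nu h x x' ≠ 0 := fun e => by
  obtain ⟨u, hu⟩ := exists_ne (0 : U)
  simpa [L.b₁, hu] using (L.nu_eq_zero.1 (LinearMap.congr_fun e (τ u y))).1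

include H hlt

theorem Ln.fus {g : V ≃ₗ[F] V} (hg : g ∈ M) (hT : g * rootE _ (L.nu_sq (h := h)) 1 * g⁻¹ ∈ TStab τ) :
    g ∈ TStab τ := by
  set μ := cj g (nu h x x') with hμ
  have ek : ∀ v, (g * rootE _ (L.nu_sq (h := h)) 1 * g⁻¹) v = v + μ v := fun v => by simp [hμ]
  have hμ0 : μ ≠ 0 := fun e => L.nu_ne (h := h) (LinearMap.ext fun v => by
    simpa [hμ] using LinearMap.congr_fun e (g v))
  have hr : ∀ v, g.symm (μ v) ∈ Bw τ x ⊔ Bw τ x' := fun v => by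
    rw [← L.range_nu (h := h)]; exact ⟨g.symm v, by simp [hμ]⟩
  rcases TenSpO1.quad_tens h.tens H.two hT (fun v => by
    rw [ek, ek, map_add, cj_sq g L.nu_sq]; module) with ⟨b, e⟩ | ⟨a, e⟩
  · have e' : ∀ u s, μ (τ u s) = τ u (b s - s) := fun u s => by simp [← e, ek]
    obtain ⟨s, hs⟩ : ∃ s, b s - s ≠ 0 := by
      by_contra hc
      push Not at hc
      exact hμ0 (h.tens.ext fun u s => by simp [e', hc])
    exact (TStab τ).inv_mem_iff.1 (H.par₂ L.q L.q' L.b L.ne hs (inv_mem hg) fun u => e' u s ▸ hr _)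
  have e' : ∀ u s, μ (τ u s) = τ (a u - u) s := fun u s => by simp [← e, ek]
  obtain ⟨u, hu⟩ : ∃ u, a u - u ≠ 0 := by
    by_contra hc
    push Not at hc
    exact hμ0 (h.tens.ext fun u s => by simp [e', hc])
  obtain ⟨u', hu'⟩ := h.nd₁.exists_ne hu
  have sk : ∀ v v', S.B (μ v) v' = -1 * S.B v (μ v') := TenSpO1.B_cj (H.isom hg) fun v v' => by
    simp [nu_apply, h.B_tmul, S.orth_B_swap v' , S₁.orth_B_swap (h.cw x v), S₁.orth_B_swap (h.cw x' v)]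
  have sk' : ∀ p r, S₁.B (a p - p) r = -S₁.B p (a r - r) := fun p r => by
    simpa only [e', h.form, L.b₁, mul_one, neg_one_mul] using sk (τ p y) (τ r x)
  have h1 : a u' - u' ≠ 0 := fun e => hu' (by rw [← neg_eq_zero, ← sk', e, PQ.B_zero_left])
  have h2 := finrank_B2 h.tens.flip h1 (x' := a u - u) fun hm => by
    obtain ⟨c, hc⟩ := Submodule.mem_span_singleton.1 hm
    have : S₁.B u' (a u' - u') = 0 := mul_left_cancel₀ H.two (by
      linear_combination sk' u' u' + S₁.orth_B_swap (a u' - u') u')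
    exact hu' (by rw [← hc, PQ.B_smul_right, this, mul_zero])
  have h3 := Submodule.finrank_mono (show Bw τ.flip (a u' - u') ⊔ Bw τ.flip (a u - u) ≤ LinearMap.range μ from
    sup_le (by rintro _ ⟨s, rfl⟩; exact ⟨_, e' u' s⟩) (by rintro _ ⟨s, rfl⟩; exact ⟨_, e' u s⟩))
  rw [hμ, range_cj, LinearEquiv.finrank_map_eq, L.range_nu, finrank_B2 h.tens L.ne L.notMem] at h3
  omega

variable {g : V ≃ₗ[F] V} (E : Ext M (TStab τ) (Bw τ x ⊔ Bw τ x') g)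
include E

theorem Ln.ext₁ {v : V} (hv : v ∈ (Bw τ x ⊔ Bw τ x').map (g : V →ₗ[F] V) ⊔ (Bw τ x ⊔ Bw τ x'))
    (h0 : nu h x x' v = 0) : v ∈ Bw τ x ⊔ Bw τ x' := by
  obtain ⟨a, ha, b, hb, rfl⟩ := Submodule.mem_sup.1 hv
  rw [map_add, L.nu_eq_zero.2 (L.cw hb), add_zero] at h0
  refine add_mem (E.key' (k := rootE _ (L.nu_sq (h := h)) 1) (L.R_le (H.eT_mem x) (rootE_mem trivial)) (fun e =>
    E.not_mem ((TStab τ).inv_mem_iff.1 (L.fus H hlt (inv_mem E.mem) (by simpa using e))))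
    (fun s _ hs => by simp [L.nu_eq_zero.2 (L.cw hs)]) ha (by simpa [h0] using ha)) hb

theorem Ln.ext₂ {v : V} (hv : v ∈ (Bw τ x ⊔ Bw τ x').map (g : V →ₗ[F] V) ⊔ (Bw τ x ⊔ Bw τ x'))
    (h0 : nu h x x' (g.symm v) = 0) : v ∈ (Bw τ x ⊔ Bw τ x').map (g : V →ₗ[F] V) := by
  obtain ⟨_, ⟨a, ha, rfl⟩, b, hb, rfl⟩ := Submodule.mem_sup.1 hv
  simp only [map_add, LinearEquiv.coe_coe, LinearEquiv.symm_apply_apply, L.nu_eq_zero.2 (L.cw ha),
    zero_add] at h0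
  refine add_mem ⟨a, ha, rfl⟩ (E.key (k := g * rootE _ (L.nu_sq (h := h)) 1 * g⁻¹)
    (mul_mem (mul_mem E.mem (L.R_le (H.eT_mem x) (rootE_mem trivial))) (inv_mem E.mem)) (fun e => E.not_mem (L.fus H hlt E.mem e))
    (by rintro _ ⟨s, hs, rfl⟩ _; simp [L.nu_eq_zero.2 (L.cw hs)]) hb (by simpa [h0] using hb))

omit L H hlt E in
/-- The vectors `y` with `U ⊗ y ≤ A`. -/
def Sup (τ : U →ₗ[F] W →ₗ[F] V) (A : Submodule F V) : Submodule F W where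
  carrier := {y | ∀ u, τ u y ∈ A}
  add_mem' := fun h h' u => by simpa using add_mem (h u) (h' u)
  zero_mem' := fun u => by simp
  smul_mem' := fun c _ h u => by simpa using A.smul_mem c (h u)

theorem Ln.ext₃ {s : W} (hs : s ∈ Sup τ ((Bw τ x ⊔ Bw τ x').map (g : V →ₗ[F] V) ⊔ (Bw τ x ⊔ Bw τ x')))
    (h1 : S₂.B s x = 0) (h2 : S₂.B s x' = 0) : s = S₂.B s y • x + S₂.B s y' • x' := by
  obtain ⟨u, hu⟩ := exists_ne (0 : U)
  obtain ⟨a, b, e⟩ := mem_B2.1 (L.ext₁ H hlt E (hs u) (L.nu_eq_zero.2 (by simp [h1, h2])))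
  have e1 := congrArg (h.cw y) e
  have e2 := congrArg (h.cw y') e
  simp [S₂.orth_B_swap y, S₂.orth_B_swap y', L.b₁, L.b₂, L.b₃, L.b₄] at e1 e2
  refine h.tens.flip.left_inj hu ?_
  change τ u _ = τ u _
  simp [← e, e1, e2, S₂.orth_B_swap s]

theorem Ln.fact : (Bw τ x ⊔ Bw τ x').map (g : V →ₗ[F] V) ⊓ (Bw τ x ⊔ Bw τ x') = ⊥ ∧
    ∀ z ∈ S₂.perp (Sup τ ((Bw τ x ⊔ Bw τ x').map (g : V →ₗ[F] V) ⊔ (Bw τ x ⊔ Bw τ x'))),
      ∀ a ∈ (Bw τ x ⊔ Bw τ x').map (g : V →ₗ[F] V), h.cw z a = 0 := by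
  by_contra hc
  have hk : g * rootE _ (L.nu_sq (h := h)) 1 * g⁻¹ ∉ TStab τ := fun e => E.not_mem (L.fus H hlt E.mem e)
  have hkM := mul_mem (mul_mem E.mem (L.R_le (H.eT_mem x) (rootE_mem (c := 1) trivial))) (inv_mem E.mem)
  refine hk (L.R_le (h := h) (eT_T x) (frob_end (μ := cj g (nu h x x')) (Λ := ⊤) L.nu_ne ⟨1, trivial, one_ne_zero⟩ (a := -1)
    (by simp) (fun e => H.two (by linear_combination -e)) (fun _ _ => trivial) (fun δ hδ hst => ?_)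
    (RG_le_Gam' (conj_mem_RG (rootE_mem trivial)))))
  have hδM : δ ∈ M := Gam_le (RG_cj_le (hν := L.nu_sq) fun k hk =>
    mul_mem (mul_mem E.mem (L.R_le (H.eT_mem x) hk)) (inv_mem E.mem)) (L.R_le (H.eT_mem x)) hδ
  have hb := H.bis hδM
  have hsub := Gam_sub_mem hδ
  have hcen := (Gam_cen (cj_sq g L.nu_sq) L.nu_sq hδ).1
  rw [range_cj, L.range_nu] at hsub
  have hst' : ∀ v, v ∈ Bw τ x ⊔ Bw τ x' ↔ δ v ∈ Bw τ x ⊔ Bw τ x' := H8.mem_Stab_of_maps (by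
    rw [← L.range_nu (h := h)]; rintro _ ⟨v, rfl⟩; exact hst v)
  have k1 : ∀ v, nu h x x' v = 0 → δ v - v ∈ Bw τ x ⊔ Bw τ x' := fun v hv => L.ext₁ H hlt E (hsub v) (by
    rw [map_sub, hv, sub_zero, ← L.perp]
    intro b hb'
    obtain ⟨b, rfl⟩ := δ.surjective b
    rw [hb, L.perp.2 hv b ((hst' b).2 hb')])
  obtain ⟨y₀, h1, h2, hy₀⟩ := exists_ns₂ h.nd₂ H.dW x x'
  obtain ⟨b, eb⟩ := exists_snd_of h.tens (H.par₂ L.q L.q' L.b L.ne L.ne hδM fun u =>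
    (hst' _).1 (Submodule.mem_sup_left ⟨u, rfl⟩)) (y := y₀) (φ := (S₂.B y₀ y₀)⁻¹ • S₂.lin y₀)
    (by simp [B_self_ne H.two hy₀]) fun u => by
      obtain ⟨a, b, e⟩ := mem_B2.1 (k1 (τ u y₀) (L.nu_eq_zero.2 (by simp [h1, h2])))
      simp [← e, S₂.B_comm_zero h1, S₂.B_comm_zero h2]
  have hb' := h.snd_bis hb eb
  have eb' : ∀ u s, δ.symm (τ u s) = τ u (b.symm s) := fun u s => by
    rw [LinearEquiv.symm_apply_eq, eb]; simp
  have hY : ∀ s, b s - s ∈ Sup τ ((Bw τ x ⊔ Bw τ x').map (g : V →ₗ[F] V) ⊔ (Bw τ x ⊔ Bw τ x')) :=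
    fun s u => by simpa [eb] using hsub (τ u s)
  have k2 : ∀ s, S₂.B (b s) x • x' - S₂.B (b s) x' • x = S₂.B s x • b.symm x' - S₂.B s x' • b.symm x := by
    intro s
    by_contra hne
    refine hk ((TStab τ).inv_mem_iff.1 ((TStab τ).inv_mem (H.par₂ L.q L.q' L.b L.ne (sub_ne_zero.2 hne) hkM
      fun u => ?_)))
    have mem : ∀ v, nu h x x' (δ v) - δ.symm (nu h x x' v) ∈ Bw τ x ⊔ Bw τ x' := fun v =>
      sub_mem (L.range_nu (h := h) ▸ ⟨_, rfl⟩) ((hst' _).2 (by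
        rw [LinearEquiv.apply_symm_apply, ← L.range_nu (h := h)]; exact ⟨_, rfl⟩))
    have := mem (cj g (nu h x x') (τ u s))
    rw [← hcen] at this
    replace this := add_mem (mem (τ u s)) this
    convert this using 1
    simp [nu_apply x x' (τ _ _), eb, eb', -cj_apply, show ∀ v, (g * rootE _ (L.nu_sq (h := h)) 1 * g⁻¹) v =
      v + cj g (nu h x x') v from fun v => by simp, -LinearEquiv.mul_apply]
  have adj : ∀ s t, S₂.B (b s) t = S₂.B s (b.symm t) := fun s t => by rw [← hb' s]; simp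
  obtain ⟨l, e1, e2⟩ : ∃ l : F, b.symm x = l • x ∧ b.symm x' = l • x' := by
    have a1 := k2 y
    have a2 := k2 y'
    have a3 := congrArg (S₂.B y) a1
    have a4 := congrArg (S₂.B y') a2
    simp [adj, L.b₁, L.b₂, L.b₃, L.b₄] at a1 a2 a3 a4
    have a5 : S₂.B y (b.symm x') = 0 := mul_left_cancel₀ H.two (by linear_combination -a3)
    have a6 : S₂.B y' (b.symm x) = 0 := mul_left_cancel₀ H.two (by linear_combination a4)
    rw [a5, zero_smul, sub_zero] at a1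
    refine ⟨S₂.B y (b.symm x), ?_, a1.symm⟩
    rw [a6, ← a1] at a2
    simpa [L.b₄] using a2.symm
  by_cases hl : l = 1
  · have a1 : ∀ s, b s = s + S₂.B (b s - s) y • x + S₂.B (b s - s) y' • x' := fun s => by
      rw [add_assoc, ← L.ext₃ H hlt E (hY s) (by simp [adj, e1, hl]) (by simp [adj, e2, hl])]; simp
    obtain ⟨α, β, a1⟩ : ∃ α β : W → F, ∀ s, b s = s + α s • x + β s • x' := ⟨_, _, a1⟩
    have a2 : ∀ s t, α s * S₂.B t x + β s * S₂.B t x' + α t * S₂.B s x + β t * S₂.B s x' = 0 := fun s t => by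
      have := hb' s t
      simp [a1, B_self_zero L.q, B_self_zero L.q', L.b, S₂.B_comm_zero L.b, S₂.orth_B_swap t] at this
      linear_combination this
    have a3 := a2 y y
    have a4 := a2 y' y'
    have a5 := a2 y y'
    simp only [L.b₁, L.b₂, L.b₃, L.b₄] at a3 a4 a5
    have a6 : α y = 0 := mul_left_cancel₀ H.two (by linear_combination a3)
    have a7 : β y' = 0 := mul_left_cancel₀ H.two (by linear_combination a4)
    refine ⟨β y, trivial, fun v => h.tens.induction v (by simp) (fun u s => ?_) fun a b ha hb => by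
      simp only [map_add, ha, hb, smul_add]; abel⟩
    have a8 := a2 s y
    have a9 := a2 s y'
    simp only [L.b₁, L.b₂, L.b₃, L.b₄, a6, a7] at a8 a9
    rw [eb, a1, show α s = -(β y * S₂.B s x') by linear_combination a8,
      show β s = β y * S₂.B s x by linear_combination a9 - S₂.B s x * a5]
    simp [nu_apply]; module
  have hl' := sub_ne_zero.2 hl
  have k3 : ∀ u u', ∃ a ∈ (Bw τ x ⊔ Bw τ x').map (g : V →ₗ[F] V), h.cw x a = u ∧ h.cw x' a = u' ∧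
      ∀ z ∈ S₂.perp (Sup τ ((Bw τ x ⊔ Bw τ x').map (g : V →ₗ[F] V) ⊔ (Bw τ x ⊔ Bw τ x'))), h.cw z a = 0 := by
    intro u u'
    obtain ⟨a, ha, c, hc, e⟩ := Submodule.mem_sup.1 (add_mem (hY y ((l - 1)⁻¹ • u)) (hY y' ((l - 1)⁻¹ • u')))
    rw [← eq_sub_iff_add_eq] at e
    refine ⟨a, ha, ?_, ?_, fun z hz => ?_⟩
    · rw [e, map_sub, (L.cw hc).1]
      simp [adj, e1, L.b₁, L.b₃]; match_scalars; field_simp
    · rw [e, map_sub, (L.cw hc).2]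
      simp [adj, e2, L.b₂, L.b₄]; match_scalars; field_simp
    · obtain ⟨p, r, rfl⟩ := mem_B2.1 hc
      rw [S₂.mem_perp'] at hz
      simp [-map_sub, map_sub (h.cw z), e, hz _ (hY _),
        hz x fun u => Submodule.mem_sup_right (Submodule.mem_sup_left ⟨u, rfl⟩),
        hz x' fun u => Submodule.mem_sup_right (Submodule.mem_sup_right ⟨u, rfl⟩)]
  have k4 : Function.Injective (((h.cw x).prod (h.cw x')) ∘ₗ ((Bw τ x ⊔ Bw τ x').map (g : V →ₗ[F] V)).subtype) := by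
    rw [LinearMap.injective_iff_surjective_of_finrank_eq_finrank (by
      rw [LinearEquiv.finrank_map_eq, finrank_B2 h.tens L.ne L.notMem, finrank_prod, two_mul])]
    rintro ⟨u, u'⟩
    obtain ⟨a, ha, a1, a2, -⟩ := k3 u u'
    exact ⟨⟨a, ha⟩, by simp [a1, a2]⟩
  refine (hc ⟨eq_bot_iff.2 fun v hv => ?_, fun z hz a ha => ?_⟩).elim
  · exact congrArg Subtype.val (k4 (a₁ := ⟨v, hv.1⟩) (a₂ := 0) (by simp [L.cw hv.2]))
  · obtain ⟨a', ha', a1, a2, a3⟩ := k3 (h.cw x a) (h.cw x' a)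
    rw [show a = a' from congrArg Subtype.val (k4 (a₁ := ⟨a, ha⟩) (a₂ := ⟨a', ha'⟩) (by simp [a1, a2]))]
    exact a3 z hz

omit L E in
/-- The geometric step. -/
theorem le_TStab : M ≤ TStab τ := by
  by_contra hle
  obtain ⟨x, x', y, y', L⟩ : ∃ x x' y y', Ln S₂ x x' y y' := by
    obtain ⟨x, -, h0, hx⟩ := exists_sing S₂ (H := ⊤) (by have := H.dW; rw [finrank_top]; omega)
    obtain ⟨y, hy, hyx⟩ := exists_partner h.nd₂ hx h0
    obtain ⟨h1, h2⟩ := hyp_perp h.nd₂ hx hy (by simp [hyx])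
    obtain ⟨x', h3, h0', hx'⟩ := exists_sing S₂ (H := S₂.perp (Submodule.span F {y, x})) (by
      have := H.dW; omega)
    obtain ⟨y', h4, h5⟩ := h.nd₂.exists_perp_eq (U := Submodule.span F {y, x}) (x := x') (fun hm =>
      h0' (h1 x' h3 fun z hz => S₂.B_comm_zero (hz x' hm))) 1
    rw [mem_perp_pair] at h3 h4
    exact ⟨x, x', y, y', hx, hx', h3.2, hyx, S₂.B_comm_zero h3.1, h4.2, by rwa [S₂.orth_B_swap]⟩
  obtain ⟨g, E⟩ := exists_ext hle (Bw τ x ⊔ Bw τ x')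
  obtain ⟨h1, h2⟩ := L.fact H hlt E
  obtain ⟨z, hz, hzY⟩ : ∃ z, S₂.Q z = 0 ∧
      z ∉ Sup τ ((Bw τ x ⊔ Bw τ x').map (g : V →ₗ[F] V) ⊔ (Bw τ x ⊔ Bw τ x')) := by
    by_contra hc
    push Not at hc
    obtain ⟨y₀, h3, h4, hy₀⟩ := exists_ns₂ h.nd₂ H.dW x x'
    have := L.ext₃ H hlt E (top_le_of_sing h.nd₂ (by have := H.dW; omega) hc y₀) h3 h4
    exact hy₀ (by rw [this]; simp [S₂.orth_Q_add, S₂.orth_Q_smul, L.q, L.q', S₂.B_comm_zero L.b])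
  obtain ⟨n, hn, b, hb, en, e⟩ := H.move hz L.q (by rintro rfl; exact hzY (zero_mem _)) L.ne
  have E' : Ext M (TStab τ) (Bw τ x ⊔ Bw τ x') (n * g) := ⟨mul_mem hn E.mem,
    fun e => E.not_mem (((TStab τ).mul_mem_cancel_left ⟨1, b, en⟩).1 e), fun k h3 h4 =>
      (E.max k h3 h4).trans (by rw [h1, finrank_bot]; exact Nat.zero_le _)⟩
  obtain ⟨-, h3⟩ := L.fact H hlt E'
  set Y := Sup τ ((Bw τ x ⊔ Bw τ x').map (n * g : V ≃ₗ[F] V).toLinearMap ⊔ (Bw τ x ⊔ Bw τ x')) with hY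
  obtain ⟨s, hs, hzs⟩ := h.nd₂.exists_perp_ne hzY
  obtain ⟨r, ⟨hr, hrY⟩, hr0⟩ := Submodule.exists_mem_ne_zero_of_ne_bot
    (p := (S₂.perp Y ⊔ F ∙ b s) ⊓ Y) fun e0 => by
      have a1 := Submodule.finrank_sup_add_finrank_inf_eq (S₂.perp Y ⊔ F ∙ b s) Y
      have a2 := Submodule.finrank_le (S₂.perp Y ⊔ F ∙ b s ⊔ Y)
      have a3 := h.nd₂.finrank_perp Y
      have a4 := Submodule.finrank_lt_finrank_of_lt (show S₂.perp Y < S₂.perp Y ⊔ F ∙ b s from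
        lt_of_le_of_ne le_sup_left fun e1 => hzs (by
          have : b s ∈ S₂.perp Y := e1 ▸ Submodule.mem_sup_right (Submodule.mem_span_singleton_self _)
          rw [← PQ.B_isom hb, e]
          exact S₂.B_comm_zero (this x fun u => Submodule.mem_sup_right (Submodule.mem_sup_left ⟨u, rfl⟩))))
      rw [e0, finrank_bot] at a1
      omega
  refine E'.not_mem ((TStab τ).inv_mem_iff.1 (H.par₂ L.q L.q' L.b L.ne hr0 (inv_mem E'.mem) fun u => ?_))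
  obtain ⟨a, ha, e⟩ := L.ext₂ H hlt E' (hrY u) (L.perp.1 fun a ha => by
    obtain ⟨p, hp, t, ht, rfl⟩ := Submodule.mem_sup.1 hr
    obtain ⟨c, rfl⟩ := Submodule.mem_span_singleton.1 ht
    rw [← H.bis E'.mem, LinearEquiv.apply_symm_apply, S.orth_B_swap, h.B_tmul, h.cw_add,
      h3 p hp ((n * g) a) ⟨a, ha, rfl⟩, h.cw_smul, LinearEquiv.mul_apply,
      cw_tens (a := 1) en (isom_le_bis hb), h2 s hs (g a) ⟨a, ha, rfl⟩]
    simp)
  simpa [← e] using ha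

omit L H hlt E [Nontrivial U] in
theorem oo_tensor (h : TF S₁ S₂ S τ) (h2 : (2 : F) ≠ 0) (h3 : 3 ≤ finrank F U) (h5 : 5 ≤ finrank F W)
    (hlt : finrank F U < finrank F W) (hdim : 4 ≤ finrank F U ∨ ∃ t : F, t ≠ 0 ∧ t ^ 2 ≠ 1)
    (h4 : finrank F U = 4 → ∀ Y, S₁.TS Y → finrank F Y < 2) (hM : M ≤ Om S)
    (hT : ∀ g ∈ Om S, g ∈ TStab τ → g ∈ M) (hn : ¬ M ≤ TStab τ) : Om S ≤ M := by
  have : Nontrivial U := Module.nontrivial_of_finrank_pos (R := F) (by omega)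
  have H : OH h M := ⟨h2, h3, h5, hM, hT⟩
  by_contra hc
  exact hn (le_TStab ⟨H, fun w hw h0 q hq hQ => H.eq_eT hdim hw h0
    (fun X hX => by_contra fun hX0 => hc (H.le_of_Z h4 hw h0 hX hX0)) hq hQ⟩ hlt)

omit L H hlt E in
/-- `O_{n₁} ∘ O_{n₂}` is maximal in `Ω`. -/
theorem isMaximalIn_OO {F : Type*} [Field F] [Fintype F] (hodd : Odd (Fintype.card F)) {ι : Type} [Fintype ι]
    [DecidableEq ι] {Q : (ι → F) → F} (hQ : Geo.IsNondegenerateQuadraticForm Q) {n₁ n₂ : ℕ} (h1 : 3 ≤ n₁)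
    (h2 : 3 ≤ n₂) (h12 : n₁ ≠ n₂) (h5 : 5 ≤ n₁ ∨ 5 ≤ n₂) (hex : Fintype.card F = 3 → n₁ ≠ 3 ∧ n₂ ≠ 3)
    (e : ι ≃ Fin n₁ × Fin n₂) (P : GL ι F)
    (f₁ : (Fin n₁ → F) → (Fin n₁ → F) → F) (f₂ : (Fin n₂ → F) → (Fin n₂ → F) → F)
    (hf₁ : Geo.IsSymmetricForm f₁) (hf₂ : Geo.IsSymmetricForm f₂)
    (hm₁ : n₁ = 4 → ¬ Geo.IsPlusTypeOn (fun v => f₁ v v) ⊤)
    (hm₂ : n₂ = 4 → ¬ Geo.IsPlusTypeOn (fun v => f₂ v v) ⊤)
    (hT : Geo.IsTensorFormStructure id (QuadraticMap.polar Q) f₁ f₂ e P) :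
    Geo.IsMaximalIn (Geo.omegaGL Q) (Geo.tensorProductSubgroup n₁ n₂ e P ⊓ Geo.omegaGL Q) := by
  have two := two_ne_zero_of_odd_card hodd
  obtain ⟨c, hc, H⟩ := tensorForm_apply (symmPQ two hf₁) (symmPQ two hf₂) (fun _ => rfl) (fun _ => rfl) hT
  have h : TF (TenForm.scale (symmPQ two hf₁) c rfl fun _ hl => by simp_all) (symmPQ two hf₂) (quadPQ hQ)
      (tensOf e P) := ⟨isTens_tensOf e P, fun _ => rfl, fun _ => rfl, by simp,
      fun u w u' w' => by rw [quadPQ_B, H, ← mul_assoc]; rfl,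
      TenForm.scale_nondeg (symmPQ_nondeg two hf₁) hc _ _, symmPQ_nondeg two hf₂⟩
  have hn' : Fintype.card ι = n₁ * n₂ := by simpa using Fintype.card_congr e
  have hd : ∀ n, 3 ≤ n → (Fintype.card F = 3 → n ≠ 3) →
      4 ≤ finrank F (Fin n → F) ∨ ∃ t : F, t ≠ 0 ∧ t ^ 2 ≠ 1 := fun n h3 h => by
    by_cases h4 : n = 3
    · exact Or.inr (TenSpO2.exists_sq_ne_one two fun e => h e h4)
    · exact Or.inl (by simp; omega)
  have hp : ∀ {n} {f : (Fin n → F) → (Fin n → F) → F} (S : PQ (FP.orth F) (Fin n → F)), S.Nondeg →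
      (∀ v, S.Q v = 0 → f v v = 0) → (n = 4 → ¬ Geo.IsPlusTypeOn (fun v => f v v) ⊤) →
      finrank F (Fin n → F) = 4 → ∀ Y, S.TS Y → finrank F Y < 2 := fun S hS hf hm h4 Y hY => by
    have := hY.two_mul_finrank_le hS
    by_contra h
    exact hm (by simpa using h4) ⟨Y, le_top, fun v hv => hf v ((S.orth_ts Y).1 hY v hv), by
      rw [finrank_top]; omega⟩
  refine om_max hQ (mem_tensorProductSubgroup_iff' e P)
    (H8.omega_not_le_tensorProductSubgroup hQ (by nlinarith) (by omega) (by omega) e P) fun M a1 a2 a3 => ?_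
  rcases lt_or_gt_of_ne h12 with h12 | h12
  · exact oo_tensor h two (by simpa) (by simp; omega) (by simpa) (hd _ h1 fun e => (hex e).1)
      (hp _ h.nd₁ (fun v hv => by simpa [TenForm.scale, symmPQ, hc, two] using hv) hm₁) a1 a2 a3
  · exact oo_tensor h.flip two (by simpa) (by simp; omega) (by simpa) (hd _ h2 fun e => (hex e).2)
      (hp _ h.nd₂ (fun v hv => by simpa [symmPQ, two] using hv) hm₂) a1 (by rwa [TStab_flip])
      (by rwa [TStab_flip])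

end Cfsg.Agent.H3.TenO4
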