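import Cfsg.Agent.H3.TenO3

/-!
`O ⊗ O` in `Ω` for a second factor of Witt index one: the parabolic analysis.
-/

set_option autoImplicit false
set_option linter.unusedSectionVars false

namespace Cfsg.Agent.H3.TenO5

open Module Cfsg.Agent.H7 Cfsg.Agent.Form Cfsg.Agent.H3.TenLin Cfsg.Agent.H3.RootGeo
  Cfsg.Agent.H3.TenForm Cfsg.Agent.H3.TenPar Cfsg.Agent.H3.TenGlue Cfsg.Agent.H3.OrthLem
  Cfsg.Agent.H3.TenSpSp Cfsg.Agent.H3.TenO1 Cfsg.Agent.H3.TenO2 Cfsg.Agent.H3.TenO3 Cfsg.Agent.H9.FClass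
  Cfsg.Agent.H3.TenSU

variable {F : Type*} [Field F] {V : Type*} [AddCommGroup V] [Module F V]
  {U : Type*} [AddCommGroup U] [Module F U] {W : Type*} [AddCommGroup W] [Module F W]
  [FiniteDimensional F U] [FiniteDimensional F W] [FiniteDimensional F V]
  {S₁ : PQ (FP.orth F) U} {S₂ : PQ (FP.orth F) W} {S : PQ (FP.orth F) V}
  {τ : U →ₗ[F] W →ₗ[F] V} {h : TF S₁ S₂ S τ} {M : Subgroup (V ≃ₗ[F] V)} [Finite F]

/-- A symmetric map whose form vanishes on singular vectors is a scalar. -/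
theorem scalar_of_sing {S : PQ (FP.orth F) U} (h2 : (2 : F) ≠ 0) (hS : S.Nondeg) (h3 : 3 ≤ finrank F U)
    {t : F} (ht : t ≠ 0) (ht1 : t ^ 2 ≠ 1) {η : End F U} (sy : ∀ a b, S.B (η a) b = S.B a (η b))
    (k1 : ∀ d, S.Q d = 0 → S.B d (η d) = 0) : ∃ c : F, ∀ v, η v = c • v := by
  obtain ⟨d, -, h0, hd⟩ := exists_sing S (H := ⊤) (by rwa [finrank_top])
  obtain ⟨e, he, hed⟩ := exists_partner hS hd h0
  have sw : ∀ a b, S.B a (η b) = S.B b (η a) := fun a b => by rw [← sy, S.orth_B_swap]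
  have k2 : ∀ y, S.B y e = 0 → S.B y d = 0 → ∀ s : F, s ≠ 0 → S.B y (η y) = 2 * S.Q y * S.B e (η d) ∧
      s ^ 2 * S.B d (η y) = S.Q y * S.B e (η y) := fun y h1 h3 => by
    have key : ∀ s : F, s ≠ 0 → s * S.B y (η y) + 2 * s ^ 2 * S.B d (η y) - 2 * S.Q y * S.B e (η y) -
        2 * s * S.Q y * S.B e (η d) = 0 := fun s hs => by
      have := k1 (y + s • d - (S.Q y / s) • e) (by
        simp [S.orth_Q_sub, S.orth_Q_add, S.orth_Q_smul, hd, he, h1, h3, S.orth_B_swap e d, hed]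
        field_simp; ring)
      simp [k1 d hd, k1 e he, sw y d, sw y e, sw d e] at this
      field_simp at this
      linear_combination this
    intro s hs
    refine ⟨mul_left_cancel₀ (mul_ne_zero h2 hs) ?_, mul_left_cancel₀ (mul_ne_zero h2 h2) ?_⟩
    · linear_combination key s hs - key (-s) (by simpa)
    · linear_combination key s hs + key (-s) (by simpa)
  obtain ⟨h5, h6⟩ := hyp_perp hS hd he (by simp [hed])
  have k3 : ∀ y ∈ S.perp (Submodule.span F {e, d}), S.B e (η y) = 0 := by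
    by_contra hc
    obtain ⟨y, hy, hQ, hn⟩ := exists_nonsing_notMem h2 h5
      (Y := LinearMap.ker (S.lin e ∘ₗ η)) fun h => hc fun y hy => by simpa [S.orth_B_swap e] using h hy
    refine hn ?_
    simp only [LinearMap.mem_ker, LinearMap.comp_apply, PQ.lin_apply, ← S.orth_B_swap (η y)]
    rw [mem_perp_pair] at hy
    have a1 := (k2 y hy.1 hy.2 1 one_ne_zero).2
    have a2 := (k2 y hy.1 hy.2 t ht).2
    exact mul_left_cancel₀ (mul_ne_zero hQ (sub_ne_zero.2 ht1)) (by linear_combination a2 - t ^ 2 * a1)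
  have k4 : ∀ x, S.B x (η x) = S.B e (η d) * S.B x x := fun x => by
    obtain ⟨y, a, b, h1, h3, rfl⟩ : ∃ y, ∃ a b : F, S.B y e = 0 ∧ S.B y d = 0 ∧ x = y + a • d + b • e :=
      ⟨x - S.B x e • d - S.B x d • e, S.B x e, S.B x d, by
        simp [S.orth_B_swap e d, hed, B_self_zero he], by simp [hed, B_self_zero hd], by abel⟩
    have a1 := k2 y h1 h3 1 one_ne_zero
    have a2 := k3 y (mem_perp_pair.2 ⟨h1, h3⟩)
    rw [a2, one_pow, one_mul, mul_zero] at a1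
    simp [k1 d hd, k1 e he, sw y d, sw y e, sw d e, a1, a2, h1, h3, S.B_comm_zero h1, S.B_comm_zero h3,
      S.orth_B_self, hd, he, hed, S.orth_B_swap e d, S.orth_Q_add, S.orth_Q_smul]
    ring
  refine ⟨S.B e (η d), fun v => hS.ext_right fun u => mul_left_cancel₀ h2 ?_⟩
  have := k4 (u + v)
  simp only [map_add, PQ.B_add_left, PQ.B_add_right, k4, sw v u, S.orth_B_swap u v] at this
  simp only [PQ.B_smul_right, FP.orth_σ]
  linear_combination this

/-- The standing hypotheses. -/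
structure OI (h : TF S₁ S₂ S τ) (M : Subgroup (V ≃ₗ[F] V)) : Prop where
  two : (2 : F) ≠ 0
  dU : 3 ≤ finrank F U
  dW : 4 ≤ finrank F W
  ind : ∀ w y, S₂.Q w = 0 → w ≠ 0 → S₂.Q y = 0 → S₂.B y w = 0 → y ∈ F ∙ w
  le : M ≤ Om S
  ge : ∀ g ∈ Om S, g ∈ TStab τ → g ∈ M

variable [Nontrivial U] {w : W}

theorem xi_comm (hw : S₂.B w w = 0) (h0 : w ≠ 0) (hZ : ∀ X ∈ Zs h M hw, X = 0) {q k : V ≃ₗ[F] V}
    (hq : q ∈ M) (hk : k ∈ M) (hQ : InQ h w q) (hK : InQ h w k) (v v' : V) :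
    S.B (q v' - v') (k v - v) = S.B (k v' - v') (q v - v) := by
  have hc := eq_of_eq_on_perp hw h0 hZ (mul_mem hq hk) (mul_mem hk hq) (hQ.mul hK).bis (hK.mul hQ).bis
    fun v hv => by
      obtain ⟨a, ha⟩ := hQ.sub v hv
      obtain ⟨b, hb⟩ := hK.sub v hv
      simp only [LinearMap.flip_apply, eq_sub_iff_add_eq] at ha hb
      rw [LinearEquiv.mul_apply, LinearEquiv.mul_apply, ← ha, ← hb, map_add, map_add, hQ.fix, hK.fix, ← ha, ← hb]
      abel
  have key : ∀ {q : V ≃ₗ[F] V}, InQ h w q → ∀ x, h.cw w x = 0 → S.B (q v' - v') x = -S.B v' (q x - x) := by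
    intro q hQ x hx
    obtain ⟨a, ha⟩ := hQ.sub x hx
    have h1 := hQ.bis v' (τ a w)
    have h2 := hQ.bis v' x
    rw [hQ.fix] at h1
    rw [LinearMap.flip_apply, eq_sub_iff_add_eq] at ha
    rw [← ha] at h2 ⊢
    simp only [PQ.B_add_right, PQ.B_sub_left, add_sub_cancel_right] at h2 ⊢
    linear_combination h2 - h1
  rw [key hQ _ (by simp [hK.cw_eq]), key hK _ (by simp [hQ.cw_eq]), map_sub, map_sub,
    show q (k v) = k (q v) from LinearEquiv.congr_fun hc v]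
  congr 2
  abel

namespace OI
variable (H : OI h M)
include H

theorem dV : 5 ≤ finrank F V := by
  have := H.dU; have := H.dW
  rw [h.tens.finrank_eq]; nlinarith

theorem isom {g : V ≃ₗ[F] V} (hg : g ∈ M) : g ∈ S.isom := Om_le S (H.le hg)

theorem bis {g : V ≃ₗ[F] V} (hg : g ∈ M) : g ∈ bis S := isom_le_bis (H.isom hg)

theorem eT_mem (w y : W) : eT h w y ∈ M := H.ge _ (eT_mem_Om H.two H.dV w y) (eT_T w y)

theorem eT_mem₁ (u v : U) : eT h.flip u v ∈ M :=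
  H.ge _ (eT_mem_Om (h := h.flip) H.two H.dV u v) (TStab_flip τ ▸ eT_T u v)

theorem move {w w' : W} (hw : S₂.Q w = 0) (hw' : S₂.Q w' = 0) (h0 : w ≠ 0) (h0' : w' ≠ 0) :
    ∃ n ∈ M, ∃ b ∈ S₂.isom, (∀ u y, n (τ u y) = τ u (b y)) ∧ b w = w' := by
  have key : ∀ {x y : W}, S₂.Q x = 0 → S₂.Q y = 0 → S₂.B x y ≠ 0 → ∃ b ∈ snd τ M ⊓ S₂.isom, b x = y := by
    intro x y hx hy hxy
    obtain ⟨z, hz, hz0, hzs⟩ := exists_sing S₂ (H := S₂.perp (F ∙ (y - x))) (by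
      have := h.nd₂.finrank_perp (F ∙ (y - x))
      have := finrank_span_singleton_le (F := F) (y - x)
      have := H.dW; omega)
    rw [S₂.mem_perp_span_singleton] at hz
    have hzx : S₂.B x z ≠ 0 := fun e => by
      obtain ⟨c, rfl⟩ := Submodule.mem_span_singleton.1
        (H.ind x z hx (by rintro rfl; simp at hxy) hzs (S₂.B_comm_zero e))
      simp [B_self_zero hx, hxy] at hz
      simp [hz] at hz0
    refine ⟨sg S₂ z ((S₂.B x z)⁻¹ • (y - x)), ⟨⟨_, H.eT_mem _ _, eT_tmul _ _⟩, sg_mem _ _⟩, ?_⟩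
    rw [sg_apply hzs (by simp [-PQ.B_sub_left, S₂.B_comm_zero hz])]
    simp [S₂.orth_Q_smul, S₂.orth_Q_sub, hx, hy, B_self_zero hx, smul_smul, hzx, S₂.orth_B_swap y x]
    left; field_simp; ring
  suffices H : ∃ b ∈ snd τ M ⊓ S₂.isom, b w = w' by
    obtain ⟨b, ⟨⟨n, hn, e⟩, hb⟩, e'⟩ := H
    exact ⟨n, hn, b, hb, e, e'⟩
  by_cases hww : S₂.B w' w = 0
  · obtain ⟨c, rfl⟩ := Submodule.mem_span_singleton.1 (H.ind w w' hw h0 hw' hww)
    obtain ⟨z, hz, hzw⟩ := exists_partner h.nd₂ hw h0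
    obtain ⟨b, hb, e⟩ := key hw hz (by simp [S₂.orth_B_swap z w, hzw])
    obtain ⟨b', hb', e'⟩ := key hz hw' (by simpa [hzw] using left_ne_zero_of_smul h0')
    exact ⟨b' * b, mul_mem hb' hb, by simp [e, e']⟩
  · exact key hw hw' (by rwa [S₂.orth_B_swap])

/-- If the centre of the unipotent radical meets `M` trivially, there are no new elements. -/
theorem eq_eT {t : F} (ht : t ≠ 0) (ht1 : t ^ 2 ≠ 1) (hw : S₂.Q w = 0) (h0 : w ≠ 0)
    (hZ : ∀ X ∈ Zs h M (B_self_zero hw), X = 0) {q : V ≃ₗ[F] V} (hq : q ∈ M) (hQ : InQ h w q) :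
    ∃ y, S₂.B y w = 0 ∧ q = eT h w y := by
  obtain ⟨z, hz, hzw⟩ := exists_partner h.nd₂ hw h0
  let ξ : (V ≃ₗ[F] V) → U →ₗ[F] V := fun k => ((k : End F V) - 1) ∘ₗ τ.flip z
  have eξ : ∀ k u, ξ k u = k (τ u z) - τ u z := fun _ _ => rfl
  have R : ∀ k ∈ M, InQ h w k → ∀ u u', S.B (ξ q u') (ξ k u) = S.B (ξ k u') (ξ q u) :=
    fun k hk hK u u' => xi_comm _ h0 hZ hq hk hQ hK _ _
  have c0 : ∀ u, h.cw w (ξ q u) = 0 := fun u => by simp [eξ, hQ.cw_eq]
  have sy : ∀ y, S₂.B y w = 0 → ∀ a b, S₁.B ((h.cw y ∘ₗ ξ q) a) b = S₁.B a ((h.cw y ∘ₗ ξ q) b) := by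
    intro y hy a b
    have := R _ (H.eT_mem w y) (eT_inQ hw hy) b a
    rw [← S.orth_B_swap (ξ (eT h w y) a), eξ (eT h w y) b, eξ (eT h w y) a] at this
    simpa [eT_apply hw hy, hzw, add_sub_right_comm, h.B_tmul, c0, -map_add, ← S₁.orth_B_swap a] using this
  have k1 : ∀ y, S₂.B y w = 0 → ∀ d, S₁.Q d = 0 → S₁.B d ((h.cw y ∘ₗ ξ q) d) = 0 := by
    intro y hy d hd
    by_cases hd0 : d = 0
    · simp [hd0]
    obtain ⟨e, he, hed⟩ := exists_partner h.nd₁ hd hd0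
    obtain ⟨a, ha, hQa⟩ := exists_ns₁ h.nd₁ H.dU d
    let k : U → V ≃ₗ[F] V := fun s => eT h.flip d s * q * (eT h.flip d s)⁻¹
    have et : ∀ s u y, eT h.flip d s (τ u y) = τ (sg S₁ d s u) y := fun s u y => eT_tmul d s y u
    have hk : ∀ s u u', S.B (ξ q u') (ξ (k s) u) = S.B (ξ (k s) u') (ξ q u) := fun s =>
      R _ (mul_mem (mul_mem (H.eT_mem₁ _ _) hq) (inv_mem (H.eT_mem₁ _ _)))
        (hQ.conj h0 (bis_le_sim (eT_bis _ _)) fun u => ⟨_, (et s u w).symm⟩)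
    have ck : ∀ s y, h.cw y ∘ₗ ξ (k s) = cj (sg S₁ d s) (h.cw y ∘ₗ ξ q) := fun s y => by
      ext u
      obtain ⟨u, rfl⟩ := (sg S₁ d s).surjective u
      have := cw_tens (h := h) (b := 1) (et s) (one_mem _) y (ξ q u)
      simpa [eξ, k, ← et] using this
    set c := 2 * (t ^ 2 * (t ^ 2 - 1) * S₁.Q a ^ 2) with hc
    set ζ := ξ (k (t • a)) + ξ (k (-(t • a))) - (2 : F) • ξ q - t ^ 2 • (ξ (k a) + ξ (k (-a)) - (2 : F) • ξ q)
    set y₀ := h.flip.cw d (ξ q d)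
    have b0 : ∀ y, S₂.B y₀ y = S₁.B d ((h.cw y ∘ₗ ξ q) d) := fun y => by
      rw [← h.flip.B_tmul, S₁.orth_B_swap]; exact h.B_tmul _ _ _
    have cζ : ∀ y, S₂.B w y = 0 → ∀ u, h.cw y (ζ u) = (c * S₂.B y₀ y * S₁.B u d) • d := fun y hy u => by
      have h1 := LinearMap.congr_fun (Sy_symm hd ha (sy y (S₂.B_comm_zero hy))) u
      have h2 := LinearMap.congr_fun (Sy_symm hd (y := t • a) (by simp [ha]) (sy y (S₂.B_comm_zero hy))) u
      rw [← ck, ← ck] at h1 h2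
      simp only [ζ, b0, LinearMap.add_apply, LinearMap.sub_apply, LinearMap.smul_apply, map_add, map_sub,
        map_smul, LinearMap.comp_apply, rk_apply, PQ.B_smul_left, PQ.B_smul_right, FP.orth_σ,
        S₁.orth_Q_smul] at h1 h2 ⊢
      linear_combination (norm := module) h2 - t ^ 2 • h1
    obtain ⟨u₁, h1⟩ := h.mem_Bw_of_cw h0 (v := ζ d) fun y hy => by simp [cζ y hy, B_self_zero hd]
    obtain ⟨u₂, h2⟩ := h.mem_Bw_of_cw h0 (v := ζ e - c • τ d y₀) fun y hy => by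
      simp [cζ y hy, hed, smul_smul]
    have h3 : S.B (ξ q d) (ζ e) = S.B (ζ d) (ξ q e) := by simp [ζ, hk]
    rw [← h1, eq_add_of_sub_eq h2.symm, S.orth_B_swap (ξ q e)] at h3
    simp only [LinearMap.flip_apply, PQ.B_add_right, PQ.B_smul_right, h.B_tmul _ _ w, c0, PQ.B_zero_left,
      zero_add, FP.orth_σ] at h3
    obtain ⟨s, hs⟩ := Submodule.mem_span_singleton.1 (H.ind w y₀ hw h0 (Q_of_B H.two (by
      rw [← h.flip.B_tmul]
      simpa [hc, H.two, ht, hQa, sub_ne_zero.2 ht1] using h3)) (by simp [b0, c0]))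
    rw [← b0, ← hs]; simp [S₂.B_comm_zero hy]
  obtain ⟨y, hy, ey⟩ := hQ.exists_of_scalar h0 fun y hy => by
    obtain ⟨c, hc⟩ := scalar_of_sing H.two h.nd₁ H.dU ht ht1 (sy y hy) (k1 y hy)
    obtain ⟨η, e⟩ := hQ.exists_eta h0 hy
    refine ⟨-c, fun u => ?_⟩
    rw [e, ← LinearMap.smul_apply, ← map_smul]
    congr 3
    refine h.nd₁.ext_right fun u' => ?_
    have h1 := hQ.bis (τ u' z) (τ u y)
    have h2 := congrArg (S₁.B · u) (hc u')
    simp [e, eξ, h.B_tmul, hQ.cw_eq, hzw] at h1 h2 ⊢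
    linear_combination h1 - h2
  exact ⟨-y, by simp [hy], eq_of_eq_on_perp _ h0 hZ hq (H.eT_mem _ _) hQ.bis (eT_bis _ _) fun v hv => by
    simp [ey v hv, eT_apply hw (y := -y) (by simp [hy]), hv, h.cw_neg]⟩

theorem Zs_move {w w' : W} (hw : S₂.Q w = 0) (hw' : S₂.Q w' = 0) (h0 : w ≠ 0) {X : End F U}
    (hX : X ∈ Zs h M (B_self_zero hw)) : X ∈ Zs h M (B_self_zero hw') := by
  by_cases h0' : w' = 0
  · exact ⟨1, one_mem _, by simp [h0']⟩
  obtain ⟨n, hn, b, hb, en, rfl⟩ := H.move hw hw' h0 h0'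
  exact hasQ_conj hX hn (a := LinearEquiv.refl F U) en (isom_le_bis hb)

theorem Q_tmul (u : U) {y : W} (hy : S₂.Q y = 0) : S.Q (τ u y) = 0 :=
  Q_of_B H.two (by simp [h.form, B_self_zero hy])

theorem tmul_mem_MS {d : U} (hd : S₁.Q d = 0)
    (k : ∀ a y, S₁.B a d = 0 → S₂.Q y = 0 → sg S (τ d y) (τ a y) ∈ M) (hw : S₂.Q w = 0) (h0 : w ≠ 0)
    (y : W) : τ d y ∈ H8.MS (toQF S) M (τ d w) := by
  set N := H8.MS (toQF S) M (τ d w)
  obtain ⟨a, h2, hQ⟩ := exists_ns₁ h.nd₁ H.dU d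
  have k1 : ∀ a, S₁.B a d = 0 → τ a w ∈ N := fun a ha =>
    ⟨by simp [polar_toQF, h.form, B_self_zero hw], fun c => by
      simpa [sg] using k (c • a) w (by simp [ha]) hw⟩
  refine TenGen.le_of_sing_ne (H := ⊤) (A := N.comap (τ d)) ((S₂.orth_sing w).2 hw) trivial
    (k1 d (B_self_zero hd)) ((h.nd₂.exists_ne h0).imp fun _ h => ⟨trivial, h⟩) (fun y _ hy hyw => ?_) trivial
  rw [S₂.orth_sing] at hy
  have := sub_mem (k1 a h2) (H8.MS_fix (H8.siegel_mem_OG _ _) (k a y h2 hy)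
    (H8.siegel_fix (by simp [polar_toQF, h.form, B_self_zero hd])
      (by simp [polar_toQF, h.form, S₁.B_comm_zero h2])) (k1 a h2))
  rw [← sg, sg_apply (H.Q_tmul d hy) (by simp [h.form, h2])] at this
  simpa [h.form, h2, N.smul_mem_iff, B_self_ne H.two hQ, S₂.orth_B_swap y w, hyw] using this

theorem sg_all {d e : U} (hd : S₁.Q d = 0) (he : S₁.Q e = 0) (hed : S₁.B e d ≠ 0)
    (k : ∀ x, x = d ∨ x = e → ∀ a y, S₁.B a x = 0 → S₂.Q y = 0 → sg S (τ x y) (τ a y) ∈ M)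
    (hw : S₂.Q w = 0) (h0 : w ≠ 0) (v : V) : sg S (τ d w) v ∈ M := by
  refine H8.siegel_all_of_MS (fun v hv => ?_) v
  have k2 := H.tmul_mem_MS hd (k d (.inl rfl)) hw h0
  have mv := fun {g} (hg : g ∈ M) e {y} => H8.MS_fix (Q := toQF S) (OG_toQF S ▸ H.isom hg) hg (a := τ d w) (y := y) e
  set N := H8.MS (toQF S) M (τ d w)
  obtain ⟨z, hz, hzw⟩ := exists_partner h.nd₂ hw h0
  have hde : S₁.B d e ≠ 0 := by rwa [S₁.orth_B_swap]
  have hB := B_self_zero hw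
  have k3 : ∀ y, S₂.B y w = 0 → τ e y - S₂.B z y • τ e w ∈ N := fun y hy => by
    have := sub_mem (mv (H8.MS_siegel (H.tmul_mem_MS he (k e (.inr rfl)) hw h0 y)) (H8.siegel_fix
      (by simp [polar_toQF, h.form, hB]) (by simp [polar_toQF, h.form, S₂.B_comm_zero hy])) (k2 z)) (k2 z)
    rw [← sg, sg_apply (H.Q_tmul e hw) (by simp [h.form, hy]), Q_of_B H.two (x := τ e y) (by
      simp [h.form, B_self_zero he])] at this
    refine (N.smul_mem_iff hde).1 ?_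
    convert this using 1
    simp [h.form, hzw]; module
  have k4 : τ e w ∈ N := by
    obtain ⟨y, h1, h2, hy⟩ := exists_ns_hyp h.nd₂ (by have := H.dW; omega) hw hz (by simp [hzw])
    have h3 := k3 y h2
    simpa [S₂.B_comm_zero h1, eT_tmul, sg_apply hw h2, h2, N.smul_mem_iff (B_self_ne H.two hy), hB,
      S₂.B_comm_zero h2] using
      sub_mem h3 (mv (H.eT_mem w y) (eT_fix hB (S₂.B_comm_zero h2) d) h3)
  have k5 : ∀ y, S₂.B y w = 0 → τ e y ∈ N := fun y hy => by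
    simpa using add_mem (k3 y hy) (N.smul_mem (S₂.B z y) k4)
  have et : ∀ s u y, eT h.flip d s (τ u y) = τ (sg S₁ d s u) y := fun s u y => eT_tmul d s y u
  have k6 : ∀ u y, S₂.B y w = 0 → τ u y ∈ N := fun u y hy => by
    have h1 : S₁.B (u - (S₁.B u d / S₁.B e d) • e) d = 0 := by simp [hed]
    have := mv (H.eT_mem₁ d _) (eT_fix (h := h.flip) (B_self_zero hd) (S₁.B_comm_zero h1) w) (k5 y hy)
    rw [et, sg_apply hd h1, map_sub, map_add, map_smul, map_smul, LinearMap.sub_apply, LinearMap.add_apply,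
      LinearMap.smul_apply, LinearMap.smul_apply, N.sub_mem_iff_left (N.smul_mem _ (k2 y)),
      N.add_mem_iff_right (k5 y hy), N.smul_mem_iff hed] at this
    simpa using add_mem this (N.smul_mem (S₁.B u d / S₁.B e d) (k5 y hy))
  rw [polar_toQF, S.orth_B_swap, h.B_tmul] at hv
  have h3 := mv (k d (.inl rfl) _ z hv hz) (H8.siegel_fix (by simp [polar_toQF, h.form, B_self_zero hd])
    (by simp [polar_toQF, h.form, S₁.B_comm_zero hv])) k4
  rw [sg_apply (H.Q_tmul d hz) (by simp [h.form, hv]), N.sub_mem_iff_left (N.smul_mem _ (k2 z)),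
    N.add_mem_iff_right k4, N.smul_mem_iff (by simp [h.form, hed, S₂.orth_B_swap z w, hzw])] at h3
  simpa using add_mem (TenGen.mem_of_cw h hzw k6 v) h3

/-- A non-trivial element in the centre of the unipotent radical generates everything. -/
theorem le_of_Z (h4 : finrank F U = 4 → ∀ Y, S₁.TS Y → finrank F Y < 2) (hw : S₂.Q w = 0) (h0 : w ≠ 0)
    {X : End F U} (hX : X ∈ Zs h M (B_self_zero hw)) (hX0 : X ≠ 0) : Om S ≤ M := by
  let Z : Submodule F (End F U) :=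
    { Zs h M (B_self_zero hw) with
      smul_mem' := fun a X hX => by
        have key : ∀ c : F, (c * c) • X ∈ Zs h M (B_self_zero hw) := fun c =>
          (H.Zs_move hw (w' := c • w) (by simp [S₂.orth_Q_smul, hw]) h0 hX).congr fun v => by
            simp [h.cw_smul, mul_smul]
        have := sub_mem (key ((a + 1) / 2)) (key ((a - 1) / 2))
        rwa [← sub_smul, show (a + 1) / 2 * ((a + 1) / 2) - (a - 1) / 2 * ((a - 1) / 2) = a by
          have := H.two; field_simp; ring] at this }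
  obtain ⟨d, e, hd, he, hed, k1, k2⟩ := skew_extract H.two h.nd₁ H.dU h4 Z (fun u v X hX => by
    exact Zs_conj (hw := B_self_zero hw) hX (H.eT_mem₁ u v) fun u' y => eT_tmul u v y u') hX hX0 fun a b => by
    have := adj_of_hasQ (fun g hg => bis_le_sim (H.bis hg)) (B_self_zero hw) h0 hX a b
    simp only [FP.orth_ε, one_mul] at this
    linear_combination this
  have k : ∀ x, x = d ∨ x = e → ∀ a y, S₁.B a x = 0 → S₂.Q y = 0 → sg S (τ x y) (τ a y) ∈ M := by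
    intro x hx a y ha hy
    obtain ⟨g, hg, eg⟩ := H.Zs_move hw hy h0 (X := wg S₁ (-a) x) (by
      rcases hx with rfl | rfl
      · exact k1 _ (by simpa)
      · exact k2 _ (by simpa))
    convert hg using 1
    ext v
    simp [eg, sg_apply (H.Q_tmul x hy) (v := τ a y) (by simp [h.form, ha]), h.B_tmul, H.Q_tmul a hy]
    abel
  obtain ⟨w', hw', hww⟩ := exists_partner h.nd₂ hw h0
  exact H8.Om_le_of_two (nd_toQF h.nd) H.dV (H.Q_tmul e hw') (H.Q_tmul d hw)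
    (by simp [polar_toQF, h.form, hed, hww])
    (H.sg_all he hd (by rwa [S₁.orth_B_swap]) (fun x hx => k x hx.symm) hw' (by rintro rfl; simp at hww))
    (H.sg_all hd he hed k hw h0)

end OI

/-- No new elements in the unipotent radicals. -/
structure OJ (h : TF S₁ S₂ S τ) (M : Subgroup (V ≃ₗ[F] V)) : Prop extends OI h M where
  eq : ∀ w, S₂.Q w = 0 → w ≠ 0 → ∀ q ∈ M, InQ h w q → ∃ y, S₂.B y w = 0 ∧ q = eT h w y

namespace OJ
variable (H : OJ h M)
include H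

theorem par {w : W} (hw : S₂.Q w = 0) (h0 : w ≠ 0) {x : V ≃ₗ[F] V} (hx : x ∈ M)
    (hxw : ∀ u, x (τ u w) ∈ Bw τ w) : x ∈ TStab τ := by
  obtain ⟨a, ha⟩ := exists_of_map_Bw h.tens h0 h0 hxw
  obtain ⟨w', hw', hww⟩ := exists_partner h.nd₂ hw h0
  have hb := H.bis hx
  have hB := B_self_zero hw
  have st : ∀ v, h.cw w v = 0 → h.cw w (x v) = 0 := fun v => (h.cw_stab h0 h0 (bis_le_sim hb) hxw).2
  have k1 : ∀ y, S₂.B y w = 0 → ∃ y', S₂.B y' w = 0 ∧ (∀ u, ∃ θ,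
      x (τ u y) = τ (h.cw w (x (τ u w'))) y' + τ θ w) ∧
      ∀ u, S₂.B y y • a u = S₂.B y' y' • h.cw w (x (τ u w')) := fun y hy => by
    obtain ⟨y', hy', e⟩ := H.eq w hw h0 _ (mul_mem (mul_mem hx (H.eT_mem w y)) (inv_mem hx))
      ((eT_inQ hw hy).conj h0 (bis_le_sim hb) hxw)
    have e1 : ∀ v, x (eT h w y v) = eT h w y' (x v) := fun v => by simp [← e]
    have e2 : ∀ u, ∃ θ, x (τ u y) = τ (h.cw w (x (τ u w'))) y' + τ θ w := fun u => by
      have := e1 (τ u w')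
      simp only [eT_apply hw hy, eT_apply hw hy', h.cw_apply, hww, one_smul, map_sub, map_add x, ha] at this
      exact ⟨a (S₂.B w' y • u + S₂.Q y • u) - (h.cw y' (x (τ u w')) + S₂.Q y' • h.cw w (x (τ u w'))), by
        rw [map_sub, LinearMap.sub_apply]; linear_combination (norm := abel_nf) this⟩
    refine ⟨y', hy', e2, fun u => eq_of_tmul_eq h.tens h0 ?_⟩
    have := e1 (τ u y)
    rw [eT_apply hw hy', st _ (by simp [hy]), eT_apply hw hy] at this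
    obtain ⟨θ, e3⟩ := e2 u
    simpa [hy, ha, e3, S₂.B_comm_zero hy'] using this
  obtain ⟨y₀, hy₀, hQ⟩ := exists_ns₁ h.nd₂ (by have := H.dW; omega) w
  obtain ⟨y₁, -, -, e⟩ := k1 y₀ hy₀
  obtain ⟨u₀, hu₀⟩ := exists_ne (0 : U)
  have hy₁ : S₂.B y₁ y₁ ≠ 0 := fun e0 => by simpa [e0, B_self_ne H.two hQ, hu₀] using e u₀
  obtain ⟨μ, hμ, e⟩ : ∃ μ : F, μ ≠ 0 ∧ ∀ u, h.cw w (x (τ u w')) = μ • a u :=
    ⟨(S₂.B y₁ y₁)⁻¹ * S₂.B y₀ y₀, by simp [hy₁, B_self_ne H.two hQ], fun u => by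
      simp [mul_smul, e, hy₁]⟩
  have k2 : ∀ u u', μ * S₁.B (a u) (a u') = S₁.B u u' := fun u u' => by
    simpa [ha, h.B_tmul, e, hww] using hb (τ u w') (τ u' w)
  obtain ⟨ψ, hψ, -⟩ := exists_dual_one (W := (⊥ : Submodule F U)) (x := a u₀) (by simpa using hu₀)
  set z : End F W := h.tens.flip.ctr ψ ∘ₗ (x : V →ₗ[F] V) ∘ₗ τ u₀ with hz
  have ct : ∀ u y, h.tens.flip.ctr ψ (τ u y) = ψ u • y := fun u y => h.tens.flip.ctr_apply ψ y u
  have k3 : ∀ y, S₂.B y w = 0 → S₂.B (z y) w = 0 ∧ ∀ u, ∃ θ, x (τ u y) = τ (a u) (z y) + τ θ w := by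
    intro y hy
    obtain ⟨y', h1, h2, -⟩ := k1 y hy
    obtain ⟨θ₀, h3⟩ := h2 u₀
    have h4 : z y = μ • y' + ψ θ₀ • w := by simp [hz, h3, ct, e, hψ]
    refine ⟨by simp [h4, h1, hB], fun u => ?_⟩
    obtain ⟨θ, h5⟩ := h2 u
    exact ⟨θ - ψ θ₀ • a u, by simp [h4, h5, e]⟩
  have k4 : ∀ y y', S₂.B y w = 0 → S₂.B y' w = 0 → S₂.B (z y) (z y') = μ * S₂.B y y' := by
    intro y y' hy hy'
    obtain ⟨u₁, hu₁⟩ := h.nd₁.exists_eq hu₀ 1
    obtain ⟨θ, h1⟩ := (k3 y hy).2 u₁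
    obtain ⟨θ', h2⟩ := (k3 y' hy').2 u₀
    have := hb (τ u₁ y) (τ u₀ y')
    simp [h1, h2, h.form, (k3 y hy).1, S₂.B_comm_zero (k3 y' hy').1, hB, hu₁] at this
    linear_combination μ * this - S₂.B (z y) (z y') * k2 u₁ u₀ - S₂.B (z y) (z y') * hu₁
  set π : End F W := 1 - rk S₂ w' w - rk S₂ w w' with hπ
  have p1 : ∀ y, S₂.B (π y) w = 0 := fun y => by simp [hπ, hB, hww]
  let b : End F W := rk S₂ w' w + μ • rk S₂ w w' + π ∘ₗ z ∘ₗ π
  have eb : ∀ y, b y = (S₂.B y w' - S₂.B (z (π y)) w') • w + (μ * S₂.B y w) • w' + z (π y) := fun y => by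
    have : ∀ s, π s = s - S₂.B s w' • w - S₂.B s w • w' := fun _ => rfl
    simp only [b, LinearMap.add_apply, LinearMap.comp_apply, LinearMap.smul_apply, rk_apply]
    rw [this (z _), (k3 _ (p1 y)).1]; module
  have k5 : ∀ y y', S₂.B (b y) (b y') = μ * S₂.B y y' := fun y y' => by
    have h1 := k4 _ _ (p1 y) (p1 y')
    have h2 : S₂.B (π y) (π y') = S₂.B y y' - S₂.B y w' * S₂.B y' w - S₂.B y w * S₂.B y' w' := by
      simp [hπ, hB, hww, B_self_zero hw', S₂.orth_B_swap w' w, S₂.orth_B_swap y']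
    simp [eb, hB, hww, B_self_zero hw', S₂.orth_B_swap w' w, (k3 _ (p1 y)).1,
      S₂.B_comm_zero (k3 _ (p1 y')).1, h1, h2, S₂.orth_B_swap (z (π y')) w']
    ring
  let b' := LinearEquiv.ofInjectiveEndo b ((injective_iff_map_eq_zero _).2 fun y hy =>
    h.nd₂ y fun y' => by simpa [hy, hμ] using k5 y y')
  set t := h.tens.tcongr a b' with ht
  have et : ∀ u y, t (τ u y) = τ (a u) (b y) := h.tens.tcongr_apply a b'
  have hti : t ∈ bis S := fun x y => by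
    rw [h.mem_bis_of (m := 1) fun u _ u' _ => by
      rw [et, et, h.form, h.form, k5, ← k2 u u']; ring, one_mul]
  have bw : b w = w := by simp [b, hπ, hB, S₂.orth_B_swap w' w, hww]
  have f1 : ∀ u, t.symm (τ (a u) w) = τ u w := fun u => by rw [LinearEquiv.symm_apply_eq, et, bw]
  have hn : InQ h w (t⁻¹ * x) := ⟨mul_mem (inv_mem hti) hb, fun u => by simp [ha, f1], fun v hv => by
    have := TenGen.mem_of_cw h hww (A := (Bw τ w).comap (((t⁻¹ * x : V ≃ₗ[F] V) : End F V) - 1))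
      (fun u y hy => by
        obtain ⟨θ, h1⟩ := (k3 _ (p1 y)).2 u
        refine ⟨a.symm θ + S₂.B (z (π y)) w' • u, t.injective ?_⟩
        have h2 : x (τ u y) = x (τ u (π y)) + S₂.B y w' • τ (a u) w := by simp [hπ, hy, ha]
        simp [et, bw, h2, h1, eb y, hy]; module) v
    simpa [hv] using this⟩
  have htM : t ∈ M := H.ge t (by
    simpa using mul_mem (H.le hx) (inv_mem (inQ_mem_Om H.two H.dV hn))) (tcongr_mem _ _ _)
  obtain ⟨y, -, e⟩ := H.eq w hw h0 _ (mul_mem (inv_mem htM) hx) hn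
  exact ((TStab τ).mul_mem_cancel_left (inv_mem (tcongr_mem h.tens a b'))).1 (e ▸ eT_T w y)

theorem par' {w w' : W} (hw' : S₂.Q w' = 0) (h0 : w ≠ 0) (h0' : w' ≠ 0) {x : V ≃ₗ[F] V} (hx : x ∈ M)
    (hxw : ∀ u, x (τ u w) ∈ Bw τ w') : x ∈ TStab τ := by
  have hw := sing_of H.two h (H.bis hx) (z := w) fun u u' => by
    obtain ⟨a, e⟩ := hxw u
    obtain ⟨a', e'⟩ := hxw u'
    simp [← e, ← e', h.form, B_self_zero hw']
  obtain ⟨n, hn, b, -, en, e⟩ := H.move hw' hw h0' h0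
  refine ((TStab τ).mul_mem_cancel_left ⟨1, b, en⟩).1 (H.par hw h0 (mul_mem hn hx) fun u => ?_)
  obtain ⟨u', hu'⟩ := hxw u
  exact ⟨u', by simp [← hu', en, e]⟩

end OJ

end Cfsg.Agent.H3.TenO5
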