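import Cfsg.Agent.H3.TenO5
import Cfsg.Agent.H3.TenO4
import Cfsg.Agent.H3.Cop

/-!
`O₃ ⊗ O₄⁻` in `Ω₁₂⁻`: unipotent elements.
-/

set_option autoImplicit false
set_option linter.unusedSectionVars false

namespace Cfsg.Agent.H3.TenO6

open Module Cfsg.Agent.H7 Cfsg.Agent.Form Cfsg.Agent.H3.TenLin Cfsg.Agent.H3.RootGeo
  Cfsg.Agent.H3.TenForm Cfsg.Agent.H3.TenPar Cfsg.Agent.H3.OrthLem
  Cfsg.Agent.H3.TenSpSp Cfsg.Agent.H3.TenO1 Cfsg.Agent.H3.TenO2 Cfsg.Agent.H3.TenO5 Cfsg.Agent.H9.FClass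

variable {F : Type*} [Field F] {V : Type*} [AddCommGroup V] [Module F V]
  {U : Type*} [AddCommGroup U] [Module F U] {W : Type*} [AddCommGroup W] [Module F W]
  [FiniteDimensional F U] [FiniteDimensional F W] [FiniteDimensional F V]
  {S₁ : PQ (FP.orth F) U} {S₂ : PQ (FP.orth F) W} {S : PQ (FP.orth F) V}
  {τ : U →ₗ[F] W →ₗ[F] V} {h : TF S₁ S₂ S τ} {M : Subgroup (V ≃ₗ[F] V)}

theorem exists_norm [Nontrivial U] [Nontrivial W] (h : IsTens τ) {k : V ≃ₗ[F] V} (hk : k ∈ TStab τ) {n : ℕ}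
    (hn : k ^ n = 1) (rt : ∀ (a : U ≃ₗ[F] U) (c : F), c ≠ 0 → (∀ u, (a ^ n) u = c • u) → ∃ d, d ^ n = c) :
    ∃ (a : U ≃ₗ[F] U) (b : W ≃ₗ[F] W), (∀ u y, k (τ u y) = τ (a u) (b y)) ∧ a ^ n = 1 ∧ b ^ n = 1 := by
  have pw : ∀ (a : U ≃ₗ[F] U) (b : W ≃ₗ[F] W), (∀ u y, k (τ u y) = τ (a u) (b y)) →
      ∀ u y, τ ((a ^ n) u) ((b ^ n) y) = τ u y := fun a b e u y => by
    have : ∀ m : ℕ, (k ^ m) (τ u y) = τ ((a ^ m) u) ((b ^ m) y) := fun m => by
      induction m with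
      | zero => rfl
      | succ m ih => simp [pow_succ', ih, e]
    rw [← this, hn]; rfl
  obtain ⟨a, b, e⟩ := hk
  obtain ⟨y, hy⟩ := exists_ne (0 : W)
  obtain ⟨u, hu⟩ := exists_ne (0 : U)
  obtain ⟨c, hc⟩ := scalar_of_forall_mem_span ((a ^ n : U ≃ₗ[F] U) : U →ₗ[F] U) fun u =>
    h.mem_span_of_eq (by simpa using hy) (pw a b e u y)
  have hc0 : c ≠ 0 := by rintro rfl; simpa [hu] using hc u
  obtain ⟨d, rfl⟩ := rt a c hc0 hc
  by_cases hn0 : n = 0
  · exact ⟨a, b, e, by simp [hn0], by simp [hn0]⟩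
  have hd : d ≠ 0 := by rintro rfl; simp [hn0] at hc0
  have e' : ∀ u y, k (τ u y) = τ ((a.trans (LinearEquiv.smulOfNeZero F U _ (inv_ne_zero hd))) u)
      ((b.trans (LinearEquiv.smulOfNeZero F W _ hd)) y) := fun u y => by simp [e, smul_smul, hd]
  have h1 : a.trans (LinearEquiv.smulOfNeZero F U _ (inv_ne_zero hd)) ^ n = 1 := by
    have : ∀ (m : ℕ) u, (a.trans (LinearEquiv.smulOfNeZero F U _ (inv_ne_zero hd)) ^ m) u =
        d⁻¹ ^ m • (a ^ m) u := fun m u => by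
      induction m with
      | zero => simp
      | succ m ih => simp [pow_succ', ih, smul_smul, mul_comm]
    ext u
    rw [this, show (a ^ n) u = _ from hc u]; simp [smul_smul, hc0]
  refine ⟨_, _, e', h1, LinearEquiv.ext fun y => h.flip.left_inj hu ?_⟩
  simpa [h1] using pw _ _ e' u y

theorem unip3 (hS : S₁.Nondeg) (h3 : finrank F U = 3) {p : ℕ} [Fact p.Prime] [CharP F p] (hp : 3 ≤ p)
    {a : U ≃ₗ[F] U} (ha : a ∈ bis S₁) (hn : a ^ p = 1) : a = 1 ∨ ∃ (N : End F U) (u : U),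
      (∀ x, N x = a x - x) ∧ N (N u) ≠ 0 ∧ (∀ x, N (N (N x)) = 0) ∧
      ∀ x, ∃ α β γ : F, x = α • u + β • N u + γ • N (N u) := by
  have : Nontrivial U := Module.nontrivial_of_finrank_pos (R := F) (by omega)
  set N : End F U := (a : End F U) - 1
  have eN : ∀ x, N x = a x - x := fun _ => rfl
  have h1 : N ^ p = 0 := by
    have := charP_of_injective_algebraMap (algebraMap F (End F U)).injective p
    rw [sub_pow_char_of_commute _ (Commute.one_right _), one_pow, sub_eq_zero]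
    exact (map_pow LinearEquiv.automorphismGroup.toLinearMapMonoidHom a p).symm.trans (by rw [hn]; rfl)
  have h2 : ∀ x, N (N (N x)) = 0 := fun x => by
    have := Module.End.ker_pow_eq_ker_pow_finrank_of_le (f := N) (m := p) (by omega)
    rw [h1, h3, LinearMap.ker_zero] at this
    simpa [pow_succ] using this.le (Submodule.mem_top (x := x))
  by_cases hc : ∀ u, N (N u) = 0
  · left
    have k : ∀ x y, S₁.B (N x) y + S₁.B x (N y) + S₁.B (N x) (N y) = 0 := fun x y => by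
      simp only [eN, PQ.B_sub_left, PQ.B_sub_right, ha x y]; ring
    have k1 : ∀ x y, S₁.B (N x) (N y) = 0 := fun x y => by simpa [hc] using k x (N y)
    by_contra hne
    obtain ⟨x, hx⟩ : ∃ x, N x ≠ 0 := by
      by_contra h; push Not at h
      exact hne (LinearEquiv.ext fun x => sub_eq_zero.1 (h x))
    have h4 := LinearMap.finrank_range_add_finrank_ker N
    have h5 := Submodule.finrank_mono (show LinearMap.range N ≤ LinearMap.ker N by
      rintro _ ⟨x, rfl⟩; exact hc x)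
    have h6 := Submodule.eq_of_le_of_finrank_le (show F ∙ N x ≤ LinearMap.range N by simp) (by
      rw [finrank_span_singleton hx]; omega)
    obtain ⟨y, hy⟩ := hS.exists_eq hx 1
    obtain ⟨c, hc⟩ := Submodule.mem_span_singleton.1 (h6 ▸ LinearMap.mem_range_self N y)
    have a1 := k x x
    have a2 := k x y
    rw [← hc] at a2
    simp [k1, S₁.orth_B_swap y, hy] at a2
    have a3 := k (x + y) (x + y)
    have a4 := k y y
    rw [k1, S₁.orth_B_swap, add_zero, ← two_mul] at a1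
    have h2 : (2 : F) ≠ 0 := fun e => by
      have := (CharP.cast_eq_zero_iff F p 2).1 (by exact_mod_cast e)
      exact absurd (Nat.le_of_dvd two_pos this) (by omega)
    simp [(mul_eq_zero.1 a1).resolve_left h2] at a2
  push Not at hc
  obtain ⟨u, hu⟩ := hc
  refine Or.inr ⟨N, u, eN, hu, h2, fun x => ?_⟩
  have li : LinearIndependent F ![u, N u, N (N u)] := Fintype.linearIndependent_iff.2 fun g hg => by
    simp only [Fin.sum_univ_three, Matrix.cons_val] at hg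
    have g0 : g 0 = 0 := by simpa [h2, hu] using congrArg (N ∘ N) hg
    have g1 : g 1 = 0 := by simpa [h2, hu, g0] using congrArg N hg
    have g2 : g 2 = 0 := by simpa [hu, g0, g1] using hg
    intro i; fin_cases i <;> assumption
  obtain ⟨c, hc⟩ := (Submodule.mem_span_range_iff_exists_fun F).1
    (li.span_eq_top_of_card_eq_finrank' (by simp [h3]) ▸ Submodule.mem_top (x := x))
  exact ⟨c 0, c 1, c 2, by simp [← hc, Fin.sum_univ_three]⟩

theorem eT_mul {w y y' : W} (hw : S₂.Q w = 0) (hy : S₂.B y w = 0) (hy' : S₂.B y' w = 0) :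
    eT h w y * eT h w y' = eT h w (y + y') := h.eq_of_tens fun u z => by
  rw [LinearEquiv.mul_apply, eT_tmul, eT_tmul, eT_tmul, ← LinearEquiv.mul_apply, sg, sg, sg,
    H8.siegel_mul hw (by rw [polar_toQF, S₂.B_comm_zero hy]) (by rw [polar_toQF, S₂.B_comm_zero hy'])]

theorem eT_smul_self {w : W} (hw : S₂.Q w = 0) (c : F) : eT h w (c • w) = 1 := h.eq_of_tens fun u z => by
  simp [eT_tmul, sg_apply hw (v := c • w) (by simp [B_self_zero hw]), S₂.orth_Q_smul, hw, smul_smul, mul_comm]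

theorem eT_zero {w : W} (hw : S₂.Q w = 0) : eT h w 0 = 1 := by simpa using eT_smul_self hw 0

theorem eT_pow {w y : W} (hw : S₂.Q w = 0) (hy : S₂.B y w = 0) (n : ℕ) :
    eT h w y ^ n = eT h w ((n : F) • y) := by
  induction n with
  | zero => simp [eT_zero hw]
  | succ n ih => rw [pow_succ, ih, eT_mul hw (by simp [hy]) hy, Nat.cast_succ, add_smul, one_smul]

variable [Finite F] [Nontrivial U] (H : OJ h M) (h3 : finrank F U = 3) (h4 : finrank F W = 4)
include H h3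

theorem unip_tens {p : ℕ} [Fact p.Prime] [CharP F p] {k : V ≃ₗ[F] V} (hk : k ∈ M) (hT : k ∈ TStab τ)
    (hp : k ^ p = 1) : ∃ (a : U ≃ₗ[F] U) (b : W ≃ₗ[F] W), (∀ u y, k (τ u y) = τ (a u) (b y)) ∧
      a ∈ bis S₁ ∧ (a = 1 ∨ ∃ (N : End F U) (u : U), (∀ x, N x = a x - x) ∧ N (N u) ≠ 0 ∧
        (∀ x, N (N (N x)) = 0) ∧ ∀ x, ∃ α β γ : F, x = α • u + β • N u + γ • N (N u)) := by
  have : Nontrivial W := Module.nontrivial_of_finrank_pos (R := F) (by have := H.dW; omega)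
  obtain ⟨a, b, e, ha, -⟩ := exists_norm h.tens hT hp fun _ c _ _ => surjective_frobenius F p c
  obtain ⟨m, -, hm⟩ := h.flip.sim_of_tens (bis_le_sim (H.bis hk)) fun y u => e u y
  have h1 : ∀ (n : ℕ) x y, S₁.B ((a ^ n) x) ((a ^ n) y) = m ^ n * S₁.B x y := fun n x y => by
    induction n with
    | zero => simp
    | succ n ih => simp [pow_succ', hm, ih, mul_assoc]
  obtain ⟨x, hx⟩ := exists_ne (0 : U)
  obtain ⟨y, hy⟩ := h.nd₁.exists_eq hx 1
  obtain rfl : m = 1 := frobenius_inj F p (by simpa [ha, hy, frobenius_def] using (h1 p y x).symm)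
  have hb : a ∈ bis S₁ := fun x y => by rw [hm, one_mul]
  refine ⟨a, b, e, hb, unip3 h.nd₁ h3 ?_ hb ha⟩
  have := (Fact.out : p.Prime).two_le
  have : p ≠ 2 := by rintro rfl; exact H.two (by exact_mod_cast CharP.cast_eq_zero F 2)
  omega

include h4

/-- Fusion of root elements. -/
theorem fus {w y : W} (hw : S₂.Q w = 0) (h0 : w ≠ 0) (hy : S₂.B y w = 0) (hQ : S₂.Q y ≠ 0) {g : V ≃ₗ[F] V}
    (hg : g ∈ M) (hT : g⁻¹ * eT h w y * g ∈ TStab τ) : g ∈ TStab τ := by
  obtain ⟨p, hp⟩ := CharP.exists F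
  have := Fact.mk (CharP.char_is_prime F p)
  obtain ⟨a, b, e, ha, rfl | ⟨N, u, hN, -, -, hu⟩⟩ := unip_tens H h3 (p := p)
    (mul_mem (mul_mem (inv_mem hg) (H.eT_mem w y)) hg) hT (by
      simpa [eT_pow hw hy, eT_zero hw] using conj_pow (a := g⁻¹) (b := eT h w y) (i := p))
  · have eb' : ∀ u s, eT h w y (g (τ u s)) = g (τ u (b s)) := fun u s => by
      simpa [LinearEquiv.symm_apply_eq] using e u s
    have k : ∀ u s, g (τ u (b (b s) - (2 : F) • b s + s)) = τ (-(2 * S₂.Q y) • h.cw w (g (τ u s))) w := by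
      intro u s
      simp [← eb', eT_apply hw hy, hy, S₂.B_comm_zero hy, B_self_zero hw, S₂.orth_B_self]
      module
    obtain ⟨s, hs⟩ : ∃ s, b (b s) - (2 : F) • b s + s ≠ 0 := by
      by_contra hc
      push Not at hc
      have : h.cw w ∘ₗ (g : V →ₗ[F] V) = 0 := h.tens.ext fun u s => by
        have := k u s
        rw [hc] at this
        simpa [H.two, hQ] using (h.tens.eq_zero (this.symm.trans (by simp))).resolve_right h0
      obtain ⟨u, hu⟩ := exists_ne (0 : U)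
      obtain ⟨s, hs⟩ := h.nd₂.exists_eq h0 1
      simpa [hs, hu] using LinearMap.congr_fun this (g.symm (τ u s))
    exact H.par' hw hs h0 hg fun u => ⟨_, (k u s).symm⟩
  obtain ⟨v, hv, hv0⟩ := (Submodule.ne_bot_iff _).1 (LinearMap.ker_ne_bot_of_finrank_lt
    (f := ((h.cw w ∘ₗ (g : V →ₗ[F] V)).prod (h.cw y ∘ₗ (g : V →ₗ[F] V))).prod (h.flip.cw u))
    (by simp [h.tens.finrank_eq, h3, h4]))
  replace hv : (h.cw w (g v) = 0 ∧ h.cw y (g v) = 0) ∧ h.flip.cw u v = 0 := by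
    simpa [Prod.ext_iff] using hv
  have : Nontrivial W := ⟨w, 0, h0⟩
  have k : ∀ x, h.flip.cw x v = 0 → h.flip.cw (N x) v = 0 := fun x hx => by
    have := cw_tens (h := h.flip) (fun y u => e u y) ha x v
    simpa [hN, h.flip.cw_sub, hx, eT_apply hw hy, hv] using this
  exact absurd (h.flip.eq_zero_of_cw fun x => by
    obtain ⟨α, β, γ, rfl⟩ := hu x
    simp [h.flip.cw_add, h.flip.cw_smul, hv.2, k]) hv0

/-- The stabiliser of `u ⊗ W`. -/
theorem cen {u : U} (hu : S₁.Q u ≠ 0) {c : V ≃ₗ[F] V} (hc : c ∈ M) (e : ∀ y, c (τ u y) ∈ Bw τ.flip u) :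
    c ∈ TStab τ := by
  have := finite_GL (F := F) (V := V)
  obtain ⟨p, hp⟩ := CharP.exists F
  have := Fact.mk (CharP.char_is_prime F p)
  have hu0 : u ≠ 0 := by rintro rfl; exact hu S₁.orth_Q_zero
  obtain ⟨w, -, h0, hw⟩ := exists_sing S₂ (H := ⊤) (by rw [finrank_top]; omega)
  obtain ⟨z, hz, hzw⟩ := exists_partner h.nd₂ hw h0
  obtain ⟨h5, h6⟩ := hyp_perp h.nd₂ hw hz (by simp [hzw])
  obtain ⟨y, h7, h8, hy⟩ := exists_ns_hyp h.nd₂ (by omega) hw hz (by simp [hzw])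
  obtain ⟨y', h9, hyy, hy'⟩ := exists_ns_perp H.two h5 (by omega) (mem_perp_pair.2 ⟨h7, h8⟩) hy
  rw [mem_perp_pair] at h9
  let A : Subgroup (V ≃ₗ[F] V) :=
    { carrier := {e | ∃ y, S₂.B y w = 0 ∧ eT h w y = e}
      mul_mem' := by
        rintro _ _ ⟨y, hy, rfl⟩ ⟨y', hy', rfl⟩
        exact ⟨y + y', by simp [hy, hy'], (eT_mul hw hy hy').symm⟩
      one_mem' := ⟨0, by simp, eT_zero hw⟩
      inv_mem' := by rintro _ ⟨y, hy, rfl⟩; exact ⟨-y, by simp [hy], (eT_symm w y).symm⟩ }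
  let K : Subgroup (V ≃ₗ[F] V) :=
    { carrier := {k | k ∈ M ∧ ∀ y, k (τ u y) = τ u y}
      mul_mem' := fun ha hb => ⟨mul_mem ha.1 hb.1, fun y => by simp [ha.2, hb.2]⟩
      one_mem' := ⟨one_mem M, fun _ => rfl⟩
      inv_mem' := fun ha => ⟨inv_mem ha.1, fun y => by simp [LinearEquiv.symm_apply_eq, ha.2]⟩ }
  have ne : ∀ (n : F) {x}, S₂.B x z = 0 → S₂.B x w = 0 → S₂.Q x ≠ 0 → n * S₂.B y x = 0 →
      eT h w (n • y) ≠ eT h w x := fun n x h1 h2 h3 h4 e => by
    have := congrArg (fun g : V ≃ₗ[F] V => h.cw x (g (τ u z))) e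
    simp [eT_apply hw h2, eT_apply hw (y := n • y) (by simp [h8]), hzw, S₂.B_comm_zero h2, smul_smul, h4, hu0,
      B_self_ne H.two h3] at this
  have hK : K ≤ TStab τ := Cop.le_of (A := A) (p := p)
    (by rintro _ ⟨y, hy, rfl⟩; simp [eT_pow hw hy, eT_zero hw])
    (by
      rintro _ ⟨y, -, rfl⟩ k hk
      refine ⟨mul_mem (mul_mem (H.eT_mem _ _) hk.1) (inv_mem (H.eT_mem _ _)), fun s => ?_⟩
      obtain ⟨s, rfl⟩ := (sg S₂ w y).surjective s
      simp [← eT_tmul (h := h), hk.2])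
    (by rintro _ ⟨y, -, rfl⟩; exact eT_T w y)
    (by
      rintro _ ⟨y, hy, rfl⟩ h1 k hk hT
      refine fus H h3 h4 hw h0 hy (fun hQ => h1 ?_) hk.1 hT
      obtain ⟨c, rfl⟩ := Submodule.mem_span_singleton.1 (H.ind w y hw h0 hQ hy)
      exact eT_smul_self hw c)
    (fun k hk hT hp => by
      obtain ⟨a, b, e, ha, h1⟩ := unip_tens H h3 hk.1 hT hp
      obtain ⟨c, hc⟩ := Submodule.mem_span_singleton.1
        (h.tens.mem_span_of_eq (b := b w) (by simpa) ((e u w).symm.trans (hk.2 w)))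
      rcases h1 with rfl | ⟨N, x, hN, h1, h2, h5⟩
      · exact h.eq_of_tens fun x y => by
          rw [e, show b y = y from h.tens.flip.left_inj hu0 ((e u y).symm.trans (hk.2 y))]; rfl
      have h6 : N u = (c - 1) • u := by rw [hN, ← hc, sub_smul, one_smul]
      have h7 : N u = 0 := by
        have := h2 u
        simp only [h6, map_smul, smul_smul, smul_eq_zero, hu0, or_false, mul_eq_zero, or_self] at this
        simp [h6, this]
      have h8 : ∀ x, S₁.B (N x) u = 0 := fun x => by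
        have := ha x u
        rw [sub_eq_zero.1 ((hN u).symm.trans h7)] at this
        simp [hN, this]
      obtain ⟨α, β, γ, h9⟩ := h5 u
      have a1 : α = 0 := by simpa [h2, h1, h7] using (congrArg (N ∘ N) h9).symm
      exact absurd (by nth_rw 1 [h9]; simp [a1, h8]) (B_self_ne H.two hu))
    (a := eT h w y) (b := eT h w y') ⟨y, h8, rfl⟩ ⟨y', h9.2, rfl⟩
    (by rw [eT_mul hw h8 h9.2, eT_mul hw h9.2 h8, add_comm])
    (by simpa [eT_zero hw] using (ne 0 h7 h8 hy (by simp)).symm)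
    fun hm => by
      obtain ⟨n, hn⟩ := mem_powers_iff_mem_zpowers.2 hm
      exact ne n h9.1 h9.2 hy' (by simp [S₂.B_comm_zero hyy]) ((eT_pow hw h8 n).symm.trans hn)
  obtain ⟨b, hb⟩ := exists_of_map_Bw h.tens.flip hu0 hu0 e
  simp only [LinearMap.flip_apply] at hb
  have hbi : b ∈ S₂.isom := isom_of_bis H.two fun x y => mul_left_cancel₀ (B_self_ne H.two hu) (by
    rw [← h.form, ← h.form, ← hb, ← hb, H.bis hc])
  refine inv_mem_iff.1 (fus H h3 h4 hw h0 h8 hy (inv_mem hc) (((TStab τ).mul_mem_cancel_right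
    (inv_mem (eT_T (h := h) (b w) (b y)))).1 (hK ⟨mul_mem (mul_mem (mul_mem (inv_mem (inv_mem hc))
      (H.eT_mem _ _)) (inv_mem hc)) (inv_mem (H.eT_mem _ _)), fun s => ?_⟩)))
  obtain ⟨s, rfl⟩ := (sg S₂ (b w) (b y) * b).surjective s
  have h1 : sg S₂ (b w) (b y) (b s) = b (sg S₂ w y s) := by
    simp [sg, ← H8.siegel_conj (OG_toQF S₂ ▸ hbi)]
  have h2 : (eT h (b w) (b y)).symm (τ u (b (sg S₂ w y s))) = c (τ u s) := by
    rw [LinearEquiv.symm_apply_eq, hb, eT_tmul, h1]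
  simp [h1, h2, eT_tmul]
  rw [hb]

end Cfsg.Agent.H3.TenO6
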