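import Cfsg.Agent.H3.TenGeo

/-!
The stabiliser of `U ⊗ w` and its unipotent radical.
-/

set_option autoImplicit false
set_option linter.unusedSectionVars false

namespace Cfsg.Agent.H3.TenPar

open Module Cfsg.Agent.H7 Cfsg.Agent.Form Cfsg.Agent.H3.TenLin Cfsg.Agent.H3.RootGeo
  Cfsg.Agent.H3.TenForm Cfsg.Agent.H3.TenGeo

variable {F : Type*} [Field F] {V : Type*} [AddCommGroup V] [Module F V]
  {U : Type*} [AddCommGroup U] [Module F U] {W : Type*} [AddCommGroup W] [Module F W]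
  {P P₁ P₂ : FP F} {S₁ : PQ P₁ U} {S₂ : PQ P₂ W} {S : PQ P V} {τ : U →ₗ[F] W →ₗ[F] V}

section adj
variable [FiniteDimensional F U]

/-- The adjoint of an endomorphism. -/
noncomputable def adj (hS : S₁.Nondeg) (X : End F U) : End F U where
  toFun a := (hS.exists_lin (S₁.lin a ∘ₗ X)).choose
  map_add' a b := hS.ext_right fun u => by
    have h := fun a => LinearMap.congr_fun (hS.exists_lin (S₁.lin a ∘ₗ X)).choose_spec u
    simp only [PQ.lin_apply, LinearMap.comp_apply] at h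
    simp [h]
  map_smul' c a := hS.ext_right fun u => by
    have h := fun a => LinearMap.congr_fun (hS.exists_lin (S₁.lin a ∘ₗ X)).choose_spec u
    simp only [PQ.lin_apply, LinearMap.comp_apply] at h
    simp [h]

theorem B_adj (hS : S₁.Nondeg) (X : End F U) (u a : U) : S₁.B u (adj hS X a) = S₁.B (X u) a :=
  LinearMap.congr_fun (hS.exists_lin (S₁.lin a ∘ₗ X)).choose_spec u

theorem B_adj' (hS : S₁.Nondeg) (X : End F U) (a u : U) : S₁.B (adj hS X a) u = S₁.B a (X u) := by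
  rw [S₁.B_swap, B_adj, ← S₁.B_swap]

theorem adj_eq (hS : S₁.Nondeg) {X Y : End F U} (h : ∀ u a, S₁.B (X u) a = S₁.B u (Y a)) :
    adj hS X = Y := LinearMap.ext fun a => hS.ext_right fun u => by rw [B_adj, h]

theorem adj_smul (hS : S₁.Nondeg) (c : F) (X : End F U) : adj hS (c • X) = P₁.σ c • adj hS X :=
  adj_eq hS fun u a => by simp [B_adj]

end adj

variable [FiniteDimensional F U] [FiniteDimensional F W] [FiniteDimensional F V] [Nontrivial U]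
  {h : TF S₁ S₂ S τ} {M : Subgroup (V ≃ₗ[F] V)}

/-- The unipotent radical of the stabiliser of `U ⊗ w`. -/
structure InQ (h : TF S₁ S₂ S τ) (w : W) (q : V ≃ₗ[F] V) : Prop where
  bis : q ∈ bis S
  fix : ∀ u, q (τ u w) = τ u w
  sub : ∀ v, h.cw w v = 0 → q v - v ∈ Bw τ w

theorem InQ.cw_eq {w : W} {q : V ≃ₗ[F] V} (hq : InQ h w q) (v : V) : h.cw w (q v) = h.cw w v :=
  h.nd₁.ext_left fun u => by rw [← h.B_tmul, ← h.B_tmul, ← hq.bis v, hq.fix]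

theorem InQ.cw_symm {w : W} {q : V ≃ₗ[F] V} (hq : InQ h w q) (v : V) :
    h.cw w (q.symm v) = h.cw w v := by rw [← hq.cw_eq]; simp

theorem InQ.mul {w : W} {q k : V ≃ₗ[F] V} (hq : InQ h w q) (hk : InQ h w k) : InQ h w (q * k) :=
  ⟨mul_mem hq.bis hk.bis, fun u => by simp [hq.fix, hk.fix], fun v hv => by
    simpa using add_mem (hq.sub (k v) (by rw [hk.cw_eq, hv])) (hk.sub v hv)⟩

theorem InQ.inv {w : W} {q : V ≃ₗ[F] V} (hq : InQ h w q) : InQ h w q⁻¹ :=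
  ⟨inv_mem hq.bis, fun u => by rw [LinearEquiv.coe_inv, LinearEquiv.symm_apply_eq, hq.fix],
    fun v hv => by simpa using neg_mem (hq.sub (q.symm v) (by rw [hq.cw_symm, hv]))⟩

theorem InQ.conj {w : W} (hw : w ≠ 0) {q x : V ≃ₗ[F] V} (hq : InQ h w q) (hx : x ∈ sim S)
    (hxw : ∀ u, x (τ u w) ∈ Bw τ w) : InQ h w (x * q * x⁻¹) := by
  obtain ⟨a, ha⟩ := exists_of_map_Bw h.tens hw hw hxw
  refine ⟨conj_mem_bis hx hq.bis, fun u => ?_, fun v hv => ?_⟩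
  · obtain ⟨u, rfl⟩ := a.surjective u
    simp [← ha, hq.fix]
  · obtain ⟨u, hu⟩ := hq.sub (x.symm v) ((h.cw_stab hw hw hx hxw).1 (by simpa using hv))
    refine ⟨a u, ?_⟩
    simp only [LinearMap.flip_apply] at hu ⊢
    rw [← ha, hu]; simp

theorem InQ.exists_eta {w : W} (hw : w ≠ 0) {q : V ≃ₗ[F] V} (hq : InQ h w q) {y : W}
    (hy : S₂.B y w = 0) : ∃ η : End F U, ∀ u, q (τ u y) = τ u y + τ (η u) w := by
  obtain ⟨z, hz⟩ := h.nd₂.exists_eq hw 1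
  have hz' : S₂.B w (P₂.ε • z) = 1 := by rw [PQ.B_smul_right, S₂.B_swap, hz]; simp
  refine ⟨h.cw (P₂.ε • z) ∘ₗ ((q : V →ₗ[F] V) - LinearMap.id) ∘ₗ τ.flip y, fun u => ?_⟩
  obtain ⟨u', hu'⟩ := hq.sub (τ u y) (by simp [hy])
  simp only [LinearMap.flip_apply] at hu'
  simp only [LinearMap.comp_apply, LinearMap.flip_apply, LinearMap.sub_apply, LinearEquiv.coe_coe,
    LinearMap.id_apply, ← hu', h.cw_apply, hz', one_smul]
  rw [hu']; simp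

theorem InQ.cw_symm_eta {w y : W} {q : V ≃ₗ[F] V} (hq : InQ h w q) {η : End F U}
    (e : ∀ u, q (τ u y) = τ u y + τ (η u) w) (v : V) :
    h.cw y (q.symm v) = h.cw y v + adj h.nd₁ η (h.cw w v) :=
  h.nd₁.ext_left fun u => by
    rw [← h.B_tmul, ← hq.bis, e]; simp [h.B_tmul, B_adj']

theorem exists_eich (hM : sisom S₂ ≤ snd τ M) {w y : W} (hw : S₂.Sing w) (hy : S₂.B y w = 0) :
    ∃ e ∈ M, e ∈ TStab τ ∧ InQ h w e ∧ ∀ v, e v = v + τ (h.cw y v - (P₂.ε * S₂.Q y) • h.cw w v) w -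
      P₂.ε • τ (h.cw w v) y := by
  have hE : S₂.EichOK w y (S₂.Q y) := ⟨hw, hy, by simp⟩
  obtain ⟨e, he, e1⟩ := hM (eich_mem_sisom S₂ _ _ _ hE)
  have e2 : ∀ v, e v = v + τ (h.cw y v - (P₂.ε * S₂.Q y) • h.cw w v) w - P₂.ε • τ (h.cw w v) y :=
    fun v => h.tens.induction v (by simp) (fun u z => by simp [e1]; module) (fun a b ha hb => by
      simp only [map_add, ha, hb, map_sub, map_smul, smul_add, LinearMap.add_apply,
        LinearMap.sub_apply, LinearMap.smul_apply]; abel)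
  refine ⟨e, he, ⟨1, _, e1⟩, ⟨h.tens_mem_bis (a := 1) e1 (one_mem _)
    (isom_le_bis (S₂.eich_mem _ _ _ _)), fun u => ?_, fun v hv => ?_⟩, e2⟩
  · simp [e2, hw.B_self, S₂.B_comm_zero hy]
  · exact ⟨h.cw y v, by simp [e2, hv]⟩

theorem exists_perp_rep (hS : S₂.Nondeg) {w : W} (φ : Dual F W) (hφ : φ w = 0) :
    ∃ y, S₂.B y w = 0 ∧ ∀ z, φ z = S₂.B z y := by
  obtain ⟨y, rfl⟩ := hS.exists_lin φ
  exact ⟨y, S₂.B_comm_zero hφ, fun _ => rfl⟩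

/-- If all the levels of `q` are scalars, `q` acts on `(U ⊗ w)^⊥` like an Eichler map of `W`. -/
theorem InQ.exists_of_scalar {w : W} (hw : w ≠ 0) {q : V ≃ₗ[F] V} (hq : InQ h w q)
    (hs : ∀ y, S₂.B y w = 0 → ∃ c : F, ∀ u, q (τ u y) = τ u y + c • τ u w) :
    ∃ y, S₂.B y w = 0 ∧ ∀ v, h.cw w v = 0 → q v = v + τ (h.cw y v) w := by
  obtain ⟨u₀, hu₀⟩ := exists_ne (0 : U)
  obtain ⟨Φ, hΦ, -⟩ := exists_dual_one (W := (⊥ : Submodule F V)) (x := τ u₀ w)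
    (by simpa using h.tens.ne_zero hu₀ hw)
  obtain ⟨y, hy, e⟩ := exists_perp_rep h.nd₂ (w := w)
    (Φ ∘ₗ ((q : V →ₗ[F] V) - LinearMap.id) ∘ₗ τ u₀) (by simp [hq.fix])
  refine ⟨y, hy, fun v hv => ?_⟩
  have e1 : ∀ u z, S₂.B z w = 0 → q (τ u z) = τ u z + τ (h.cw y (τ u z)) w := fun u z hz => by
    obtain ⟨c, hc⟩ := hs z hz
    have := e z
    simp [hc, hΦ] at this
    simp [hc, this]
  obtain ⟨z, hz⟩ := h.nd₂.exists_eq hw 1
  have e2 : ∀ v, q (v - τ (h.cw w v) z) = v - τ (h.cw w v) z + τ (h.cw y (v - τ (h.cw w v) z)) w :=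
    fun v => h.tens.induction v (by simp) (fun u x => by
      simpa using e1 u (x - S₂.B x w • z) (by simp [hz])) (fun a b ha hb => by
      have : a + b - τ (h.cw w (a + b)) z = (a - τ (h.cw w a) z) + (b - τ (h.cw w b) z) := by
        simp only [map_add, LinearMap.add_apply]; abel
      rw [this, map_add, ha, hb, map_add, map_add, LinearMap.add_apply]; abel)
  simpa [hv] using e2 v

theorem InQ.scalar_of_TStab (h3 : 3 ≤ finrank F W) {w : W} (hw : w ≠ 0) {q : V ≃ₗ[F] V}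
    (hq : InQ h w q) (hT : q ∈ TStab τ) {y : W} (hy : S₂.B y w = 0) :
    ∃ c : F, ∀ u, q (τ u y) = τ u y + c • τ u w := by
  obtain ⟨y₀, hy₀, hy₀'⟩ := exists_mem_notMem_of_finrank_lt (U := S₂.perp (F ∙ w))
    (W := F ∙ w) (by
      have := h.nd₂.finrank_perp (F ∙ w)
      have := finrank_span_singleton_le (F := F) w
      omega)
  obtain ⟨φ, hφ1, hφ2⟩ := exists_dual_pair hy₀'
  obtain ⟨b, eb⟩ := exists_snd_of h.tens hT hφ1 (fun u => ctr_Bw h.tens hφ2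
    (hq.sub _ (by simp [S₂.mem_perp_span_singleton.1 hy₀])))
  obtain ⟨u₀, hu₀⟩ := exists_ne (0 : U)
  obtain ⟨u, hu⟩ := hq.sub (τ u₀ y) (by simp [hy])
  rw [eb, ← map_sub] at hu
  obtain ⟨c, hc⟩ := Submodule.mem_span_singleton.1
    (h.tens.flip.mem_span_of_eq (a := b y - y) (a' := w) hu₀ hu.symm)
  exact ⟨c, fun u => by rw [eb, ← map_smul, hc]; simp⟩

/-- An element fixing `(U ⊗ w)^⊥` pointwise. -/
theorem exists_of_fix_perp {w : W} (hw : w ≠ 0) {q : V ≃ₗ[F] V} (hq : q ∈ bis S)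
    (hf : ∀ v, h.cw w v = 0 → q v = v) : ∃ X : End F U, ∀ v, q v = v + τ (X (h.cw w v)) w := by
  obtain ⟨z, hz⟩ := h.nd₂.exists_eq hw 1
  have hz' : S₂.B w (P₂.ε • z) = 1 := by rw [PQ.B_smul_right, S₂.B_swap, hz]; simp
  refine ⟨h.cw (P₂.ε • z) ∘ₗ ((q : V →ₗ[F] V) - LinearMap.id) ∘ₗ τ.flip z, fun v => ?_⟩
  obtain ⟨u', hu'⟩ : q v - v ∈ Bw τ w := h.mem_Bw_of_cw hw fun y hy =>
    h.cw_eq_zero_iff.2 fun u => by
      rw [PQ.B_sub_left, ← hq v, hf (τ u y) (by simp [S₂.B_comm_zero hy]), sub_self]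
  have e := hf (v - τ (h.cw w v) z) (by simp [hz])
  have e' : q (τ (h.cw w v) z) - τ (h.cw w v) z = τ u' w := by
    rw [map_sub] at e
    rw [show τ u' w = q v - v from hu']
    linear_combination (norm := abel_nf) -e
  simp only [LinearMap.comp_apply, LinearMap.flip_apply, LinearMap.sub_apply, LinearEquiv.coe_coe,
    LinearMap.id_apply, e', h.cw_apply, hz', one_smul]
  rw [show τ u' w = q v - v from hu']; simp

theorem mem_TStab_of_scalar {w : W} {q : V ≃ₗ[F] V} {c : F}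
    (e : ∀ v, q v = v + τ (c • h.cw w v) w) : q ∈ TStab τ :=
  mem_TStab_of h.tens 1 fun y => ⟨y + (c * S₂.B y w) • w, fun u => by simp [e, mul_smul]⟩

/-- A new element of the unipotent radical. -/
theorem exists_Z_or_eta (hM : sisom S₂ ≤ snd τ M) {w : W} (hw : S₂.Sing w) (h0 : w ≠ 0)
    {q : V ≃ₗ[F] V} (hqM : q ∈ M) (hq : InQ h w q) (hT : q ∉ TStab τ) :
    (∃ X : End F U, HasQ τ M (X ∘ₗ h.cw w) w ∧ ∀ c : F, X ≠ c • LinearMap.id) ∨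
    ∃ y, S₂.B y w = 0 ∧ ∃ η : End F U, (∀ u, q (τ u y) = τ u y + τ (η u) w) ∧
      ∀ c : F, η ≠ c • LinearMap.id := by
  by_contra hc
  push Not at hc
  obtain ⟨y, hy, e⟩ := hq.exists_of_scalar h0 fun y hy => by
    obtain ⟨η, hη⟩ := hq.exists_eta h0 hy
    obtain ⟨c, rfl⟩ := hc.2 y hy η hη
    exact ⟨c, fun u => by simp [hη]⟩
  obtain ⟨k, hk, hkT, hkQ, ek⟩ := exists_eich (h := h) hM hw hy
  obtain ⟨X, hX⟩ := exists_of_fix_perp (h := h) h0 (hkQ.inv.mul hq).bis fun v hv => by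
    rw [LinearEquiv.mul_apply, LinearEquiv.coe_inv, LinearEquiv.symm_apply_eq, e v hv, ek]
    simp [hv]
  obtain ⟨c, rfl⟩ := hc.1 X ⟨_, M.mul_mem (M.inv_mem hk) hqM, hX⟩
  exact hT (((TStab τ).mul_mem_cancel_left ((TStab τ).inv_mem hkT)).1
    (mem_TStab_of_scalar (h := h) hX))

/-- `M` contains the map with the given data. -/
def HasE (h : TF S₁ S₂ S τ) (M : Subgroup (V ≃ₗ[F] V)) (X X' Y : End F U) (y w : W) : Prop :=
  ∃ k ∈ M, ∀ v, k v = v + τ (X (h.cw y v) + Y (h.cw w v)) w + τ (X' (h.cw w v)) y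

theorem HasE.comm {X X' Y : End F U} {y w : W} (hE : HasE h M X X' Y y w) (hw : S₂.B w w = 0)
    (hy : S₂.B y w = 0) {q : V ≃ₗ[F] V} (hqM : q ∈ M) (hq : InQ h w q) {η : End F U}
    (e : ∀ u, q (τ u y) = τ u y + τ (η u) w) :
    HasQ τ M ((X ∘ₗ adj h.nd₁ η + η ∘ₗ X') ∘ₗ h.cw w) w := by
  obtain ⟨k, hk, ek⟩ := hE
  refine ⟨q * k * q⁻¹ * k⁻¹, M.mul_mem (M.mul_mem (M.mul_mem hqM hk) (M.inv_mem hqM))
    (M.inv_mem hk), fun v => ?_⟩
  obtain ⟨v, rfl⟩ := k.surjective v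
  have h1 : h.cw w (k v) = h.cw w v := by simp [ek, hw, hy]
  simp only [LinearEquiv.mul_apply, LinearEquiv.coe_inv, LinearEquiv.symm_apply_apply,
    LinearMap.comp_apply, h1]
  rw [ek, ek, hq.cw_symm, hq.cw_symm_eta e]
  simp only [map_add, LinearEquiv.apply_symm_apply, hq.fix, e, LinearMap.add_apply,
    LinearMap.comp_apply]
  abel

theorem hasE_eich (hM : sisom S₂ ≤ snd τ M) {w y : W} (hw : S₂.Sing w) (hy : S₂.B y w = 0) :
    HasE h M LinearMap.id (-P₂.ε • LinearMap.id) (-(P₂.ε * S₂.Q y) • LinearMap.id) y w := by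
  obtain ⟨e, he, -, -, e1⟩ := exists_eich (h := h) hM hw hy
  exact ⟨e, he, fun v => by simp [e1, sub_eq_add_neg]⟩

theorem hasQ_eta (hM : sisom S₂ ≤ snd τ M) {w y : W} (hw : S₂.Sing w) (hy : S₂.B y w = 0)
    {q : V ≃ₗ[F] V} (hqM : q ∈ M) (hq : InQ h w q) {η : End F U}
    (e : ∀ u, q (τ u y) = τ u y + τ (η u) w) :
    HasQ τ M ((adj h.nd₁ η - P₂.ε • η) ∘ₗ h.cw w) w :=
  ((hasE_eich hM hw hy).comm hw.B_self hy hqM hq e).congr fun v => by simp [sub_eq_add_neg]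

theorem hasE_of_eta (hM : sisom S₂ ≤ snd τ M) {w y : W} (hy : S₂.Sing y) (hyw : S₂.B y w = 0)
    {q : V ≃ₗ[F] V} (hqM : q ∈ M) (hq : InQ h w q) {η : End F U}
    (e : ∀ u, q (τ u y) = τ u y + τ (η u) w) {c : F} (hc : c ∈ P₂.Λ) :
    HasE h M (c • η) (c • adj h.nd₁ η) (c • η ∘ₗ adj h.nd₁ η) y w := by
  have hρ := h.R_le hM hy (rootE_mem hc)
  refine ⟨q * rootE _ (h.nu_sq hy) c * q⁻¹ * (rootE _ (h.nu_sq hy) c)⁻¹,
    M.mul_mem (M.mul_mem (M.mul_mem hqM hρ) (M.inv_mem hqM)) (M.inv_mem hρ), fun v => ?_⟩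
  obtain ⟨v, rfl⟩ := (rootE _ (h.nu_sq hy) c).surjective v
  simp only [LinearEquiv.mul_apply, LinearEquiv.coe_inv, LinearEquiv.symm_apply_apply]
  simp [TF.nu_apply, hq.cw_symm_eta e, e, hy.B_self, hyw]
  abel

theorem HasE.add {X X' Y X₁ X₁' Y₁ : End F U} {y w : W} (h1 : HasE h M X X' Y y w)
    (h2 : HasE h M X₁ X₁' Y₁ y w) (hw : S₂.B w w = 0) (hyw : S₂.B y w = 0) (hy : S₂.B y y = 0) :
    HasE h M (X + X₁) (X' + X₁') (Y + Y₁) y w := by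
  obtain ⟨k, hk, e⟩ := h1
  obtain ⟨k', hk', e'⟩ := h2
  refine ⟨k * k', M.mul_mem hk hk', fun v => ?_⟩
  rw [LinearEquiv.mul_apply, e]
  simp [e', hw, hy, hyw, S₂.B_comm_zero hyw]
  abel

theorem HasE.neg {X X' Y : End F U} {y w : W} (h1 : HasE h M X X' Y y w)
    (hw : S₂.B w w = 0) (hyw : S₂.B y w = 0) (hy : S₂.B y y = 0) :
    HasE h M (-X) (-X') (-Y) y w := by
  obtain ⟨k, hk, e⟩ := h1
  refine ⟨k⁻¹, M.inv_mem hk, fun v => ?_⟩
  rw [LinearEquiv.coe_inv, LinearEquiv.symm_apply_eq, e]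
  simp [hw, hy, hyw, S₂.B_comm_zero hyw]
  abel

theorem cw_tens {g : V ≃ₗ[F] V} {a : U ≃ₗ[F] U} {b : W ≃ₗ[F] W}
    (e : ∀ u w, g (τ u w) = τ (a u) (b w)) (hb : b ∈ bis S₂) (y : W) (v : V) :
    h.cw (b y) (g v) = a (h.cw y v) :=
  h.tens.induction v (by simp) (fun u z => by simp [e, hb _ _]) (fun _ _ h1 h2 => by simp [h1, h2])

theorem cw_tens_symm {g : V ≃ₗ[F] V} {a : U ≃ₗ[F] U} {b : W ≃ₗ[F] W}
    (e : ∀ u w, g (τ u w) = τ (a u) (b w)) (hb : b ∈ bis S₂) (y : W) (v : V) :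
    h.cw y (g.symm v) = a.symm (h.cw (b y) v) := by
  rw [LinearEquiv.eq_symm_apply, ← cw_tens e hb]; simp

theorem HasE.conj {X X' Y : End F U} {y w : W} (h1 : HasE h M X X' Y y w) {g : V ≃ₗ[F] V}
    (hg : g ∈ M) {a : U ≃ₗ[F] U} {b : W ≃ₗ[F] W} (e : ∀ u w, g (τ u w) = τ (a u) (b w))
    (hb : b ∈ bis S₂) : HasE h M (cj a X) (cj a X') (cj a Y) (b y) (b w) := by
  obtain ⟨k, hk, ek⟩ := h1
  exact ⟨g * k * g⁻¹, M.mul_mem (M.mul_mem hg hk) (M.inv_mem hg), fun v => by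
    simp [ek, e, cw_tens_symm e hb]⟩

theorem hasQ_conj {X : End F U} {w : W} (h1 : HasQ τ M (X ∘ₗ h.cw w) w) {g : V ≃ₗ[F] V}
    (hg : g ∈ M) {a : U ≃ₗ[F] U} {b : W ≃ₗ[F] W} (e : ∀ u w, g (τ u w) = τ (a u) (b w))
    (hb : b ∈ bis S₂) : HasQ τ M (cj a X ∘ₗ h.cw (b w)) (b w) := by
  obtain ⟨k, hk, ek⟩ := h1
  exact ⟨g * k * g⁻¹, M.mul_mem (M.mul_mem hg hk) (M.inv_mem hg), fun v => by
    simp [ek, e, cw_tens_symm e hb]⟩

theorem inQ_of_sim {w : W} (h0 : w ≠ 0) {k : V ≃ₗ[F] V} (hk : k ∈ sim S)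
    (h1 : ∀ u, k (τ u w) = τ u w) (h2 : ∀ v, h.cw w (k v) = h.cw w v)
    (h3 : ∀ v, h.cw w v = 0 → k v - v ∈ Bw τ w) : InQ h w k := by
  refine ⟨?_, h1, h3⟩
  obtain ⟨m, -, e⟩ := hk
  obtain ⟨u, hu⟩ := exists_ne (0 : U)
  obtain ⟨u', hu'⟩ := h.nd₁.exists_ne hu
  obtain ⟨z, hz⟩ := h.nd₂.exists_eq h0 1
  have := e (τ u' z) (τ u w)
  rw [h1, h.B_tmul, h2, ← h.B_tmul, h.form, hz, mul_one] at this
  have hm : m = 1 := mul_right_cancel₀ hu' (by rw [← this, one_mul])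
  intro x y; rw [e, hm, one_mul]

theorem adj_of_hasQ (hM : M ≤ sim S) {w : W} (hw : S₂.B w w = 0) (h0 : w ≠ 0) {X : End F U}
    (hX : HasQ τ M (X ∘ₗ h.cw w) w) (a b : U) : P₂.ε * S₁.B (X a) b + S₁.B a (X b) = 0 := by
  obtain ⟨k, hk, e⟩ := hX
  have hQ := inQ_of_sim (h := h) h0 (hM hk) (fun u => by simp [e, hw]) (fun v => by simp [e, hw])
    (fun v _ => ⟨_, by rw [e, add_sub_cancel_left]; rfl⟩)
  obtain ⟨z, hz⟩ := h.nd₂.exists_eq h0 1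
  have hz' : S₂.B w z = P₂.ε := by rw [S₂.B_swap, hz]; simp
  have := hQ.bis (τ a z) (τ b z)
  simp [e, h.form, hz, hz', hw] at this
  linear_combination this

section parabolic

theorem par_core (hP : TrP P₂) (h3 : 3 ≤ finrank F W) (hsim : M ≤ sim S) (hM : sisom S₂ ≤ snd τ M)
    {w : W} (hw : S₂.Sing w) (h0 : w ≠ 0) (hQ : ∀ q ∈ M, InQ h w q → q ∈ TStab τ)
    {x : V ≃ₗ[F] V} (hx : x ∈ M) {a : U ≃ₗ[F] U} (ha : ∀ u, x (τ u w) = τ (a u) w) :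
    ∃ μ : F, μ ≠ 0 ∧ P₂.σ μ = μ ∧ ∀ w₁, S₂.B w₁ w = 0 → ∃ z, S₂.B z w = 0 ∧
      S₂.B z z = μ * S₂.B w₁ w₁ ∧ (∃ θ : End F U, ∀ u, x (τ u w₁) = τ (a u) z + τ (θ u) w) ∧
      ∀ v, h.cw w v = 0 → h.cw z (x v) = μ • a (h.cw w₁ v) := by
  have hxw : ∀ u, x (τ u w) ∈ Bw τ w := fun u => ⟨a u, (ha u).symm⟩
  have ha' : ∀ u, x.symm (τ u w) = τ (a.symm u) w := fun u => by
    rw [LinearEquiv.symm_apply_eq, ha]; simp
  have h1 : ∀ y', S₂.B y' w = 0 → ∃ y, ∀ v, h.cw w v = 0 → h.cw y' (x v) = a (h.cw y v) := by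
    intro y' hy'
    obtain ⟨e, he, -, heQ, ee⟩ := exists_eich (h := h) hM hw hy'
    have hQ1 := heQ.conj h0 ((sim S).inv_mem (hsim hx)) (fun u => ⟨_, (ha' u).symm⟩)
    obtain ⟨y, -, ey⟩ := hQ1.exists_of_scalar h0 fun y hy => hQ1.scalar_of_TStab h3 h0
      (hQ _ (M.mul_mem (M.mul_mem (M.inv_mem hx) he) (M.inv_mem (M.inv_mem hx))) hQ1) hy
    refine ⟨y, fun v hv => eq_of_tmul_eq h.tens h0 ?_⟩
    have := congrArg x (ey v hv)
    simpa [ee, (h.cw_stab h0 h0 (hsim hx) hxw).2 hv, ha] using this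
  obtain ⟨u₀, hu₀⟩ := exists_ne (0 : U)
  obtain ⟨ψ, hψ, -⟩ := exists_dual_one (W := (⊥ : Submodule F U)) (x := a u₀) (by simpa using hu₀)
  have hψ' : ∀ y v, S₂.B (h.tens.flip.ctr ψ v) y = ψ (h.cw y v) := fun y v =>
    h.tens.flip.induction v (by simp) (fun z u => by
      rw [h.tens.flip.ctr_apply]; simp [mul_comm]) (fun _ _ h1 h2 => by simp [h1, h2])
  have h2 : ∀ w₁, S₂.B w₁ w = 0 → ∃ z, S₂.B z w = 0 ∧
      ∃ θ : End F U, ∀ u, x (τ u w₁) = τ (a u) z + τ (θ u) w := by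
    intro w₁ hw₁
    have hp : ∀ u, h.cw w (τ u w₁) = 0 := fun u => by simp [hw₁]
    refine ⟨h.tens.flip.ctr ψ (x (τ u₀ w₁)), by
      rw [hψ', (h.cw_stab h0 h0 (hsim hx) hxw).2 (hp u₀), map_zero], ?_⟩
    have h4 : ∀ u, x (τ u w₁) - τ (a u) (h.tens.flip.ctr ψ (x (τ u₀ w₁))) ∈ Bw τ w := fun u =>
      h.mem_Bw_of_cw h0 fun y' hy' => by
        obtain ⟨y, e⟩ := h1 y' (S₂.B_comm_zero hy')
        simp [e _ (hp _), hψ', hψ]
    obtain ⟨z, hz⟩ := h.nd₂.exists_eq h0 1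
    have hz' : S₂.B w (P₂.ε • z) = 1 := by rw [PQ.B_smul_right, S₂.B_swap, hz]; simp
    refine ⟨h.cw (P₂.ε • z) ∘ₗ ((x : V →ₗ[F] V) ∘ₗ τ.flip w₁ -
      τ.flip (h.tens.flip.ctr ψ (x (τ u₀ w₁))) ∘ₗ (a : U →ₗ[F] U)), fun u => ?_⟩
    obtain ⟨u', hu'⟩ := h4 u
    simp only [LinearMap.flip_apply] at hu'
    simp only [LinearMap.comp_apply, LinearMap.flip_apply, LinearMap.sub_apply, LinearEquiv.coe_coe,
      ← hu', h.cw_apply, hz', one_smul]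
    rw [hu']; simp
  obtain ⟨m, hm, em⟩ := hsim hx
  obtain ⟨y₁, hy₁, hy₁'⟩ := exists_mem_notMem_of_finrank_lt (U := S₂.perp (F ∙ w))
    (W := F ∙ w) (by
      have := h.nd₂.finrank_perp (F ∙ w)
      have := finrank_span_singleton_le (F := F) w
      omega)
  obtain ⟨y₂, hy₂, h12⟩ := h.nd₂.exists_perp_eq hy₁' 1
  rw [S₂.mem_perp_span_singleton] at hy₁ hy₂
  obtain ⟨z₁, hz₁, θ₁, e₁⟩ := h2 y₁ hy₁
  obtain ⟨z₂, hz₂, θ₂, e₂⟩ := h2 y₂ hy₂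
  have h5 : ∀ u u', S₁.B (a u) (a u') * S₂.B z₁ z₂ = m * S₁.B u u' := fun u u' => by
    have := em (τ u y₁) (τ u' y₂)
    simpa [e₁, e₂, h.form, hz₁, S₂.B_comm_zero hz₂, hw.B_self, h12] using this
  obtain ⟨u₁, hu₁⟩ := h.nd₁.exists_ne hu₀
  have hμ : S₂.B z₁ z₂ ≠ 0 := fun e => by
    have := h5 u₁ u₀
    rw [e, mul_zero] at this
    exact mul_ne_zero hm hu₁ this.symm
  have hau : S₁.B (a u₁) (a u₀) ≠ 0 := fun e => by
    have := h5 u₁ u₀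
    rw [e, zero_mul] at this
    exact mul_ne_zero hm hu₁ this.symm
  have h6 : ∀ {w₁ w₂ z z' : W} {θ θ' : End F U}, S₂.B z w = 0 → S₂.B z' w = 0 →
      (∀ u, x (τ u w₁) = τ (a u) z + τ (θ u) w) → (∀ u, x (τ u w₂) = τ (a u) z' + τ (θ' u) w) →
      S₂.B z z' = S₂.B z₁ z₂ * S₂.B w₁ w₂ := by
    intro w₁ w₂ z z' θ θ' hz hz' e e'
    have := em (τ u₁ w₁) (τ u₀ w₂)
    simp only [e, e', h.form, hz, S₂.B_comm_zero hz', hw.B_self, PQ.B_add_left, PQ.B_add_right,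
      mul_zero, add_zero] at this
    apply mul_left_cancel₀ hau
    linear_combination this - S₂.B w₁ w₂ * h5 u₁ u₀
  refine ⟨S₂.B z₁ z₂, hμ, ?_, fun w₁ hw₁ => ?_⟩
  · have := h6 hz₂ hz₁ e₂ e₁
    rw [S₂.σ_B, this, S₂.B_swap y₁ y₂, h12]; simp [mul_comm]
  obtain ⟨z, hz, θ, e⟩ := h2 w₁ hw₁
  refine ⟨z, hz, h6 hz hz e e, ⟨θ, e⟩, fun v hv => h.nd₁.ext_left fun u => ?_⟩
  obtain ⟨u, rfl⟩ := a.surjective u
  have := em v (τ u w₁)
  rw [e, PQ.B_add_right, h.B_tmul, h.B_tmul, h.B_tmul, (h.cw_stab h0 h0 (hsim hx) hxw).2 hv] at this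
  rw [PQ.B_smul_left]
  linear_combination this - h5 (h.cw w₁ v) u - S₁.B_zero_left (θ u)

theorem par_step (hP : TrP P₂) (h3 : 3 ≤ finrank F W) (hsim : M ≤ sim S) (hM : sisom S₂ ≤ snd τ M)
    {w : W} (hw : S₂.Sing w) (h0 : w ≠ 0) (hQ : ∀ q ∈ M, InQ h w q → q ∈ TStab τ)
    {x : V ≃ₗ[F] V} (hx : x ∈ M) {a : U ≃ₗ[F] U} (ha : ∀ u, x (τ u w) = τ (a u) w)
    {w₁ : W} (hw₁ : S₂.Sing w₁) (h1 : S₂.B w₁ w = 0) : ∃ z, ∀ u, x (τ u w₁) = τ (a u) z := by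
  by_cases hm : w₁ ∈ F ∙ w
  · obtain ⟨c, rfl⟩ := Submodule.mem_span_singleton.1 hm
    exact ⟨c • w, fun u => by simp [ha]⟩
  obtain ⟨μ, hμ, hσ, H⟩ := par_core hP h3 hsim hM hw h0 hQ hx ha
  obtain ⟨z, hz, hzz, ⟨θ, e⟩, ez⟩ := H w₁ h1
  have hzs : S₂.Sing z := (hP.sing_iff S₂ z).2 (by rw [hzz, hw₁.B_self, mul_zero])
  have hxw : ∀ u, x (τ u w) ∈ Bw τ w := fun u => ⟨a u, (ha u).symm⟩
  have ha' : ∀ u, x.symm (τ u w) = τ (a.symm u) w := fun u => by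
    rw [LinearEquiv.symm_apply_eq, ha]; simp
  have hzw : z ∉ F ∙ w := by
    intro hm'
    obtain ⟨c, rfl⟩ := Submodule.mem_span_singleton.1 hm'
    obtain ⟨u, hu⟩ := exists_ne (0 : U)
    have h2 : τ u w₁ = τ (a.symm (c • a u + θ u)) w := by
      rw [← ha', LinearEquiv.eq_symm_apply, e]; simp
    exact hm (h.tens.flip.mem_span_of_eq (a := w₁) (a' := w) hu h2)
  obtain ⟨c, hc, hc0⟩ := hP.ex
  have hc' : -(c / μ) ∈ P₂.Λ := hP.mem_of _ (by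
    rw [map_neg, map_div₀, hσ, σ_of_mem hc]; field_simp; linear_combination c * P₂.εε)
  have hρ := rootE_mem (hν := h.nu_sq hw₁) hc
  have hρ' := rootE_mem (hν := h.nu_sq hzs) hc'
  have hk : ∀ v, h.cw w v = 0 → (x * rootE _ (h.nu_sq hw₁) c * x⁻¹ * rootE _ (h.nu_sq hzs) (-(c / μ))) v =
      v + τ ((c / μ) • θ (a.symm (h.cw z v))) w := fun v hv => by
    set v' := rootE _ (h.nu_sq hzs) (-(c / μ)) v with hv'
    have h2 : h.cw w v' = 0 := by simp [hv', TF.nu_apply, hv, hz]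
    have h4 : h.cw z v' = h.cw z v := by simp [hv', TF.nu_apply, hzs.B_self]
    have h5 := ez (x.symm v') ((h.cw_stab h0 h0 (hsim hx) hxw).1 (by simpa using h2))
    rw [LinearEquiv.apply_symm_apply, h4] at h5
    have h6 : h.cw w₁ (x.symm v') = μ⁻¹ • a.symm (h.cw z v) := by rw [h5]; simp [hμ]
    simp only [LinearEquiv.mul_apply, ← hv', LinearEquiv.coe_inv, rootE_apply, TF.nu_apply, h6,
      map_add, map_smul, LinearEquiv.apply_symm_apply, e, LinearMap.smul_apply]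
    simp only [hv', rootE_apply, TF.nu_apply, div_eq_mul_inv]
    module
  have hkQ : InQ h w (x * rootE _ (h.nu_sq hw₁) c * x⁻¹ * rootE _ (h.nu_sq hzs) (-(c / μ))) :=
    ⟨mul_mem (conj_mem_bis (hsim hx) (h.R_le_bis hw₁ hρ)) (h.R_le_bis hzs hρ'),
      fun u => by rw [hk _ (by simp [hw.B_self])]; simp [S₂.B_comm_zero hz],
      fun v hv => ⟨_, by rw [hk v hv, add_sub_cancel_left]; rfl⟩⟩
  obtain ⟨y, hy, hyz⟩ := h.nd₂.exists_perp_eq hzw P₂.ε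
  have hy := S₂.mem_perp_span_singleton.1 hy
  have hyz' : S₂.B y z = 1 := by rw [S₂.B_swap, hyz]; simp
  obtain ⟨t, ht⟩ := hkQ.scalar_of_TStab h3 h0 (hQ _ (M.mul_mem (M.mul_mem (M.mul_mem hx
    (h.R_le hM hw₁ hρ)) (M.inv_mem hx)) (h.R_le hM hzs hρ')) hkQ) hy
  refine ⟨z + (μ / c * t) • w, fun u => ?_⟩
  have := ht (a u)
  rw [hk _ (by simp [hy])] at this
  simp [hyz'] at this
  rw [e, map_add, map_smul, mul_smul, ← this, smul_smul]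
  field_simp; simp

/-- The parabolic analysis for a second factor of dimension at least four. -/
theorem parabolic (hP : TrP P₂) (h4 : 4 ≤ finrank F W) (hsim : M ≤ sim S) (hM : sisom S₂ ≤ snd τ M)
    (hQ : ∀ w, S₂.Sing w → w ≠ 0 → ∀ q ∈ M, InQ h w q → q ∈ TStab τ)
    {w : W} (hw : S₂.Sing w) (h0 : w ≠ 0) {x : V ≃ₗ[F] V} (hx : x ∈ M)
    (hxw : ∀ u, x (τ u w) ∈ Bw τ w) : x ∈ TStab τ := by
  obtain ⟨a, ha⟩ := exists_of_map_Bw h.tens h0 h0 hxw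
  have key : ∀ {w w' : W}, S₂.Sing w → w ≠ 0 → (∀ u, x (τ u w) = τ (a u) w') →
      ∀ w₁, S₂.Sing w₁ → S₂.B w₁ w = 0 → ∃ z, ∀ u, x (τ u w₁) = τ (a u) z := by
    intro w w' hw h0 ha w₁ hw₁ h1
    obtain ⟨u₀, hu₀⟩ := exists_ne (0 : U)
    have h0' : w' ≠ 0 := by
      rintro rfl
      exact h.tens.ne_zero hu₀ h0 (by simpa using ha u₀)
    have hw' : S₂.Sing w' := by
      obtain ⟨u₁, hu₁⟩ := h.nd₁.exists_ne (x := a u₀) (by simpa using hu₀)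
      obtain ⟨u₁, rfl⟩ := a.surjective u₁
      have := (sim_perp (hsim hx) (x := τ u₁ w) (y := τ u₀ w)).2 (by simp [h.form, hw.B_self])
      rw [ha, ha, h.form] at this
      exact (hP.sing_iff S₂ w').2 ((mul_eq_zero.1 this).resolve_left hu₁)
    obtain ⟨n, hn, -, b, -, en, c, hc, e⟩ := exists_move h hP hM hM (by omega) hw' hw h0' h0
    obtain ⟨z, hz⟩ := par_step hP (by omega) hsim hM hw h0 (hQ w hw h0) (M.mul_mem hn hx)
      (a := a.trans (LinearEquiv.smulOfNeZero F U c hc)) (fun u => by simp [ha, en, e]) hw₁ h1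
    refine ⟨c • b.symm z, fun u => n.injective ?_⟩
    simpa [en] using hz u
  let Y : Submodule F W :=
    { carrier := {y | ∃ z, ∀ u, x (τ u y) = τ (a u) z}
      add_mem' := by
        rintro y y' ⟨z, e⟩ ⟨z', e'⟩
        exact ⟨z + z', fun u => by simp [e, e']⟩
      zero_mem' := ⟨0, by simp⟩
      smul_mem' := by
        rintro c y ⟨z, e⟩
        exact ⟨c • z, fun u => by simp [e]⟩ }
  have hY : Y = ⊤ := by
    by_contra hne
    obtain ⟨d, hd, hdY, -⟩ := hP.exists_sing_notMem h.nd₂ (by omega) hne hne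
    obtain ⟨y, hy0, hy, h1, h2⟩ := exists_sing_perp_two hP h.nd₂ h4 w d
    obtain ⟨z, hz⟩ := key hw h0 ha y hy (S₂.B_comm_zero h1)
    exact hdY (key hy hy0 hz d hd h2)
  exact mem_TStab_of h.tens a fun y => (hY ▸ Submodule.mem_top : y ∈ Y)

end parabolic

end Cfsg.Agent.H3.TenPar
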