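import Cfsg.Agent.H3.OrthLem
import Cfsg.Agent.H7.Sp1

/-!
`O ⊗ Sp` in `Sp`: fusion of root elements and extraction of transvections.
-/

set_option autoImplicit false
set_option linter.unusedSectionVars false

namespace Cfsg.Agent.H3.TenSpO1

open Module Cfsg.Agent.H7 Cfsg.Agent.Form Cfsg.Agent.H3.TenLin Cfsg.Agent.H3.RootGeo
  Cfsg.Agent.H3.TenForm Cfsg.Agent.H3.TenGeo Cfsg.Agent.H3.TenPar Cfsg.Agent.H3.TenGlue
  Cfsg.Agent.H3.TenSU Cfsg.Agent.H3.OrthLem

variable {F : Type*} [Field F] {V : Type*} [AddCommGroup V] [Module F V]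
  {U : Type*} [AddCommGroup U] [Module F U] {W : Type*} [AddCommGroup W] [Module F W]
  {τ : U →ₗ[F] W →ₗ[F] V} {M : Subgroup (V ≃ₗ[F] V)}

/-- A quadratic unipotent tensor in odd characteristic is trivial on one factor. -/
theorem quad_tens (h : IsTens τ) (h2 : (2 : F) ≠ 0) {t : V ≃ₗ[F] V} (ht : t ∈ TStab τ)
    (hq : ∀ v, t (t v) = (2 : F) • t v - v) : (∃ b : End F W, ∀ u y, t (τ u y) = τ u (b y)) ∨
      ∃ a : End F U, ∀ u y, t (τ u y) = τ (a u) y := by
  obtain ⟨a, b, e⟩ := ht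
  by_cases ha : ∀ u, a u ∈ F ∙ u
  · obtain ⟨c, hc⟩ := scalar_of_forall_mem_span (a : U →ₗ[F] U) ha
    exact Or.inl ⟨c • (b : End F W), fun u y => by rw [e, show a u = c • u from hc u]; simp⟩
  by_cases hb : ∀ y, b y ∈ F ∙ y
  · obtain ⟨c, hc⟩ := scalar_of_forall_mem_span (b : W →ₗ[F] W) hb
    exact Or.inr ⟨c • (a : End F U), fun u y => by rw [e, show b y = c • y from hc y]; simp⟩
  push Not at ha hb
  obtain ⟨u, hu⟩ := ha
  obtain ⟨y, hy⟩ := hb
  obtain ⟨φ, h1, h1'⟩ := exists_dual_pair hy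
  obtain ⟨ψ, h3, -⟩ := exists_dual_one (W := (⊥ : Submodule F W)) (x := y) (by
    rintro rfl; simp at hy)
  have k := hq (τ u y)
  rw [e, e] at k
  have k1 := congrArg (h.ctr φ) k
  have k2 := congrArg (h.ctr (ψ - ψ (b y) • φ)) k
  simp [h1, h1', h3] at k1 k2
  set s := ψ (b (b y)) - ψ (b y) * φ (b (b y))
  have hs : s ≠ 0 := by
    rintro e; rw [e, zero_smul, eq_comm, neg_eq_zero] at k2
    simp [k2] at hu
  refine (hu (Submodule.mem_span_singleton.2 ⟨-(φ (b (b y)) / (2 * s)), ?_⟩)).elim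
  apply smul_right_injective U (mul_ne_zero h2 hs)
  simp only [smul_smul, mul_neg, mul_div_cancel₀ _ (mul_ne_zero h2 hs)]
  linear_combination (norm := module) s • k1 - φ (b (b y)) • k2

section gen
variable {P P₁ P₂ : FP F} {S₁ : PQ P₁ U} {S₂ : PQ P₂ W} {S : PQ P V}

theorem comm_nu [Nontrivial U] (h : TF S₁ S₂ S τ) {w : W} (h0 : w ≠ 0) {x : V ≃ₗ[F] V}
    (hx : x ∈ sim S) (hT : x ∈ TStab τ) (hxw : ∀ u, x (τ u w) ∈ Bw τ w) :
    ∃ s : F, ∀ v, x (h.nu w v) = s • h.nu w (x v) := by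
  have : Nontrivial W := ⟨⟨w, 0, h0⟩⟩
  obtain ⟨a, b, e⟩ := hT
  obtain ⟨m, hm, em⟩ := h.sim_of_tens hx e
  obtain ⟨u, hu⟩ := exists_ne (0 : U)
  obtain ⟨u', hu'⟩ := hxw u
  rw [e] at hu'
  obtain ⟨β, hβ⟩ := Submodule.mem_span_singleton.1
    (h.tens.flip.mem_span_of_eq (a := b w) (a' := w) (b := a u) (by simpa using hu) hu'.symm)
  refine ⟨β * P₂.σ β / m, fun v => h.tens.induction v (by simp) (fun u y => ?_)
    (fun _ _ h1 h2 => by simp only [map_add, h1, h2, smul_add])⟩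
  have := em y w
  rw [← hβ, PQ.B_smul_right] at this
  simp only [TF.nu_apply, TF.cw_apply, map_smul, LinearMap.smul_apply, e, ← hβ, smul_smul]
  congr 1
  field_simp
  linear_combination -β * this

theorem B_nu (h : TF S₁ S₂ S τ) (w : W) (x y : V) :
    S.B (h.nu w x) y = P₂.ε * S.B x (h.nu w y) := by
  rw [S.B_swap, h.nu_apply, h.nu_apply, h.B_tmul, h.B_tmul, S₁.B_swap (h.cw w y), h.ε, h.σ₁]
  ring

theorem B_cj {g : V ≃ₗ[F] V} (hg : g ∈ S.isom) {ν : End F V} {c : F}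
    (h : ∀ x y, S.B (ν x) y = c * S.B x (ν y)) (x y : V) :
    S.B (cj g ν x) y = c * S.B x (cj g ν y) := by
  rw [cj_apply, cj_apply, PQ.B_isom_symm hg, h, ← PQ.B_isom hg, LinearEquiv.apply_symm_apply]

end gen

variable [FiniteDimensional F U] [FiniteDimensional F W] [FiniteDimensional F V]
  {S₁ : PQ (FP.orth F) U} {S₂ : PQ (FP.symp F) W} {S : PQ (FP.symp F) V}

theorem tc_mem (h : TF S₁ S₂ S τ) (hT : ∀ g ∈ S.isom, g ∈ TStab τ → g ∈ M) {a : U ≃ₗ[F] U}
    {b : W ≃ₗ[F] W} (ha : a ∈ S₁.isom) (hb : b ∈ S₂.isom) : h.tens.tcongr a b ∈ M :=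
  hT _ ((S.symp_mem_isom _).2 (h.tens_mem_bis (h.tens.tcongr_apply a b) (isom_le_bis ha)
    (isom_le_bis hb))) (tcongr_mem _ _ _)

theorem le_snd₂ (h : TF S₁ S₂ S τ) (hT : ∀ g ∈ S.isom, g ∈ TStab τ → g ∈ M) :
    sisom S₂ ≤ snd τ M := fun b hb =>
  ⟨_, tc_mem h hT (one_mem _) hb.1, h.tens.tcongr_apply 1 b⟩

theorem le_snd₁ (h : TF S₁ S₂ S τ) (hT : ∀ g ∈ S.isom, g ∈ TStab τ → g ∈ M) :
    sisom S₁ ≤ snd τ.flip M := fun a ha =>
  ⟨_, tc_mem h hT ha.1 (one_mem _), fun y u => h.tens.tcongr_apply a 1 u y⟩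

theorem isom_le_sim {P : FP F} {S : PQ P V} (hM : M ≤ S.isom) : M ≤ sim S :=
  fun _ hg => bis_le_sim (isom_le_bis (hM hg))

/-- Fusion of root elements. -/
theorem fus (h : TF S₁ S₂ S τ) (h2 : (2 : F) ≠ 0) (h3 : 3 ≤ finrank F U) (hM : M ≤ S.isom)
    (hM₁ : sisom S₁ ≤ snd τ.flip M) (hW : 3 ≤ finrank F W ∨ finrank F W = 2 ∧
      (finrank F U = 4 → ∀ Y, S₁.TS Y → finrank F Y < 2)) {w : W} (h0 : w ≠ 0)
    (stab : ∀ x ∈ M, (∀ u, x (τ u w) ∈ Bw τ w) → x ∈ TStab τ) {g : V ≃ₗ[F] V} (hg : g ∈ M)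
    {hw : S₂.Sing w} {ρ : V ≃ₗ[F] V} (hρ : ρ ∈ h.R hw) (h1 : ρ ≠ 1) (hT : g * ρ * g⁻¹ ∈ TStab τ) :
    ∃ b : End F W, ∀ u y, (g * ρ * g⁻¹) (τ u y) = τ u (b y) := by
  have : Nontrivial U := Module.nontrivial_of_finrank_pos (R := F) (by omega)
  have : Nontrivial W := ⟨⟨w, 0, h0⟩⟩
  obtain ⟨c, -, ec⟩ := conj_mem_RG (g := g) hρ
  have hc : c ≠ 0 := by
    rintro rfl
    have : g * ρ * g⁻¹ = 1 := LinearEquiv.ext fun v => by simpa using ec v
    exact h1 (by calc ρ = g⁻¹ * (g * ρ * g⁻¹) * g := by group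
      _ = 1 := by rw [this]; group)
  set μ := cj g (h.nu w) with hμ
  have hμ2 : ∀ v, μ (μ v) = 0 := cj_sq g (h.nu_sq hw)
  refine (quad_tens h.tens h2 hT fun v => by
    rw [ec, ec, map_add, map_smul, hμ2]; module).resolve_right ?_
  rintro ⟨a, ea⟩
  set N := c⁻¹ • (a - 1) with hN
  have eN : ∀ u y, μ (τ u y) = τ (N u) y := fun u y => by
    have := ea u y
    rw [ec] at this
    simp [hN, ← this, smul_smul, hc]
  have sk : ∀ x y, S.B (μ x) y = -1 * S.B x (μ y) := B_cj (hM hg) (B_nu h w)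
  obtain ⟨z, hz⟩ := h.nd₂.exists_eq h0 1
  have skN : ∀ x y, S₁.B (N x) y = -S₁.B x (N y) := fun x y => by
    simpa [eN, h.form, hz] using sk (τ x z) (τ y w)
  have N2 : ∀ x, N (N x) = 0 := fun x => (h.tens.eq_zero (b := w) (by
    rw [← eN, ← eN, hμ2])).resolve_right h0
  have sN : ∀ x, S₁.Sing (N x) := fun x => (S₁.orth_sing _).2 (mul_left_cancel₀ h2 (by
    rw [← S₁.orth_B_self, skN, N2]; simp))
  have key : ∀ y₀ y, S₁.B y (N y₀) = 0 → ∃ e ∈ M, g⁻¹ * e * g ∈ TStab τ ∧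
      (∀ v, h.cw w v = 0 → (g⁻¹ * e * g) v - v ∈ Bw τ w) ∧ ∃ s : F, ∀ x y',
        e (τ x y') = τ (x + s • S₁.B x (N y₀) • N y₀ + S₁.B x y • N y₀ - S₁.B x (N y₀) • y) y' := by
    intro y₀ y hy
    obtain ⟨e, he, -, hQ, ee⟩ := exists_eich (h := h.flip) hM₁ (sN y₀) hy
    have k : ∀ v, h.cw w v = 0 → (g⁻¹ * e * g) v - v ∈ Bw τ w := fun v hv => by
      obtain ⟨y', hy'⟩ := hQ.sub (g v) (h.flip.cw_eq_zero_iff.2 fun y' => by
        have := sk (g v) (τ y₀ y')
        rw [eN] at this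
        simpa [hμ, TF.nu_apply, hv] using this.symm)
      rw [← h.range_nu h0]
      refine ⟨g.symm (τ y₀ y'), g.injective ?_⟩
      simpa [← hy', hμ] using eN y₀ y'
    refine ⟨e, he, stab _ (M.mul_mem (M.mul_mem (M.inv_mem hg) he) hg) fun u => ?_, k,
      -S₁.Q y, fun x y' => ?_⟩
    · simpa using add_mem (k (τ u w) (by simp)) (tmul_mem_Bw u w)
    · have := ee (τ.flip y' x)
      simp only [TF.cw_apply] at this
      simp only [LinearMap.flip_apply] at this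
      rw [this]; simp; module
  obtain ⟨x₀, hx₀⟩ : ∃ x, N x ≠ 0 := by
    by_contra hc
    push Not at hc
    refine h.nu_ne_zero h0 (LinearMap.ext fun v => ?_)
    have : μ = 0 := h.tens.ext fun u y => by simp [eN, hc]
    simpa [hμ] using LinearMap.congr_fun this (g v)
  have hA : ∀ x y, ∃ u, g (τ u w) = τ (N x) y := fun x y => ⟨h.cw w (g.symm (τ x y)), eN x y⟩
  rcases hW with hW | ⟨hW, hU⟩
  · obtain ⟨y, hy⟩ := h.nd₁.exists_ne hx₀
    have hyy : S₁.B y (N y) = 0 := mul_left_cancel₀ h2 (by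
      linear_combination skN y y + S₁.orth_B_swap (N y) y)
    have hy0 : N y ≠ 0 := fun e => hy (by simpa [e] using skN y x₀)
    obtain ⟨e, -, hT', k, s, ee⟩ := key y y hyy
    obtain ⟨y₁, hy₁, hy₁'⟩ := exists_mem_notMem_of_finrank_lt (U := S₂.perp (F ∙ w))
      (W := F ∙ w) (by
        have := h.nd₂.finrank_perp (F ∙ w)
        have := finrank_span_singleton_le (F := F) w
        omega)
    obtain ⟨φ, hφ1, hφ2⟩ := exists_dual_pair hy₁'
    obtain ⟨b, eb⟩ := exists_snd_of h.tens hT' hφ1 fun u => ctr_Bw h.tens hφ2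
      (k _ (by simp [S₂.mem_perp_span_singleton.1 hy₁]))
    obtain ⟨u₁, hu₁⟩ := hA y w
    obtain ⟨u₂, hu₂⟩ := hA x₀ w
    have e1 := congrArg g (eb u₁ w)
    have e2 := congrArg g (eb u₂ w)
    simp [hu₁, hu₂, ee, skN, N2, hyy, S₁.B_comm_zero hyy] at e1 e2
    rw [← hu₁, g.injective.eq_iff] at e1
    have e3 : b w = w := (h.tens.flip.left_inj (b := u₁) (by
      rintro rfl; exact h.tens.ne_zero hy0 h0 (by simpa using hu₁.symm)) e1).symm
    rw [e3, hu₂] at e2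
    refine hy ?_
    have e4 : S₁.B x₀ (N y) = 0 := by simpa [h.tens.ne_zero hy0 h0] using e2
    rw [S₁.orth_B_swap, skN, e4, neg_zero]
  · have hr : 3 ≤ finrank F (LinearMap.range N) := by
      have k1 : S₁.TS (LinearMap.range N) := (S₁.orth_ts _).2 (by
        rintro _ ⟨x, rfl⟩; exact (S₁.orth_sing _).1 (sN x))
      have k2 : LinearMap.ker N ≤ LinearMap.range N := fun x hx => by
        obtain ⟨u, hu⟩ := h.mem_Bw_of_cw h0 (v := g.symm (τ x w)) fun y hy => by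
          have e1 : S₂.perp (F ∙ w) = F ∙ w := (Submodule.eq_of_le_of_finrank_le (by
            rw [Submodule.span_singleton_le_iff_mem, S₂.mem_perp_span_singleton]; simp) (by
            have := h.nd₂.finrank_perp (F ∙ w)
            rw [finrank_span_singleton h0] at *
            omega)).symm
          obtain ⟨t, rfl⟩ := Submodule.mem_span_singleton.1
            (e1 ▸ S₂.mem_perp_span_singleton.2 (S₂.B_comm_zero hy))
          have := eN x w
          rw [LinearMap.mem_ker.1 hx] at this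
          rw [h.cw_smul, (h.nu_eq_zero_iff h0).1 (by simpa [hμ] using this), smul_zero]
        have e2 : τ x w = μ (g (τ u z)) := by
          simp only [LinearMap.flip_apply] at hu
          simp [hμ, TF.nu_apply, hz, hu]
        have e3 : ∀ v, h.cw z (μ v) = N (h.cw z v) := fun v => h.tens.induction v (by simp)
          (fun _ _ => by simp [eN]) (fun _ _ h1 h2 => by simp only [map_add, h1, h2])
        have := e3 (g (τ u z))
        rw [← e2, h.cw_apply, S₂.symp_B_swap, hz] at this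
        exact ⟨-h.cw z (g (τ u z)), by rw [map_neg, ← this]; simp⟩
      have k3 := k1.two_mul_finrank_le h.nd₁
      have k4 := Submodule.finrank_mono k2
      have k5 := LinearMap.finrank_range_add_finrank_ker N
      by_contra hc
      have := hU (by omega) _ k1
      omega
    obtain ⟨_, ⟨⟨y, rfl⟩, hy⟩, hy'⟩ := exists_mem_notMem_of_finrank_lt
      (U := LinearMap.range N ⊓ LinearMap.ker (S₁.lin x₀)) (W := F ∙ N x₀) (by
        have := finrank_le_finrank_inf_ker (LinearMap.range N) (S₁.lin x₀)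
        have := finrank_span_singleton_le (F := F) (N x₀)
        omega)
    obtain ⟨e, he, hT', k, s, ee⟩ := key x₀ y (by simpa [skN] using hy)
    obtain ⟨t, ht⟩ := comm_nu h h0 (isom_le_sim hM (M.mul_mem (M.mul_mem (M.inv_mem hg) he) hg)) hT'
      fun u => by simpa using add_mem (k (τ u w) (by simp)) (tmul_mem_Bw u w)
    have k1 : ∀ x, N x + S₁.B (N x) y • N x₀ = t • (N x - S₁.B x (N x₀) • N y) := fun x => by
      have e1 : e (μ (τ x w)) = t • μ (e (τ x w)) := by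
        simpa [hμ] using congrArg g (ht (g.symm (τ x w)))
      rw [eN, ee, ee, eN] at e1
      apply eq_of_tmul_eq h.tens h0
      simpa [N2, skN x (N x₀)] using e1
    obtain ⟨_, ⟨x, rfl⟩, hx⟩ := exists_mem_notMem_of_finrank_lt (U := LinearMap.range N)
      (W := Submodule.span F {N x₀, N y}) (by
        have := finrank_span_pair_le (F := F) (N x₀) (N y); omega)
    have ht1 : t = 1 := by
      by_contra ht1
      refine hx ((Submodule.smul_mem_iff _ (sub_ne_zero.2 ht1)).1 (Submodule.mem_span_pair.2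
        ⟨S₁.B (N x) y, t * S₁.B x (N x₀), ?_⟩))
      linear_combination (norm := module) k1 x
    obtain ⟨x₁, hx₁⟩ := h.nd₁.exists_eq hx₀ 1
    refine hy' (Submodule.mem_span_singleton.2 ⟨-S₁.B (N x₁) y, ?_⟩)
    have := k1 x₁
    rw [ht1, hx₁] at this
    linear_combination (norm := module) -this

theorem sp_trans' (hS : S₂.Nondeg) {x y : W} (hx : x ≠ 0) (hy : y ≠ 0) : ∃ g ∈ sisom S₂, g x = y := by
  rw [sisom_eq_symp hS]; exact exists_isom_sing hS trivial trivial hx hy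

/-- The centre of the unipotent radical as a subspace. -/
def Zm (h : TF S₁ S₂ S τ) (h2 : (2 : F) ≠ 0) (hM : sisom S₂ ≤ snd τ M) {w : W} (h0 : w ≠ 0)
    [Nontrivial U] : Submodule F (End F U) where
  __ := Zs h M (sB_self w)
  smul_mem' := fun a X hX => by
    have key : ∀ c : F, (c * c) • X ∈ Zs h M (sB_self w) := fun c => by
      by_cases hc : c = 0
      · simp [hc]
      obtain ⟨b, hb, e⟩ := sp_trans' h.nd₂ h0 (smul_ne_zero hc h0)
      exact Zs_map _ hX hM hb e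
    have := sub_mem (key ((a + 1) / 2)) (key ((a - 1) / 2))
    rwa [← sub_smul, show (a + 1) / 2 * ((a + 1) / 2) - (a - 1) / 2 * ((a - 1) / 2) = a by
      field_simp; ring] at this

theorem exists_nonscalar [Nontrivial U] (h : TF S₁ S₂ S τ) (h2 : (2 : F) ≠ 0) (h3 : 3 ≤ finrank F U)
    (hM : M ≤ S.isom) (hT : ∀ g ∈ S.isom, g ∈ TStab τ → g ∈ M) {w : W} (h0 : w ≠ 0)
    {q : V ≃ₗ[F] V} (hq : q ∈ M) (hQ : InQ h w q) (hqT : q ∉ TStab τ) :
    ∃ X ∈ Zs h M (sB_self w), ∀ c : F, X ≠ c • LinearMap.id := by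
  have hM₂ := le_snd₂ h hT
  refine (exists_Z_or_eta hM₂ (S₂.symp_sing w) h0 hq hQ hqT).elim id fun ⟨y, hy, η, e, hη⟩ => ?_
  by_contra hc
  push Not at hc
  obtain ⟨c, h1⟩ := hc _ (hasQ_eta hM₂ (S₂.symp_sing w) hy hq hQ e)
  have hyw : y ∉ F ∙ w := fun hm => by
    obtain ⟨t, rfl⟩ := Submodule.mem_span_singleton.1 hm
    refine hη 0 (LinearMap.ext fun u => ?_)
    simpa using (h.tens.eq_zero (a := η u) (b := w) (by simpa [hQ.fix] using e u)).resolve_right h0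
  set η₀ := η - (c / 2) • LinearMap.id with hη₀
  have h4 : adj h.nd₁ η = c • LinearMap.id - η := by rw [← h1]; simp
  have sk : ∀ a b, S₁.B (η₀ a) b = -S₁.B a (η₀ b) := fun a b => by
    have := B_adj h.nd₁ η a b
    rw [h4] at this
    simp [hη₀] at this ⊢
    field_simp
    linear_combination -2 * this
  obtain ⟨u, -, hu, hx⟩ := exists_nonsing_notMem h2 (S₁.nondegOn_top.2 h.nd₁)
    (Y := LinearMap.ker η₀) fun hle => hη (c / 2) (sub_eq_zero.1 (LinearMap.ker_eq_top.1 (top_le_iff.1 hle)))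
  set x := η₀ u with hxd
  have hxu : S₁.B x u = 0 := mul_left_cancel₀ h2 (by
    linear_combination sk u u + S₁.orth_B_swap u (η₀ u))
  let D : End F U := (S₁.Q u)⁻¹ • (rk S₁ u x - rk S₁ x u)
  have hD : η - cj (rf S₁ hu) η = D := by
    ext v
    have e1 : ∀ v, η v = η₀ v + (c / 2) • v := fun v => by simp [hη₀]
    simp [D, e1, ← hxd, sk v u, hxu, S₁.orth_B_self]
    match_scalars <;> field_simp <;> ring
  obtain ⟨Y, hE⟩ : ∃ Y, HasE h M D (-D) Y y w := by
    have k1 := hasE_of_eta hM₂ (S₂.symp_sing y) hy hq hQ e (c := 1) trivial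
    have k2 := k1.conj (tc_mem h hT (rf_mem hu) (one_mem _)) (h.tens.tcongr_apply _ _) (one_mem _)
    have k3 := k1.add (k2.neg (sB_self _) hy (sB_self _)) (sB_self _) hy (sB_self _)
    rw [one_smul, one_smul, ← sub_eq_add_neg, hD, show adj h.nd₁ η + -cj (rf S₁ hu) (adj h.nd₁ η) = -D by
      rw [← hD, h4]; ext v; simp [-rf_apply, -rf_symm_apply]] at k3
    exact ⟨_, k3⟩
  obtain ⟨z, hz, hyz⟩ := h.nd₂.exists_perp_eq hyw 1
  rw [S₂.mem_perp_span_singleton] at hz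
  have hE' := hE.conj (tc_mem h hT (one_mem _) (tv_mem z 1)) (h.tens.tcongr_apply _ _)
    (isom_le_bis (tv_mem z 1))
  rw [show tv S₂ z 1 w = w by simp [S₂.B_comm_zero hz], show tv S₂ z 1 y = y + z by simp [hyz]] at hE'
  obtain ⟨k, hk, ek⟩ := hE
  have hkQ : InQ h w k := inQ_of_sim h0 (isom_le_sim hM hk)
    (fun u => by simp [ek, S₂.B_comm_zero hy]) (fun v => by simp [ek, hy])
    (fun v hv => ⟨D (h.cw y v), by simp [ek, hv]⟩)
  have hadj : adj h.nd₁ (-D) = D := adj_eq _ fun a b => by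
    simp [D, S₁.orth_B_swap b]; ring
  obtain ⟨s, hs⟩ := hc _ (hE'.comm (sB_self _) (by simp [hy, hz]) hk hkQ (η := -D) fun u => by
    simp [ek, hy, hz, sB_swap y z, hyz])
  rw [hadj] at hs
  have k1 : ∀ v, (2 : F) • D (D v) = s • v := fun v => by
    simpa [two_smul, show ∀ v, (1 : U ≃ₗ[F] U).symm v = v from fun _ => rfl] using
      LinearMap.congr_fun hs v
  obtain ⟨v, hv, hv0⟩ := Submodule.exists_mem_ne_zero_of_ne_bot
    (p := S₁.perp (Submodule.span F {u, x})) fun e => by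
      have := h.nd₁.finrank_perp (Submodule.span F {u, x})
      have := finrank_span_pair_le (F := F) u x
      rw [e, finrank_bot] at *
      omega
  rw [S₁.mem_perp_span] at hv
  have hs0 : s = 0 := by simpa [D, hv u (by simp), hv x (by simp), hv0] using (k1 v).symm
  have hu0 : u ≠ 0 := by rintro rfl; exact hu S₁.orth_Q_zero
  have hxx : S₁.B x x = 0 := by
    simpa [D, hs0, h2, hu, hu0, hxu, S₁.B_comm_zero hxu, B_self_ne h2 hu] using k1 u
  obtain ⟨v', hv'⟩ := h.nd₁.exists_ne hx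
  exact hv' (by
    simpa [D, hs0, h2, hu, hxu, S₁.B_comm_zero hxu, B_self_ne h2 hu, hxx, show x ≠ 0 from hx]
      using k1 v')

/-- A new element in the unipotent radical gives transvections on all singular pure tensors. -/
theorem ctr_of_inQ [Finite F] (h : TF S₁ S₂ S τ) (h2 : (2 : F) ≠ 0) (h3 : 3 ≤ finrank F U)
    (hdim : 4 ≤ finrank F U ∨ ∃ t : F, t ≠ 0 ∧ t ^ 2 ≠ 1) (hM : M ≤ S.isom)
    (hT : ∀ g ∈ S.isom, g ∈ TStab τ → g ∈ M) {w₀ : W} (h0 : w₀ ≠ 0) {q : V ≃ₗ[F] V} (hq : q ∈ M)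
    (hQ : InQ h w₀ q) (hqT : q ∉ TStab τ) (u : U) (w : W) (hu : S₁.Sing u) : Ctr S M (τ u w) := by
  have : Nontrivial U := Module.nontrivial_of_finrank_pos (R := F) (by omega)
  obtain ⟨X, hX, hns⟩ := exists_nonscalar h h2 h3 hM hT h0 hq hQ hqT
  have hM₂ := le_snd₂ h hT
  by_cases hw0 : w = 0
  · simpa [hw0] using H7.ctr_zero
  obtain ⟨b, hb, e⟩ := sp_trans' h.nd₂ h0 hw0
  have hX' := Zs_map (sB_self w) hX hM₂ hb (c := 1) (by simp [e])
  rw [map_one, one_mul, one_smul] at hX'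
  refine ctr_iff.2 fun c => ?_
  obtain ⟨k, hk, ek⟩ := (Zm h h2 hM₂ hw0).smul_mem c (sym_extract h2 h.nd₁ h3 hdim (Zm h h2 hM₂ hw0)
    (fun g hg X hX => Zs_conj (hw := sB_self w) hX (tc_mem h hT hg (one_mem _)) (h.tens.tcongr_apply _ _)) hX'
    (fun a b => by
      have := adj_of_hasQ (isom_le_sim hM) (sB_self w) hw0 hX' a b
      simp only [FP.symp_ε] at this
      linear_combination -this) hns hu)
  convert hk using 1
  ext v; simp [ek, h.B_tmul, mul_smul]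

end Cfsg.Agent.H3.TenSpO1
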