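import Mathlib
import Cfsg.Agent.H3.Centralizer
import Cfsg.Agent.H3.MinNormal

/-! Two commuting transitive subgroups. -/

set_option autoImplicit false

namespace Cfsg.Agent.H3.TwoMin

open MulAction

variable {α : Type*}

theorem centralizer_eq (G : Subgroup (Equiv.Perm α)) (M N : Subgroup G)
    (hc : ∀ x ∈ M, ∀ y ∈ N, x * y = y * x)
    (hMt : IsPretransitive M α) (hNt : IsPretransitive N α) :
    Subgroup.centralizer ((M.map G.subtype : Subgroup (Equiv.Perm α)) : Set (Equiv.Perm α)) =
      N.map G.subtype := by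
  have ht := Centralizer.map_subtype_isPretransitive G M hMt
  have ht' := Centralizer.map_subtype_isPretransitive G N hNt
  have hs := fun c hc a ha => Centralizer.semiregular (M.map G.subtype) c hc a ha
  refine (Centralizer.eq_of_le_of_semiregular _ _ ?_ ht' hs).symm
  rintro _ ⟨x, hx, rfl⟩
  rw [Subgroup.mem_centralizer_iff]
  rintro _ ⟨y, hy, rfl⟩
  exact congrArg Subtype.val (hc y hy x hx)

theorem stabilizer_eq_bot (G : Subgroup (Equiv.Perm α)) (M N : Subgroup G)
    (hc : ∀ x ∈ M, ∀ y ∈ N, x * y = y * x)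
    (hMt : IsPretransitive M α) (a : α) : stabilizer N a = ⊥ := by
  have ht := Centralizer.map_subtype_isPretransitive G M hMt
  rw [eq_bot_iff]
  intro g hg
  rw [Subgroup.mem_bot]
  refine Subtype.ext (Subtype.ext (Centralizer.semiregular (M.map G.subtype) _ ?_ a hg))
  rw [Subgroup.mem_centralizer_iff]
  rintro _ ⟨y, hy, rfl⟩
  exact congrArg Subtype.val (hc y hy g g.2)

theorem le_of_commute (G : Subgroup (Equiv.Perm α)) (M N L : Subgroup G)
    (hc : ∀ x ∈ M, ∀ y ∈ N, x * y = y * x)
    (hMt : IsPretransitive M α) (hNt : IsPretransitive N α)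
    (hL : ∀ x ∈ M, ∀ y ∈ L, x * y = y * x) : L ≤ N := by
  intro x hx
  have : (x : Equiv.Perm α) ∈ N.map G.subtype := by
    rw [← centralizer_eq G M N hc hMt hNt, Subgroup.mem_centralizer_iff]
    rintro _ ⟨y, hy, rfl⟩
    exact congrArg Subtype.val (hL y hy x hx)
  obtain ⟨y, hy, e⟩ := this
  have : y = x := Subtype.ext e
  rwa [← this]

theorem nonempty_mulEquiv (G : Subgroup (Equiv.Perm α)) (M N : Subgroup G)
    (hc : ∀ x ∈ M, ∀ y ∈ N, x * y = y * x)
    (hMt : IsPretransitive M α) (hNt : IsPretransitive N α) (a : α) : Nonempty (M ≃* N) := by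
  have hsN := stabilizer_eq_bot G M N hc hMt a
  have hsM := stabilizer_eq_bot G N M (fun x hx y hy => (hc y hy x hx).symm) hNt a
  have huN : ∀ c d : N, c • a = d • a → c = d := by
    intro c d e
    have : d⁻¹ * c ∈ stabilizer N a := by
      rw [mem_stabilizer_iff, mul_smul, e, inv_smul_smul]
    rw [hsN, Subgroup.mem_bot, inv_mul_eq_one] at this
    exact this.symm
  have huM : ∀ c d : M, c • a = d • a → c = d := by
    intro c d e
    have : d⁻¹ * c ∈ stabilizer M a := by
      rw [mem_stabilizer_iff, mul_smul, e, inv_smul_smul]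
    rw [hsM, Subgroup.mem_bot, inv_mul_eq_one] at this
    exact this.symm
  have hcomm : ∀ (m : M) (n : N) (x : α), m • n • x = n • m • x := by
    intro m n x
    change (m : G) • (n : G) • x = (n : G) • (m : G) • x
    rw [← mul_smul, ← mul_smul, hc _ m.2 _ n.2]
  choose φ hφ using fun m : M => exists_smul_eq N a (m⁻¹ • a)
  let f : M →* N := MonoidHom.mk' φ (by
    intro m m'
    apply huN
    rw [hφ, mul_smul, hφ, ← hcomm, hφ, mul_inv_rev, mul_smul])
  refine ⟨MulEquiv.ofBijective f ⟨?_, ?_⟩⟩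
  · intro m m' e
    change φ m = φ m' at e
    have := hφ m
    rw [e, hφ] at this
    exact (inv_injective (huM _ _ this)).symm
  · intro n
    obtain ⟨m, hm⟩ := exists_smul_eq M a (n • a)
    refine ⟨m⁻¹, huN _ _ ?_⟩
    change φ m⁻¹ • a = _
    rw [hφ, inv_inv, hm]

end Cfsg.Agent.H3.TwoMin
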