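import Cfsg.Agent.H4.Frobenius

/-!
Groups generated by two quadratic root groups: a Frobenius-type norm argument, a Sylow argument,
and a normal form in the algebra generated by two elements of square zero.
-/

set_option autoImplicit false

namespace Cfsg.Agent.H3.TwoNil

/-- A malnormal subgroup whose norm vanishes in a faithful representation is everything. -/
theorem frob_inj {G : Type*} [Group G] [Finite G] {A : Type*} [Ring A] (π : G →* A)
    (hπ : Function.Injective π) (R : Subgroup G)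
    (hmal : ∀ γ, ∀ ρ ∈ R, ρ ≠ 1 → γ * ρ * γ⁻¹ ∈ R → γ ∈ R)
    (hsum : ∑ᶠ ρ : R, π ρ = 0) (hcard : (Nat.card R : A) = 0) : R = ⊤ := by
  classical
  have := Fintype.ofFinite G
  rw [finsum_eq_sum_of_fintype] at hsum
  have hfix : ∀ (g a : G), g • (a : G ⧸ R) = a ↔ a⁻¹ * g * a ∈ R := fun g a => by
    rw [MulAction.Quotient.smul_mk, eq_comm, QuotientGroup.eq, smul_eq_mul, mul_assoc]
  obtain ⟨K, hK, hK1, hK2⟩ := H4.Frobenius.exists_kernel (B := G) (X := G ⧸ R)
    (fun x y => MulAction.exists_smul_eq G x y) (fun g x y hxy hx hy => by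
      induction x using QuotientGroup.induction_on with | H a => ?_
      induction y using QuotientGroup.induction_on with | H b => ?_
      rw [hfix] at hx hy
      by_contra hg
      refine hxy ?_
      rw [eq_comm, QuotientGroup.eq]
      refine hmal _ _ hx (fun e => hg ?_) (by convert hy using 1; group)
      calc g = a * (a⁻¹ * g * a) * a⁻¹ := by group
        _ = 1 := by rw [e]; group)
  -- sum over each stabiliser vanishes
  have hst : ∀ x : G ⧸ R, ∑ g ∈ Finset.univ.filter (fun g : G => g • x = x), π g = 0 := by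
    intro x
    induction x using QuotientGroup.induction_on with | H a => ?_
    have : ∑ g ∈ Finset.univ.filter (fun g : G => g • (a : G ⧸ R) = a), π g =
        ∑ ρ : R, π (a * ρ * a⁻¹) := by
      symm
      refine Finset.sum_bij (fun ρ _ => a * ρ * a⁻¹) (fun ρ _ => ?_) (fun ρ _ ρ' _ e => ?_)
        (fun g hg => ?_) (fun _ _ => rfl)
      · simp only [Finset.mem_filter, Finset.mem_univ, true_and, hfix]
        convert ρ.2 using 1; group
      · exact Subtype.ext (by simpa using e)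
      · simp only [Finset.mem_filter, Finset.mem_univ, true_and, hfix] at hg
        exact ⟨⟨_, hg⟩, Finset.mem_univ _, by simp [mul_assoc]⟩
    rw [this]
    simp only [map_mul, ← Finset.sum_mul, ← Finset.mul_sum, hsum]
    simp
  have htot : ∑ g : G, π g = 0 := by
    rw [← Finset.sum_fiberwise (s := Finset.univ) (g := fun g : G => (g : G ⧸ R))]
    refine Finset.sum_eq_zero fun x _ => ?_
    induction x using QuotientGroup.induction_on with | H a => ?_
    have : ∑ g ∈ Finset.univ.filter (fun g : G => (g : G ⧸ R) = a), π g = ∑ ρ : R, π (a * ρ) := by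
      symm
      refine Finset.sum_bij (fun ρ _ => a * ρ) (fun ρ _ => ?_) (fun ρ _ ρ' _ e => ?_)
        (fun g hg => ?_) (fun _ _ => rfl)
      · simp
      · exact Subtype.ext (by simpa using e)
      · simp only [Finset.mem_filter, Finset.mem_univ, true_and] at hg
        rw [eq_comm, QuotientGroup.eq] at hg
        exact ⟨⟨_, hg⟩, Finset.mem_univ _, by simp⟩
    rw [this]
    simp only [map_mul, ← Finset.mul_sum, hsum, mul_zero]
  have h1 : ∑ x : G ⧸ R, ∑ g ∈ Finset.univ.filter (fun g : G => g • x = x), π g =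
      ∑ g : G, (Finset.univ.filter (fun x : G ⧸ R => g • x = x)).card • π g := by
    simp only [Finset.sum_filter]
    rw [Finset.sum_comm]
    refine Finset.sum_congr rfl fun g _ => ?_
    rw [← Finset.sum_filter, Finset.sum_const]
  have hone : ∀ g : G, g ≠ 1 → ∀ x : G ⧸ R, g • x = x →
      Finset.univ.filter (fun x : G ⧸ R => g • x = x) = {x} := by
    intro g hg x hx
    ext y
    simp only [Finset.mem_filter, Finset.mem_univ, true_and, Finset.mem_singleton]
    refine ⟨fun hy => ?_, fun hy => hy ▸ hx⟩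
    by_contra hne
    induction x using QuotientGroup.induction_on with | H a => ?_
    induction y using QuotientGroup.induction_on with | H b => ?_
    rw [hfix] at hx hy
    refine hne ?_
    rw [QuotientGroup.eq]
    refine hmal _ _ hx (fun e => hg ?_) (by convert hy using 1; group)
    calc g = a * (a⁻¹ * g * a) * a⁻¹ := by group
      _ = 1 := by rw [e]; group
  have h2 : ∀ g : G, (Finset.univ.filter (fun x : G ⧸ R => g • x = x)).card • π g =
      π g - (if g ∈ K then π g else 0) + (if g = 1 then (Fintype.card (G ⧸ R) : A) else 0) := by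
    intro g
    by_cases hg : g = 1
    · subst hg; simp
    by_cases hgK : g ∈ K
    · have := ((hK1 g).1 hgK).resolve_left hg
      rw [Finset.filter_eq_empty_iff.2 (fun x _ => this x)]; simp [hg, hgK]
    · have := (hK1 g).not.1 hgK
      push Not at this
      obtain ⟨-, x, hx⟩ := this
      rw [hone g hg x hx]; simp [hg, hgK]
  have h3 : ∑ g : G, (if g ∈ K then π g else 0) = (Fintype.card (G ⧸ R) : A) := by
    rw [Finset.sum_eq_zero (fun x _ => hst x)] at h1
    simp only [h2, Finset.sum_add_distrib, Finset.sum_sub_distrib, htot, Finset.sum_ite_eq',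
      Finset.mem_univ, if_true] at h1
    rw [zero_sub, eq_comm, neg_add_eq_zero] at h1
    exact h1
  -- the number of cosets is one modulo the characteristic
  have h4 : (Fintype.card (G ⧸ R) : A) = 1 := by
    have := MulAction.sum_card_fixedBy_eq_card_orbits_mul_card_group R (G ⧸ R)
    have e : ∀ ρ : R, (Fintype.card (MulAction.fixedBy (G ⧸ R) ρ) : A) =
        1 + if ρ = 1 then (Fintype.card (G ⧸ R) : A) - 1 else 0 := by
      intro ρ
      by_cases hρ : ρ = 1
      · subst hρ; simp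
      · have h := hone ρ (fun e => hρ (Subtype.ext e)) ((1 : G) : G ⧸ R) ((hfix _ _).2 (by simp))
        have : Fintype.card (MulAction.fixedBy (G ⧸ R) ρ) =
            (Finset.univ.filter (fun x : G ⧸ R => (ρ : G) • x = x)).card := by
          rw [← Fintype.card_subtype]; rfl
        rw [this, h]; simp [hρ]
    have h := congrArg (Nat.cast : ℕ → A) this
    rw [Nat.card_eq_fintype_card] at hcard
    rw [Nat.cast_sum, Nat.cast_mul, hcard, mul_zero] at h
    simp only [e, Finset.sum_add_distrib, Finset.sum_const, Finset.card_univ, nsmul_eq_mul, hcard,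
      Finset.sum_ite_eq', Finset.mem_univ, if_true] at h
    simpa [sub_eq_zero] using h
  have h5 : ∀ k ∈ K, k = 1 := by
    intro k hk
    apply hπ
    rw [map_one, ← mul_one (π k), ← h4, ← h3, Finset.mul_sum]
    refine Fintype.sum_equiv (Equiv.mulLeft k) _ _ fun g => ?_
    simp [K.mul_mem_cancel_left hk]
  rw [eq_top_iff]
  intro g _
  obtain ⟨k, hk, e⟩ := hK2 ((1 : G) : G ⧸ R) (g : G ⧸ R)
  rw [h5 k hk, one_smul, QuotientGroup.eq] at e
  simpa using e

/-- The version of `frob_inj` for a representation with a kernel. -/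
theorem frob {G : Type*} [Group G] [Finite G] {A : Type*} [Ring A] (π : G →* A) (R : Subgroup G)
    (hinj : ∀ ρ ∈ R, π ρ = 1 → ρ = 1)
    (hmal : ∀ γ, ∀ ρ ∈ R, ρ ≠ 1 → ∀ ρ' ∈ R, π (γ * ρ * γ⁻¹) = π ρ' → ∃ r ∈ R, π γ = π r)
    (hsum : ∑ᶠ ρ : R, π ρ = 0) (hcard : (Nat.card R : A) = 0) (γ : G) : ∃ r ∈ R, π γ = π r := by
  let f := π.toHomUnits.rangeRestrict
  have hf : ∀ a b, f a = f b ↔ π a = π b := fun a b =>
    ⟨fun e => congrArg (fun x : π.toHomUnits.range => ((x : Aˣ) : A)) e,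
      fun e => Subtype.ext (Units.ext e)⟩
  have : Finite π.toHomUnits.range := Finite.of_surjective f π.toHomUnits.rangeRestrict_surjective
  let e : R ≃ R.map f := Equiv.ofBijective (fun ρ => ⟨f ρ, ρ, ρ.2, rfl⟩) ⟨fun a b h => by
    have h1 : π a = π b := (hf _ _).1 (congrArg Subtype.val h)
    have h2 := hinj (a⁻¹ * b : R) (a⁻¹ * b).2 (by
      rw [Subgroup.coe_mul, map_mul, ← h1, ← map_mul]; simp)
    exact inv_mul_eq_one.1 (Subtype.ext h2), by
    rintro ⟨_, ρ, hρ, rfl⟩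
    exact ⟨⟨ρ, hρ⟩, rfl⟩⟩
  have := frob_inj ((Units.coeHom A).comp π.toHomUnits.range.subtype)
    (fun a b h => Subtype.ext (Units.ext h)) (R.map f) (by
      rintro g _ ⟨ρ, hρ, rfl⟩ hne ⟨ρ', hρ', h⟩
      obtain ⟨γ, rfl⟩ := π.toHomUnits.rangeRestrict_surjective g
      obtain ⟨r, hr, h2⟩ := hmal γ ρ hρ (by rintro rfl; simp at hne) ρ' hρ' (by
        rw [← hf, h]; simp [f])
      exact ⟨r, hr, ((hf _ _).2 h2).symm⟩) (by
      rw [← finsum_comp_equiv e]; exact hsum) (by rw [← Nat.card_congr e]; exact hcard)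
  obtain ⟨r, hr, h⟩ : f γ ∈ R.map f := this ▸ Subgroup.mem_top _
  exact ⟨r, hr, ((hf _ _).1 h).symm⟩

/-- A non-trivial malnormal `p`-subgroup is a Sylow subgroup. -/
theorem sylow_conj {G : Type*} [Group G] [Finite G] {p : ℕ} [Fact p.Prime] {R R' : Subgroup G}
    (hR : IsPGroup p R) (hR' : IsPGroup p R') (hne : R ≠ ⊥)
    (hmal : ∀ γ, ∀ ρ ∈ R, ρ ≠ 1 → γ * ρ * γ⁻¹ ∈ R → γ ∈ R) :
    ∃ s : G, ∀ ρ ∈ R', s * ρ * s⁻¹ ∈ R := by
  obtain ⟨P, hP⟩ := hR.exists_le_sylow
  obtain ⟨P', hP'⟩ := hR'.exists_le_sylow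
  have hPR : (P : Subgroup G) ≤ R := by
    obtain ⟨⟨ρ, hρ⟩, hρ1⟩ := (Subgroup.ne_bot_iff_exists_ne_one).1 hne
    replace hρ1 : ρ ≠ 1 := fun e => hρ1 (Subtype.ext e)
    have : Nontrivial P := ⟨⟨⟨ρ, hP hρ⟩, 1, fun e => hρ1 (congrArg Subtype.val e)⟩⟩
    have hc := P.isPGroup'.center_nontrivial
    obtain ⟨z, hz⟩ := exists_ne (1 : Subgroup.center P)
    have hz1 : ((z : P) : G) ≠ 1 := fun e => hz (Subtype.ext (Subtype.ext e))
    have hzc : ∀ x ∈ (P : Subgroup G), x * ((z : P) : G) = ((z : P) : G) * x := fun x hx =>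
      congrArg Subtype.val (Subgroup.mem_center_iff.1 z.2 ⟨x, hx⟩)
    have hzR : ((z : P) : G) ∈ R := hmal _ ρ hρ hρ1 (by
      rw [← hzc _ (hP hρ)]; simpa using hρ)
    intro x hx
    exact hmal x _ hzR hz1 (by rw [hzc x hx]; simpa using hzR)
  obtain ⟨s, hs⟩ := MulAction.exists_smul_eq G P' P
  refine ⟨s, fun ρ hρ => hPR ?_⟩
  rw [← hs]
  exact Subgroup.smul_mem_pointwise_smul ρ (MulAut.conj s) _ (hP' hρ)

section
variable {A : Type*} [Ring A] {μ ν : A}

/-- commuting with both `μ` and `ν` -/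
def Cen (μ ν k : A) : Prop := μ * k = k * μ ∧ ν * k = k * ν

theorem Cen.add {k l : A} (hk : Cen μ ν k) (hl : Cen μ ν l) : Cen μ ν (k + l) :=
  ⟨by rw [mul_add, add_mul, hk.1, hl.1], by rw [mul_add, add_mul, hk.2, hl.2]⟩

theorem Cen.sub {k l : A} (hk : Cen μ ν k) (hl : Cen μ ν l) : Cen μ ν (k - l) :=
  ⟨by rw [mul_sub, sub_mul, hk.1, hl.1], by rw [mul_sub, sub_mul, hk.2, hl.2]⟩

theorem Cen.mul {k l : A} (hk : Cen μ ν k) (hl : Cen μ ν l) : Cen μ ν (k * l) :=
  ⟨by rw [← mul_assoc, hk.1, mul_assoc, hl.1, mul_assoc],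
    by rw [← mul_assoc, hk.2, mul_assoc, hl.2, mul_assoc]⟩

theorem cen_theta (hμ : μ * μ = 0) (hν : ν * ν = 0) : Cen μ ν (μ * ν + ν * μ) :=
  ⟨by rw [mul_add, add_mul, ← mul_assoc, hμ, mul_assoc ν, hμ]; simp [mul_assoc],
    by rw [mul_add, add_mul, ← mul_assoc ν ν, hν, mul_assoc μ, hν]; simp [mul_assoc]⟩

/-- The normal form of a pair `(γ, γ⁻¹)`. -/
def NF (μ ν : A) (g g' : A) : Prop :=
  ∃ k₁ k₂ k₃ k₄, Cen μ ν k₁ ∧ Cen μ ν k₂ ∧ Cen μ ν k₃ ∧ Cen μ ν k₄ ∧
    g = k₁ + k₂ * μ + k₃ * ν + k₄ * (μ * ν) ∧ g' = k₁ - k₂ * μ - k₃ * ν + k₄ * (ν * μ)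

theorem NF.symm {g g' : A} (h : NF μ ν g g') : NF ν μ g' g := by
  obtain ⟨k₁, k₂, k₃, k₄, h1, h2, h3, h4, rfl, rfl⟩ := h
  have z : Cen ν μ 0 := ⟨by simp, by simp⟩
  refine ⟨k₁, -k₃, -k₂, k₄, h1.symm, ?_, ?_, h4.symm, by noncomm_ring, by noncomm_ring⟩
  · simpa using z.sub h3.symm
  · simpa using z.sub h2.symm

theorem NF.swap (hμ : μ * μ = 0) (hν : ν * ν = 0) {g g' : A} (h : NF μ ν g g') : NF ν μ g g' := by
  obtain ⟨k₁, k₂, k₃, k₄, h1, h2, h3, h4, rfl, rfl⟩ := h
  have z : Cen ν μ 0 := ⟨by simp, by simp⟩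
  refine ⟨k₁ + k₄ * (μ * ν + ν * μ), k₃, k₂, -k₄, (h1.add (h4.mul (cen_theta hμ hν))).symm,
    h3.symm, h2.symm, ?_, by noncomm_ring, by noncomm_ring⟩
  simpa using z.sub h4.symm

theorem nf_one : NF μ ν 1 1 :=
  ⟨1, 0, 0, 0, ⟨by simp, by simp⟩, ⟨by simp, by simp⟩, ⟨by simp, by simp⟩, ⟨by simp, by simp⟩,
    by simp, by simp⟩

theorem NF.mul_left (hμ : μ * μ = 0) (hν : ν * ν = 0) {g g' c : A} (hc : Cen μ ν c)
    (hcc : ∀ k, Cen μ ν k → c * k = k * c) (h : NF μ ν g g') :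
    NF μ ν (g * (1 + c * μ)) ((1 - c * μ) * g') := by
  obtain ⟨k₁, k₂, k₃, k₄, h1, h2, h3, h4, rfl, rfl⟩ := h
  have hθ := cen_theta hμ hν
  have m : ∀ {k}, Cen μ ν k → ∀ x, μ * (k * x) = k * (μ * x) := fun hk x => by
    rw [← mul_assoc, hk.1, mul_assoc]
  have n : ∀ {k}, Cen μ ν k → ∀ x, ν * (k * x) = k * (ν * x) := fun hk x => by
    rw [← mul_assoc, hk.2, mul_assoc]
  have cc : ∀ {k}, Cen μ ν k → ∀ x, c * (k * x) = k * (c * x) := fun hk x => by
    rw [← mul_assoc, hcc _ hk, mul_assoc]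
  have hμ' : ∀ x, μ * (μ * x) = 0 := fun x => by rw [← mul_assoc, hμ, zero_mul]
  refine ⟨k₁ + k₃ * c * (μ * ν + ν * μ), k₁ * c + k₂ + k₄ * c * (μ * ν + ν * μ), k₃, k₄ - k₃ * c,
    h1.add ((h3.mul hc).mul hθ), ((h1.mul hc).add h2).add ((h4.mul hc).mul hθ), h3,
    h4.sub (h3.mul hc), ?_, ?_⟩
  · simp only [mul_add, add_mul, mul_sub, sub_mul, mul_assoc, mul_one, m hc, n hc, hμ, hμ',
      mul_zero]
    abel
  · simp only [mul_add, add_mul, mul_sub, sub_mul, mul_assoc, one_mul, m h2, m h3, m h4, h1.1, hμ,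
      hμ', mul_zero, cc h1, cc h3, cc h4]
    abel

theorem NF.cen_left (hμ : μ * μ = 0) (hν : ν * ν = 0) {g g' : A} (h : NF μ ν g g') :
    Cen μ ν (ν * g - g' * ν) := by
  obtain ⟨k₁, k₂, k₃, k₄, h1, h2, h3, h4, rfl, rfl⟩ := h
  have n : ∀ {k}, Cen μ ν k → ∀ x, ν * (k * x) = k * (ν * x) := fun hk x => by
    rw [← mul_assoc, hk.2, mul_assoc]
  convert h2.mul (cen_theta hμ hν) using 1
  simp only [mul_add, add_mul, mul_sub, sub_mul, mul_assoc, n h2, n h3, n h4, h1.2, hν, mul_zero]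
  abel

end

/-- In the group generated by the maps `1 + c μ`, `1 + c ν` the elements `ν γ - γ⁻¹ ν` and
`μ γ - γ⁻¹ μ` commute with `μ` and `ν`. -/
theorem cen_of_mem {F : Type*} [Field F] {V : Type*} [AddCommGroup V] [Module F V]
    {μ ν : Module.End F V} (hμ : μ * μ = 0) (hν : ν * ν = 0) {s : Set (V ≃ₗ[F] V)}
    (hs : ∀ g ∈ s, ∃ c : F, (∀ v, g v = v + c • μ v) ∨ (∀ v, g v = v + c • ν v))
    {γ : V ≃ₗ[F] V} (hγ : γ ∈ Subgroup.closure s) :
    NF μ ν (γ : V →ₗ[F] V) (γ.symm : V →ₗ[F] V) := by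
  have hc : ∀ (c : F) (x y : Module.End F V), Cen x y (algebraMap F _ c) := fun c x y =>
    ⟨(Algebra.commutes c x).symm, (Algebra.commutes c y).symm⟩
  have key : ∀ {μ ν : Module.End F V}, μ * μ = 0 → ν * ν = 0 → ∀ (c : F) (g x : V ≃ₗ[F] V),
      (∀ v, g v = v + c • μ v) → NF μ ν (x : V →ₗ[F] V) (x.symm : V →ₗ[F] V) →
      NF μ ν ((x * g : V ≃ₗ[F] V) : V →ₗ[F] V) ((x * g).symm : V →ₗ[F] V) ∧
      NF μ ν ((x * g⁻¹ : V ≃ₗ[F] V) : V →ₗ[F] V) ((x * g⁻¹).symm : V →ₗ[F] V) := by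
    intro μ ν hμ hν c g x hg hx
    have hμ' : ∀ v, μ (μ v) = 0 := fun v => LinearMap.congr_fun hμ v
    have hg' : ∀ v, g.symm v = v - c • μ v := fun v => by
      rw [LinearEquiv.symm_apply_eq, hg]; simp [hμ']
    constructor
    · convert hx.mul_left hμ hν (hc c μ ν) (fun k _ => Algebra.commutes c k) using 1
      · ext v; simp [hg]
      · ext v; simp [LinearEquiv.mul_eq_trans, hg']
    · convert hx.mul_left hμ hν (hc (-c) μ ν) (fun k _ => Algebra.commutes (-c) k) using 1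
      · ext v; simp [hg', sub_eq_add_neg]
      · ext v
        have hi : g⁻¹.symm = g := rfl
        simp [LinearEquiv.mul_eq_trans, hg, hi]
  induction hγ using Subgroup.closure_induction_right with
  | one => exact nf_one
  | mul_right x _ g hg ih =>
    obtain ⟨c, h | h⟩ := hs g hg
    · exact (key hμ hν c g x h ih).1
    · exact (key hν hμ c g x h (ih.swap hμ hν)).1.swap hν hμ
  | mul_inv_cancel x _ g hg ih =>
    obtain ⟨c, h | h⟩ := hs g hg
    · exact (key hμ hν c g x h ih).2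
    · exact (key hν hμ c g x h (ih.swap hμ hν)).2.swap hν hμ

end Cfsg.Agent.H3.TwoNil
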