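import Cfsg.Agent.H2.Tr1

/-! A variance argument for characters of groups with an abelian self-centralising "TI" subgroup. -/

set_option autoImplicit false

namespace Cfsg.Agent.H3.U5R
open Cfsg Finset Subgroup Cfsg.Agent.H5.Char Cfsg.Agent.H2.Tr

variable {G : Type*} [Group G] [Fintype G]

theorem ch_normSq {f : G → ℂ} {n : Irr G → ℕ} (h : Ch f n) :
    ∑ g, Complex.normSq (f g) = Nat.card G * ((∑ ψ, n ψ * n ψ : ℕ) : ℝ) := by
  have := h.norm
  rw [classInner, inv_mul_eq_iff_eq_mul₀ card_ne] at this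
  simp only [Complex.mul_conj] at this
  exact_mod_cast this

theorem irr_normSq (χ : Irr G) : ∑ g, Complex.normSq (χ.1 g) = Nat.card G := by
  have := inner_irr χ χ
  rw [if_pos rfl, classInner, inv_mul_eq_iff_eq_mul₀ card_ne, mul_one] at this
  simp only [Complex.mul_conj] at this
  exact_mod_cast this

open Classical in
theorem ti_bound (χ : Irr G) (A N : Finset G) (h : ∀ a ∈ A, ∀ g, g⁻¹ * a * g ∈ A → g ∈ N) :
    ∑ a ∈ A, Complex.normSq (χ.1 a) ≤ N.card := by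
  have h1 : ∀ g : G, ∑ a ∈ A, Complex.normSq (χ.1 a) =
      ∑ x, if g⁻¹ * x * g ∈ A then Complex.normSq (χ.1 x) else 0 := fun g => by
    rw [← sum_filter]
    refine sum_nbij' (fun a => g * a * g⁻¹) (fun x => g⁻¹ * x * g) (fun a ha => ?_) (fun x hx => ?_)
      (fun a _ => by group) (fun x _ => by group) (fun a _ => by rw [cl χ])
    · simpa [mul_assoc] using ha
    · simpa using hx
  have h2 : ∀ x : G, (univ.filter fun g => g⁻¹ * x * g ∈ A).card ≤ N.card := fun x => by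
    rcases (univ.filter fun g => g⁻¹ * x * g ∈ A).eq_empty_or_nonempty with e | ⟨g0, h0⟩
    · simp [e]
    refine card_le_card_of_injOn (fun g => g0⁻¹ * g) (fun g hg => h _ (mem_filter.1 h0).2 _ ?_)
      fun _ _ _ _ e => mul_left_cancel e
    simpa [mul_assoc] using (mem_filter.1 hg).2
  have h3 : (Nat.card G : ℝ) * ∑ a ∈ A, Complex.normSq (χ.1 a) ≤ Nat.card G * N.card := by
    calc _ = ∑ g : G, ∑ x, if g⁻¹ * x * g ∈ A then Complex.normSq (χ.1 x) else 0 := by
          rw [← sum_congr rfl fun g _ => h1 g]; simp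
      _ = ∑ x, ((univ.filter fun g => g⁻¹ * x * g ∈ A).card : ℝ) * Complex.normSq (χ.1 x) := by
          rw [sum_comm]; exact sum_congr rfl fun x _ => by rw [← sum_filter]; simp
      _ ≤ ∑ x, (N.card : ℝ) * Complex.normSq (χ.1 x) :=
          sum_le_sum fun x _ => mul_le_mul_of_nonneg_right (by exact_mod_cast h2 x) (Complex.normSq_nonneg _)
      _ = _ := by rw [← mul_sum, irr_normSq, mul_comm]
  exact le_of_mul_le_mul_left h3 (by exact_mod_cast Nat.card_pos)

theorem var_one {ι : Type*} [Fintype ι] (w m : ι → ℕ) {ρ : ℕ} (hρ : 0 < ρ) (hw : ∑ i, w i = ρ) :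
    ∃ D : ℤ, 2 * |D| ≤ ρ ∧ (ρ : ℤ) ∣ (∑ i, m i * w i : ℕ) - D ∧
      |D| * (ρ - |D|) ≤ ρ * (∑ i, w i * (m i * m i) : ℕ) - (∑ i, m i * w i : ℕ) * (∑ i, m i * w i : ℕ) := by
  set M : ℤ := ((∑ i, m i * w i : ℕ) : ℤ) with hM
  obtain ⟨k, D, e, hD⟩ : ∃ k D : ℤ, M = k * ρ + D ∧ 2 * |D| ≤ ρ := by
    have h1 := Int.emod_add_ediv_mul M ρ
    have h2 := Int.emod_nonneg M (b := ρ) (by omega)
    have h3 := Int.emod_lt_of_pos M (b := ρ) (by omega)
    by_cases h : 2 * (M % ρ) ≤ ρ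
    · exact ⟨M / ρ, M % ρ, by linarith, by rwa [abs_of_nonneg h2]⟩
    · exact ⟨M / ρ + 1, M % ρ - ρ, by linarith, by rw [abs_of_nonpos (by omega)]; omega⟩
  refine ⟨D, hD, ⟨k, by rw [e]; ring⟩, ?_⟩
  have hw' : ∑ i, (w i : ℤ) = ρ := by exact_mod_cast hw
  have hM' : ∑ i, (m i : ℤ) * w i = M := by rw [hM]; push_cast; rfl
  have e1 : ∑ i, (w i : ℤ) * (m i - k) = D := by
    simp only [mul_sub, sum_sub_distrib, ← sum_mul, mul_comm (w _ : ℤ) (m _ : ℤ), hw', hM', e]; ring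
  have e2 : ∑ i, (w i : ℤ) * ((m i - k) * (m i - k)) =
      (∑ i, w i * (m i * m i) : ℕ) - 2 * k * M + k * k * ρ := by
    rw [← hw', ← hM']; push_cast
    simp only [mul_sum, ← sum_sub_distrib, ← sum_add_distrib]
    exact sum_congr rfl fun i _ => by ring
  have e3 : |D| ≤ ∑ i, (w i : ℤ) * ((m i - k) * (m i - k)) := by
    rw [← e1]
    refine (abs_sum_le_sum_abs _ _).trans (sum_le_sum fun i _ => ?_)
    rw [abs_mul, Nat.abs_cast]
    exact mul_le_mul_of_nonneg_left (Int.natCast_natAbs _ ▸ Int.natAbs_le_self_sq _ |>.trans_eq (sq _)) (by positivity)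
  have e4 := mul_le_mul_of_nonneg_left e3 (show (0 : ℤ) ≤ ρ by positivity)
  rw [e2] at e4
  have e5 := abs_mul_abs_self D
  rw [e] at e4 ⊢
  nlinarith

theorem var_sum {ι : Type*} [Fintype ι] (D : ι → ℤ) {ρ : ℤ} (h41 : 41 ≤ ρ) (h1 : ∀ i, 2 * |D i| ≤ ρ)
    (h2 : ∑ i, |D i| * (ρ - |D i|) ≤ 4 * ρ) : |∑ i, D i| ≤ 4 := by
  refine (abs_sum_le_sum_abs _ _).trans ?_
  have a1 : (∑ i, |D i|) * ρ ≤ 8 * ρ := by
    rw [sum_mul]
    refine (sum_le_sum fun i _ => ?_).trans ((mul_sum univ (fun i => |D i| * (ρ - |D i|)) 2).symm.le.trans (by linarith))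
    nlinarith [abs_nonneg (D i), h1 i]
  have a2 : ∑ i, |D i| ≤ 8 := le_of_mul_le_mul_right a1 (by omega)
  have a3 : (∑ i, |D i|) * (ρ - 8) ≤ 4 * ρ := by
    rw [sum_mul]
    refine (sum_le_sum fun i _ => ?_).trans h2
    have := (single_le_sum (f := fun i => |D i|) (fun i _ => abs_nonneg _) (mem_univ i)).trans a2
    nlinarith [abs_nonneg (D i)]
  by_contra hc
  nlinarith

open Classical in
theorem var_char (χ : Irr G) (C : Subgroup G) (hC : ∀ a b : C, a * b = b * a) (C' : Subgroup C)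
    (h41 : 41 ≤ C'.index) (N : Finset G) (hN : N.card ≤ 4 * Nat.card C)
    (h : ∀ a b : C, a ∉ C' → b ∉ C' → ∀ g : G, g⁻¹ * a * g = b → g ∈ N) :
    ∃ D : ℤ, |D| ≤ 4 ∧ (C'.index : ℤ) ∣ (deg χ : ℤ) - D := by
  have d1 := deg_comm hC
  have d2 := deg_comm (G := C') fun a b => Subtype.ext (hC a b)
  have w1 : ∀ μ : Irr C, ∑ ν : Irr C', mult μ ν = 1 := fun μ => by
    have := (ch_res μ C').one
    simp only [d2, mul_one, OneMemClass.coe_one, deg_eq, d1] at this
    exact_mod_cast this.symm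
  have w2 : ∀ ν : Irr C', ∑ μ : Irr C, mult μ ν = C'.index := fun ν => by
    simpa [d1, d2] using sum_deg_mult ν
  choose D h1 h2 h3 using fun ν : Irr C' => var_one (fun μ => mult μ ν) (mult χ) (by omega) (w2 ν)
  refine ⟨∑ ν, D ν, var_sum D (ρ := C'.index) (by exact_mod_cast h41) h1 ((sum_le_sum fun ν _ => h3 ν).trans ?_), ?_⟩
  · have n1 := ch_normSq (ch_res χ C)
    have n2 := ch_normSq ((ch_res χ C).res C')
    have n3 := ti_bound χ ((univ.filter fun a : C => a ∉ C').map (Function.Embedding.subtype _)) N (by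
      simp only [mem_map, mem_filter, mem_univ, true_and, Function.Embedding.coe_subtype]
      rintro _ ⟨a, ha, rfl⟩ g ⟨b, hb, e⟩
      exact h a b ha hb g e.symm)
    rw [sum_map] at n3
    have n4 := sum_filter_add_sum_filter_not univ (fun a : C => a ∈ C') fun a => Complex.normSq (χ.1 a)
    rw [sum_subtype (p := fun a => a ∈ C') _ (by simp), n1, n2, ← C'.card_mul_index] at n4
    have n5 : (N.card : ℝ) ≤ 4 * (Nat.card C' * C'.index : ℕ) := by
      rw [C'.card_mul_index]; exact_mod_cast hN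
    have n6 : ∑ ν : Irr C', ∑ μ : Irr C, mult μ ν * (mult χ μ * mult χ μ) = ∑ μ : Irr C, mult χ μ * mult χ μ := by
      rw [sum_comm]; simp only [← sum_mul, w1, one_mul]
    have n7 : (Nat.card C' : ℝ) * (C'.index * (∑ μ : Irr C, mult χ μ * mult χ μ : ℕ) -
        (∑ ν : Irr C', (∑ μ : Irr C, mult χ μ * mult μ ν) * ∑ μ : Irr C, mult χ μ * mult μ ν : ℕ)) ≤
        Nat.card C' * (4 * C'.index) := by
      simp only [Function.Embedding.coe_subtype] at n3
      rw [Nat.cast_mul] at n4 n5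
      linarith
    have n8 := le_of_mul_le_mul_left n7 (by exact_mod_cast Nat.card_pos)
    rw [sum_sub_distrib, ← mul_sum, ← Nat.cast_sum, n6]
    simp only [← Nat.cast_mul]
    rw [← Nat.cast_sum]
    exact_mod_cast n8
  · have := (ch_res χ C).one
    simp only [d1, mul_one, OneMemClass.coe_one, deg_eq] at this
    have e : deg χ = ∑ ν : Irr C', ∑ μ : Irr C, mult χ μ * mult μ ν := by
      rw [sum_comm]; simp only [← mul_sum, w1, mul_one]; exact_mod_cast this
    rw [e, Nat.cast_sum, ← sum_sub_distrib]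
    exact dvd_sum fun ν _ => h2 ν

theorem var_main {r k : ℕ} (hr : r.Prime) (hk : r ^ k ∣ Nat.card G) (h41 : 41 ≤ r ^ k)
    (H : ∀ y : G, orderOf y = r → (∀ a ∈ centralizer {y}, ∀ b ∈ centralizer {y}, a * b = b * a) ∧
      (∀ c ∈ centralizer {y}, c ^ r = 1 → c ∈ zpowers y) ∧
      ∃ s : Finset G, s.card ≤ 4 ∧ ∀ g, g⁻¹ * y * g ∈ zpowers y → g⁻¹ * y * g ∈ s) (χ : Irr G) :
    ∃ D : ℤ, |D| ≤ 4 ∧ ((r ^ k : ℕ) : ℤ) ∣ (deg χ : ℤ) - D := by
  classical
  haveI := Fact.mk hr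
  obtain ⟨R⟩ : Nonempty (Sylow r G) := inferInstance
  have hR := R.pow_dvd_card_of_pow_dvd_card hk
  haveI : Nontrivial R := Finite.one_lt_card_iff_nontrivial.1 (by have := Nat.le_of_dvd Nat.card_pos hR; omega)
  haveI := R.isPGroup'.center_nontrivial
  obtain ⟨n, hn⟩ := (R.isPGroup'.to_subgroup (center R)).exists_card_eq
  obtain ⟨y0, hy0⟩ := exists_prime_orderOf_dvd_card' (G := center R) r (by
    rw [hn]; refine dvd_pow_self _ ?_; rintro rfl; exact Finite.one_lt_card.ne' hn)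
  set y : G := y0.1.1
  have hy : orderOf y = r := by rw [orderOf_coe, orderOf_coe, hy0]
  obtain ⟨H1, H2, s, hs, H3⟩ := H y hy
  set C := centralizer {y}
  have hRC : R.1 ≤ C := fun x hx => mem_centralizer_singleton_iff.2
    (congrArg Subtype.val (mem_center_iff.1 y0.2 ⟨x, hx⟩))
  have hC : ∀ a b : C, a * b = b * a := fun a b => Subtype.ext (H1 a a.2 b b.2)
  obtain ⟨e, m, hm, hem⟩ := Nat.exists_eq_pow_mul_and_not_dvd (Nat.card_pos (α := C)).ne' r hr.ne_one
  let C' : Subgroup C :=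
    { carrier := {c | c ^ m = 1}
      one_mem' := one_pow m
      mul_mem' := fun {a b} ha hb => by
        rw [Set.mem_ofPred_eq, (show Commute a b from hC a b).mul_pow, ha, hb, one_mul]
      inv_mem' := fun {a} ha => by rw [Set.mem_ofPred_eq, inv_pow, ha, inv_one] }
  have hi : r ^ k ∣ C'.index := by
    refine (Nat.Coprime.pow_left k (hr.coprime_iff_not_dvd.2 fun hd => hm ?_)).dvd_of_dvd_mul_left
      (C'.card_mul_index ▸ hR.trans (card_dvd_of_le hRC))
    obtain ⟨x, hx⟩ := exists_prime_orderOf_dvd_card' (G := C') r hd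
    rw [← hx, ← orderOf_coe]
    exact orderOf_dvd_of_pow_eq_one x.2
  have key : ∀ a : C, a ∉ C' → ∃ i : ℕ, (a : G) ^ i = y := fun a ha => by
    have h1 : orderOf (a ^ m) ∣ r ^ e := orderOf_dvd_of_pow_eq_one (by
      rw [← pow_mul, mul_comm, ← hem, pow_card_eq_one'])
    have h2 : r ∣ orderOf a := by
      obtain ⟨j, -, hj⟩ := (Nat.dvd_prime_pow hr).1 h1
      refine Dvd.dvd.trans (hj ▸ dvd_pow_self r ?_) (orderOf_pow_dvd m)
      rintro rfl; exact ha (orderOf_eq_one_iff.1 hj)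
    have h3 := orderOf_pow_orderOf_div (orderOf_pos a).ne' h2
    set b := a ^ (orderOf a / r) with hb
    have h4 := H2 b b.2 (by rw [← h3, ← SubmonoidClass.coe_pow, pow_orderOf_eq_one, OneMemClass.coe_one])
    have h5 : zpowers (b : G) = zpowers y :=
      eq_of_le_of_card_ge (zpowers_le.2 h4) (by rw [Nat.card_zpowers, Nat.card_zpowers, hy, orderOf_coe, h3])
    obtain ⟨i, hi⟩ := (mem_powers_iff_mem_zpowers.2 (h5 ▸ mem_zpowers y : y ∈ zpowers (b : G)))
    exact ⟨orderOf a / r * i, by rw [pow_mul, ← hi, hb]; rfl⟩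
  refine (var_char χ C hC C' (h41.trans (Nat.le_of_dvd (Nat.pos_of_ne_zero C'.index_ne_zero_of_finite) hi))
    ((s.biUnion fun x => univ.filter fun g => g * y * g⁻¹ = x).image (·⁻¹)) ?_ ?_).imp
    fun D h => ⟨h.1, (Int.natCast_dvd_natCast.2 hi).trans h.2⟩
  · refine card_image_le.trans (card_biUnion_le.trans ((sum_le_card_nsmul _ _ (Nat.card C) fun x _ => ?_).trans ?_))
    · rw [card_conj_eq]; split_ifs <;> simp [C]
    · exact Nat.mul_le_mul_right _ hs
  · intro a b ha _ g hg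
    obtain ⟨i, hi⟩ := key a ha
    have e : g⁻¹ * y * g = (b ^ i : C) := by
      rw [← hi, SubmonoidClass.coe_pow, ← hg, show g⁻¹ * a * g = g⁻¹ * a * g⁻¹⁻¹ by simp, conj_pow, inv_inv]
    refine mem_image.2 ⟨g⁻¹, mem_biUnion.2 ⟨_, H3 g (H2 _ (e ▸ (b ^ i).2) ?_), by simp⟩, inv_inv g⟩
    rw [show g⁻¹ * y * g = g⁻¹ * y * g⁻¹⁻¹ by simp, conj_pow, ← hy, pow_orderOf_eq_one]; simp

end Cfsg.Agent.H3.U5R
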